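import Mathlib
import Cfsg.Agent.Lib.H96.AschSympType3

/-!
Aschbacher library, symplectic-type part 4: the form of the linear conclusion consumed by `AschLinear.class_of_structure`.
-/

set_option autoImplicit false
set_option linter.unusedSectionVars false

namespace H96.AschSympType4

open Cfsg Cfsg.Geo Matrix H97.AschRad H97.AschEnv H97.AschNonab H97.AschGrp
open H97.AschForm H96.AschSympType1 H96.AschSympType2 H96.AschSympType3

variable {ι : Type} [Fintype ι] [DecidableEq ι] {F : Type*} [Field F]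

theorem linear_of_sympType [Fintype F] (hn : 3 ≤ Fintype.card ι) {r p : ℕ} {R : Subgroup (GL ι F)}
    (hD : SympData r p R) :
    (IsLinearSymplecticTypeData r R ∧ (∃ m, 1 ≤ m ∧ Fintype.card ι = r ^ m) ∧
      Nat.card R = Fintype.card ι ^ 2 * Nat.card (Subgroup.center R)) ∨
    (∃ Q : (ι → F) → F, IsNondegenerateQuadraticForm Q ∧ FixesQuadForm (matrixSet R) Q) ∨
    (∃ f : (ι → F) → (ι → F) → F, IsSymplecticForm f ∧ FixesForm (matrixSet R) f) ∨
    (∃ (σ : F ≃+* F) (f : (ι → F) → (ι → F) → F), IsUnitaryForm σ f ∧ FixesForm (matrixSet R) f) ∨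
    (∃ F₀ : Subfield F, F₀ ≠ ⊤ ∧ RealisableOver F₀ (matrixSet R)) := by
  classical
  have hne : Nonempty ι := nonempty_of_two (by omega)
  have hcardR := card_eq hD.nil hD.full
  by_cases hz : Nat.card (Subgroup.center R) = 2
  · have hr : r = 2 := by
      rcases hD.cases with h | h | h
      · have h1 : r = 2 := by rw [← h.2.1, hz]
        exact h1
      · exact h.1
      · exact h.1
    subst hr
    have h2 := two_ne_zero_of hD
    rcases exists_bilinear hD.nil hD.full h2 (by
      intro c hc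
      have := (hD.roots c).1 hc
      rw [hz, sq] at this
      have h3 := congrArg Units.val this
      rwa [Units.val_mul, Units.val_one] at h3) with ⟨f, hf1, hf2⟩ | ⟨f, hf1, hf2, hf3, hf4⟩
    · exact Or.inr (Or.inr (Or.inl ⟨f, hf1, hf2⟩))
    · exact Or.inr (Or.inl ⟨_, hf3, hf4⟩)
  · rcases outcomes hD hz with ⟨F₁, hF₁, hreal⟩ | ⟨e, hM, hodd, he⟩ | ⟨d, σ, f, _, _, _, hf1, hf2⟩
    · exact Or.inr (Or.inr (Or.inr (Or.inr ⟨F₁, hF₁, hreal⟩)))
    · left
      refine ⟨⟨hD.st, hD.full.absIrr, ?_⟩, ?_, hcardR⟩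
      · refine ⟨p, e, hD.ne, hM, ?_⟩
        rcases hD.cases with ⟨h1, h2, m, h3, h4, h5⟩ | ⟨h1, h2, h3, m, h4, h5, h6⟩ | h
        · left
          exact ⟨h1, hodd, h2, m, h3, h4⟩
        · right; left
          refine ⟨h1, he h1, h2, ?_, m, h5⟩
          have hm : 2 ≤ m := by
            by_contra hlt
            have : m = 1 := by omega
            rw [this] at h6
            omega
          rw [h6]
          calc 4 = 2 ^ 2 := by norm_num
            _ ≤ 2 ^ m := Nat.pow_le_pow_right (by norm_num) hm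
        · exact absurd h.2.1 hz
      · rcases hD.cases with ⟨h1, h2, m, h3, h4, h5⟩ | ⟨h1, h2, h3, m, h4, h5, h6⟩ | ⟨h1, h2, h3, m, h4, h5, h6⟩
        · exact ⟨m, h3, h5⟩
        · exact ⟨m, h4, by rw [h1]; exact h6⟩
        · exact ⟨m, h4, by rw [h1]; exact h6⟩
    · exact Or.inr (Or.inr (Or.inr (Or.inl ⟨σ, f, hf1, hf2⟩)))

end H96.AschSympType4
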