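import Mathlib
import Cfsg.Agent.Lib.H96.AschSympType4
import Cfsg.Agent.Lib.H96.AschSympType5

/-!
Aschbacher library: recognising groups of symplectic type (explicit examples).
-/

set_option autoImplicit false
set_option linter.unusedSectionVars false

namespace H96.AschSympEx

open Cfsg Cfsg.Geo Matrix H97.AschNonab H97.AschEnv H97.AschGrp H97.AschForm H97.AschUnits H97.AschTensor
open H96.AschSympType1 H96.AschSympType2 H96.AschSympType3 H96.AschSympType4 H96.AschSympType5
open scoped Kronecker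

/-- if every non-central element is moved by an automorphism to an element not commuting with it, characteristic
abelian subgroups are central -/
theorem cyclic_of_moved {G : Type*} [Group G] (hc : IsCyclic (Subgroup.center G))
    (h : ∀ x : G, x ∉ Subgroup.center G → ∃ φ : G ≃* G, φ x * x ≠ x * φ x)
    (A : Subgroup G) (hA : A.Characteristic) (hAc : IsMulCommutative A) : IsCyclic A := by
  have hle : A ≤ Subgroup.center G := by
    intro x hx
    by_contra hxc
    obtain ⟨φ, hφ⟩ := h x hxc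
    have h1 : φ x ∈ A := by
      have h2 := hA.fixed φ
      have h3 : x ∈ A.comap φ.toMonoidHom := by rw [h2]; exact hx
      exact h3
    have h4 := hAc.is_comm.comm (⟨φ x, h1⟩ : A) ⟨x, hx⟩
    exact hφ (congrArg Subtype.val h4)
  exact isCyclic_of_injective (Subgroup.inclusion hle) (Subgroup.inclusion_injective hle)

variable {ι : Type} [Fintype ι] [DecidableEq ι] {F : Type*} [Field F]

lemma shuffle {R : Type*} [Group R] {y b y' d c₁ c₂ c₃ c₄ : R} (h₁ : ∀ x, x * c₁ = c₁ * x) (h₂ : ∀ x, x * c₂ = c₂ * x)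
    (h₃ : ∀ x, x * c₃ = c₃ * x) (h₄ : ∀ x, x * c₄ = c₄ * x) (h : c₁ * c₂ = c₃ * c₄) :
    y * (c₁ * (b * y')) * d * c₂ = y * b * c₃ * (y' * d * c₄) := by
  have e1 : y * (c₁ * (b * y')) * d * c₂ = c₁ * c₂ * (y * b * y' * d) := by
    rw [← mul_assoc y c₁, h₁ y, h₂, mul_assoc c₁ y, mul_assoc c₁, ← mul_assoc c₂, ← h₁ c₂]
    simp only [mul_assoc]
  have e2 : y * b * c₃ * (y' * d * c₄) = c₃ * c₄ * (y * b * y' * d) := by
    rw [h₃, h₄, mul_assoc c₃, ← mul_assoc (y * b) c₄, h₄ (y * b)]
    simp only [mul_assoc]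
  rw [e1, e2, h]

/-- transvection automorphism in odd characteristic, abstract form -/
theorem exists_aut_odd {R : Type*} [Group R] [Finite R] {p : ℕ} (hp : p.Prime) (hodd : Odd p)
    (hexp : ∀ x : R, x ^ p = 1) (w z : R) (hz1 : z ≠ 1) (hzc : ∀ y : R, y * z = z * y)
    (hcomm : ∀ y : R, ∃ k : ℕ, y * w = z ^ k * (w * y)) (x : R) (hx : x * w ≠ w * x) :
    ∃ φ : R ≃* R, φ x * x ≠ x * φ x := by
  classical
  have := Fact.mk hp
  choose k hk using hcomm
  have hord : orderOf z = p := orderOf_eq_prime (hexp z) hz1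
  -- w^a y
  have hzpow : ∀ (n : ℕ) (y : R), y * z ^ n = z ^ n * y := fun n y => (Commute.pow_right (hzc y) n).eq
  have hwp : ∀ (a : ℕ) (y : R), y * w ^ a = z ^ (k y * a) * (w ^ a * y) := by
    intro a y
    induction a with
    | zero => simp
    | succ a ih =>
      rw [pow_succ, ← mul_assoc, ih, mul_assoc (z ^ (k y * a)), mul_assoc (w ^ a), hk y, ← mul_assoc (w ^ a),
        hzpow _ (w ^ a), mul_assoc (z ^ k y), ← mul_assoc (z ^ (k y * a)), ← pow_add, mul_assoc (w ^ a)]
      congr 2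
  have hk_of : ∀ (y : R) (n : ℕ), y * w = z ^ n * (w * y) → k y ≡ n [MOD p] := by
    intro y n hn
    rw [hk y] at hn
    have := mul_right_cancel hn
    rw [← hord]
    exact pow_eq_pow_iff_modEq.mp this
  have hkmul : ∀ y y', k (y * y') ≡ k y + k y' [MOD p] := by
    intro y y'
    apply hk_of
    rw [mul_assoc, hk y', ← mul_assoc, hzpow, mul_assoc, ← mul_assoc y, hk y, pow_add]
    rw [mul_assoc (z ^ k y), ← mul_assoc (z ^ k y'), ← pow_add, ← pow_add, add_comm (k y'), mul_assoc w]
  obtain ⟨m, hm⟩ := hodd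
  have hwmod : ∀ a b : ℕ, a ≡ b [MOD p] → w ^ a = w ^ b := by
    intro a b hab
    rw [pow_eq_pow_iff_modEq]
    exact hab.of_dvd (orderOf_dvd_of_pow_eq_one (hexp w))
  have hzmod : ∀ a b : ℕ, a ≡ b [MOD p] → z ^ a = z ^ b := by
    intro a b hab
    rw [pow_eq_pow_iff_modEq, hord]
    exact hab
  let φ₀ : R → R := fun y => y * w ^ (k y) * z ^ (m * (k y) ^ 2)
  have hmul : ∀ y y', φ₀ (y * y') = φ₀ y * φ₀ y' := by
    intro y y'
    have e1 : w ^ (k (y * y')) = w ^ (k y) * w ^ (k y') := by rw [← pow_add]; exact hwmod _ _ (hkmul y y')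
    have e2 : z ^ (m * (k (y * y')) ^ 2) = z ^ (m * (k y + k y') ^ 2) :=
      hzmod _ _ (Nat.ModEq.mul_left _ ((hkmul y y').pow 2))
    have e3 : y' * w ^ (k y) = z ^ (k y' * k y) * (w ^ (k y) * y') := hwp (k y) y'
    have e4 : z ^ (k y' * k y) * z ^ (m * (k y + k y') ^ 2) = z ^ (m * (k y) ^ 2) * z ^ (m * (k y') ^ 2) := by
      rw [← pow_add, ← pow_add]
      apply hzmod
      have e5 : k y' * k y + m * (k y + k y') ^ 2 = m * (k y) ^ 2 + m * (k y') ^ 2 + (2 * m + 1) * (k y * k y') := by ring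
      rw [e5, ← hm]
      unfold Nat.ModEq
      rw [Nat.add_mul_mod_self_left]
    change y * y' * w ^ (k (y * y')) * z ^ (m * (k (y * y')) ^ 2) =
      y * w ^ (k y) * z ^ (m * (k y) ^ 2) * (y' * w ^ (k y') * z ^ (m * (k y') ^ 2))
    rw [e1, e2]
    calc y * y' * (w ^ k y * w ^ k y') * z ^ (m * (k y + k y') ^ 2)
        = y * (y' * w ^ k y) * w ^ k y' * z ^ (m * (k y + k y') ^ 2) := by simp only [mul_assoc]
      _ = y * (z ^ (k y' * k y) * (w ^ (k y) * y')) * w ^ k y' * z ^ (m * (k y + k y') ^ 2) := by rw [e3]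
      _ = _ := shuffle (hzpow _) (hzpow _) (hzpow _) (hzpow _) e4
  have hinj : Function.Injective (MonoidHom.mk' φ₀ hmul) := by
    rw [injective_iff_map_eq_one]
    intro y hy
    have hy' : y * w ^ (k y) * z ^ (m * (k y) ^ 2) = 1 := hy
    have h1 : y * w = z ^ 0 * (w * y) := by
      rw [pow_zero, one_mul]
      have h2 : y = (w ^ (k y) * z ^ (m * (k y) ^ 2))⁻¹ := eq_inv_of_mul_eq_one_left (by rw [← mul_assoc]; exact hy')
      have hz' : Commute (z ^ (m * (k y) ^ 2)) w := (hzpow _ w).symm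
      have h3 : Commute ((w ^ (k y) * z ^ (m * (k y) ^ 2))⁻¹) w :=
        Commute.inv_left (Commute.mul_left (Commute.pow_left (Commute.refl w) _) hz')
      rw [← h2] at h3
      exact h3.eq
    have h5 := hk_of y 0 h1
    rw [hwmod _ _ h5, hzmod _ 0 (by simpa using Nat.ModEq.mul_left m (h5.pow 2)), pow_zero, pow_zero, mul_one, mul_one] at hy'
    exact hy'
  refine ⟨MulEquiv.ofBijective (MonoidHom.mk' φ₀ hmul) (Finite.injective_iff_bijective.mp hinj), ?_⟩
  intro hcon
  have hcon' : x * w ^ (k x) * z ^ (m * (k x) ^ 2) * x = x * (x * w ^ (k x) * z ^ (m * (k x) ^ 2)) := hcon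
  have h1 : w ^ (k x) * x = x * w ^ (k x) := by
    have h2 : x * (w ^ (k x) * x) * z ^ (m * (k x) ^ 2) = x * (x * w ^ (k x)) * z ^ (m * (k x) ^ 2) := by
      rw [mul_assoc _ (z ^ (m * (k x) ^ 2)) x, ← hzpow] at hcon'
      rw [← mul_assoc, mul_assoc _ x, hcon']
      simp only [mul_assoc]
    exact mul_left_cancel (mul_right_cancel h2)
  rw [hwp] at h1
  have h3 : z ^ (k x * k x) = 1 := by
    have h4 : 1 * (w ^ k x * x) = z ^ (k x * k x) * (w ^ k x * x) := by rw [one_mul]; exact h1
    exact (mul_right_cancel h4).symm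
  have h5 : p ∣ k x * k x := by rw [← hord]; exact orderOf_dvd_of_pow_eq_one h3
  have h6 : p ∣ k x := (hp.dvd_mul.mp h5).elim id id
  apply hx
  rw [hk x, orderOf_dvd_iff_pow_eq_one.mp (by rw [hord]; exact h6), one_mul]

/-- transvection automorphism for 2-groups -/
theorem exists_aut_two {R : Type*} [Group R] [Finite R] (w z : R) (hz2 : z * z = 1) (hw : w * w = z) (hzc : ∀ y : R, y * z = z * y)
    (hcomm : ∀ y : R, y * w = w * y ∨ y * w = z * (w * y)) (x : R) (hx : x * w ≠ w * x) :
    ∃ φ : R ≃* R, φ x * x ≠ x * φ x := by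
  classical
  have hz1 : z ≠ 1 := by
    intro h1
    rcases hcomm x with h | h
    · exact hx h
    · rw [h1, one_mul] at h; exact hx h
  let φ₀ : R → R := fun y => if y * w = w * y then y else y * w
  have hw' : ∀ y, y * w ≠ w * y → y * w = z * (w * y) := fun y hy => (hcomm y).resolve_left hy
  have hne : ∀ y, y * w = z * (w * y) → y * w ≠ w * y := by
    intro y h1 h2
    rw [h2] at h1
    have h3 : 1 * (w * y) = z * (w * y) := by rw [one_mul]; exact h1
    exact hz1 (mul_right_cancel h3).symm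
  have hmul : ∀ y y', φ₀ (y * y') = φ₀ y * φ₀ y' := by
    intro y y'
    simp only [φ₀]
    by_cases h1 : y * w = w * y
    · by_cases h2 : y' * w = w * y'
      · have h3 : y * y' * w = w * (y * y') := by rw [mul_assoc, h2, ← mul_assoc, h1, mul_assoc]
        rw [if_pos h1, if_pos h2, if_pos h3]
      · have h3 : ¬ (y * y' * w = w * (y * y')) := by
          apply hne
          rw [mul_assoc, hw' y' h2, ← mul_assoc, hzc, mul_assoc, ← mul_assoc y, h1, mul_assoc]
        rw [if_pos h1, if_neg h2, if_neg h3, mul_assoc]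
    · by_cases h2 : y' * w = w * y'
      · have h3 : ¬ (y * y' * w = w * (y * y')) := by
          apply hne
          rw [mul_assoc, h2, ← mul_assoc, hw' y h1]
          simp only [mul_assoc]
        rw [if_neg h1, if_pos h2, if_neg h3, mul_assoc, mul_assoc, h2]
      · have h3 : y * y' * w = w * (y * y') := by
          rw [mul_assoc, hw' y' h2, ← mul_assoc, hzc, mul_assoc, ← mul_assoc y, hw' y h1]
          rw [← mul_assoc, ← mul_assoc, hz2, one_mul, mul_assoc]
        rw [if_neg h1, if_neg h2, if_pos h3]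
        have h4 : w * (y' * w) = z * (w * (w * y')) := by rw [hw' y' h2, ← mul_assoc, hzc, mul_assoc]
        have h5 : z * (w * (w * y')) = y' := by rw [← mul_assoc w w, hw, ← mul_assoc, hz2, one_mul]
        rw [mul_assoc y w, h4, h5]
  have hinj : Function.Injective (MonoidHom.mk' φ₀ hmul) := by
    rw [injective_iff_map_eq_one]
    intro y hy
    have hy' : (if y * w = w * y then y else y * w) = 1 := hy
    by_cases h1 : y * w = w * y
    · rwa [if_pos h1] at hy'
    · rw [if_neg h1] at hy'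
      exfalso
      apply h1
      have h2 : y = w⁻¹ := eq_inv_of_mul_eq_one_left hy'
      rw [h2, inv_mul_cancel, mul_inv_cancel]
  refine ⟨MulEquiv.ofBijective (MonoidHom.mk' φ₀ hmul) (Finite.injective_iff_bijective.mp hinj), ?_⟩
  intro hcon
  have hcon' : (if x * w = w * x then x else x * w) * x = x * (if x * w = w * x then x else x * w) := hcon
  rw [if_neg hx, mul_assoc] at hcon'
  exact hx (mul_left_cancel hcon').symm

lemma card_center_of [Finite F] [Nonempty ι] {R : Subgroup (GL ι F)} (hR : Full R) {m : ℕ}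
    (h : ∀ c : Fˣ, sc ι c ∈ R ↔ c ^ m = 1) {c₀ : Fˣ} (hc : orderOf c₀ = m) : Nat.card (Subgroup.center R) = m := by
  classical
  have := Fintype.ofFinite F
  rw [center_eq hR]
  have h1 : Nat.card (Subgroup.zpowers c₀) = m := by rw [Nat.card_zpowers, hc]
  have hmem : ∀ c : Fˣ, c ∈ Subgroup.zpowers c₀ ↔ c ^ m = 1 := by
    intro c
    constructor
    · rintro ⟨k, rfl⟩
      change (c₀ ^ k) ^ m = 1
      rw [← zpow_natCast, ← _root_.zpow_mul, mul_comm, _root_.zpow_mul, zpow_natCast, ← hc, pow_orderOf_eq_one, _root_.one_zpow]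
    · intro hcm
      have h2 := IsCyclic.card_powMonoidHom_ker Fˣ m
      have hle : Subgroup.zpowers c₀ ≤ (powMonoidHom m : Fˣ →* Fˣ).ker := by
        rw [Subgroup.zpowers_le]
        change c₀ ^ m = 1
        rw [← hc, pow_orderOf_eq_one]
      have h3 : Nat.card (powMonoidHom m : Fˣ →* Fˣ).ker ≤ Nat.card (Subgroup.zpowers c₀) := by
        rw [h2, h1]
        exact Nat.gcd_le_right _ (by rw [← hc]; exact orderOf_pos c₀)
      have h4 : Subgroup.zpowers c₀ = (powMonoidHom m : Fˣ →* Fˣ).ker := Subgroup.eq_of_le_of_card_ge hle h3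
      rw [h4]
      exact hcm
  rw [← h1]
  refine (Nat.card_congr (Equiv.ofBijective
    (fun c : Subgroup.zpowers c₀ => (⟨⟨sc ι (c : Fˣ), (h _).2 ((hmem _).1 c.2)⟩, sc_mem (c : Fˣ)⟩ :
        (scalars ι F).subgroupOf R)) ⟨?_, ?_⟩)).symm
  · intro a b hab
    apply Subtype.ext
    apply sc_injective (ι := ι)
    exact congrArg (fun z : (scalars ι F).subgroupOf R => ((z : R) : GL ι F)) hab
  · rintro ⟨⟨x, hx⟩, hxs⟩
    obtain ⟨c, rfl⟩ := mem_scalars_sc.1 (Subgroup.mem_subgroupOf.1 hxs)
    exact ⟨⟨c, (hmem _).2 ((h c).1 hx)⟩, rfl⟩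

/-- recognising an extraspecial group of odd exponent -/
theorem sympType_odd [Finite F] [Nonempty ι] {R : Subgroup (GL ι F)} (hR : Full R) (hnil : Nil2 R) (h2 : 2 ≤ Fintype.card ι)
    {p : ℕ} (hp : p.Prime) (hodd : Odd p) (hexp : ∀ x ∈ R, x ^ p = 1) :
    IsSymplecticTypeGroup p R ∧ Nat.card (Subgroup.center R) = p ∧ Nat.card R = Fintype.card ι ^ 2 * p ∧
      ∃ c₀ : Fˣ, orderOf c₀ = p := by
  classical
  have := Fact.mk hp
  have hfinM : Finite (Matrix ι ι F) := by unfold Matrix; infer_instance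
  have hfinG : Finite (GL ι F) := inferInstance
  -- a nontrivial commutator
  have hcommut : ∀ x ∈ R, ∀ y ∈ R, ∃ c : Fˣ, c ^ p = 1 ∧ x * y = sc ι c * (y * x) := by
    intro x hx y hy
    obtain ⟨c, hc⟩ := mem_scalars_sc.1 (hnil x hx y hy)
    refine ⟨c, ?_, by rw [hc]; group⟩
    have h1 : x * y = sc ι c * (y * x) := by rw [hc]; group
    have h3 := comm_pow h1 p
    rw [hexp x hx, one_mul, mul_one] at h3
    have h4 : sc ι (c ^ p) * y = 1 * y := by rw [one_mul]; exact h3.symm
    have h5 := mul_right_cancel h4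
    rw [← map_one (sc ι)] at h5
    exact sc_injective h5
  have hnc := not_comm_of_full h2 hR
  push Not at hnc
  obtain ⟨x₀, hx₀, y₀, hy₀, hxy₀⟩ := hnc
  obtain ⟨c₀, hc₀p, hc₀⟩ := hcommut x₀ hx₀ y₀ hy₀
  have hc₀1 : c₀ ≠ 1 := by
    rintro rfl
    rw [map_one, one_mul] at hc₀
    exact hxy₀ hc₀
  have hord : orderOf c₀ = p := orderOf_eq_prime hc₀p hc₀1
  have hc₀R : sc ι c₀ ∈ R := by
    have : sc ι c₀ = x₀ * y₀ * x₀⁻¹ * y₀⁻¹ := by rw [hc₀]; group
    rw [this]
    exact R.mul_mem (R.mul_mem (R.mul_mem hx₀ hy₀) (R.inv_mem hx₀)) (R.inv_mem hy₀)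
  have hpow : ∀ c : Fˣ, c ^ p = 1 → ∃ k : ℕ, c = c₀ ^ k := by
    intro c hc
    have hprim : IsPrimitiveRoot (c₀ : F) p := by
      have := IsPrimitiveRoot.orderOf c₀
      rw [hord] at this
      exact (IsPrimitiveRoot.coe_units_iff).mpr this
    obtain ⟨i, _, hi⟩ := hprim.eq_pow_of_pow_eq_one (ξ := (c : F)) (by rw [← Units.val_pow_eq_pow_val, hc, Units.val_one])
    exact ⟨i, by apply Units.ext; rw [Units.val_pow_eq_pow_val, hi]⟩
  have hscR : ∀ c : Fˣ, sc ι c ∈ R ↔ c ^ p = 1 := by
    intro c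
    constructor
    · intro h
      have h1 := hexp _ h
      rw [← map_pow, ← map_one (sc ι)] at h1
      exact sc_injective h1
    · intro h
      obtain ⟨k, rfl⟩ := hpow c h
      rw [map_pow]
      exact R.pow_mem hc₀R k
  have hcard := card_center_of hR hscR hord
  refine ⟨⟨hp, ?_, ?_, ?_⟩, hcard, by rw [card_eq hnil hR, hcard], c₀, hord⟩
  · intro g
    exact ⟨1, by apply Subtype.ext; rw [pow_one]; exact hexp g g.2⟩
  · apply cyclic_of_moved
    · rw [center_eq hR]
      let φ : (scalars ι F).subgroupOf R →* scalars ι F :=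
        { toFun := fun x => ⟨((x : R) : GL ι F), Subgroup.mem_subgroupOf.1 x.2⟩
          map_one' := rfl
          map_mul' := fun _ _ => rfl }
      exact isCyclic_of_injective φ (fun a b hab => Subtype.ext (Subtype.ext (congrArg (fun z : scalars ι F => (z : GL ι F)) hab)))
    · intro x hx
      rw [Subgroup.mem_center_iff] at hx
      push Not at hx
      obtain ⟨w, hw⟩ := hx
      refine exists_aut_odd hp hodd (fun y => Subtype.ext (hexp y y.2)) w ⟨sc ι c₀, hc₀R⟩ ?_ ?_ ?_ x hw.symm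
      · intro h
        have h1 : sc ι c₀ = 1 := congrArg Subtype.val h
        rw [← map_one (sc ι)] at h1
        exact hc₀1 (sc_injective h1)
      · intro y
        exact Subtype.ext (sc_comm c₀ (y : GL ι F)).symm
      · intro y
        obtain ⟨c, hcp, hc⟩ := hcommut y y.2 w w.2
        obtain ⟨k, rfl⟩ := hpow c hcp
        refine ⟨k, Subtype.ext ?_⟩
        change (y : GL ι F) * w = ((⟨sc ι c₀, hc₀R⟩ : R) ^ k : R) * ((w : GL ι F) * y)
        rw [hc, map_pow]
        rfl
  · rw [(Nat.coprime_two_left).2 hodd, mul_one]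
    apply Nat.dvd_antisymm
    · exact Monoid.exponent_dvd_of_forall_pow_eq_one (fun g => Subtype.ext (hexp g g.2))
    · have h1 : orderOf (⟨sc ι c₀, hc₀R⟩ : R) = p := by
        apply orderOf_eq_prime
        · exact Subtype.ext (hexp _ hc₀R)
        · intro h
          have h1 : sc ι c₀ = 1 := congrArg Subtype.val h
          rw [← map_one (sc ι)] at h1
          exact hc₀1 (sc_injective h1)
      rw [← h1]
      exact Monoid.order_dvd_exponent _

/-- recognising a 2-group of symplectic type -/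
theorem sympType_two [Finite F] [Nonempty ι] {R : Subgroup (GL ι F)} (hR : Full R) (hnil : Nil2 R) (h2 : 2 ≤ Fintype.card ι)
    (hchar : (2 : F) ≠ 0) (hexp : ∀ x ∈ R, x ^ 4 = 1) (hsq : ∀ x ∈ R, x ^ 2 ∈ scalars ι F)
    (hmove : ∀ x ∈ R, x ∉ scalars ι F → ∃ w ∈ R, w * w = sc ι (-1) ∧ x * w ≠ w * x) : IsSymplecticTypeGroup 2 R := by
  classical
  have hfinM : Finite (Matrix ι ι F) := by unfold Matrix; infer_instance
  have hfinG : Finite (GL ι F) := inferInstance
  have hm1 : (-1 : Fˣ) ≠ 1 := by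
    intro h
    have := congrArg Units.val h
    rw [Units.val_neg, Units.val_one] at this
    exact hchar (by linear_combination -this)
  have hcommut : ∀ x ∈ R, ∀ y ∈ R, x * y = y * x ∨ x * y = sc ι (-1) * (y * x) := by
    intro x hx y hy
    obtain ⟨c, hc⟩ := mem_scalars_sc.1 (hnil x hx y hy)
    have h1 : x * y = sc ι c * (y * x) := by rw [hc]; group
    have h3 := comm_pow h1 2
    rw [scalars_comm (hsq x hx)] at h3
    have h4 : sc ι (c ^ 2) * (y * x ^ 2) = 1 * (y * x ^ 2) := by rw [one_mul]; exact h3.symm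
    have h5 := mul_right_cancel h4
    rw [← map_one (sc ι)] at h5
    have h6 := sc_injective h5
    have h7 : (c : F) = 1 ∨ (c : F) = -1 := by
      have h8 := congrArg Units.val h6
      rw [Units.val_pow_eq_pow_val, Units.val_one, sq] at h8
      exact mul_self_eq_one_iff.mp h8
    have h9 : c = 1 ∨ c = -1 := h7.imp (fun h => Units.ext h) (fun h => Units.ext (by rw [h, Units.val_neg, Units.val_one]))
    rcases h9 with h | h
    · left; rw [h1, h, map_one, one_mul]
    · right; rw [h1, h]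
  have hns : ∃ x ∈ R, x ∉ scalars ι F := by
    by_contra hcon
    push Not at hcon
    exact not_full_of_le_scalars h2 hcon hR
  obtain ⟨x₀, hx₀, hx₀s⟩ := hns
  obtain ⟨w₀, hw₀, hw₀2, -⟩ := hmove x₀ hx₀ hx₀s
  have hzR : sc ι (-1) ∈ R := by rw [← hw₀2]; exact R.mul_mem hw₀ hw₀
  refine ⟨Nat.prime_two, ?_, ?_, ?_⟩
  · intro g
    exact ⟨2, by apply Subtype.ext; exact hexp g g.2⟩
  · apply cyclic_of_moved
    · rw [center_eq hR]
      let φ : (scalars ι F).subgroupOf R →* scalars ι F :=
        { toFun := fun x => ⟨((x : R) : GL ι F), Subgroup.mem_subgroupOf.1 x.2⟩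
          map_one' := rfl
          map_mul' := fun _ _ => rfl }
      exact isCyclic_of_injective φ (fun a b hab => Subtype.ext (Subtype.ext (congrArg (fun z : scalars ι F => (z : GL ι F)) hab)))
    · intro x hx
      rw [center_eq hR, Subgroup.mem_subgroupOf] at hx
      obtain ⟨w, hw, hw2, hxw⟩ := hmove x x.2 hx
      refine exists_aut_two ⟨w, hw⟩ ⟨sc ι (-1), hzR⟩ ?_ (Subtype.ext hw2) ?_ ?_ x (fun h => hxw (congrArg Subtype.val h))
      · apply Subtype.ext
        change sc ι (-1) * sc ι (-1) = 1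
        rw [← map_mul]
        simp
      · intro y
        exact Subtype.ext (sc_comm (-1) (y : GL ι F)).symm
      · intro y
        rcases hcommut y y.2 w hw with h | h
        · exact Or.inl (Subtype.ext h)
        · exact Or.inr (Subtype.ext h)
  · apply Nat.dvd_antisymm
    · exact Monoid.exponent_dvd_of_forall_pow_eq_one (fun g => Subtype.ext (hexp g g.2))
    · have h1 : orderOf (⟨w₀, hw₀⟩ : R) = 2 ^ (1 + 1) := by
        apply orderOf_eq_prime_pow
        · intro h
          have h2 : w₀ ^ 2 = 1 := congrArg Subtype.val h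
          rw [sq, hw₀2, ← map_one (sc ι)] at h2
          exact hm1 (sc_injective h2)
        · exact Subtype.ext (hexp w₀ hw₀)
      have h2 : (2 * Nat.gcd 2 2 : ℕ) = 2 ^ (1 + 1) := by norm_num
      rw [h2, ← h1]
      exact Monoid.order_dvd_exponent _

end H96.AschSympEx
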