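import Mathlib

/-!
Computations in the field with four elements (as pairs of booleans).
-/

set_option autoImplicit false
set_option linter.unusedSectionVars false

namespace H96.AschF4

abbrev B4 : Type := Bool × Bool

def badd (x y : B4) : B4 := (xor x.1 y.1, xor x.2 y.2)
def bmul (x y : B4) : B4 :=
  (xor (x.1 && y.1) (x.2 && y.2), xor (xor (x.1 && y.2) (x.2 && y.1)) (x.2 && y.2))
def bsq (x : B4) : B4 := bmul x x
def b0 : B4 := (false, false)
def b1 : B4 := (true, false)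

section phi

variable {F : Type*} [Field F]

def b2 (b : Bool) : F := if b then 1 else 0

lemma b2_xor (h2 : (2 : F) = 0) (a b : Bool) : (b2 (xor a b) : F) = b2 a + b2 b := by
  cases a <;> cases b <;> simp [b2]
  linear_combination -h2

lemma b2_and (a b : Bool) : (b2 (a && b) : F) = b2 a * b2 b := by
  cases a <;> cases b <;> simp [b2]

/-- the map to the field -/
def phi (ω : F) (x : B4) : F := b2 x.1 + b2 x.2 * ω

lemma phi_zero (ω : F) : phi ω b0 = 0 := by simp [phi, b2, b0]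
lemma phi_one (ω : F) : phi ω b1 = 1 := by simp [phi, b2, b1]

lemma phi_add {ω : F} (h2 : (2 : F) = 0) (x y : B4) : phi ω (badd x y) = phi ω x + phi ω y := by
  rw [phi, phi, phi, badd, b2_xor h2, b2_xor h2]; ring

lemma phi_mul {ω : F} (h2 : (2 : F) = 0) (hω : ω ^ 2 + ω + 1 = 0) (x y : B4) : phi ω (bmul x y) = phi ω x * phi ω y := by
  rw [phi, phi, phi, bmul, b2_xor h2, b2_xor h2, b2_xor h2, b2_and, b2_and, b2_and, b2_and]
  linear_combination (b2 x.2 * b2 y.2 * (1 + ω)) * h2 - (b2 x.2 * b2 y.2) * hω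

lemma phi_sq {ω : F} (h2 : (2 : F) = 0) (hω : ω ^ 2 + ω + 1 = 0) (x : B4) : phi ω (bsq x) = phi ω x ^ 2 := by
  rw [bsq, phi_mul h2 hω, sq]

lemma phi_injective {ω : F} (h2 : (2 : F) = 0) (hω : ω ^ 2 + ω + 1 = 0) : Function.Injective (phi ω) := by
  have h10 : (1 : F) ≠ 0 := one_ne_zero
  have hω0 : ω ≠ 0 := by rintro rfl; simp at hω
  have hω1 : ω ≠ 1 := by
    rintro rfl
    apply h10
    linear_combination hω - h2
  have key : ∀ x : B4, phi ω x = 0 → x = b0 := by
    rintro ⟨a, b⟩ h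
    cases a <;> cases b
    · rfl
    · exfalso; apply hω0; simpa [phi, b2] using h
    · exfalso; apply h10; simpa [phi, b2] using h
    · exfalso; apply hω1
      have h' : 1 + ω = 0 := by simpa [phi, b2] using h
      linear_combination h' - h2
  intro x y hxy
  have h1 : phi ω (badd x y) = 0 := by rw [phi_add h2, hxy]; linear_combination (phi ω y) * h2
  have h3 := key _ h1
  obtain ⟨a, b⟩ := x
  obtain ⟨c, d⟩ := y
  revert h3
  cases a <;> cases b <;> cases c <;> cases d <;> decide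

lemma phi_surjective [Fintype F] (h4 : Fintype.card F = 4) {ω : F} (h2 : (2 : F) = 0) (hω : ω ^ 2 + ω + 1 = 0) :
    Function.Surjective (phi ω) := by
  have hcard : Fintype.card B4 = Fintype.card F := by rw [h4]; rfl
  exact ((Fintype.bijective_iff_injective_and_card _).mpr ⟨phi_injective h2 hω, hcard⟩).2

/-- a primitive cube root of unity -/
lemma exists_omega [Fintype F] (h4 : Fintype.card F = 4) : ∃ ω : F, ω ^ 2 + ω + 1 = 0 := by
  classical
  have h5 : ∃ x : F, x ≠ 0 ∧ x ≠ 1 := by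
    by_contra hcon
    push Not at hcon
    have h6 : Fintype.card F ≤ 2 := by
      calc Fintype.card F = (Finset.univ : Finset F).card := rfl
        _ ≤ ({0, 1} : Finset F).card := Finset.card_le_card (fun x _ => by
            simp only [Finset.mem_insert, Finset.mem_singleton]
            by_cases h : x = 0
            · exact Or.inl h
            · exact Or.inr (hcon x h))
        _ ≤ 2 := Finset.card_le_two
    omega
  obtain ⟨x, h0, h1⟩ := h5
  refine ⟨x, ?_⟩
  have h3 := FiniteField.pow_card_sub_one_eq_one x h0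
  rw [h4] at h3
  have h4 : (x - 1) * (x ^ 2 + x + 1) = 0 := by
    have h5 : x ^ 3 = 1 := h3
    linear_combination h5
  exact (mul_eq_zero.mp h4).resolve_left (sub_ne_zero.mpr h1)

lemma two_eq_zero [Fintype F] (h4 : Fintype.card F = 4) : (2 : F) = 0 := by
  have h5 : (4 : F) = 0 := by
    have := FiniteField.cast_card_eq_zero F
    rw [h4] at this; exact_mod_cast this
  have : (2 : F) * 2 = 0 := by linear_combination h5
  exact (mul_self_eq_zero.mp this)

end phi

/-! ### 3 × 3 matrices -/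

abbrev V3 : Type := B4 × B4 × B4

def allB : List B4 := [(false, false), (true, false), (false, true), (true, true)]
def allV : List V3 := allB.flatMap fun a => allB.flatMap fun b => allB.map fun c => (a, b, c)

def herm (u v : V3) : B4 := badd (badd (bmul u.1 (bsq v.1)) (bmul u.2.1 (bsq v.2.1))) (bmul u.2.2 (bsq v.2.2))

/-- determinant of the matrix with columns u, v, w -/
def bdet (u v w : V3) : B4 :=
  badd (badd (badd (badd (badd (bmul (bmul u.1 v.2.1) w.2.2) (bmul (bmul u.1 v.2.2) w.2.1))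
    (bmul (bmul u.2.1 v.1) w.2.2)) (bmul (bmul u.2.1 v.2.2) w.1))
    (bmul (bmul u.2.2 v.1) w.2.1)) (bmul (bmul u.2.2 v.2.1) w.1)

/-- matrix with columns c₀ c₁ c₂ applied to v -/
def bapp (c₀ c₁ c₂ v : V3) : V3 :=
  (badd (badd (bmul c₀.1 v.1) (bmul c₁.1 v.2.1)) (bmul c₂.1 v.2.2),
   badd (badd (bmul c₀.2.1 v.1) (bmul c₁.2.1 v.2.1)) (bmul c₂.2.1 v.2.2),
   badd (badd (bmul c₀.2.2 v.1) (bmul c₁.2.2 v.2.1)) (bmul c₂.2.2 v.2.2))

def bex : Fin 3 → B4
  | 0 => (true, false)
  | 1 => (false, true)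
  | 2 => (true, true)

/-- the entries of the element (k, i, j) of the Heisenberg group -/
def bw (k i j : Fin 3) (x y : Fin 3) : B4 := if x = y + i then bex (k + j * y) else (false, false)

def bcol (k i j y : Fin 3) : V3 := (bw k i j 0 y, bw k i j 1 y, bw k i j 2 y)

def ws : List (V3 × V3 × V3) :=
  [0, 1, 2].flatMap fun k => [0, 1, 2].flatMap fun i => [0, 1, 2].map fun j => (bcol k i j 0, bcol k i j 1, bcol k i j 2)

def chk : Bool :=
  (allV.filter fun c₀ => herm c₀ c₀ == b1).all fun c₀ =>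
    (allV.filter fun c₁ => (herm c₁ c₁ == b1) && (herm c₀ c₁ == b0)).all fun c₁ =>
      (allV.filter fun c₂ => (herm c₂ c₂ == b1) && (herm c₀ c₂ == b0) && (herm c₁ c₂ == b0)).all fun c₂ =>
        !(bdet c₀ c₁ c₂ == b1) || !(bapp c₀ c₁ c₂ (bapp c₀ c₁ c₂ c₀) == (b1, b0, b0)) ||
          !(bapp c₀ c₁ c₂ (bapp c₀ c₁ c₂ c₁) == (b0, b1, b0)) || ws.contains (c₀, c₁, c₂)

set_option maxRecDepth 100000 in
theorem chk_true : chk = true := by decide +kernel

lemma mem_allV (v : V3) : v ∈ allV := by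
  have : ∀ v : V3, v ∈ allV := by decide +kernel
  exact this v

lemma chk_spec {c₀ c₁ c₂ : V3} (h00 : herm c₀ c₀ = b1) (h11 : herm c₁ c₁ = b1) (h01 : herm c₀ c₁ = b0)
    (h22 : herm c₂ c₂ = b1) (h02 : herm c₀ c₂ = b0) (h12 : herm c₁ c₂ = b0) (hd : bdet c₀ c₁ c₂ = b1)
    (hc0 : bapp c₀ c₁ c₂ (bapp c₀ c₁ c₂ c₀) = (b1, b0, b0)) (hc1 : bapp c₀ c₁ c₂ (bapp c₀ c₁ c₂ c₁) = (b0, b1, b0)) :
    (c₀, c₁, c₂) ∈ ws := by
  have h := chk_true
  unfold chk at h
  rw [List.all_eq_true] at h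
  have h1 := h c₀ (by rw [List.mem_filter]; exact ⟨mem_allV _, by rw [h00]; rfl⟩)
  rw [List.all_eq_true] at h1
  have h2 := h1 c₁ (by rw [List.mem_filter]; exact ⟨mem_allV _, by rw [h11, h01]; rfl⟩)
  rw [List.all_eq_true] at h2
  have h3 := h2 c₂ (by rw [List.mem_filter]; exact ⟨mem_allV _, by rw [h22, h02, h12]; rfl⟩)
  rw [hd, hc0, hc1] at h3
  simpa using h3

section matrices

variable {F : Type*} [Field F]

/-- the element (k, i, j) of the Heisenberg group as a matrix -/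
def wm (ω : F) (k i j : Fin 3) : Matrix (Fin 3) (Fin 3) F := fun x y => phi ω (bw k i j x y)

open Matrix

theorem mem_of_unitary [Fintype F] (h4 : Fintype.card F = 4) {ω : F} (hω : ω ^ 2 + ω + 1 = 0) {a : Matrix (Fin 3) (Fin 3) F}
    (hu : aᵀ * a.map (fun x => x ^ 2) = 1) (hdet : a.det = 1) (hcube : a * (a * a) = 1) : ∃ k i j, a = wm ω k i j := by
  have h2 := two_eq_zero h4
  have hinj := phi_injective h2 hω
  choose b hb using fun x y => phi_surjective h4 h2 hω (a x y)
  let c : Fin 3 → V3 := fun y => (b 0 y, b 1 y, b 2 y)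
  have hherm : ∀ y z, phi ω (herm (c y) (c z)) = (aᵀ * a.map (fun x => x ^ 2)) y z := by
    intro y z
    rw [Matrix.mul_apply, Fin.sum_univ_three]
    simp only [herm, phi_add h2, phi_mul h2 hω, phi_sq h2 hω, c, hb, Matrix.transpose_apply, Matrix.map_apply]
  have hd1 : ∀ y, herm (c y) (c y) = b1 := by
    intro y
    apply hinj
    rw [hherm, hu, Matrix.one_apply_eq, phi_one]
  have hd0 : ∀ y z, y ≠ z → herm (c y) (c z) = b0 := by
    intro y z hyz
    apply hinj
    rw [hherm, hu, Matrix.one_apply_ne hyz, phi_zero]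
  have happ : ∀ v : V3, ∀ v' : Fin 3 → F, (phi ω v.1 = v' 0 ∧ phi ω v.2.1 = v' 1 ∧ phi ω v.2.2 = v' 2) →
      (phi ω (bapp (c 0) (c 1) (c 2) v).1 = (a *ᵥ v') 0 ∧ phi ω (bapp (c 0) (c 1) (c 2) v).2.1 = (a *ᵥ v') 1 ∧
        phi ω (bapp (c 0) (c 1) (c 2) v).2.2 = (a *ᵥ v') 2) := by
    rintro v v' ⟨e0, e1, e2⟩
    simp only [bapp, phi_add h2, phi_mul h2 hω, c, hb, Matrix.mulVec, dotProduct, Fin.sum_univ_three, e0, e1, e2]
    exact ⟨trivial, trivial, trivial⟩
  have hcol : ∀ y, phi ω (c y).1 = (a *ᵥ Pi.single y 1) 0 ∧ phi ω (c y).2.1 = (a *ᵥ Pi.single y 1) 1 ∧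
      phi ω (c y).2.2 = (a *ᵥ Pi.single y 1) 2 := by
    intro y
    rw [Matrix.mulVec_single_one]
    exact ⟨hb 0 y, hb 1 y, hb 2 y⟩
  have hc3 : ∀ y, a *ᵥ (a *ᵥ (a *ᵥ Pi.single y 1)) = Pi.single y 1 := by
    intro y
    rw [Matrix.mulVec_mulVec, Matrix.mulVec_mulVec, mul_assoc, hcube, Matrix.one_mulVec]
  have hmem : (c 0, c 1, c 2) ∈ ws := by
    apply chk_spec (hd1 0) (hd1 1) (hd0 0 1 (by decide)) (hd1 2) (hd0 0 2 (by decide)) (hd0 1 2 (by decide))
    · apply hinj
      rw [phi_one, ← hdet, Matrix.det_fin_three]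
      simp only [bdet, phi_add h2, phi_mul h2 hω, c, hb]
      linear_combination (a 0 0 * a 2 1 * a 1 2 + a 1 0 * a 0 1 * a 2 2 + a 2 0 * a 1 1 * a 0 2) * h2
    · have h5 := happ _ _ (happ _ _ (hcol 0))
      rw [hc3] at h5
      obtain ⟨e0, e1, e2⟩ := h5
      refine Prod.ext (hinj ?_) (Prod.ext (hinj ?_) (hinj ?_))
      · rw [e0, phi_one]; rfl
      · rw [e1, phi_zero]; rfl
      · rw [e2, phi_zero]; rfl
    · have h5 := happ _ _ (happ _ _ (hcol 1))
      rw [hc3] at h5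
      obtain ⟨e0, e1, e2⟩ := h5
      refine Prod.ext (hinj ?_) (Prod.ext (hinj ?_) (hinj ?_))
      · rw [e0, phi_zero]; rfl
      · rw [e1, phi_one]; rfl
      · rw [e2, phi_zero]; rfl
  have hex : ∃ k i j, (c 0, c 1, c 2) = (bcol k i j 0, bcol k i j 1, bcol k i j 2) := by
    unfold ws at hmem
    rw [List.mem_flatMap] at hmem
    obtain ⟨k, -, hmem⟩ := hmem
    rw [List.mem_flatMap] at hmem
    obtain ⟨i, -, hmem⟩ := hmem
    rw [List.mem_map] at hmem
    obtain ⟨j, -, hmem⟩ := hmem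
    exact ⟨k, i, j, hmem.symm⟩
  obtain ⟨k, i, j, hkij⟩ := hex
  refine ⟨k, i, j, ?_⟩
  have e0 : c 0 = bcol k i j 0 := congrArg Prod.fst hkij
  have e1 : c 1 = bcol k i j 1 := congrArg (fun z => z.2.1) hkij
  have e2 : c 2 = bcol k i j 2 := congrArg (fun z => z.2.2) hkij
  have hb' : ∀ x y, b x y = bw k i j x y := by
    intro x y
    have hy : c y = bcol k i j y := by
      fin_cases y
      · exact e0
      · exact e1
      · exact e2
    fin_cases x
    · exact congrArg Prod.fst hy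
    · exact congrArg (fun z => z.2.1) hy
    · exact congrArg (fun z => z.2.2) hy
  ext x y
  rw [← hb, hb']
  rfl

end matrices

end H96.AschF4
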