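import Mathlib
import Cfsg.Agent.Lib.H97.AschPos
import Cfsg.Agent.Lib.H96.AschSympEx

/-!
Aschbacher library: tensor products of two matrix groups.
-/

set_option autoImplicit false
set_option linter.unusedSectionVars false

namespace H96.AschTens

open Cfsg Cfsg.Geo Matrix H97.AschNonab H97.AschEnv H97.AschGrp H97.AschForm H97.AschUnits H97.AschTensor H97.AschTF H97.AschPos
open H96.AschSympType1 H96.AschSympType2 H96.AschSympType3 H96.AschSympType4 H96.AschSympType5 H96.AschSympEx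
open scoped Kronecker

variable {ι : Type} [Fintype ι] [DecidableEq ι] {F : Type*} [Field F]
variable {κ₁ κ₂ : Type} [Fintype κ₁] [DecidableEq κ₁] [Fintype κ₂] [DecidableEq κ₂]

/-- the group of tensor products of elements of two groups -/
def tensGrp (e : ι ≃ κ₁ × κ₂) (P : GL ι F) (R₁ : Subgroup (GL κ₁ F)) (R₂ : Subgroup (GL κ₂ F)) : Subgroup (GL ι F) where
  carrier := {g | ∃ a ∈ R₁, ∃ b ∈ R₂, (g : Matrix ι ι F) = cr e P ((a : Matrix κ₁ κ₁ F) ⊗ₖ (b : Matrix κ₂ κ₂ F))}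
  one_mem' := ⟨1, R₁.one_mem, 1, R₂.one_mem, by rw [Units.val_one, Units.val_one, Units.val_one, Matrix.one_kronecker_one, map_one]⟩
  mul_mem' := by
    rintro g g' ⟨a, ha, b, hb, h1⟩ ⟨a', ha', b', hb', h2⟩
    exact ⟨a * a', R₁.mul_mem ha ha', b * b', R₂.mul_mem hb hb', by
      rw [Units.val_mul, Units.val_mul, Units.val_mul, h1, h2, ← map_mul, ← Matrix.mul_kronecker_mul]⟩
  inv_mem' := by
    rintro g ⟨a, ha, b, hb, h1⟩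
    exact ⟨a⁻¹, R₁.inv_mem ha, b⁻¹, R₂.inv_mem hb, inv_of_kron h1⟩

lemma mem_tensGrp {e : ι ≃ κ₁ × κ₂} {P : GL ι F} {R₁ : Subgroup (GL κ₁ F)} {R₂ : Subgroup (GL κ₂ F)} {g : GL ι F} :
    g ∈ tensGrp e P R₁ R₂ ↔ ∃ a ∈ R₁, ∃ b ∈ R₂, (g : Matrix ι ι F) = cr e P ((a : Matrix κ₁ κ₁ F) ⊗ₖ (b : Matrix κ₂ κ₂ F)) :=
  Iff.rfl

/-- every pair gives an element -/
lemma exists_tens (e : ι ≃ κ₁ × κ₂) (P : GL ι F) (a : GL κ₁ F) (b : GL κ₂ F) :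
    ∃ g : GL ι F, (g : Matrix ι ι F) = cr e P ((a : Matrix κ₁ κ₁ F) ⊗ₖ (b : Matrix κ₂ κ₂ F)) := by
  refine ⟨⟨cr e P ((a : Matrix κ₁ κ₁ F) ⊗ₖ (b : Matrix κ₂ κ₂ F)),
    cr e P (((a⁻¹ : GL κ₁ F) : Matrix κ₁ κ₁ F) ⊗ₖ ((b⁻¹ : GL κ₂ F) : Matrix κ₂ κ₂ F)), ?_, ?_⟩, rfl⟩
  · rw [← map_mul, kron_inv, map_one]
  · rw [← map_mul]
    have := kron_inv a⁻¹ b⁻¹
    rw [inv_inv, inv_inv] at this
    rw [this, map_one]

theorem full_tensGrp (e : ι ≃ κ₁ × κ₂) (P : GL ι F) {R₁ : Subgroup (GL κ₁ F)} {R₂ : Subgroup (GL κ₂ F)}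
    (h₁ : Full R₁) (h₂ : Full R₂) : Full (tensGrp e P R₁ R₂) := by
  have key : ∀ (X : Matrix κ₁ κ₁ F) (Y : Matrix κ₂ κ₂ F), cr e P (X ⊗ₖ Y) ∈ env (tensGrp e P R₁ R₂) := by
    intro X Y
    have hX : X ∈ env R₁ := by rw [h₁]; trivial
    have hY : Y ∈ env R₂ := by rw [h₂]; trivial
    refine env_induction (p := fun X => cr e P (X ⊗ₖ Y) ∈ env (tensGrp e P R₁ R₂)) ?_ ?_ ?_ ?_ hX
    · intro a ha
      refine env_induction (p := fun Y => cr e P ((a : Matrix κ₁ κ₁ F) ⊗ₖ Y) ∈ env (tensGrp e P R₁ R₂)) ?_ ?_ ?_ ?_ hY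
      · intro b hb
        obtain ⟨g, hg⟩ := exists_tens e P a b
        rw [← hg]
        exact mem_env ⟨a, ha, b, hb, hg⟩
      · intro x y hx hy
        rw [Matrix.kronecker_add, map_add]
        exact (env _).add_mem hx hy
      · intro c x hx
        rw [Matrix.kronecker_smul, map_smul]
        exact (env _).smul_mem hx c
      · rw [Matrix.kronecker_zero, map_zero]
        exact (env _).zero_mem
    · intro x y hx hy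
      rw [Matrix.add_kronecker, map_add]
      exact (env _).add_mem hx hy
    · intro c x hx
      rw [Matrix.smul_kronecker, map_smul]
      exact (env _).smul_mem hx c
    · rw [Matrix.zero_kronecker, map_zero]
      exact (env _).zero_mem
  rw [Full, eq_top_iff]
  intro Z _
  obtain ⟨Z', rfl⟩ := (cr e P).surjective Z
  rw [Matrix.matrix_eq_sum_single Z', map_sum]
  refine (env _).sum_mem (fun i _ => ?_)
  rw [map_sum]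
  refine (env _).sum_mem (fun j _ => ?_)
  have h1 : Matrix.single i j (Z' i j) = Matrix.single i.1 j.1 (Z' i j) ⊗ₖ Matrix.single i.2 j.2 (1 : F) := by
    ext ⟨a, b⟩ ⟨c, d⟩
    obtain ⟨i1, i2⟩ := i
    obtain ⟨j1, j2⟩ := j
    simp only [Matrix.kroneckerMap_apply, Matrix.single_apply, Prod.mk.injEq]
    by_cases h1 : i1 = a <;> by_cases h2 : i2 = b <;> by_cases h3 : j1 = c <;> by_cases h4 : j2 = d <;> simp [h1, h2, h3, h4]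
  rw [h1]
  exact key _ _

lemma scalar_kron {a b : F} : (a • (1 : Matrix κ₁ κ₁ F)) ⊗ₖ (b • (1 : Matrix κ₂ κ₂ F)) = (a * b) • (1 : Matrix (κ₁ × κ₂) (κ₁ × κ₂) F) := by
  rw [Matrix.smul_kronecker, Matrix.kronecker_smul, Matrix.one_kronecker_one, smul_smul]

theorem nil_tensGrp (e : ι ≃ κ₁ × κ₂) (P : GL ι F) {R₁ : Subgroup (GL κ₁ F)} {R₂ : Subgroup (GL κ₂ F)}
    (h₁ : Nil2 R₁) (h₂ : Nil2 R₂) : Nil2 (tensGrp e P R₁ R₂) := by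
  rintro x ⟨a, ha, b, hb, hx⟩ y ⟨a', ha', b', hb', hy⟩
  obtain ⟨c, hc⟩ := mem_scalars_sc.1 (h₁ a ha a' ha')
  obtain ⟨d, hd⟩ := mem_scalars_sc.1 (h₂ b hb b' hb')
  refine mem_scalars_sc.2 ⟨c * d, ?_⟩
  apply Units.ext
  rw [Units.val_mul, Units.val_mul, Units.val_mul, hx, hy, inv_of_kron hx, inv_of_kron hy, ← map_mul, ← map_mul, ← map_mul,
    ← Matrix.mul_kronecker_mul, ← Matrix.mul_kronecker_mul, ← Matrix.mul_kronecker_mul, ← Units.val_mul, ← Units.val_mul,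
    ← Units.val_mul, ← Units.val_mul, ← Units.val_mul, ← Units.val_mul, ← hc, ← hd, sc_val, sc_val, sc_val, scalar_kron,
    map_smul, map_one, Units.val_mul]

lemma pow_kron {e : ι ≃ κ₁ × κ₂} {P : GL ι F} {x : GL ι F} {a : GL κ₁ F} {b : GL κ₂ F}
    (h : (x : Matrix ι ι F) = cr e P ((a : Matrix κ₁ κ₁ F) ⊗ₖ (b : Matrix κ₂ κ₂ F))) (n : ℕ) :
    ((x ^ n : GL ι F) : Matrix ι ι F) = cr e P (((a ^ n : GL κ₁ F) : Matrix κ₁ κ₁ F) ⊗ₖ ((b ^ n : GL κ₂ F) : Matrix κ₂ κ₂ F)) := by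
  induction n with
  | zero =>
    rw [pow_zero, pow_zero, pow_zero, Units.val_one, Units.val_one, Units.val_one, Matrix.one_kronecker_one, map_one]
  | succ n ih =>
    rw [pow_succ, pow_succ, pow_succ, Units.val_mul, Units.val_mul, Units.val_mul, ih, h, ← map_mul, ← Matrix.mul_kronecker_mul]

theorem exp_tensGrp (e : ι ≃ κ₁ × κ₂) (P : GL ι F) {R₁ : Subgroup (GL κ₁ F)} {R₂ : Subgroup (GL κ₂ F)} {n : ℕ}
    (h₁ : ∀ a ∈ R₁, a ^ n = 1) (h₂ : ∀ b ∈ R₂, b ^ n = 1) : ∀ x ∈ tensGrp e P R₁ R₂, x ^ n = 1 := by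
  rintro x ⟨a, ha, b, hb, hx⟩
  apply Units.ext
  rw [pow_kron hx, h₁ a ha, h₂ b hb, Units.val_one, Units.val_one, Units.val_one, Matrix.one_kronecker_one, map_one]

theorem sq_tensGrp (e : ι ≃ κ₁ × κ₂) (P : GL ι F) {R₁ : Subgroup (GL κ₁ F)} {R₂ : Subgroup (GL κ₂ F)} {n : ℕ}
    (h₁ : ∀ a ∈ R₁, a ^ n ∈ scalars κ₁ F) (h₂ : ∀ b ∈ R₂, b ^ n ∈ scalars κ₂ F) :
    ∀ x ∈ tensGrp e P R₁ R₂, x ^ n ∈ scalars ι F := by
  rintro x ⟨a, ha, b, hb, hx⟩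
  obtain ⟨c, hc⟩ := mem_scalars_sc.1 (h₁ a ha)
  obtain ⟨d, hd⟩ := mem_scalars_sc.1 (h₂ b hb)
  refine mem_scalars_sc.2 ⟨c * d, ?_⟩
  apply Units.ext
  rw [pow_kron hx, ← hc, ← hd, sc_val, sc_val, sc_val, scalar_kron, map_smul, map_one, Units.val_mul]

/-- conjugation by tensor products of normalising elements -/
theorem conj_tensGrp {e : ι ≃ κ₁ × κ₂} {P : GL ι F} {R₁ : Subgroup (GL κ₁ F)} {R₂ : Subgroup (GL κ₂ F)} {g : GL ι F}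
    {a : GL κ₁ F} {b : GL κ₂ F} (hg : (g : Matrix ι ι F) = cr e P ((a : Matrix κ₁ κ₁ F) ⊗ₖ (b : Matrix κ₂ κ₂ F)))
    (ha : ∀ x ∈ R₁, a * x * a⁻¹ ∈ R₁) (hb : ∀ x ∈ R₂, b * x * b⁻¹ ∈ R₂) :
    ∀ x ∈ tensGrp e P R₁ R₂, g * x * g⁻¹ ∈ tensGrp e P R₁ R₂ := by
  rintro x ⟨a', ha', b', hb', hx⟩
  refine ⟨a * a' * a⁻¹, ha a' ha', b * b' * b⁻¹, hb b' hb', ?_⟩
  rw [Units.val_mul, Units.val_mul, hg, hx, inv_of_kron hg, ← map_mul, ← map_mul, ← Matrix.mul_kronecker_mul,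
    ← Matrix.mul_kronecker_mul]
  simp only [Units.val_mul]

/-- forms on tensor products -/
theorem isom_tensGrp {σ : F ≃+* F} {f : (ι → F) → (ι → F) → F} {e : ι ≃ κ₁ × κ₂} {P : GL ι F}
    {G₁ : Matrix κ₁ κ₁ F} {G₂ : Matrix κ₂ κ₂ F} (hf : ∀ x y, coF e P f x y = formOfGram σ (G₁ ⊗ₖ G₂) x y)
    {R₁ : Subgroup (GL κ₁ F)} {R₂ : Subgroup (GL κ₂ F)}
    (h₁ : ∀ a ∈ R₁, ∃ c : Fˣ, (a : Matrix κ₁ κ₁ F)ᵀ * G₁ * (a : Matrix κ₁ κ₁ F).map σ = (c : F) • G₁)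
    (h₂ : ∀ b ∈ R₂, ∃ c : Fˣ, (b : Matrix κ₂ κ₂ F)ᵀ * G₂ * (b : Matrix κ₂ κ₂ F).map σ = (c : F) • G₂) :
    tensGrp e P R₁ R₂ ≤ similarityGroup f := by
  rintro x ⟨a, ha, b, hb, hx⟩
  obtain ⟨c, hc⟩ := h₁ a ha
  obtain ⟨d, hd⟩ := h₂ b hb
  refine ⟨c * d, fun u v => ?_⟩
  have hrep : ∀ u : ι → F, ∃ w : κ₁ × κ₂ → F, u = (P : Matrix ι ι F) *ᵥ (w ∘ e) := by
    intro u
    refine ⟨(((P⁻¹ : GL ι F) : Matrix ι ι F) *ᵥ u) ∘ e.symm, ?_⟩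
    have : ((((P⁻¹ : GL ι F) : Matrix ι ι F) *ᵥ u) ∘ e.symm) ∘ e = ((P⁻¹ : GL ι F) : Matrix ι ι F) *ᵥ u := by
      ext i; simp
    rw [this, Matrix.mulVec_mulVec, ← Units.val_mul, mul_inv_cancel, Units.val_one, Matrix.one_mulVec]
  obtain ⟨w, rfl⟩ := hrep u
  obtain ⟨w', rfl⟩ := hrep v
  rw [hx, cr_mulVec', cr_mulVec']
  change coF e P f _ _ = _ * coF e P f _ _
  rw [hf, hf, fog_mul]
  have h3 : (((a : Matrix κ₁ κ₁ F) ⊗ₖ (b : Matrix κ₂ κ₂ F))).map σ = (a : Matrix κ₁ κ₁ F).map σ ⊗ₖ (b : Matrix κ₂ κ₂ F).map σ := by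
    ext ⟨i, k⟩ ⟨j, l⟩
    simp [Matrix.kroneckerMap_apply]
  have h4 : (((a : Matrix κ₁ κ₁ F) ⊗ₖ (b : Matrix κ₂ κ₂ F)))ᵀ = (a : Matrix κ₁ κ₁ F)ᵀ ⊗ₖ (b : Matrix κ₂ κ₂ F)ᵀ := rfl
  rw [h3, h4, ← Matrix.mul_kronecker_mul, ← Matrix.mul_kronecker_mul, hc, hd, Matrix.smul_kronecker, Matrix.kronecker_smul,
    smul_smul]
  simp only [formOfGram, Matrix.smul_apply, smul_eq_mul, Finset.mul_sum, Units.val_mul]
  refine Finset.sum_congr rfl (fun _ _ => Finset.sum_congr rfl (fun _ _ => ?_))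
  ring

end H96.AschTens
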