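import Mathlib
import Cfsg.Agent.Lib.H96.AschF4
import Cfsg.Agent.Lib.H96.AschTens

/-!
Aschbacher library: the tensor square of GU_3(2) normalises an extraspecial group 3^{1+4}.
-/

set_option autoImplicit false
set_option linter.unusedSectionVars false

namespace H96.AschGU23

open Cfsg Cfsg.Geo Matrix H97.AschNonab H97.AschEnv H97.AschGrp H97.AschForm H97.AschUnits H97.AschTensor H97.AschTF H97.AschPos
open H96.AschSympType1 H96.AschSympType2 H96.AschSympType3 H96.AschSympType4 H96.AschSympType5 H96.AschSympEx H96.AschTens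
open H96.AschF4
open scoped Kronecker

variable {F : Type*} [Field F]

lemma wm_mul {ω : F} (h2 : (2 : F) = 0) (hω : ω ^ 2 + ω + 1 = 0) (k i j k' i' j' : Fin 3) :
    wm ω k i j * wm ω k' i' j' = wm ω (k + k' + j * i') (i + i') (j + j') := by
  have key : ∀ k i j k' i' j' x z : Fin 3, badd (badd (bmul (bw k i j x 0) (bw k' i' j' 0 z)) (bmul (bw k i j x 1) (bw k' i' j' 1 z)))
      (bmul (bw k i j x 2) (bw k' i' j' 2 z)) = bw (k + k' + j * i') (i + i') (j + j') x z := by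
    decide +kernel
  ext x z
  rw [Matrix.mul_apply, Fin.sum_univ_three]
  simp only [wm]
  rw [← key, phi_add h2, phi_add h2, phi_mul h2 hω, phi_mul h2 hω, phi_mul h2 hω]

lemma wm_scalar (ω : F) (k : Fin 3) : wm ω k 0 0 = phi ω (bex k) • (1 : Matrix (Fin 3) (Fin 3) F) := by
  ext x y
  rw [Matrix.smul_apply, smul_eq_mul, Matrix.one_apply]
  simp only [wm, bw, add_zero, zero_mul]
  by_cases h : x = y
  · rw [if_pos h, if_pos h, mul_one]
  · rw [if_neg h, if_neg h, mul_zero]; exact phi_zero ω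

lemma wm_one (ω : F) : wm ω 0 0 0 = 1 := by
  rw [wm_scalar]
  have : phi ω (bex 0) = 1 := phi_one ω
  rw [this, one_smul]

lemma wm_cube {ω : F} (h2 : (2 : F) = 0) (hω : ω ^ 2 + ω + 1 = 0) (k i j : Fin 3) :
    wm ω k i j * (wm ω k i j * wm ω k i j) = 1 := by
  have key : ∀ k i j : Fin 3, k + (k + k + j * i) + j * (i + i) = 0 ∧ i + (i + i) = 0 ∧ j + (j + j) = 0 := by decide
  rw [wm_mul h2 hω, wm_mul h2 hω, (key k i j).1, (key k i j).2.1, (key k i j).2.2, wm_one]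

lemma wm_det {ω : F} (h2 : (2 : F) = 0) (hω : ω ^ 2 + ω + 1 = 0) (k i j : Fin 3) : (wm ω k i j).det = 1 := by
  have key : ∀ k i j : Fin 3, bdet (bcol k i j 0) (bcol k i j 1) (bcol k i j 2) = b1 := by decide +kernel
  rw [← phi_one ω, ← key k i j, Matrix.det_fin_three]
  simp only [wm, bdet, bcol, phi_add h2, phi_mul h2 hω]
  linear_combination (-(phi ω (bw k i j 0 0) * phi ω (bw k i j 2 1) * phi ω (bw k i j 1 2) +
    phi ω (bw k i j 1 0) * phi ω (bw k i j 0 1) * phi ω (bw k i j 2 2) +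
    phi ω (bw k i j 2 0) * phi ω (bw k i j 1 1) * phi ω (bw k i j 0 2))) * h2

lemma wm_unitary {ω : F} (h2 : (2 : F) = 0) (hω : ω ^ 2 + ω + 1 = 0) (k i j : Fin 3) :
    (wm ω k i j)ᵀ * (wm ω k i j).map (fun x => x ^ 2) = 1 := by
  have key : ∀ k i j y z : Fin 3, herm (bcol k i j y) (bcol k i j z) = if y = z then b1 else b0 := by decide +kernel
  ext y z
  have h := congrArg (phi ω) (key k i j y z)
  rw [Matrix.mul_apply, Fin.sum_univ_three, Matrix.one_apply]
  simp only [herm, phi_add h2, phi_mul h2 hω, phi_sq h2 hω, bcol] at h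
  simp only [Matrix.transpose_apply, Matrix.map_apply, wm]
  rw [h]
  by_cases hyz : y = z
  · rw [if_pos hyz, if_pos hyz]; exact phi_one ω
  · rw [if_neg hyz, if_neg hyz]; exact phi_zero ω

lemma wm_unit_sum {ω : F} (h2 : (2 : F) = 0) (hω : ω ^ 2 + ω + 1 = 0) (a b : Fin 3) :
    Matrix.single a b (1 : F) = ∑ j : Fin 3, phi ω (bex (-(j * b))) • wm ω 0 (a - b) j := by
  have key : ∀ a b x y : Fin 3, badd (badd (bmul (bex (-(0 * b))) (bw 0 (a - b) 0 x y)) (bmul (bex (-(1 * b))) (bw 0 (a - b) 1 x y)))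
      (bmul (bex (-(2 * b))) (bw 0 (a - b) 2 x y)) = if a = x ∧ b = y then b1 else b0 := by decide +kernel
  ext x y
  rw [Matrix.single_apply, Matrix.sum_apply, Fin.sum_univ_three]
  have h := congrArg (phi ω) (key a b x y)
  simp only [phi_add h2, phi_mul h2 hω] at h
  simp only [Matrix.smul_apply, smul_eq_mul, wm]
  rw [h]
  by_cases hxy : a = x ∧ b = y
  · rw [if_pos hxy, if_pos hxy]; exact (phi_one ω).symm
  · rw [if_neg hxy, if_neg hxy]; exact (phi_zero ω).symm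

/-- the Heisenberg group 3^{1+2} in GL_3(4) -/
def W {ω : F} (h2 : (2 : F) = 0) (hω : ω ^ 2 + ω + 1 = 0) : Subgroup (GL (Fin 3) F) where
  carrier := {a | ∃ k i j, (a : Matrix (Fin 3) (Fin 3) F) = wm ω k i j}
  one_mem' := ⟨0, 0, 0, by rw [wm_one]; rfl⟩
  mul_mem' := by
    rintro a b ⟨k, i, j, ha⟩ ⟨k', i', j', hb⟩
    exact ⟨_, _, _, by rw [Units.val_mul, ha, hb, wm_mul h2 hω]⟩
  inv_mem' := by
    rintro a ⟨k, i, j, ha⟩
    have h3 : a * (a * a) = 1 := by
      apply Units.ext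
      rw [Units.val_mul, Units.val_mul, ha, wm_cube h2 hω]; rfl
    have h4 : a⁻¹ = a * a := inv_eq_of_mul_eq_one_right h3
    rw [h4]
    exact ⟨_, _, _, by rw [Units.val_mul, ha, wm_mul h2 hω]⟩

lemma exists_w {ω : F} (h2 : (2 : F) = 0) (hω : ω ^ 2 + ω + 1 = 0) (k i j : Fin 3) :
    ∃ a ∈ W h2 hω, (a : Matrix (Fin 3) (Fin 3) F) = wm ω k i j := by
  refine ⟨⟨wm ω k i j, wm ω k i j * wm ω k i j, wm_cube h2 hω k i j, ?_⟩, ⟨k, i, j, rfl⟩, rfl⟩
  rw [mul_assoc]; exact wm_cube h2 hω k i j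

lemma W_full {ω : F} (h2 : (2 : F) = 0) (hω : ω ^ 2 + ω + 1 = 0) : Full (W h2 hω) := by
  rw [Full, eq_top_iff]
  intro X _
  rw [Matrix.matrix_eq_sum_single X]
  refine (env _).sum_mem (fun a _ => (env _).sum_mem (fun b _ => ?_))
  have h1 : Matrix.single a b (X a b) = X a b • Matrix.single a b (1 : F) := by
    rw [Matrix.smul_single, smul_eq_mul, mul_one]
  rw [h1, wm_unit_sum h2 hω]
  refine (env _).smul_mem ((env _).sum_mem (fun j _ => (env _).smul_mem ?_ _)) _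
  obtain ⟨w, hw, hwm⟩ := exists_w h2 hω 0 (a - b) j
  rw [← hwm]
  exact mem_env hw

lemma W_nil {ω : F} (h2 : (2 : F) = 0) (hω : ω ^ 2 + ω + 1 = 0) : Nil2 (W h2 hω) := by
  rintro a ⟨k, i, j, ha⟩ b ⟨k', i', j', hb⟩
  have key : ∀ k i j k' i' j' : Fin 3, (j * i' - j' * i) + (k' + k + j' * i) + 0 * (i' + i) = k + k' + j * i' ∧ 0 + (i' + i) = i + i' ∧
      0 + (j' + j) = j + j' := by decide
  obtain ⟨s, hs, hsm⟩ := exists_w h2 hω (j * i' - j' * i) 0 0
  have h1 : a * b = s * (b * a) := by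
    apply Units.ext
    rw [Units.val_mul, Units.val_mul, Units.val_mul, ha, hb, hsm, wm_mul h2 hω, wm_mul h2 hω, wm_mul h2 hω,
      (key k i j k' i' j').1, (key k i j k' i' j').2.1, (key k i j k' i' j').2.2]
  have h3 : s ∈ scalars (Fin 3) F := by
    have h4 : phi ω (bex (j * i' - j' * i)) ≠ 0 := by
      intro h0
      have h5 : (s : Matrix (Fin 3) (Fin 3) F) = 0 := by rw [hsm, wm_scalar, h0, zero_smul]
      exact s.ne_zero h5
    refine mem_scalars_sc.2 ⟨Units.mk0 _ h4, ?_⟩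
    apply Units.ext
    rw [sc_val, hsm, wm_scalar]; rfl
  have h4 : a * b * a⁻¹ * b⁻¹ = s := by rw [h1]; group
  rw [h4]
  exact h3

lemma W_exp {ω : F} (h2 : (2 : F) = 0) (hω : ω ^ 2 + ω + 1 = 0) : ∀ a ∈ W h2 hω, a ^ 3 = 1 := by
  rintro a ⟨k, i, j, ha⟩
  apply Units.ext
  rw [pow_succ', sq, Units.val_mul, Units.val_mul, ha, wm_cube h2 hω]; rfl

/-- the unitary group normalises the Heisenberg group -/
lemma W_conj [Fintype F] (h4 : Fintype.card F = 4) {ω : F} (h2 : (2 : F) = 0) (hω : ω ^ 2 + ω + 1 = 0) {σ : F ≃+* F}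
    (hσ : ∀ x, σ x = x ^ 2) {g : GL (Fin 3) F}
    (hg : (g : Matrix (Fin 3) (Fin 3) F)ᵀ * (g : Matrix (Fin 3) (Fin 3) F).map σ = 1) :
    ∀ x ∈ W h2 hω, g * x * g⁻¹ ∈ W h2 hω := by
  rintro x ⟨k, i, j, hx⟩
  have hmap : ∀ A : Matrix (Fin 3) (Fin 3) F, A.map (fun x => x ^ 2) = A.map σ := by
    intro A; ext a b; rw [Matrix.map_apply, Matrix.map_apply, hσ]
  have hmm : ∀ A B : Matrix (Fin 3) (Fin 3) F, (A * B).map σ = A.map σ * B.map σ := by
    intro A B; exact Matrix.map_mul (f := (σ : F →+* F))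
  have hgi : ((g⁻¹ : GL (Fin 3) F) : Matrix (Fin 3) (Fin 3) F)ᵀ * ((g⁻¹ : GL (Fin 3) F) : Matrix (Fin 3) (Fin 3) F).map σ = 1 := by
    have h5 : (g : Matrix (Fin 3) (Fin 3) F) * ((g⁻¹ : GL (Fin 3) F) : Matrix (Fin 3) (Fin 3) F) = 1 := by
      rw [← Units.val_mul, mul_inv_cancel, Units.val_one]
    have h6 : (g : Matrix (Fin 3) (Fin 3) F).map σ * ((g⁻¹ : GL (Fin 3) F) : Matrix (Fin 3) (Fin 3) F).map σ = 1 := by
      rw [← hmm, h5, Matrix.map_one σ (map_zero σ) (map_one σ)]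
    have h7 : ((g⁻¹ : GL (Fin 3) F) : Matrix (Fin 3) (Fin 3) F)ᵀ * (g : Matrix (Fin 3) (Fin 3) F)ᵀ = 1 := by
      rw [← Matrix.transpose_mul, h5, Matrix.transpose_one]
    calc ((g⁻¹ : GL (Fin 3) F) : Matrix (Fin 3) (Fin 3) F)ᵀ * ((g⁻¹ : GL (Fin 3) F) : Matrix (Fin 3) (Fin 3) F).map σ
        = ((g⁻¹ : GL (Fin 3) F) : Matrix (Fin 3) (Fin 3) F)ᵀ * ((g : Matrix (Fin 3) (Fin 3) F)ᵀ * (g : Matrix (Fin 3) (Fin 3) F).map σ) *
            ((g⁻¹ : GL (Fin 3) F) : Matrix (Fin 3) (Fin 3) F).map σ := by rw [hg, mul_one]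
      _ = (((g⁻¹ : GL (Fin 3) F) : Matrix (Fin 3) (Fin 3) F)ᵀ * (g : Matrix (Fin 3) (Fin 3) F)ᵀ) * ((g : Matrix (Fin 3) (Fin 3) F).map σ *
            ((g⁻¹ : GL (Fin 3) F) : Matrix (Fin 3) (Fin 3) F).map σ) := by simp only [mul_assoc]
      _ = 1 := by rw [h6, h7, mul_one]
  have hxu : (x : Matrix (Fin 3) (Fin 3) F)ᵀ * (x : Matrix (Fin 3) (Fin 3) F).map σ = 1 := by
    rw [← hmap, hx]; exact wm_unitary h2 hω k i j
  have hmulu : ∀ A B : Matrix (Fin 3) (Fin 3) F, Aᵀ * A.map σ = 1 → Bᵀ * B.map σ = 1 → (A * B)ᵀ * (A * B).map σ = 1 := by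
    intro A B hA hB
    rw [Matrix.transpose_mul, hmm, mul_assoc, ← mul_assoc Aᵀ, hA, one_mul, hB]
  refine mem_of_unitary h4 hω ?_ ?_ ?_
  · rw [hmap]
    rw [Units.val_mul, Units.val_mul]
    exact hmulu _ _ (hmulu _ _ hg hxu) hgi
  · rw [Units.val_mul, Units.val_mul, Matrix.det_mul, Matrix.det_mul, hx, wm_det h2 hω, mul_one, ← Matrix.det_mul, ← Units.val_mul,
      mul_inv_cancel, Units.val_one, Matrix.det_one]
  · have h5 : (g * x * g⁻¹) * ((g * x * g⁻¹) * (g * x * g⁻¹)) = 1 := by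
      have h6 : x * (x * x) = 1 := by
        apply Units.ext
        rw [Units.val_mul, Units.val_mul, hx, wm_cube h2 hω]; rfl
      calc (g * x * g⁻¹) * ((g * x * g⁻¹) * (g * x * g⁻¹)) = g * (x * (x * x)) * g⁻¹ := by group
        _ = 1 := by rw [h6]; group
    have h6 := congrArg Units.val h5
    rw [Units.val_mul, Units.val_mul, Units.val_one] at h6
    exact h6

/-- **tensor square of GU_3(2)** -/
theorem gu23 [Fintype F] {n q : ℕ} (hF : Fintype.card F = q ^ 2) (hq : q = 2) (e : Fin n ≃ Fin 3 × Fin 3) (P : GL (Fin n) F)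
    (σ : F ≃+* F) (hσ : ∀ x, σ x = x ^ q) {H : Subgroup (GL (Fin n) F)} (hH : H ≤ GU n F q)
    (h : TPos σ (hermForm n F q) H e P 1 1) : ∃ M, InUnitaryClass n F q M ∧ H ≤ M := by
  classical
  subst hq
  have h4 : Fintype.card F = 4 := hF
  have h2 := two_eq_zero h4
  obtain ⟨ω, hω⟩ := exists_omega h4
  have hn : n = 9 := by
    have := Fintype.card_congr e
    simpa using this
  have hne : Nonempty (Fin n) := ⟨⟨0, by omega⟩⟩
  let R := tensGrp e P (W h2 hω) (W h2 hω)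
  have hfull : Full R := full_tensGrp e P (W_full h2 hω) (W_full h2 hω)
  have hnil : Nil2 R := nil_tensGrp e P (W_nil h2 hω) (W_nil h2 hω)
  have hexp : ∀ x ∈ R, x ^ 3 = 1 := exp_tensGrp e P (W_exp h2 hω) (W_exp h2 hω)
  obtain ⟨hst, hcc, hcR, -⟩ := sympType_odd hfull hnil (by rw [Fintype.card_fin]; omega) Nat.prime_three (by decide) hexp
  have hmap : ∀ A : Matrix (Fin 3) (Fin 3) F, A.map (fun x => x ^ 2) = A.map σ := by
    intro A; ext a b; rw [Matrix.map_apply, Matrix.map_apply, hσ]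
  have hW1 : ∀ a ∈ W h2 hω, ∃ c : Fˣ, (a : Matrix (Fin 3) (Fin 3) F)ᵀ * (1 : Matrix (Fin 3) (Fin 3) F) *
      (a : Matrix (Fin 3) (Fin 3) F).map σ = (c : F) • (1 : Matrix (Fin 3) (Fin 3) F) := by
    rintro a ⟨k, i, j, ha⟩
    refine ⟨1, ?_⟩
    rw [mul_one, ← hmap, ha, wm_unitary h2 hω, Units.val_one, one_smul]
  have hsim : R ≤ similarityGroup (hermForm n F 2) := isom_tensGrp h.form hW1 hW1
  have hchar : CharP F 2 := CharTwo.of_one_ne_zero_of_two_eq_zero one_ne_zero h2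
  refine ⟨subgroupNormalizer R ⊓ GU n F 2, ?_, ?_⟩
  · left
    right; right; right; right; right; right; right
    refine ⟨3, R, 2, 2, 2, hst, hfull.absIrr, hsim, by norm_num, ?_, Or.inl ⟨by decide, hcc, by norm_num, ?_⟩, rfl⟩
    · rw [hcc]
      refine ⟨Nat.prime_two, hchar, hF, by norm_num, ?_⟩
      intro d hd1 hd2
      have : d = 1 := by omega
      subst this
      norm_num
    · rw [hcR, Fintype.card_fin, hn]; norm_num
  · refine le_inf ?_ hH
    intro g hg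
    obtain ⟨a, b, c, hc, hab, ha, hb⟩ := h.mult (by norm_num) (by norm_num) hg (fun u v => hH hg u v)
    have hcc : ∀ x : F, x ≠ 0 → σ x = x → x = 1 := by
      intro x hx hx'
      rw [hσ] at hx'
      have : x * (x - 1) = 0 := by linear_combination hx'
      exact sub_eq_zero.mp ((mul_eq_zero.mp this).resolve_left hx)
    have hherm : ∀ (A : Matrix (Fin 3) (Fin 3) F) (c : F), c ≠ 0 → Aᵀ * 1 * A.map σ = c • (1 : Matrix (Fin 3) (Fin 3) F) →
        Aᵀ * A.map σ = 1 := by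
      intro A c hc0 hA
      rw [mul_one] at hA
      have h5 : ((Aᵀ * A.map σ)ᵀ).map σ = Aᵀ * A.map σ := by
        rw [Matrix.transpose_mul, Matrix.transpose_transpose]
        have h6 : ((A.map σ)ᵀ * A).map σ = ((A.map σ)ᵀ).map σ * A.map σ := Matrix.map_mul (f := (σ : F →+* F))
        rw [h6]
        congr 1
        ext i j
        rw [Matrix.map_apply, Matrix.transpose_apply, Matrix.map_apply, Matrix.transpose_apply, hσ, hσ, ← pow_mul]
        have := FiniteField.pow_card (A j i)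
        rw [h4] at this
        exact this
      rw [hA] at h5
      have h7 := congrFun (congrFun h5 0) 0
      rw [Matrix.map_apply, Matrix.transpose_apply, Matrix.smul_apply, Matrix.one_apply_eq, smul_eq_mul, mul_one] at h7
      rw [hA, hcc c hc0 h7, one_smul]
    exact mem_subgroupNormalizer (conj_tensGrp hab (W_conj h4 h2 hω hσ (hherm a c hc ha))
      (W_conj h4 h2 hω hσ (hherm b c⁻¹ (_root_.inv_ne_zero hc) hb))) 

end H96.AschGU23
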