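import Mathlib
import Cfsg.Agent.Lib.H49.Unitary
import Cfsg.Agent.Lib.H48.QuadSim
import Cfsg.Agent.Lib.H96.AschAdj

/-!
Aschbacher library: hermitian matrices are congruent; symmetric matrices of odd size are congruent up to a scalar.
-/

set_option autoImplicit false
set_option linter.unusedSectionVars false

namespace H96.AschForms

open Matrix

variable {F : Type*} [Field F]

/-- two invertible hermitian matrices over a finite field are congruent -/
theorem herm_equiv {κ : Type*} [Fintype κ] [DecidableEq κ] [Fintype F] {q : ℕ} (hF : Fintype.card F = q ^ 2) {σ : F ≃+* F}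
    (hσ : ∀ x, σ x = x ^ q)
    {G₁ G₂ : Matrix κ κ F} (u1 : IsUnit G₁) (u2 : IsUnit G₂) (h1 : G₁ᵀ.map σ = G₁)
    (h2 : G₂ᵀ.map σ = G₂) :
    ∃ A : GL κ F, (A : Matrix κ κ F)ᵀ * G₁ * (A : Matrix κ κ F).map σ = G₂ := by
  have hK : Nat.card F = q ^ 2 := by rw [Nat.card_eq_fintype_card]; exact hF
  have hct : ∀ M : Matrix κ κ F, H49.Unitary.ct hK M = (M.map σ)ᵀ := by
    intro M
    ext i j
    rw [H49.Unitary.ct_apply, Matrix.transpose_apply, Matrix.map_apply, hσ]
  have hσ2 : ∀ x, σ (σ x) = x := by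
    intro x
    rw [hσ, hσ, ← pow_mul, ← sq, ← hF, FiniteField.pow_card]
  obtain ⟨y, hy, hyG⟩ := H49.Unitary.herm_congr hK G₁ G₂ u1 u2 (by rw [hct, ← Matrix.transpose_map]; exact h1)
    (by rw [hct, ← Matrix.transpose_map]; exact h2)
  rw [hct] at hyG
  have hu : IsUnit (y.map σ) := by
    have := hy.map (σ : F →+* F).mapMatrix
    exact this
  obtain ⟨A, hA⟩ := hu
  refine ⟨A, ?_⟩
  rw [hA, hyG]
  have : (y.map σ).map σ = y := by
    ext i j
    simp [hσ2]
  rw [this]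

open QuadraticMap H48.QuadSplit H48.QuadStd H48.QuadSim in
/-- two invertible symmetric matrices of odd size over a finite field of odd order are congruent up to a scalar -/
theorem symm_equiv {κ : Type*} [Fintype κ] [DecidableEq κ] [Finite F] (hF2 : (2 : F) ≠ 0) (hd : Odd (Fintype.card κ))
    {G₁ G₂ : Matrix κ κ F} (u1 : IsUnit G₁) (u2 : IsUnit G₂) (h1 : G₁ᵀ = G₁) (h2 : G₂ᵀ = G₂) :
    ∃ (A : GL κ F) (c : F), c ≠ 0 ∧ (A : Matrix κ κ F)ᵀ * G₁ * (A : Matrix κ κ F) = c • G₂ := by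
  classical
  let B : Matrix κ κ F → LinearMap.BilinForm F (κ → F) := fun G => Matrix.toBilin' G
  let Q : Matrix κ κ F → QuadraticForm F (κ → F) := fun G => (B G).toQuadraticMap
  have hB : ∀ G (x y : κ → F), B G x y = x ⬝ᵥ (G *ᵥ y) := fun G x y => Matrix.toBilin'_apply' G x y
  have hsymm : ∀ G : Matrix κ κ F, Gᵀ = G → ∀ x y : κ → F, B G x y = B G y x := by
    intro G hG x y
    rw [hB, hB, Matrix.dotProduct_mulVec, ← Matrix.mulVec_transpose, hG, dotProduct_comm]
  have hpol : ∀ G : Matrix κ κ F, Gᵀ = G → ∀ x y : κ → F, polar (Q G) x y = 2 * B G x y := by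
    intro G hG x y
    have e1 : polar (Q G) x y = B G x y + B G y x := by
      have := LinearMap.BilinMap.polar_toQuadraticMap (B := B G) x y
      exact this
    rw [e1, ← hsymm G hG]; ring
  have hND : ∀ G : Matrix κ κ F, Gᵀ = G → IsUnit G → ND (Q G) := by
    intro G hG hu x hx
    have h3 : ∀ y, (G *ᵥ x) ⬝ᵥ y = 0 := by
      intro y
      have h4 := hx y
      rw [hpol G hG] at h4
      have h5 := (mul_eq_zero.mp h4).resolve_left hF2
      rw [hsymm G hG, hB, dotProduct_comm] at h5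
      exact h5
    have h6 : G *ᵥ x = 0 := by
      funext i
      have := h3 (Pi.single i 1)
      rwa [dotProduct_single, mul_one] at this
    obtain ⟨g, hg⟩ := hu
    have h7 : ((g⁻¹ : (Matrix κ κ F)ˣ) : Matrix κ κ F) *ᵥ (G *ᵥ x) = x := by
      rw [← hg, Matrix.mulVec_mulVec, Units.inv_mul, Matrix.one_mulVec]
    rw [← h7, h6, Matrix.mulVec_zero]
  obtain ⟨m, hm⟩ := hd
  have hfr : Module.finrank F (κ → F) = 2 * m + 1 := by rw [Module.finrank_fintype_fun_eq_card, hm]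
  obtain ⟨-, c₁, hc₁, ⟨e₁⟩⟩ := classify_odd m _ (Q G₁) (hND G₁ h1 u1) hfr
  obtain ⟨-, c₂, hc₂, ⟨e₂⟩⟩ := classify_odd m _ (Q G₂) (hND G₂ h2 u2) hfr
  -- the scaling map : qOdd c₁ (S v) * (c₂/c₁)... 
  let s : Unit ⊕ (Fin m ⊕ Fin m) → F := fun i => match i with
    | .inl _ => 1
    | .inr (.inl _) => 1
    | .inr (.inr _) => c₁ / c₂
  have hs : ∀ i, s i ≠ 0 := by
    intro i
    rcases i with _ | _ | _
    · exact one_ne_zero
    · exact one_ne_zero
    · exact div_ne_zero hc₁ hc₂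
  let S : (Unit ⊕ (Fin m ⊕ Fin m) → F) ≃ₗ[F] (Unit ⊕ (Fin m ⊕ Fin m) → F) :=
    LinearEquiv.piCongrRight (fun i => LinearEquiv.smulOfNeZero F F (s i) (hs i))
  have hS : ∀ v i, S v i = s i * v i := fun v i => rfl
  have hSQ : ∀ v, qOdd m F c₁ (S v) = (c₁ / c₂) * qOdd m F c₂ v := by
    intro v
    rw [qOdd_apply, qOdd_apply, mul_add, Finset.mul_sum]
    simp only [hS, s]
    congr 1
    · field_simp
    · refine Finset.sum_congr rfl (fun i _ => by ring)
  let T : (κ → F) ≃ₗ[F] (κ → F) := (e₂.toLinearEquiv.trans S).trans e₁.toLinearEquiv.symm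
  have hT : ∀ v, Q G₁ (T v) = (c₁ / c₂) * Q G₂ v := by
    intro v
    have e3 : Q G₁ (T v) = qOdd m F c₁ (S (e₂.toLinearEquiv v)) := by
      have := e₁.map_app (T v)
      rw [← this]
      congr 1
      change e₁.toLinearEquiv (e₁.toLinearEquiv.symm (S (e₂.toLinearEquiv v))) = _
      rw [LinearEquiv.apply_symm_apply]
    rw [e3, hSQ]
    congr 1
    exact e₂.map_app v
  have hTB : ∀ x y, B G₁ (T x) (T y) = (c₁ / c₂) * B G₂ x y := by
    intro x y
    have h3 := hpol G₁ h1 (T x) (T y)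
    have h4 := hpol G₂ h2 x y
    rw [polar, ← map_add, hT, hT, hT] at h3
    rw [polar] at h4
    have h5 : 2 * B G₁ (T x) (T y) = 2 * ((c₁ / c₂) * B G₂ x y) := by
      rw [← h3]
      linear_combination (c₁ / c₂) * h4
    exact mul_left_cancel₀ hF2 h5
  let A : GL κ F := ⟨LinearMap.toMatrix' (T : (κ → F) →ₗ[F] (κ → F)),
    LinearMap.toMatrix' (T.symm : (κ → F) →ₗ[F] (κ → F)), by
      rw [← LinearMap.toMatrix'_comp, LinearEquiv.comp_symm, LinearMap.toMatrix'_id], by
      rw [← LinearMap.toMatrix'_comp, LinearEquiv.symm_comp, LinearMap.toMatrix'_id]⟩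
  have hA : ∀ v, (A : Matrix κ κ F) *ᵥ v = T v := by
    intro v
    have h3 : (A : Matrix κ κ F) = LinearMap.toMatrix' (T : (κ → F) →ₗ[F] (κ → F)) := rfl
    rw [h3]
    exact LinearMap.toMatrix'_mulVec _ v
  refine ⟨A, c₁ / c₂, div_ne_zero hc₁ hc₂, ?_⟩
  apply (Matrix.toBilin' (R₁ := F)).injective
  apply LinearMap.ext
  intro x
  apply LinearMap.ext
  intro y
  have h3 := hTB x y
  rw [hB, hB, ← hA, ← hA] at h3
  rw [Matrix.toBilin'_apply', Matrix.toBilin'_apply']
  rw [Matrix.smul_mulVec, dotProduct_smul, smul_eq_mul, ← h3, ← Matrix.mulVec_mulVec, ← Matrix.mulVec_mulVec,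
    Matrix.dotProduct_mulVec x, Matrix.vecMul_transpose]

end H96.AschForms
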