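import Mathlib
import Cfsg.Agent.Lib.H4.Burnside
import Cfsg.Agent.Lib.H7.UnitOrd
import Cfsg.Agent.Lib.H7.HypOrd
import Cfsg.Agent.Lib.H96.AschForms
import Cfsg.Agent.Lib.H97.AschPosH

/-!
Aschbacher library: no perfect groups of isometries in the small cases GL_2(3), GU_3(2), O_3(3).
-/

set_option autoImplicit false
set_option linter.unusedSectionVars false

namespace H96.AschSolv

open Cfsg Cfsg.Geo Matrix H97.AschForm H96.AschForms H96.AschSympType5 H96.AschAdj
open scoped commutatorElement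

/-- a perfect {2,3}-group is trivial -/
theorem eq_bot_of_perfect {G : Type*} [Group G] [Finite G] (N : Subgroup G) (hperf : ⁅N, N⁆ = N)
    (hcard : ∃ a b : ℕ, Nat.card N = 2 ^ a * 3 ^ b) : N = ⊥ := by
  have hs : Group.IsSolvable N :=
    H4.Burnside.isSolvable_of_card_eq 2 3 Nat.prime_two Nat.prime_three (Nat.card N) N rfl hcard
  by_contra hne
  have hnt : Nontrivial N := (Subgroup.nontrivial_iff_ne_bot N).mpr hne
  have h1 : (⊤ : Subgroup N) ≠ ⊥ := top_ne_bot
  have h2 := Group.IsSolvable.commutator_lt_of_ne_bot h1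
  have h3 : ⁅(⊤ : Subgroup N), (⊤ : Subgroup N)⁆ = ⊤ := by
    apply Subgroup.map_injective N.subtype_injective
    rw [Subgroup.map_commutator, ← MonoidHom.range_eq_map, N.range_subtype, hperf]
  rw [h3] at h2
  exact lt_irrefl _ h2

lemma dvd_two_three {n : ℕ} {a b : ℕ} (h : n ∣ 2 ^ a * 3 ^ b) : ∃ c d : ℕ, n = 2 ^ c * 3 ^ d := by
  obtain ⟨x, y, hx, hy, rfl⟩ := exists_dvd_and_dvd_of_dvd_mul h
  obtain ⟨c, _, rfl⟩ := (Nat.dvd_prime_pow Nat.prime_two).1 hx
  obtain ⟨d, _, rfl⟩ := (Nat.dvd_prime_pow Nat.prime_three).1 hy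
  exact ⟨c, d, rfl⟩

variable {F : Type*} [Field F]

theorem no_perfect_two [Fintype F] (h3 : Fintype.card F = 3) (N : Subgroup (GL (Fin 2) F)) (hperf : ⁅N, N⁆ = N) :
    N = ⊥ := by
  classical
  apply eq_bot_of_perfect N hperf
  have h1 : Nat.card (GL (Fin 2) F) = 2 ^ 4 * 3 ^ 1 := by
    have := Matrix.card_GL_field (𝔽 := F) 2
    rw [this, h3]
    simp [Fin.prod_univ_succ]
  have h2 := Subgroup.card_subgroup_dvd_card N
  rw [h1] at h2
  exact dvd_two_three h2

lemma sigma_four [Fintype F] (hF : Fintype.card F = 4) {σ : F ≃+* F} (hne : σ ≠ RingEquiv.refl F) :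
    ∀ x, σ x = x ^ 2 := by
  have hquad : ∀ x : F, x ≠ 0 → x ≠ 1 → x ^ 2 + x + 1 = 0 := by
    intro x h0 h1
    have h3 := FiniteField.pow_card_sub_one_eq_one x h0
    rw [hF] at h3
    have h4 : (x - 1) * (x ^ 2 + x + 1) = 0 := by
      have h5 : x ^ 3 = 1 := h3
      linear_combination h5
    exact (mul_eq_zero.mp h4).resolve_left (sub_ne_zero.mpr h1)
  have htwo : ∀ x y : F, x ≠ 0 → x ≠ 1 → y ≠ 0 → y ≠ 1 → y = x ∨ y = x ^ 2 := by
    intro x y hx0 hx1 hy0 hy1
    have e1 := hquad x hx0 hx1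
    have e2 := hquad y hy0 hy1
    have h4 : (y - x) * (y - x ^ 2) = 0 := by
      linear_combination e2 + (x - 1 - y) * e1
    rcases mul_eq_zero.mp h4 with h | h
    · exact Or.inl (sub_eq_zero.mp h)
    · exact Or.inr (sub_eq_zero.mp h)
  intro x
  by_cases hx0 : x = 0
  · rw [hx0]; simp
  by_cases hx1 : x = 1
  · rw [hx1]; simp
  rcases htwo x (σ x) hx0 hx1 (by simpa using hx0) (by simpa using hx1) with h | h
  · exfalso
    apply hne
    ext y
    change σ y = y
    by_cases hy0 : y = 0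
    · rw [hy0]; simp
    by_cases hy1 : y = 1
    · rw [hy1]; simp
    rcases htwo x y hx0 hx1 hy0 hy1 with h' | h'
    · rw [h', h]
    · rw [h', map_pow, h]
  · exact h

theorem no_perfect_unitary [Fintype F] (h4 : Fintype.card F = 4) {σ : F ≃+* F} {f : (Fin 3 → F) → (Fin 3 → F) → F}
    (hf : IsUnitaryForm σ f) (N : Subgroup (GL (Fin 3) F)) (hN : N ≤ isom f) (hperf : ⁅N, N⁆ = N) : N = ⊥ := by
  classical
  apply eq_bot_of_perfect N hperf
  have hF : Fintype.card F = 2 ^ 2 := h4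
  have hσ := sigma_four h4 hf.ne_refl
  have hs := IsSesq.of_unitary hf
  have hG : IsUnit (gram f) := (Matrix.isUnit_transpose (A := gram f)).mp
    (hs.isUnit_gram (fun v hv => (hf.nondegenerate v hv).2))
  have hh : (gram f)ᵀ = (gram f).map σ := by
    ext i j
    exact hf.herm _ _
  obtain ⟨A, hA⟩ := H97.AschPosH.herm_congr' hF hσ (gram f) 1 hG isUnit_one hh (by ext i j; simp [Matrix.one_apply, apply_ite σ, eq_comm])
  have hform : ∀ u v, hermForm 3 F 2 u v = f ((A : Matrix (Fin 3) (Fin 3) F) *ᵥ u) ((A : Matrix (Fin 3) (Fin 3) F) *ᵥ v) := by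
    intro u v
    rw [hs.eq_dot]
    have h1 : (fun i => σ (((A : Matrix (Fin 3) (Fin 3) F) *ᵥ v) i)) = (A : Matrix (Fin 3) (Fin 3) F).map σ *ᵥ (fun i => σ (v i)) := by
      ext i
      simp [mulVec, dotProduct, map_sum]
    have h2 : ((H97.AschForm.gram f)ᵀ *ᵥ ((A : Matrix (Fin 3) (Fin 3) F) *ᵥ u)) ⬝ᵥ ((A : Matrix (Fin 3) (Fin 3) F).map σ *ᵥ
        (fun i => σ (v i))) = u ⬝ᵥ (((A : Matrix (Fin 3) (Fin 3) F)ᵀ * H97.AschForm.gram f *
          (A : Matrix (Fin 3) (Fin 3) F).map σ) *ᵥ (fun i => σ (v i))) := by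
      rw [Matrix.mulVec_mulVec, ← Matrix.vecMul_transpose, Matrix.transpose_mul, Matrix.transpose_transpose,
        ← Matrix.dotProduct_mulVec, Matrix.mulVec_mulVec]
    rw [h1, h2, hA, Matrix.one_mulVec]
    simp [hermForm, dotProduct, hσ]
  have hmap : N.map (MulAut.conj A⁻¹).toMonoidHom ≤ GU 3 F 2 := by
    rintro _ ⟨x, hx, rfl⟩ u v
    change hermForm 3 F 2 (((A⁻¹ * x * A⁻¹⁻¹ : GL (Fin 3) F) : Matrix (Fin 3) (Fin 3) F) *ᵥ u)
      (((A⁻¹ * x * A⁻¹⁻¹ : GL (Fin 3) F) : Matrix (Fin 3) (Fin 3) F) *ᵥ v) = _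
    rw [hform, hform, Matrix.mulVec_mulVec, Matrix.mulVec_mulVec, ← Units.val_mul]
    have e : A * (A⁻¹ * x * A⁻¹⁻¹) = x * A := by group
    rw [e, Units.val_mul, ← Matrix.mulVec_mulVec, ← Matrix.mulVec_mulVec, mem_isom.mp (hN hx)]
  have hc : Nat.card N = Nat.card (N.map (MulAut.conj A⁻¹).toMonoidHom) :=
    Nat.card_congr (N.equivMapOfInjective _ (MulAut.conj A⁻¹).injective).toEquiv
  have hd : Nat.card (N.map (MulAut.conj A⁻¹).toMonoidHom) ∣ Nat.card (GU 3 F 2) := Subgroup.card_dvd_of_le hmap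
  rw [← hc, H7.UnitOrd.card_GU hF 3] at hd
  have e : (2 : ℕ) ^ (3 * (3 - 1) / 2) * ∏ i ∈ Finset.range 3, (if Even i then 2 ^ (i + 1) + 1 else 2 ^ (i + 1) - 1) = 2 ^ 3 * 3 ^ 4 := by
    decide
  rw [e] at hd
  exact dvd_two_three hd

theorem no_perfect_orth [Fintype F] (h3 : Fintype.card F = 3) {f : (Fin 3 → F) → (Fin 3 → F) → F}
    (hf : IsSesq (RingEquiv.refl F) f) (hsymm : ∀ u v, f u v = f v u) (hnd : IsNondegenerateForm f)
    (N : Subgroup (GL (Fin 3) F)) (hN : N ≤ isom f) (hperf : ⁅N, N⁆ = N) : N = ⊥ := by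
  classical
  apply eq_bot_of_perfect N hperf
  have h2 : (2 : F) ≠ 0 := by
    intro h2
    have h5 : (3 : F) = 0 := by
      have := FiniteField.cast_card_eq_zero F
      rw [h3] at this; exact_mod_cast this
    exact one_ne_zero (α := F) (by linear_combination h5 - h2)
  let B : LinearMap.BilinForm F (Fin 3 → F) := LinearMap.mk₂ F f hf.add_left hf.smul_left hf.add_right (fun c u v => by
    rw [hf.smul_right]; rfl)
  let Q : QuadraticForm F (Fin 3 → F) := B.toQuadraticMap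
  have hQ : ∀ v, Q v = f v v := fun v => rfl
  have hpol : ∀ x y, QuadraticMap.polar Q x y = 2 * f x y := by
    intro x y
    have := LinearMap.BilinMap.polar_toQuadraticMap (B := B) x y
    have e1 : QuadraticMap.polar Q x y = f x y + f y x := this
    rw [e1, hsymm y x]; ring
  have hND : H48.QuadSplit.ND Q := by
    intro x hx
    by_contra hx0
    obtain ⟨-, y, hy⟩ := hnd x hx0
    have h4 := hx y
    rw [hpol] at h4
    exact hy ((mul_eq_zero.mp h4).resolve_left h2)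
  obtain ⟨-, c, hc, he⟩ := H48.QuadStd.classify_odd 1 _ Q hND (by rw [Module.finrank_fin_fun])
  have hcard := H7.HypStd.card_O_congr he
  rw [H7.HypOrd.card_O_odd 1 h2 hc, Nat.card_eq_fintype_card (α := F), h3] at hcard
  simp only [Finset.prod_range_one] at hcard
  -- N embeds in O Q
  have hNQ : N ≤ isometryGroup F (Q : (Fin 3 → F) → F) := by
    intro x hx v w
    exact mem_isom.mp (hN hx) v v
  have hd := Subgroup.card_dvd_of_le hNQ
  rw [H7.HypOrd.card_isometryGroup, hcard] at hd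
  exact dvd_two_three (a := 4) (b := 1) (by simpa using hd)

end H96.AschSolv
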