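import Mathlib
import Cfsg.Agent.Lib.H96.AschSp

/-!
Aschbacher library, odd-dimensional orthogonal groups: the subfield, unitary form and symplectic-type cases.
-/

set_option autoImplicit false
set_option linter.unusedSectionVars false

namespace H96.AschOdd

open Cfsg Cfsg.Geo Matrix H97.AschRad H97.AschEnv H97.AschNonab H97.AschGrp H97.AschReal
open H97.AschForm H96.AschSympType1 H96.AschSympType2 H96.AschSympType3 H96.AschSubForm H96.AschSympType5
open H96.AschDescent H96.AschSp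

variable {F : Type*} [Field F] {m : ℕ}

/-- index set of the odd-dimensional case -/
abbrev Ix (m : ℕ) := Unit ⊕ (Fin m ⊕ Fin m)

lemma card_Ix (m : ℕ) : Fintype.card (Ix m) = 2 * m + 1 := by
  rw [Fintype.card_sum, Fintype.card_sum, Fintype.card_unit, Fintype.card_fin]; ring

lemma polar_eq (u v : Ix m → F) : QuadraticMap.polar (quadFormOdd m F) u v =
    2 * (u (.inl ()) * v (.inl ())) +
      ∑ i : Fin m, (u (.inr (.inl i)) * v (.inr (.inr i)) + v (.inr (.inl i)) * u (.inr (.inr i))) := by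
  simp only [QuadraticMap.polar, quadFormOdd, Pi.add_apply]
  have : ∑ i : Fin m, (u (.inr (.inl i)) + v (.inr (.inl i))) * (u (.inr (.inr i)) + v (.inr (.inr i))) =
      ∑ i : Fin m, u (.inr (.inl i)) * u (.inr (.inr i)) + ∑ i : Fin m, v (.inr (.inl i)) * v (.inr (.inr i)) +
      ∑ i : Fin m, (u (.inr (.inl i)) * v (.inr (.inr i)) + v (.inr (.inl i)) * u (.inr (.inr i))) := by
    rw [← Finset.sum_add_distrib, ← Finset.sum_add_distrib]
    exact Finset.sum_congr rfl (fun i _ => by ring)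
  rw [this]
  ring

lemma Q_smul (c : F) (v : Ix m → F) : quadFormOdd m F (c • v) = c ^ 2 * quadFormOdd m F v := by
  simp only [quadFormOdd, Pi.smul_apply, smul_eq_mul, mul_add, Finset.mul_sum]
  congr 1
  · ring
  · exact Finset.sum_congr rfl (fun i _ => by ring)

lemma polar_bilin (m : ℕ) (F : Type*) [Field F] : IsBilinearForm (QuadraticMap.polar (quadFormOdd m F)) := by
  refine ⟨?_, ?_, ?_, ?_⟩
  · intro x y v
    simp only [polar_eq, Pi.add_apply]
    have : ∑ i : Fin m, ((x (.inr (.inl i)) + y (.inr (.inl i))) * v (.inr (.inr i)) +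
        v (.inr (.inl i)) * (x (.inr (.inr i)) + y (.inr (.inr i)))) =
        ∑ i : Fin m, (x (.inr (.inl i)) * v (.inr (.inr i)) + v (.inr (.inl i)) * x (.inr (.inr i))) +
        ∑ i : Fin m, (y (.inr (.inl i)) * v (.inr (.inr i)) + v (.inr (.inl i)) * y (.inr (.inr i))) := by
      rw [← Finset.sum_add_distrib]
      exact Finset.sum_congr rfl (fun i _ => by ring)
    rw [this]; ring
  · intro c x v
    simp only [polar_eq, Pi.smul_apply, smul_eq_mul, mul_add, Finset.mul_sum]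
    congr 1
    · ring
    · exact Finset.sum_congr rfl (fun i _ => by ring)
  · intro v x y
    simp only [polar_eq, Pi.add_apply]
    have : ∑ i : Fin m, (v (.inr (.inl i)) * (x (.inr (.inr i)) + y (.inr (.inr i))) +
        (x (.inr (.inl i)) + y (.inr (.inl i))) * v (.inr (.inr i))) =
        ∑ i : Fin m, (v (.inr (.inl i)) * x (.inr (.inr i)) + x (.inr (.inl i)) * v (.inr (.inr i))) +
        ∑ i : Fin m, (v (.inr (.inl i)) * y (.inr (.inr i)) + y (.inr (.inl i)) * v (.inr (.inr i))) := by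
      rw [← Finset.sum_add_distrib]
      exact Finset.sum_congr rfl (fun i _ => by ring)
    rw [this]; ring
  · intro c v x
    simp only [polar_eq, Pi.smul_apply, smul_eq_mul, mul_add, Finset.mul_sum]
    congr 1
    · ring
    · exact Finset.sum_congr rfl (fun i _ => by ring)

lemma polar_nondeg (h2 : (2 : F) ≠ 0) (v : Ix m → F) (hv : v ≠ 0) :
    ∃ x, QuadraticMap.polar (quadFormOdd m F) v x ≠ 0 := by
  by_contra hno
  push Not at hno
  apply hv
  funext a
  rcases a with a | i | i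
  · have h := hno (Pi.single (.inl ()) 1)
    rw [polar_eq] at h
    simp only [Pi.single_apply, reduceCtorEq, if_false, mul_zero, zero_mul, add_zero, Finset.sum_const_zero,
      if_true, mul_one] at h
    cases a
    exact (mul_eq_zero.mp h).resolve_left h2
  · have h := hno (Pi.single (.inr (.inr i)) 1)
    rw [polar_eq] at h
    simp only [Pi.single_apply, reduceCtorEq, if_false, mul_zero, zero_mul, add_zero, Sum.inr.injEq, mul_ite,
      mul_one, Finset.sum_ite_eq', Finset.mem_univ, if_true, zero_add] at h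
    exact h
  · have h := hno (Pi.single (.inr (.inl i)) 1)
    rw [polar_eq] at h
    simp only [Pi.single_apply, reduceCtorEq, if_false, mul_zero, zero_mul, add_zero, Sum.inr.injEq, Sum.inl.injEq,
      ite_mul, one_mul, Finset.sum_ite_eq', Finset.mem_univ, if_true, zero_add] at h
    exact h

lemma isometry_le (Q : (Ix m → F) → F) : isometryGroup F Q ≤ isom (QuadraticMap.polar Q) := by
  intro g hg u v
  have h : ∀ w, Q ((g : Matrix (Ix m) (Ix m) F) *ᵥ w) = Q w := fun w => hg w w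
  change Q ((g : Matrix (Ix m) (Ix m) F) *ᵥ u + (g : Matrix (Ix m) (Ix m) F) *ᵥ v) -
    Q ((g : Matrix (Ix m) (Ix m) F) *ᵥ u) - Q ((g : Matrix (Ix m) (Ix m) F) *ᵥ v) = _
  rw [← Matrix.mulVec_add, h, h, h]
  rfl

lemma Q_mem {F₁ : Subfield F} {v : Ix m → F} (hv : VOver F₁ v) : quadFormOdd m F v ∈ F₁ := by
  rw [quadFormOdd]
  exact F₁.add_mem (F₁.pow_mem (hv _) 2) (F₁.sum_mem (fun i _ => F₁.mul_mem (hv _) (hv _)))

lemma det_mem {ι : Type} [Fintype ι] [DecidableEq ι] {F₁ : Subfield F} {X : Matrix ι ι F} (hX : IsOver F₁ X) :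
    X.det ∈ F₁ := by
  obtain ⟨Y, hY⟩ := isOver_iff.mp hX
  have h1 : X.det = algebraMap F₁ F Y.det := by
    rw [hY, RingHom.map_det]; rfl
  rw [h1]
  exact (Y.det).2

/-- class 5 -/
theorem subfield_case [Fintype F] (hodd : Odd (Fintype.card F)) {H N : Subgroup (GL (Ix m) F)}
    (hH : H ≤ isometryGroup F (quadFormOdd m F)) (hN : N ≤ isometryGroup F (quadFormOdd m F)) (hNB : NB H N)
    (hfull : Full N) (F₀ : Subfield F) (h0 : F₀ ≠ ⊤)
    (hreal : RealisableOver F₀ (matrixSet N)) : ∃ M, InOrthogonalOddClass m F M ∧ H ≤ M := by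
  classical
  have hne : Nonempty (Ix m) := ⟨.inl ()⟩
  have h2 := two_ne_zero_of_odd hodd
  set Q := quadFormOdd m F with hQ
  set f := QuadraticMap.polar Q with hf
  have hbil : IsBilinearForm f := polar_bilin m F
  have hses : IsSesq (RingEquiv.refl F) f := IsSesq.of_bilinear hbil
  have hnd : ∀ v : Ix m → F, v ≠ 0 → ∃ x, f v x ≠ 0 := fun v hv => polar_nondeg h2 v hv
  obtain ⟨F₁, r, P, ζ, _, hr, hcard, hP, hζ, hζ2⟩ := exists_rational_structure hfull (σ := RingEquiv.refl F) (k := 1)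
    (fun x => by rw [pow_one]; rfl) hses hnd (fixesForm_iff.2 (hN.trans (isometry_le Q))) F₀ h0 hreal
  -- determinants
  have hs : ∀ j : Ix m, VOver F₁ (Pi.single j (1 : F) : Ix m → F) := by
    intro j k
    by_cases hk : k = j
    · subst hk; rw [Pi.single_eq_same]; exact F₁.one_mem
    · rw [Pi.single_eq_of_ne hk]; exact F₁.zero_mem
  let G : Matrix (Ix m) (Ix m) F := gram f
  have hG : IsOver F₁ G := by
    intro a b
    change Q (_ + _) - Q _ - Q _ ∈ F₁
    have hadd : VOver F₁ ((Pi.single a (1 : F) : Ix m → F) + Pi.single b (1 : F)) :=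
      fun k => F₁.add_mem (hs a k) (hs b k)
    exact F₁.sub_mem (F₁.sub_mem (Q_mem hadd) (Q_mem (hs a))) (Q_mem (hs b))
  have hGdet : G.det ≠ 0 := by
    have h3 := hses.isUnit_gram hnd
    rw [Matrix.isUnit_iff_isUnit_det, Matrix.det_transpose] at h3
    exact h3.ne_zero
  let G' : Matrix (Ix m) (Ix m) F := (P : Matrix (Ix m) (Ix m) F)ᵀ * G * (P : Matrix (Ix m) (Ix m) F)
  have hG'val : ∀ a b, G' a b = f ((P : Matrix (Ix m) (Ix m) F) *ᵥ Pi.single a 1)
      ((P : Matrix (Ix m) (Ix m) F) *ᵥ Pi.single b 1) := by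
    intro a b
    rw [hses.eq_dot]
    have e1 : (fun i => (RingEquiv.refl F) (((P : Matrix (Ix m) (Ix m) F) *ᵥ Pi.single b 1) i)) =
        (P : Matrix (Ix m) (Ix m) F) *ᵥ Pi.single b 1 := rfl
    rw [e1, Matrix.mulVec_single_one, Matrix.mulVec_single_one]
    simp only [G', Matrix.mul_apply, dotProduct, mulVec, Matrix.transpose_apply, Matrix.col_apply]
    refine Finset.sum_congr rfl (fun i _ => ?_)
    congr 1
    refine Finset.sum_congr rfl (fun j _ => ?_)
    rw [mul_comm]
  have hζG : IsOver F₁ (ζ • G') := by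
    intro a b
    rw [Matrix.smul_apply, smul_eq_mul, hG'val]
    exact hζ2 _ _ (hs a) (hs b)
  have hdet := det_mem hζG
  rw [Matrix.det_smul, card_Ix, Matrix.det_mul, Matrix.det_mul, Matrix.det_transpose] at hdet
  set δ := (P : Matrix (Ix m) (Ix m) F).det with hδ
  have hδ0 : δ ≠ 0 := by
    have := (Matrix.isUnit_iff_isUnit_det _).1 (Units.isUnit P)
    exact this.ne_zero
  let w := ζ ^ m * δ
  have hw0 : w ≠ 0 := mul_ne_zero (pow_ne_zero _ hζ) hδ0
  have ha : ζ * w ^ 2 ∈ F₁ := by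
    have h3 := F₁.mul_mem hdet (F₁.inv_mem (det_mem hG))
    have h4 : ζ ^ (2 * m + 1) * (δ * G.det * δ) * (G.det)⁻¹ = ζ * w ^ 2 := by
      simp only [w]
      field_simp
      ring
    rw [h4] at h3
    exact h3
  let c : Fˣ := (Units.mk0 w hw0)⁻¹
  have hcv : (c : F) = w⁻¹ := by simp [c]
  have hrat : ∀ u v, VOver F₁ u → VOver F₁ v → f (((sc (Ix m) c * P : GL (Ix m) F) : Matrix (Ix m) (Ix m) F) *ᵥ u)
      (((sc (Ix m) c * P : GL (Ix m) F) : Matrix (Ix m) (Ix m) F) *ᵥ v) ∈ F₁ := by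
    intro u v hu hv
    have e1 : ∀ x : Ix m → F, ((sc (Ix m) c * P : GL (Ix m) F) : Matrix (Ix m) (Ix m) F) *ᵥ x =
        (c : F) • ((P : Matrix (Ix m) (Ix m) F) *ᵥ x) := by
      intro x
      rw [Units.val_mul, sc_val, Matrix.smul_mul, one_mul, Matrix.smul_mulVec]
    rw [e1, e1, hses.smul_left, hses.smul_right, RingEquiv.refl_apply, hcv]
    have h3 := F₁.mul_mem (F₁.inv_mem ha) (hζ2 u v hu hv)
    have h4 : (ζ * w ^ 2)⁻¹ * (ζ * f ((P : Matrix (Ix m) (Ix m) F) *ᵥ u) ((P : Matrix (Ix m) (Ix m) F) *ᵥ v)) =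
        w⁻¹ * (w⁻¹ * f ((P : Matrix (Ix m) (Ix m) F) *ᵥ u) ((P : Matrix (Ix m) (Ix m) F) *ᵥ v)) := by
      field_simp
    rw [h4] at h3
    exact h3
  refine ⟨subfieldSubgroup F₁ (sc (Ix m) c * P) ⊓ isometryGroup F Q, ?_, ?_⟩
  · refine Or.inr (Or.inr (Or.inr (Or.inr (Or.inr (Or.inr (Or.inl ⟨F₁, r, sc (Ix m) c * P, hr, hcard, ?_, rfl⟩))))))
    intro u hu
    have h3 := hrat u u hu hu
    have h4 : f (((sc (Ix m) c * P : GL (Ix m) F) : Matrix (Ix m) (Ix m) F) *ᵥ u)
        (((sc (Ix m) c * P : GL (Ix m) F) : Matrix (Ix m) (Ix m) F) *ᵥ u) =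
        2 * Q (((sc (Ix m) c * P : GL (Ix m) F) : Matrix (Ix m) (Ix m) F) *ᵥ u) := by
      rw [hf, QuadraticMap.polar, ← two_smul F, hQ, Q_smul]
      ring
    rw [h4] at h3
    have h5 : (2 : F) ∈ F₁ := by
      have : (2 : F) = 1 + 1 := by norm_num
      rw [this]; exact F₁.add_mem F₁.one_mem F₁.one_mem
    have h6 := F₁.mul_mem (F₁.inv_mem h5) h3
    rw [← mul_assoc, inv_mul_cancel₀ h2, one_mul] at h6
    exact h6
  · intro h hh
    exact ⟨norm_mem_subfieldSubgroup hfull F₁ _ (overVia_smul hP c) (fun x hx => hNB h hh x hx), hH hh⟩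

/-- a full orthogonal group fixing a unitary form is realisable over a proper subfield -/
theorem unitary_case [Fintype F] (hodd : Odd (Fintype.card F)) {H N : Subgroup (GL (Ix m) F)}
    (hH : H ≤ isometryGroup F (quadFormOdd m F)) (hN : N ≤ isometryGroup F (quadFormOdd m F)) (hNB : NB H N)
    (hfull : Full N)
    (hu : ∃ (σ : F ≃+* F) (f : (Ix m → F) → (Ix m → F) → F), IsUnitaryForm σ f ∧ FixesForm (matrixSet N) f) :
    ∃ M, InOrthogonalOddClass m F M ∧ H ≤ M := by
  have hne : Nonempty (Ix m) := ⟨.inl ()⟩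
  have h2 := two_ne_zero_of_odd hodd
  obtain ⟨σ, f, hf, hfix⟩ := hu
  exact subfield_case hodd hH hN hNB hfull (fixField σ) (fixField_ne_top hf.ne_refl)
    (realisable_of_two_forms hfull (IsSesq.of_unitary hf) (IsSesq.of_bilinear (polar_bilin m F))
      (fun v hv => (hf.nondegenerate v hv).2) (fun v hv => polar_nondeg h2 v hv) hfix
      (fixesForm_iff.2 (hN.trans (isometry_le _))))

/-- there is no symplectic-type case in odd dimension -/
theorem sympType_false [Fintype F] (hodd : Odd (Fintype.card F)) (hm : 1 ≤ m) {H N : Subgroup (GL (Ix m) F)}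
    (hH : H ≤ isometryGroup F (quadFormOdd m F)) (hNH : N ≤ H) (hNB : NB H N) (hfull : Full N)
    (hnil : ∀ x ∈ N, ∀ y ∈ N, x * y * x⁻¹ * y⁻¹ ∈ scalars (Ix m) F)
    (hmin : ∀ M ≤ H, NB H M → M ≤ scalars (Ix m) F ∨ Full M) : False := by
  classical
  have hne : Nonempty (Ix m) := ⟨.inl ()⟩
  have h2 := two_ne_zero_of_odd hodd
  have hcard2 : 2 ≤ Fintype.card (Ix m) := by rw [card_Ix]; omega
  have hses : IsSesq (RingEquiv.refl F) (QuadraticMap.polar (quadFormOdd m F)) := IsSesq.of_bilinear (polar_bilin m F)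
  have hnz := exists_ne_of_nondeg (ι := Ix m) (F := F) (fun v hv => polar_nondeg h2 v hv)
  have hL := ctx_of H N hNH hNB hfull hnil hmin
  obtain ⟨r, p, R, hD, hRN, hRH⟩ := exists_sympData hcard2 H N hNH hNB hfull hnil hmin
  have hHI : H ≤ isom (QuadraticMap.polar (quadFormOdd m F)) := hH.trans (isometry_le _)
  have hRs : R ≤ similarityGroup (QuadraticMap.polar (quadFormOdd m F)) :=
    hRN.trans (sup_le ((hNH.trans hHI).trans (isom_le_sim _)) (scalars_le_sim hses))
  have hS := full_inf_isom hcard2 hL hRN hRH hD.full hnz hRs hHI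
  set S := R ⊓ isom (QuadraticMap.polar (quadFormOdd m F)) with hSdef
  have hSR : S ≤ R := inf_le_left
  have hSnil : Nil2 S := fun x hx y hy => hD.nil x (hSR hx) y (hSR hy)
  have hsc : ∀ c : Fˣ, sc (Ix m) c ∈ S → (c : F) * (c : F) = 1 := by
    intro c hc
    exact (sc_mem_isom hses hnz).1 hc.2
  have hpow2 : ∀ k, 1 ≤ k → Fintype.card (Ix m) = 2 ^ k → False := by
    intro k hk hk2
    rw [card_Ix] at hk2
    have : Even (2 ^ k) := even_two.pow_of_ne_zero (by omega)
    rw [← hk2] at this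
    exact (Nat.not_even_iff_odd.mpr (odd_two_mul_add_one m)) this
  rcases hD.cases with ⟨hro, hz, _⟩ | ⟨_, _, _, k, h1, _, h3⟩ | ⟨_, _, _, k, h1, _, h3⟩
  · apply not_comm_of_full hcard2 hS
    intro x hx y hy
    obtain ⟨c, hc⟩ := mem_scalars_sc.1 (hSnil x hx y hy)
    have hcS : sc (Ix m) c ∈ S := by
      rw [hc]
      exact S.mul_mem (S.mul_mem (S.mul_mem hx hy) (S.inv_mem hx)) (S.inv_mem hy)
    have h1 := hsc c hcS
    have h3 : c ^ 2 = 1 := by
      apply Units.ext
      rw [Units.val_pow_eq_pow_val, sq, h1, Units.val_one]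
    have h4 := (hD.roots c).1 (hSR hcS)
    rw [hz] at h4
    have h5 : c = 1 := by
      obtain ⟨k, hk⟩ := hro
      rw [hk, pow_succ, pow_mul, h3, one_pow, one_mul] at h4
      exact h4
    rw [h5, map_one] at hc
    have : x * y = (x * y * x⁻¹ * y⁻¹) * (y * x) := by group
    rw [this, ← hc, one_mul]
  · exact hpow2 k h1 h3
  · exact hpow2 k h1 h3

end H96.AschOdd
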