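import Mathlib
import Cfsg.Agent.Lib.H96.AschSU2
import Cfsg.Agent.Lib.H96.AschOdd

/-!
Aschbacher library, odd-dimensional orthogonal groups: reducible groups; frames over non-prime fields; the centre of the
enveloping algebra of an invariant subgroup.
-/

set_option autoImplicit false
set_option linter.unusedSectionVars false

namespace H96.AschOdd2

open Cfsg Cfsg.Geo Matrix H97.AschRad H97.AschEnv H97.AschNonab H97.AschGrp H97.AschLinear H97.AschIdem H97.AschDecomp
open H97.AschForm H97.AschSubfield H97.AschReal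
open H96.AschSympType1 H96.AschSympType3 H96.AschSubForm H96.AschSympType5 H96.AschAdj H96.AschComm H96.AschField
open H96.AschSp H96.AschSp2 H96.AschSU2 H96.AschOdd

variable {F : Type*} [Field F] {m : ℕ}

lemma polar_symm (u v : Ix m → F) : QuadraticMap.polar (quadFormOdd m F) u v =
    QuadraticMap.polar (quadFormOdd m F) v u := by
  rw [QuadraticMap.polar, QuadraticMap.polar, add_comm u v]; ring

lemma polar_self (v : Ix m → F) : QuadraticMap.polar (quadFormOdd m F) v v = 2 * quadFormOdd m F v := by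
  rw [QuadraticMap.polar, ← two_smul F, Q_smul]; ring

theorem odd_hform (h2 : (2 : F) ≠ 0) (m : ℕ) :
    HForm (RingEquiv.refl F) 1 (QuadraticMap.polar (quadFormOdd m F)) where
  sesq := IsSesq.of_bilinear (polar_bilin m F)
  invol _ := rfl
  eps := Or.inl rfl
  herm v w := by rw [one_mul]; exact polar_symm v w
  nd v hv := polar_nondeg h2 v hv

theorem reducible_odd [Fintype F] (hodd : Odd (Fintype.card F)) {H : Subgroup (GL (Ix m) F)}
    (hH : H ≤ isometryGroup F (quadFormOdd m F)) (hred : ¬ ActsIrreducibly (matrixSet H)) :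
    ∃ M, InOrthogonalOddClass m F M ∧ H ≤ M := by
  have h2 := two_ne_zero_of_odd hodd
  rcases (odd_hform h2 m).reducible_case (hH.trans (isometry_le _)) hred with
    ⟨W, hW0, hts, hHW⟩ | ⟨W, hW0, hnd, hdim, hHW⟩ | ⟨k, D, hk, hD, hHD⟩
  · refine ⟨subspaceStabilizer W ⊓ isometryGroup F (quadFormOdd m F), Or.inl ⟨W, hW0, ?_, rfl⟩, le_inf hHW hH⟩
    intro w hw
    have h1 := hts w hw w hw
    rw [polar_self] at h1
    exact (mul_eq_zero.mp h1).resolve_left h2
  · refine ⟨subspaceStabilizer W ⊓ isometryGroup F (quadFormOdd m F), Or.inr (Or.inl ⟨W, hW0, ?_, hnd, rfl⟩),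
      le_inf hHW hH⟩
    rintro rfl
    rw [finrank_top, Module.finrank_fintype_fun_eq_card] at hdim
    omega
  · exfalso
    rw [card_Ix] at hk
    omega

/-- rescaling a rational structure, by determinants -/
lemma rescale (h2 : (2 : F) ≠ 0) (F₁ : Subfield F) (P : GL (Ix m) F) {ζ : F} (hζ : ζ ≠ 0)
    (hζ2 : IsFormRationalStructure (QuadraticMap.polar (quadFormOdd m F)) F₁ ζ P) :
    ∃ c : Fˣ, IsQuadFormRationalStructure (quadFormOdd m F) F₁ (sc (Ix m) c * P) := by
  classical
  set Q := quadFormOdd m F with hQ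
  set f := QuadraticMap.polar Q with hf
  have hbil : IsBilinearForm f := polar_bilin m F
  have hses : IsSesq (RingEquiv.refl F) f := IsSesq.of_bilinear hbil
  have hnd : ∀ v : Ix m → F, v ≠ 0 → ∃ x, f v x ≠ 0 := fun v hv => polar_nondeg h2 v hv
  have hs : ∀ j : Ix m, VOver F₁ (Pi.single j (1 : F) : Ix m → F) := by
    intro j k
    by_cases hk : k = j
    · subst hk; rw [Pi.single_eq_same]; exact F₁.one_mem
    · rw [Pi.single_eq_of_ne hk]; exact F₁.zero_mem
  let G : Matrix (Ix m) (Ix m) F := gram f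
  have hG : IsOver F₁ G := by
    intro a b
    change Q (_ + _) - Q _ - Q _ ∈ F₁
    have hadd : VOver F₁ ((Pi.single a (1 : F) : Ix m → F) + Pi.single b (1 : F)) :=
      fun k => F₁.add_mem (hs a k) (hs b k)
    exact F₁.sub_mem (F₁.sub_mem (Q_mem hadd) (Q_mem (hs a))) (Q_mem (hs b))
  have hGdet : G.det ≠ 0 := by
    have h3 := hses.isUnit_gram hnd
    rw [Matrix.isUnit_iff_isUnit_det, Matrix.det_transpose] at h3
    exact h3.ne_zero
  let G' : Matrix (Ix m) (Ix m) F := (P : Matrix (Ix m) (Ix m) F)ᵀ * G * (P : Matrix (Ix m) (Ix m) F)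
  have hG'val : ∀ a b, G' a b = f ((P : Matrix (Ix m) (Ix m) F) *ᵥ Pi.single a 1)
      ((P : Matrix (Ix m) (Ix m) F) *ᵥ Pi.single b 1) := by
    intro a b
    rw [hses.eq_dot]
    have e1 : (fun i => (RingEquiv.refl F) (((P : Matrix (Ix m) (Ix m) F) *ᵥ Pi.single b 1) i)) =
        (P : Matrix (Ix m) (Ix m) F) *ᵥ Pi.single b 1 := rfl
    rw [e1, Matrix.mulVec_single_one, Matrix.mulVec_single_one]
    simp only [G', Matrix.mul_apply, dotProduct, mulVec, Matrix.transpose_apply, Matrix.col_apply]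
    refine Finset.sum_congr rfl (fun i _ => ?_)
    congr 1
    refine Finset.sum_congr rfl (fun j _ => ?_)
    rw [mul_comm]
  have hζG : IsOver F₁ (ζ • G') := by
    intro a b
    rw [Matrix.smul_apply, smul_eq_mul, hG'val]
    exact hζ2 _ _ (hs a) (hs b)
  have hdet := det_mem hζG
  rw [Matrix.det_smul, card_Ix, Matrix.det_mul, Matrix.det_mul, Matrix.det_transpose] at hdet
  set δ := (P : Matrix (Ix m) (Ix m) F).det with hδ
  have hδ0 : δ ≠ 0 := by
    have := (Matrix.isUnit_iff_isUnit_det _).1 (Units.isUnit P)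
    exact this.ne_zero
  let w := ζ ^ m * δ
  have hw0 : w ≠ 0 := mul_ne_zero (pow_ne_zero _ hζ) hδ0
  have ha : ζ * w ^ 2 ∈ F₁ := by
    have h3 := F₁.mul_mem hdet (F₁.inv_mem (det_mem hG))
    have h4 : ζ ^ (2 * m + 1) * (δ * G.det * δ) * (G.det)⁻¹ = ζ * w ^ 2 := by
      simp only [w]
      field_simp
      ring
    rw [h4] at h3
    exact h3
  let c : Fˣ := (Units.mk0 w hw0)⁻¹
  have hcv : (c : F) = w⁻¹ := by simp [c]
  have hrat : ∀ u v, VOver F₁ u → VOver F₁ v → f (((sc (Ix m) c * P : GL (Ix m) F) : Matrix (Ix m) (Ix m) F) *ᵥ u)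
      (((sc (Ix m) c * P : GL (Ix m) F) : Matrix (Ix m) (Ix m) F) *ᵥ v) ∈ F₁ := by
    intro u v hu hv
    have e1 : ∀ x : Ix m → F, ((sc (Ix m) c * P : GL (Ix m) F) : Matrix (Ix m) (Ix m) F) *ᵥ x =
        (c : F) • ((P : Matrix (Ix m) (Ix m) F) *ᵥ x) := by
      intro x
      rw [Units.val_mul, sc_val, Matrix.smul_mul, one_mul, Matrix.smul_mulVec]
    rw [e1, e1, hses.smul_left, hses.smul_right, RingEquiv.refl_apply, hcv]
    have h3 := F₁.mul_mem (F₁.inv_mem ha) (hζ2 u v hu hv)
    have h4 : (ζ * w ^ 2)⁻¹ * (ζ * f ((P : Matrix (Ix m) (Ix m) F) *ᵥ u) ((P : Matrix (Ix m) (Ix m) F) *ᵥ v)) =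
        w⁻¹ * (w⁻¹ * f ((P : Matrix (Ix m) (Ix m) F) *ᵥ u) ((P : Matrix (Ix m) (Ix m) F) *ᵥ v)) := by
      field_simp
    rw [h4] at h3
    exact h3
  refine ⟨c, ?_⟩
  intro u hu
  have h3 := hrat u u hu hu
  have h4 : f (((sc (Ix m) c * P : GL (Ix m) F) : Matrix (Ix m) (Ix m) F) *ᵥ u)
      (((sc (Ix m) c * P : GL (Ix m) F) : Matrix (Ix m) (Ix m) F) *ᵥ u) =
      2 * Q (((sc (Ix m) c * P : GL (Ix m) F) : Matrix (Ix m) (Ix m) F) *ᵥ u) := by
    rw [hf, QuadraticMap.polar, ← two_smul F, hQ, Q_smul]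
    ring
  rw [h4] at h3
  have h5 : (2 : F) ∈ F₁ := by
    have : (2 : F) = 1 + 1 := by norm_num
    rw [this]; exact F₁.add_mem F₁.one_mem F₁.one_mem
  have h6 := F₁.mul_mem (F₁.inv_mem h5) h3
  rw [← mul_assoc, inv_mul_cancel₀ h2, one_mul] at h6
  exact h6

lemma le_subfieldSubgroup_of_over {ι : Type} [Fintype ι] [DecidableEq ι] {F : Type*} [Field F] {F₁ : Subfield F}
    {P : GL ι F} {H : Subgroup (GL ι F)} (hP : OverVia F₁ P H) : H ≤ subfieldSubgroup F₁ P := by
  intro g hg
  obtain ⟨Y, hY⟩ := isOver_iff.mp (hP g hg)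
  obtain ⟨Y', hY'⟩ := isOver_iff.mp (hP g⁻¹ (H.inv_mem hg))
  have hinj : Function.Injective (fun X : Matrix ι ι F₁ => X.map (algebraMap F₁ F)) :=
    Matrix.map_injective (algebraMap F₁ F).injective
  have e1 : Y * Y' = 1 := by
    apply hinj
    change (Y * Y').map (algebraMap F₁ F) = (1 : Matrix ι ι F₁).map (algebraMap F₁ F)
    rw [Matrix.map_mul, ← hY, ← hY', ← Units.val_mul, Matrix.map_one _ (map_zero _) (map_one _)]
    have : P⁻¹ * g * P * (P⁻¹ * g⁻¹ * P) = 1 := by group
    rw [this, Units.val_one]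
  have e2 : Y' * Y = 1 := by
    apply hinj
    change (Y' * Y).map (algebraMap F₁ F) = (1 : Matrix ι ι F₁).map (algebraMap F₁ F)
    rw [Matrix.map_mul, ← hY, ← hY', ← Units.val_mul, Matrix.map_one _ (map_zero _) (map_one _)]
    have : P⁻¹ * g⁻¹ * P * (P⁻¹ * g * P) = 1 := by group
    rw [this, Units.val_one]
  refine ⟨P⁻¹ * g * P, ?_, ?_⟩
  · apply (le_sup_left : _ ≤ (Matrix.GeneralLinearGroup.map (n := ι) (F₁.subtype : F₁ →+* F)).range ⊔ scalars ι F)
    refine ⟨⟨Y, Y', e1, e2⟩, ?_⟩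
    apply Units.ext
    rw [hY]
    rfl
  · change P * (P⁻¹ * g * P) * P⁻¹ = g
    group

/-- a rational structure on which the group is defined gives a member of class 5 -/
theorem class_five [Fintype F] (h2 : (2 : F) ≠ 0) {H : Subgroup (GL (Ix m) F)}
    (hH : H ≤ isometryGroup F (quadFormOdd m F)) (F₁ : Subfield F) {r : ℕ} (hr : r.Prime)
    (hcard : Fintype.card F = Nat.card F₁ ^ r) (P : GL (Ix m) F) {ζ : F} (hζ : ζ ≠ 0)
    (hζ2 : IsFormRationalStructure (QuadraticMap.polar (quadFormOdd m F)) F₁ ζ P) (hP : OverVia F₁ P H) :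
    ∃ M, InOrthogonalOddClass m F M ∧ H ≤ M := by
  obtain ⟨c, hc⟩ := rescale h2 F₁ P hζ hζ2
  refine ⟨subfieldSubgroup F₁ (sc (Ix m) c * P) ⊓ isometryGroup F (quadFormOdd m F), ?_, ?_⟩
  · exact Or.inr (Or.inr (Or.inr (Or.inr (Or.inr (Or.inr (Or.inl ⟨F₁, r, sc (Ix m) c * P, hr, hcard, hc, rfl⟩))))))
  · exact le_inf (le_subfieldSubgroup_of_over (overVia_smul hP c)) hH

/-- orthogonal frames over a non-prime field -/
theorem frame_case [Fintype F] (hodd : Odd (Fintype.card F)) (hnp : ¬ (Fintype.card F).Prime)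
    {H : Subgroup (GL (Ix m) F)} (hH : H ≤ isometryGroup F (quadFormOdd m F)) {t : ℕ}
    {D : Fin t → Submodule F (Ix m → F)} (hD : IsOrthogonalMDecomposition (quadFormOdd m F) 1 D)
    (hHD : H ≤ decompositionStabilizer D) : ∃ M, InOrthogonalOddClass m F M ∧ H ≤ M := by
  classical
  have h2 := two_ne_zero_of_odd hodd
  set Q := quadFormOdd m F with hQ
  set f := QuadraticMap.polar Q with hf
  have hses : IsSesq (RingEquiv.refl F) f := IsSesq.of_bilinear (polar_bilin m F)
  have hself : ∀ v, f v v = 2 * Q v := fun v => polar_self v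
  -- the vectors
  let i0 : Fin t := ⟨0, by have := hD.decomp.decomp.two_le; omega⟩
  have hd1 : ∀ i, Module.finrank F (D i) = 1 := hD.decomp.decomp.finrank_eq
  obtain ⟨v0, hv0⟩ := finrank_eq_one_iff'.mp (hd1 i0)
  have hv00 : v0 ≠ 0 := hv0.1
  choose e he using fun i => hD.isometric i0 i
  let v : Fin t → (Ix m → F) := fun i => (e i v0 : D i)
  have hvD : ∀ i, v i ∈ D i := fun i => (e i v0).2
  have hv0' : ∀ i, v i ≠ 0 := by
    intro i h0
    have h3 : e i v0 = 0 := Subtype.ext h0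
    exact hv00 ((e i).map_eq_zero_iff.mp h3)
  set c : F := Q (v0 : Ix m → F) with hc
  have hQv : ∀ i, Q (v i) = c := fun i => he i v0
  have hspan : ∀ i, ∀ w ∈ D i, ∃ a : F, w = a • v i := by
    intro i w hw
    obtain ⟨a, ha⟩ := (finrank_eq_one_iff_of_nonzero' (e i v0) (fun h0 => hv0' i (congrArg Subtype.val h0))).mp (hd1 i) ⟨w, hw⟩
    exact ⟨a, (congrArg Subtype.val ha).symm⟩
  have horth : ∀ i j, i ≠ j → f (v i) (v j) = 0 := fun i j hij => hD.decomp.orthogonal i j hij _ (hvD i) _ (hvD j)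
  have hvv : ∀ i, f (v i) (v i) = 2 * c := fun i => by rw [hself, hQv]
  have hc0 : c ≠ 0 := by
    intro h0
    obtain ⟨x, hx, hx0⟩ := (hD.decomp.nondegenerate i0 (v i0) (hvD i0) (hv0' i0)).1
    obtain ⟨a, rfl⟩ := hspan i0 x hx
    apply hx0
    change f _ _ = 0
    rw [hses.smul_left, hvv, h0, mul_zero, mul_zero]
  -- basis
  have hli : LinearIndependent F v := by
    rw [Fintype.linearIndependent_iff]
    intro g hg i
    have h3 : f (∑ j, g j • v j) (v i) = 0 := by rw [hg, hses.zero_left]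
    rw [hses.sum_left, Finset.sum_eq_single i] at h3
    · rw [hses.smul_left, hvv] at h3
      exact (mul_eq_zero.mp h3).resolve_right (mul_ne_zero h2 hc0)
    · intro j _ hj
      rw [hses.smul_left, horth j i hj, mul_zero]
    · intro h; exact absurd (Finset.mem_univ _) h
  have hsp : ⊤ ≤ Submodule.span F (Set.range v) := by
    rw [← hD.decomp.decomp.iSup_eq_top]
    apply iSup_le
    intro i w hw
    obtain ⟨a, rfl⟩ := hspan i w hw
    exact Submodule.smul_mem _ _ (Submodule.subset_span ⟨i, rfl⟩)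
  let b := Module.Basis.mk hli hsp
  have hb : ∀ i, b i = v i := fun i => Module.Basis.mk_apply hli hsp i
  have hcard : t = Fintype.card (Ix m) := by
    have h3 := Module.finrank_eq_card_basis b
    rw [Module.finrank_fintype_fun_eq_card, Fintype.card_fin] at h3
    exact h3.symm
  let φ : Ix m ≃ Fin t := Fintype.equivOfCardEq (by rw [Fintype.card_fin]; exact hcard.symm)
  let b' := b.reindex φ.symm
  have hb' : ∀ j, b' j = v (φ j) := by
    intro j
    rw [Module.Basis.reindex_apply, Equiv.symm_symm, hb]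
  let P : GL (Ix m) F := ⟨(Pi.basisFun F (Ix m)).toMatrix b', b'.toMatrix (Pi.basisFun F (Ix m)),
    Module.Basis.toMatrix_mul_toMatrix_flip _ _, Module.Basis.toMatrix_mul_toMatrix_flip _ _⟩
  have hP : ∀ j, (P : Matrix (Ix m) (Ix m) F) *ᵥ Pi.single j 1 = v (φ j) := by
    intro j
    rw [Matrix.mulVec_single_one]
    funext i
    change (Pi.basisFun F (Ix m)).toMatrix b' i j = _
    rw [Module.Basis.toMatrix_apply, Pi.basisFun_repr, hb']
  have hPinv : ∀ j, ((P⁻¹ : GL (Ix m) F) : Matrix (Ix m) (Ix m) F) *ᵥ v (φ j) = Pi.single j 1 := by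
    intro j
    rw [← hP, Matrix.mulVec_mulVec, Units.inv_mul, Matrix.one_mulVec]
  have hfP : ∀ u w : Ix m → F, f ((P : Matrix (Ix m) (Ix m) F) *ᵥ u) ((P : Matrix (Ix m) (Ix m) F) *ᵥ w) =
      2 * c * ∑ i, u i * w i := by
    have hexp : ∀ u : Ix m → F, (P : Matrix (Ix m) (Ix m) F) *ᵥ u = ∑ j, u j • v (φ j) := by
      intro u
      conv_lhs => rw [vec_eq_sum u, Matrix.mulVec_sum]
      exact Finset.sum_congr rfl (fun j _ => by rw [Matrix.mulVec_smul, hP])
    intro u w
    rw [hexp u, hexp w, hses.sum_left, Finset.mul_sum]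
    refine Finset.sum_congr rfl (fun i _ => ?_)
    rw [hses.sum_right, Finset.sum_eq_single i]
    · rw [hses.smul_left, hses.smul_right, hvv, RingEquiv.refl_apply]; ring
    · intro j _ hj
      rw [hses.smul_left, hses.smul_right, horth _ _ (fun h3 => hj (φ.injective h3).symm), mul_zero, mul_zero]
    · intro h; exact absurd (Finset.mem_univ _) h
  -- the subfield
  obtain ⟨p, hp⟩ := CharP.exists F
  obtain ⟨d, hpp, hcardF⟩ := FiniteField.card F p
  have : Fact p.Prime := ⟨hpp⟩
  have hd2 : 1 < (d : ℕ) := by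
    have := d.pos
    by_contra hlt
    have hd' : (d : ℕ) = 1 := by omega
    rw [hd', pow_one] at hcardF
    rw [hcardF] at hnp
    exact hnp hpp
  obtain ⟨F₁, r, -, hr, hcard1⟩ := exists_prime_subfield (powField F p 1)
    (powField_ne_top one_pos hd2 hcardF)
  have h2c : 2 * c ≠ 0 := mul_ne_zero h2 hc0
  apply class_five h2 hH F₁ hr hcard1 P (ζ := (2 * c)⁻¹) (inv_ne_zero h2c)
  · intro u w hu hw
    change (2 * c)⁻¹ * f _ _ ∈ F₁
    rw [hfP, ← mul_assoc, inv_mul_cancel₀ h2c, one_mul]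
    exact F₁.sum_mem (fun i _ => F₁.mul_mem (hu i) (hw i))
  · intro g hg i j
    obtain ⟨s, hs⟩ := hHD hg
    have h3 : (g : Matrix (Ix m) (Ix m) F) *ᵥ v (φ j) ∈ D (s (φ j)) := by
      rw [← hs]
      exact ⟨v (φ j), hvD _, by rw [Matrix.toLin'_apply]⟩
    obtain ⟨a, ha⟩ := hspan _ _ h3
    have ha2 : a ^ 2 = 1 := by
      have h4 : Q ((g : Matrix (Ix m) (Ix m) F) *ᵥ v (φ j)) = Q (v (φ j)) := hH hg (v (φ j)) (v (φ j))
      rw [ha, hQ, Q_smul, ← hQ, hQv, hQv] at h4
      exact mul_eq_right₀ hc0 |>.mp h4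
    have ha1 : a ∈ F₁ := by
      have ha3 : a * a = 1 := by rw [← sq]; exact ha2
      rcases mul_self_eq_one_iff.mp ha3 with h5 | h5
      · rw [h5]; exact F₁.one_mem
      · rw [h5]; exact F₁.neg_mem F₁.one_mem
    have h6 : ((P⁻¹ * g * P : GL (Ix m) F) : Matrix (Ix m) (Ix m) F) *ᵥ Pi.single j 1 =
        a • Pi.single (φ.symm (s (φ j))) 1 := by
      rw [Units.val_mul, Units.val_mul, ← Matrix.mulVec_mulVec, hP, ← Matrix.mulVec_mulVec, ha, Matrix.mulVec_smul]
      have h7 := hPinv (φ.symm (s (φ j)))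
      rw [Equiv.apply_symm_apply] at h7
      rw [h7]
    have h8 := congrFun h6 i
    rw [Matrix.mulVec_single_one] at h8
    change ((P⁻¹ * g * P : GL (Ix m) F) : Matrix (Ix m) (Ix m) F) i j ∈ F₁
    change ((P⁻¹ * g * P : GL (Ix m) F) : Matrix (Ix m) (Ix m) F) i j = _ at h8
    rw [h8, Pi.smul_apply, smul_eq_mul]
    apply F₁.mul_mem ha1
    by_cases hi : i = φ.symm (s (φ j))
    · rw [hi, Pi.single_eq_same]; exact F₁.one_mem
    · rw [Pi.single_eq_of_ne hi]; exact F₁.zero_mem

/-- a skew-adjoint invertible element forces even dimension -/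
lemma even_of_skew {ι : Type} [Fintype ι] [DecidableEq ι] {f : (ι → F) → (ι → F) → F} (h2 : (2 : F) ≠ 0)
    (h : HForm (RingEquiv.refl F) 1 f) {d y : Matrix ι ι F} (hd : h.adj d = -d) (hy : y * d = 1) :
    Even (Fintype.card ι) := by
  have hsymm : ∀ u v, f u v = f v u := fun u v => by rw [h.herm u v, one_mul]; rfl
  have hneg : ∀ u v, f u ((-d) *ᵥ v) = - f u (d *ᵥ v) := by
    intro u v
    have : (-d) *ᵥ v = (-1 : F) • (d *ᵥ v) := by rw [Matrix.neg_mulVec, neg_one_smul]
    rw [this, h.sesq.smul_right, RingEquiv.refl_apply, neg_one_mul]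
  have hskew : ∀ u v, f (d *ᵥ u) v = - f (d *ᵥ v) u := by
    intro u v
    rw [h.adj_spec, hd, hneg, hsymm u]
  have halt : ∀ v, f (d *ᵥ v) v = 0 := by
    intro v
    have h1 := hskew v v
    have h3 : (2 : F) * f (d *ᵥ v) v = 0 := by
      rw [two_mul]
      nth_rewrite 1 [h1]
      exact neg_add_cancel _
    exact (mul_eq_zero.mp h3).resolve_left h2
  have hnd : ∀ v : ι → F, v ≠ 0 → ∃ x, f (d *ᵥ v) x ≠ 0 := by
    intro v hv
    apply h.nd
    intro h0
    apply hv
    have : (y * d) *ᵥ v = 0 := by rw [← Matrix.mulVec_mulVec, h0, Matrix.mulVec_zero]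
    rwa [hy, Matrix.one_mulVec] at this
  apply even_of_symplectic (f := fun u v => f (d *ᵥ u) v)
  refine ⟨⟨?_, ?_, ?_, ?_⟩, hskew, halt, ?_⟩
  · intro x y v
    rw [Matrix.mulVec_add, h.sesq.add_left]
  · intro c x v
    rw [Matrix.mulVec_smul, h.sesq.smul_left]
  · intro v x y
    rw [h.sesq.add_right]
  · intro c v x
    rw [h.sesq.smul_right]; rfl
  · intro v hv
    obtain ⟨x, hx⟩ := hnd v hv
    refine ⟨⟨x, ?_⟩, ⟨x, hx⟩⟩
    change f (d *ᵥ x) v ≠ 0
    rw [hskew]
    exact neg_ne_zero.mpr hx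

/-- the centre of the enveloping algebra of an invariant subgroup -/
theorem center_case_odd [Fintype F] (hodd : Odd (Fintype.card F)) {H N : Subgroup (GL (Ix m) F)}
    (hH : H ≤ isometryGroup F (quadFormOdd m F)) (hirr : ActsIrreducibly (matrixSet H))
    (hN : N ≤ isometryGroup F (quadFormOdd m F)) (hNB : NB H N) :
    (∃ M, InOrthogonalOddClass m F M ∧ H ≤ M) ∨
    (∀ z ∈ env N, (∀ b ∈ env N, z * b = b * z) → ∃ c : F, z = algebraMap F _ c) := by
  classical
  have h2 := two_ne_zero_of_odd hodd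
  have hne : Nonempty (Ix m) := ⟨.inl ()⟩
  have h := odd_hform h2 m
  have hHi : H ≤ isom (QuadraticMap.polar (quadFormOdd m F)) := hH.trans (isometry_le _)
  have hNi : N ≤ isom (QuadraticMap.polar (quadFormOdd m F)) := hN.trans (isometry_le _)
  have hadj : ∀ z ∈ centerSub (env N), h.adj z ∈ centerSub (env N) :=
    fun z hz => h.adj_mem_center (fun X hX => h.adj_mem_env hNi hX) hz
  have hnorm := centerSub_norm (env_norm H hNB)
  rcases comm_case h hHi hirr (centerSub (env N)) (centerSub_comm _) hnorm hadj with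
    ⟨t, k, D, hD, hHD, htr⟩ | ⟨k, D, e, hD, hts, hHD, -, -, -⟩ | hK
  · left
    have hiso : ∀ i j, AreIsometricFor (quadFormOdd m F) (D i) (D j) := by
      intro i j
      obtain ⟨g, hg, hgij⟩ := htr i j
      refine ⟨(Submodule.equivMapOfInjective _ (toLin_injective g) (D i)).trans (LinearEquiv.ofEq _ _ hgij), ?_⟩
      intro w
      rw [LinearEquiv.trans_apply, LinearEquiv.coe_ofEq_apply, Submodule.coe_equivMapOfInjective_apply,
        Matrix.toLin'_apply]
      exact hH hg _ (w : Ix m → F)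
    have hDo : IsOrthogonalMDecomposition (quadFormOdd m F) k D := ⟨hD, hiso⟩
    by_cases hk : k = 1
    · subst hk
      by_cases hpr : (Fintype.card F).Prime
      · exact ⟨decompositionStabilizer D ⊓ isometryGroup F (quadFormOdd m F),
          Or.inr (Or.inr (Or.inr (Or.inl ⟨t, D, hpr, hDo, rfl⟩))), le_inf hHD hH⟩
      · exact frame_case hodd hpr hH hDo hHD
    · have := hD.decomp.pos
      exact ⟨decompositionStabilizer D ⊓ isometryGroup F (quadFormOdd m F),
        Or.inr (Or.inr (Or.inl ⟨t, k, D, by omega, hDo, rfl⟩)), le_inf hHD hH⟩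
  · exfalso
    have hk := decomp_two_dim hD
    rw [card_Ix] at hk
    omega
  · by_cases hs : Module.finrank F (centerSub (env N)) = 1
    · right
      intro z hz hzb
      exact scalar_of_finrank_one _ hs z (mem_centerSub.mpr ⟨hz, hzb⟩)
    · rcases field_case_bilinear h hK hs hnorm hadj with ⟨r, K, hr, -, hKf, hKZ, hHK, hsa⟩ |
        ⟨K, -, hKf, hKZ, hHK, hKadj, k, hkK, hk⟩
      · by_cases hr' : 2 * m + 1 = r
        · right
          -- K is self-centralizing
          have hKf' : IsFieldSubalgebra (Fintype.card (Ix m)) K := by rw [card_Ix, hr']; exact hKf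
          have hNs : N ≤ scalars (Ix m) F := by
            intro x hx
            have hxK : (x : Matrix (Ix m) (Ix m) F) ∈ K := by
              apply mem_of_comm_max hKf'
              intro k hk
              exact ((mem_centerSub.mp (hKZ hk)).2 _ (mem_env hx)).symm
            have h3 := hsa _ hxK
            rw [h.adj_of_isom (hNi hx)] at h3
            have h4 : (x : Matrix (Ix m) (Ix m) F) * x = 1 := by
              nth_rewrite 1 [← h3]
              rw [Units.inv_mul]
            have h5 : ((x : Matrix (Ix m) (Ix m) F) - 1) * (x + 1) = 0 := by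
              rw [mul_add, sub_mul, h4]; simp
            by_cases h6 : (x : Matrix (Ix m) (Ix m) F) - 1 = 0
            · rw [mem_scalars_iff]
              exact ⟨1, by rw [sub_eq_zero.mp h6, Units.val_one, one_smul]⟩
            · obtain ⟨z, hz, hxz⟩ := hKf.inv _ (K.sub_mem hxK K.one_mem) h6
              have hzK : z * ((x : Matrix (Ix m) (Ix m) F) - 1) = 1 := by
                rw [hKf.comm z hz _ (K.sub_mem hxK K.one_mem), hxz]
              have h7 : (x : Matrix (Ix m) (Ix m) F) + 1 = 0 := by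
                calc (x : Matrix (Ix m) (Ix m) F) + 1 = (z * ((x : Matrix (Ix m) (Ix m) F) - 1)) * (x + 1) := by
                      rw [hzK, one_mul]
                  _ = 0 := by rw [mul_assoc, h5, mul_zero]
              rw [mem_scalars_iff]
              refine ⟨-1, ?_⟩
              rw [eq_neg_of_add_eq_zero_left h7, Units.val_neg, Units.val_one, neg_one_smul]
          intro z hz _
          refine env_induction (p := fun X => ∃ c : F, X = algebraMap F _ c) ?_ ?_ ?_ ?_ hz
          · intro x hx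
            obtain ⟨c, hc⟩ := (mem_scalars_iff x).1 (hNs hx)
            exact ⟨c, by rw [hc, Algebra.algebraMap_eq_smul_one]⟩
          · rintro a b ⟨c, rfl⟩ ⟨d, rfl⟩
            exact ⟨c + d, (map_add _ _ _).symm⟩
          · rintro c a ⟨d, rfl⟩
            exact ⟨c * d, by rw [map_mul, Algebra.smul_def]⟩
          · exact ⟨0, (map_zero _).symm⟩
        · left
          exact ⟨subalgebraNormalizer K ⊓ isometryGroup F (quadFormOdd m F),
            Or.inr (Or.inr (Or.inr (Or.inr (Or.inl ⟨r, K, hr, hr', hKf, fun k hk u v => by rw [h.adj_spec, hsa k hk], rfl⟩)))),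
            le_inf (le_subalgebraNormalizer K H hHK) hH⟩
      · exfalso
        have hdK : k - h.adj k ∈ K := K.sub_mem hkK (hKadj k hkK)
        obtain ⟨y, hyK, hy⟩ := hKf.inv _ hdK (sub_ne_zero.mpr (Ne.symm hk))
        have hyd : y * (k - h.adj k) = 1 := by rw [hKf.comm y hyK _ hdK, hy]
        have hev := even_of_skew h2 h (d := k - h.adj k) (y := y) (by rw [h.adj_sub, h.adj_adj, neg_sub]) hyd
        rw [card_Ix] at hev
        exact (Nat.not_even_iff_odd.mpr (odd_two_mul_add_one m)) hev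

end H96.AschOdd2
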