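import Mathlib
import Cfsg.Agent.Lib.H96.AschOdd2

/-!
Aschbacher library, unitary groups: irreducible unitary groups inside the similarity group of a bilinear form.
-/

set_option autoImplicit false
set_option linter.unusedSectionVars false

namespace H96.AschSU3

open Cfsg Cfsg.Geo Matrix H97.AschRad H97.AschEnv H97.AschNonab H97.AschGrp H97.AschLinear H97.AschIdem H97.AschDecomp
open H97.AschForm H97.AschSubfield H97.AschReal
open H96.AschSympType1 H96.AschSympType3 H96.AschSubForm H96.AschSympType5 H96.AschAdj H96.AschComm H96.AschField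
open H96.AschSp H96.AschSp2 H96.AschSU H96.AschSU2 H96.AschOdd2 H96.AschDescent

section general

variable {ι : Type} [Fintype ι] [DecidableEq ι] {F : Type*} [Field F]

/-- the fixed field of an involution has square order -/
lemma card_fixField [Finite F] {σ : F ≃+* F} (hσ2 : ∀ x, σ (σ x) = x) (hσ1 : σ ≠ RingEquiv.refl F) :
    Nat.card F = Nat.card (fixField σ) ^ 2 := by
  obtain ⟨c, hc⟩ : ∃ c : F, σ c ≠ c := by
    by_contra hno
    push Not at hno
    exact hσ1 (RingEquiv.ext hno)
  have hd : c - σ c ≠ 0 := sub_ne_zero.mpr (Ne.symm hc)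
  let φ : fixField σ × fixField σ → F := fun p => p.1 + p.2 * c
  have hφ : ∀ p, φ p = (p.1 : F) + (p.2 : F) * c := fun p => rfl
  have hσφ : ∀ p, σ (φ p) = (p.1 : F) + (p.2 : F) * σ c := by
    intro p
    rw [hφ, map_add, map_mul, mem_fixField.1 p.1.2, mem_fixField.1 p.2.2]
  have hbij : Function.Bijective φ := by
    constructor
    · intro p p' hpp
      have h1 : (p.2 : F) * (c - σ c) = (p'.2 : F) * (c - σ c) := by
        have e1 : φ p - σ (φ p) = (p.2 : F) * (c - σ c) := by rw [hσφ, hφ]; ring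
        have e2 : φ p' - σ (φ p') = (p'.2 : F) * (c - σ c) := by rw [hσφ, hφ]; ring
        rw [← e1, ← e2, hpp]
      have h2 := mul_right_cancel₀ hd h1
      have h3 : (p.1 : F) = p'.1 := by
        have h4 := hφ p
        rw [hpp, hφ p', h2] at h4
        exact (add_right_cancel h4).symm
      exact Prod.ext (Subtype.ext h3) (Subtype.ext h2)
    · intro x
      have hb : (x - σ x) / (c - σ c) ∈ fixField σ := by
        rw [mem_fixField, map_div₀, map_sub, map_sub, hσ2, hσ2, ← neg_sub x, ← neg_sub c, neg_div_neg_eq]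
      set b := (x - σ x) / (c - σ c) with hbdef
      have hbd : b * (c - σ c) = x - σ x := by
        rw [hbdef, div_mul_cancel₀ _ hd]
      have ha : x - b * c ∈ fixField σ := by
        rw [mem_fixField, map_sub, map_mul, mem_fixField.1 hb]
        linear_combination hbd
      refine ⟨(⟨_, ha⟩, ⟨b, hb⟩), ?_⟩
      rw [hφ]
      change x - b * c + b * c = x
      ring
  rw [← Nat.card_eq_of_bijective φ hbij, Nat.card_prod, sq]

/-- descent: an involutory semilinear map has a basis of fixed vectors -/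
lemma exists_fixed_basis {σ : F ≃+* F} (hσ1 : σ ≠ RingEquiv.refl F) (τ : (ι → F) → (ι → F))
    (hadd : ∀ a b, τ (a + b) = τ a + τ b) (hsmul : ∀ (c : F) a, τ (c • a) = σ c • τ a) (hττ : ∀ v, τ (τ v) = v) :
    ∃ P : GL ι F, ∀ j, τ ((P : Matrix ι ι F) *ᵥ Pi.single j 1) = (P : Matrix ι ι F) *ᵥ Pi.single j 1 := by
  classical
  obtain ⟨c, hc⟩ : ∃ c : F, σ c ≠ c := by
    by_contra hno
    push Not at hno
    exact hσ1 (RingEquiv.ext hno)
  have hd : c - σ c ≠ 0 := sub_ne_zero.mpr (Ne.symm hc)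
  let S : Set (ι → F) := {v | τ v = v}
  have hspan : Submodule.span F S = ⊤ := by
    rw [eq_top_iff]
    intro v _
    have hmem : ∀ w, w + τ w ∈ S := by
      intro w
      change τ (w + τ w) = w + τ w
      rw [hadd, hττ, add_comm]
    have h1 := hmem v
    have h2 : c • v + σ c • τ v ∈ S := by
      rw [← hsmul]
      exact hmem (c • v)
    have h3 : v = (c - σ c)⁻¹ • ((c • v + σ c • τ v) - σ c • (v + τ v)) := by
      have : (c • v + σ c • τ v) - σ c • (v + τ v) = (c - σ c) • v := by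
        rw [smul_add, sub_smul]; abel
      rw [this, smul_smul, inv_mul_cancel₀ hd, one_smul]
    rw [h3]
    exact Submodule.smul_mem _ _ (Submodule.sub_mem _ (Submodule.subset_span h2)
      (Submodule.smul_mem _ _ (Submodule.subset_span h1)))
  obtain ⟨T, hTS, hTspan, hTli⟩ := exists_linearIndependent F S
  rw [hspan] at hTspan
  let b := Module.Basis.mk hTli (by rw [Subtype.range_coe, hTspan])
  have hfin : Finite T := Module.Finite.finite_basis b
  have : Fintype T := Fintype.ofFinite T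
  have hcard : Fintype.card ι = Fintype.card T := by
    have h1 := Module.finrank_eq_card_basis b
    rw [Module.finrank_fintype_fun_eq_card] at h1
    exact h1
  let φ : ι ≃ T := Fintype.equivOfCardEq hcard
  let b' := b.reindex φ.symm
  have hb' : ∀ j, b' j = ((φ j : T) : ι → F) := by
    intro j
    rw [Module.Basis.reindex_apply, Equiv.symm_symm, Module.Basis.mk_apply]
  let P : GL ι F := ⟨(Pi.basisFun F ι).toMatrix b', b'.toMatrix (Pi.basisFun F ι),
    Module.Basis.toMatrix_mul_toMatrix_flip _ _, Module.Basis.toMatrix_mul_toMatrix_flip _ _⟩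
  have hP : ∀ j, (P : Matrix ι ι F) *ᵥ Pi.single j 1 = ((φ j : T) : ι → F) := by
    intro j
    rw [Matrix.mulVec_single_one]
    funext i
    change (Pi.basisFun F ι).toMatrix b' i j = _
    rw [Module.Basis.toMatrix_apply, Pi.basisFun_repr, hb']
  refine ⟨P, fun j => ?_⟩
  rw [hP]
  exact hTS (φ j).2

end general

variable {F : Type*} [Field F] {n q : ℕ}

/-- irreducible unitary groups contained in the similarity group of a bilinear form -/
theorem bilinear_sim_case [Fintype F] (hF : Fintype.card F = q ^ 2) (hn : 2 ≤ n) {H : Subgroup (GL (Fin n) F)}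
    (hH : H ≤ GU n F q) (hirr : ActsIrreducibly (matrixSet H)) {B : (Fin n → F) → (Fin n → F) → F} {ε : F}
    (hB : HForm (RingEquiv.refl F) ε B) (hHB : H ≤ similarityGroup B) : ∃ M, InUnitaryClass n F q M ∧ H ≤ M := by
  classical
  have hne : Nonempty (Fin n) := ⟨⟨0, by omega⟩⟩
  obtain ⟨σ, hσ, hσ1, h⟩ := gu_hform hF n
  set f := hermForm n F q with hf
  have hσ2 := h.invol
  have hfherm : ∀ u v, f u v = σ (f v u) := fun u v => by rw [h.herm u v, one_mul]
  -- the semilinear map
  have hB' : IsSesq σ (fun u v => B u (fun i => σ (v i))) := by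
    refine ⟨fun x y v => hB.sesq.add_left x y _, fun c x v => hB.sesq.smul_left c x _, ?_, ?_⟩
    · intro v x y
      have : (fun i => σ ((x + y) i)) = (fun i => σ (x i)) + (fun i => σ (y i)) := by
        funext i; simp
      rw [this, hB.sesq.add_right]
    · intro c v x
      have : (fun i => σ ((c • x) i)) = σ c • (fun i => σ (x i)) := by
        funext i; simp
      rw [this, hB.sesq.smul_right]; rfl
  have hBσ : ∀ v : Fin n → F, v ≠ 0 → ∃ x : Fin n → F, B v (fun i => σ (x i)) ≠ 0 := by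
    intro v hv
    obtain ⟨x, hx⟩ := hB.nd v hv
    refine ⟨fun i => σ (x i), ?_⟩
    have : (fun i => σ (σ (x i))) = x := by funext i; exact hσ2 _
    rw [this]
    exact hx
  obtain ⟨A, hA⟩ := exists_rel hB' h.sesq hBσ
  set T := hB.adj A with hT
  let τ : (Fin n → F) → (Fin n → F) := fun v => T *ᵥ (fun i => σ (v i))
  have hτ : ∀ u v, f u v = B u (τ v) := by
    intro u v
    rw [hA]
    exact hB.adj_spec A u _
  have hτadd : ∀ a b, τ (a + b) = τ a + τ b := by
    intro a b
    apply hB.right_injective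
    intro u
    rw [← hτ, h.sesq.add_right, hB.sesq.add_right, hτ, hτ]
  have hτsmul : ∀ (c : F) a, τ (c • a) = σ c • τ a := by
    intro c a
    apply hB.right_injective
    intro u
    rw [← hτ, h.sesq.smul_right, hB.sesq.smul_right, hτ]; rfl
  have hτH : ∀ g ∈ H, ∃ c : Fˣ, ∀ v, τ ((g : Matrix (Fin n) (Fin n) F) *ᵥ v) =
      ((c⁻¹ : Fˣ) : F) • ((g : Matrix (Fin n) (Fin n) F) *ᵥ τ v) := by
    intro g hg
    obtain ⟨c, hc⟩ := hHB hg
    refine ⟨c, fun v => ?_⟩
    apply hB.right_injective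
    intro u
    rw [← hτ, hB.sesq.smul_right, RingEquiv.refl_apply]
    have h1 : u = (g : Matrix (Fin n) (Fin n) F) *ᵥ (((g⁻¹ : GL (Fin n) F) : Matrix (Fin n) (Fin n) F) *ᵥ u) := by
      rw [Matrix.mulVec_mulVec, Units.mul_inv, Matrix.one_mulVec]
    rw [h1, hc]
    have h2 : f ((g : Matrix (Fin n) (Fin n) F) *ᵥ (((g⁻¹ : GL (Fin n) F) : Matrix (Fin n) (Fin n) F) *ᵥ u))
        ((g : Matrix (Fin n) (Fin n) F) *ᵥ v) = f (((g⁻¹ : GL (Fin n) F) : Matrix (Fin n) (Fin n) F) *ᵥ u) v :=
      hH hg _ _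
    rw [h2, hτ, ← mul_assoc, ← Units.val_mul, inv_mul_cancel, Units.val_one, one_mul]
  -- the square
  let A2 : Matrix (Fin n) (Fin n) F := T * T.map σ
  have hA2 : ∀ v, τ (τ v) = A2 *ᵥ v := by
    intro v
    simp only [τ, A2]
    rw [← Matrix.mulVec_mulVec]
    congr 1
    funext i
    simp only [mulVec, dotProduct, map_sum, map_mul, Matrix.map_apply, hσ2]
  have hεσ : σ ε = ε := by
    rcases hB.eps with h1 | h1
    · rw [h1, map_one]
    · rw [h1, map_neg, map_one]
  have hBsymm : ∀ u v, B u v = ε * B v u := fun u v => hB.herm u v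
  have hself : ∀ u v, f (A2 *ᵥ u) v = f u (A2 *ᵥ v) := by
    intro u v
    have h1 : f (A2 *ᵥ u) v = ε * f (τ v) (τ u) := by
      rw [← hA2, hτ, hBsymm, ← hτ]
    have h2 : f u (A2 *ᵥ v) = ε * f (τ v) (τ u) := by
      rw [hfherm, ← hA2, hτ (τ (τ v)) u, hBsymm, ← hτ, map_mul, hεσ, ← hfherm]
    rw [h1, h2]
  have hadjA2 : h.adj A2 = A2 := h.adj_eq hself
  -- the algebra generated by A2
  let Z : Subalgebra F (Matrix (Fin n) (Fin n) F) := Algebra.adjoin F {A2}
  have hZcomm : ∀ x ∈ Z, ∀ y ∈ Z, x * y = y * x := by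
    intro x hx y hy
    have h1 : Commute A2 y := Algebra.commute_of_mem_adjoin_self hy
    exact (Algebra.commute_of_mem_adjoin_singleton_of_commute hx h1.symm).symm
  have hZH : NormSet H Z := by
    intro g hg x hx
    obtain ⟨c, hc⟩ := hτH g hg
    have hconj : (g : Matrix (Fin n) (Fin n) F) * A2 * ((g⁻¹ : GL (Fin n) F) : Matrix (Fin n) (Fin n) F) ∈ Z := by
      have h1 : A2 * (g : Matrix (Fin n) (Fin n) F) =
          (σ ((c⁻¹ : Fˣ) : F) * ((c⁻¹ : Fˣ) : F)) • ((g : Matrix (Fin n) (Fin n) F) * A2) := by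
        apply matrix_ext_vec
        intro v
        rw [← Matrix.mulVec_mulVec, ← hA2, hc, hτsmul, hc, smul_smul, hA2, Matrix.smul_mulVec, Matrix.mulVec_mulVec]
      have h0 : σ ((c⁻¹ : Fˣ) : F) * ((c⁻¹ : Fˣ) : F) ≠ 0 :=
        mul_ne_zero (by rw [Ne, map_eq_zero]; exact Units.ne_zero _) (Units.ne_zero _)
      have h2 : (g : Matrix (Fin n) (Fin n) F) * A2 =
          (σ ((c⁻¹ : Fˣ) : F) * ((c⁻¹ : Fˣ) : F))⁻¹ • (A2 * (g : Matrix (Fin n) (Fin n) F)) := by
        rw [h1, smul_smul, inv_mul_cancel₀ h0, one_smul]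
      rw [h2, Matrix.smul_mul, mul_assoc, Units.mul_inv, mul_one]
      exact Z.smul_mem (Algebra.subset_adjoin rfl) _
    have h3 : Z ≤ (Z.comap (conjAlg F g : Matrix (Fin n) (Fin n) F ≃ₐ[F] Matrix (Fin n) (Fin n) F).toAlgHom) := by
      apply Algebra.adjoin_le
      intro y hy
      rw [Set.mem_singleton_iff] at hy
      rw [hy]
      exact hconj
    exact h3 hx
  have hZadj : IsAdjointClosedFor f Z := by
    intro x hx
    refine ⟨h.adj x, ?_, fun u v => h.adj_spec x u v⟩
    refine Algebra.adjoin_induction (p := fun x _ => h.adj x ∈ Z) ?_ ?_ ?_ ?_ hx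
    · intro y hy
      rw [Set.mem_singleton_iff] at hy
      rw [hy, hadjA2]
      exact Algebra.subset_adjoin rfl
    · intro r
      rw [h.adj_algebraMap]
      exact Z.algebraMap_mem _
    · intro x y _ _ hx hy
      rw [h.adj_add]
      exact Z.add_mem hx hy
    · intro x y _ _ hx hy
      rw [h.adj_mul]
      exact Z.mul_mem hy hx
  by_cases hsc : ∃ z ∈ Z, ∀ c : F, z ≠ algebraMap F _ c
  · exact comm_case_gu hF (by omega) hH hirr Z hZcomm hZH hZadj hsc
  push Not at hsc
  obtain ⟨a, ha⟩ := hsc A2 (Algebra.subset_adjoin rfl)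
  have hτ0 : ∀ v, τ v = 0 → v = 0 := by
    intro v hv
    apply h.right_injective
    intro u
    rw [hτ, hv, hB.sesq.zero_right, h.sesq.zero_right]
  have hττ : ∀ v, τ (τ v) = a • v := by
    intro v
    rw [hA2, ha, Algebra.algebraMap_eq_smul_one, Matrix.smul_mulVec, Matrix.one_mulVec]
  obtain ⟨u₁, hu₁⟩ : ∃ u₁ : Fin n → F, u₁ ≠ 0 := by
    obtain ⟨i⟩ := hne
    refine ⟨Pi.single i 1, fun h0 => ?_⟩
    have := congrFun h0 i
    simp at this
  have ha0 : a ≠ 0 := by
    intro h0
    apply hu₁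
    apply hτ0
    apply hτ0
    rw [hττ, h0, zero_smul]
  have haσ : σ a = a := by
    have h1 := hadjA2
    rw [ha, h.adj_algebraMap] at h1
    exact (FaithfulSMul.algebraMap_injective F (Matrix (Fin n) (Fin n) F)) h1
  obtain ⟨w, hw⟩ := norm_surj hF (η := a⁻¹) (inv_ne_zero ha0) (by rw [← hσ, map_inv₀, haσ])
  rw [← hσ] at hw
  let τ' : (Fin n → F) → (Fin n → F) := fun v => (w : F) • τ v
  have hτ'add : ∀ a b, τ' (a + b) = τ' a + τ' b := by
    intro a b
    simp only [τ']
    rw [hτadd, smul_add]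
  have hτ'smul : ∀ (c : F) a, τ' (c • a) = σ c • τ' a := by
    intro c a
    simp only [τ']
    rw [hτsmul, smul_smul, smul_smul, mul_comm]
  have hτ'τ' : ∀ v, τ' (τ' v) = v := by
    intro v
    simp only [τ']
    rw [hτsmul, hττ, smul_smul, smul_smul, hw, inv_mul_cancel₀ ha0, one_smul]
  obtain ⟨P, hP⟩ := exists_fixed_basis hσ1 τ' hτ'add hτ'smul hτ'τ'
  set F₀ := fixField σ with hF₀
  have hcard : Fintype.card F = Nat.card F₀ ^ 2 := by
    rw [← Nat.card_eq_fintype_card]
    exact card_fixField hσ2 hσ1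
  -- fixed vectors
  have hfix : ∀ u, VOver F₀ u → τ' ((P : Matrix (Fin n) (Fin n) F) *ᵥ u) = (P : Matrix (Fin n) (Fin n) F) *ᵥ u := by
    intro u hu
    have hexp : (P : Matrix (Fin n) (Fin n) F) *ᵥ u = ∑ j, u j • ((P : Matrix (Fin n) (Fin n) F) *ᵥ Pi.single j 1) := by
      conv_lhs => rw [vec_eq_sum u, Matrix.mulVec_sum]
      exact Finset.sum_congr rfl (fun j _ => by rw [Matrix.mulVec_smul])
    let τh : (Fin n → F) →+ (Fin n → F) := AddMonoidHom.mk' τ' hτ'add
    have hτh : ∀ v, τ' v = τh v := fun v => rfl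
    rw [hexp, hτh, map_sum]
    refine Finset.sum_congr rfl (fun j _ => ?_)
    rw [← hτh, hτ'smul, hP, mem_fixField.1 (hu j)]
  -- the centralizer of τ'
  let C : Subgroup (GL (Fin n) F) :=
    { carrier := {g | ∀ v, τ' ((g : Matrix (Fin n) (Fin n) F) *ᵥ v) = (g : Matrix (Fin n) (Fin n) F) *ᵥ τ' v}
      mul_mem' := by
        intro x y hx hy v
        have hx' : ∀ v, τ' ((x : Matrix (Fin n) (Fin n) F) *ᵥ v) = (x : Matrix (Fin n) (Fin n) F) *ᵥ τ' v := hx
        have hy' : ∀ v, τ' ((y : Matrix (Fin n) (Fin n) F) *ᵥ v) = (y : Matrix (Fin n) (Fin n) F) *ᵥ τ' v := hy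
        rw [Units.val_mul, ← Matrix.mulVec_mulVec, hx', hy', Matrix.mulVec_mulVec]
      one_mem' := by
        intro v
        rw [Units.val_one, Matrix.one_mulVec, Matrix.one_mulVec]
      inv_mem' := by
        intro x hx v
        have hx' : ∀ v, τ' ((x : Matrix (Fin n) (Fin n) F) *ᵥ v) = (x : Matrix (Fin n) (Fin n) F) *ᵥ τ' v := hx
        have h1 : v = (x : Matrix (Fin n) (Fin n) F) *ᵥ (((x⁻¹ : GL (Fin n) F) : Matrix (Fin n) (Fin n) F) *ᵥ v) := by
          rw [Matrix.mulVec_mulVec, Units.mul_inv, Matrix.one_mulVec]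
        conv_rhs => rw [h1, hx', Matrix.mulVec_mulVec, Units.inv_mul, Matrix.one_mulVec] }
  have hCmem : ∀ g, g ∈ C ↔ ∀ v, τ' ((g : Matrix (Fin n) (Fin n) F) *ᵥ v) = (g : Matrix (Fin n) (Fin n) F) *ᵥ τ' v :=
    fun g => Iff.rfl
  have hCP : OverVia F₀ P C := by
    intro g hg i j
    have h1 : ((P⁻¹ * g * P : GL (Fin n) F) : Matrix (Fin n) (Fin n) F) i j =
        (((P⁻¹ * g * P : GL (Fin n) F) : Matrix (Fin n) (Fin n) F) *ᵥ Pi.single j 1) i := by
      rw [Matrix.mulVec_single_one]; rfl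
    set x : Fin n → F := ((P⁻¹ * g * P : GL (Fin n) F) : Matrix (Fin n) (Fin n) F) *ᵥ Pi.single j 1 with hx
    have h2 : (P : Matrix (Fin n) (Fin n) F) *ᵥ x = (g : Matrix (Fin n) (Fin n) F) *ᵥ ((P : Matrix (Fin n) (Fin n) F) *ᵥ Pi.single j 1) := by
      rw [hx, Matrix.mulVec_mulVec, Matrix.mulVec_mulVec, ← Units.val_mul, ← Units.val_mul]
      congr 2
      group
    have h3 : τ' ((P : Matrix (Fin n) (Fin n) F) *ᵥ x) = (P : Matrix (Fin n) (Fin n) F) *ᵥ x := by
      rw [h2, (hCmem g).1 hg, hP]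
    have h4 : τ' ((P : Matrix (Fin n) (Fin n) F) *ᵥ x) = (P : Matrix (Fin n) (Fin n) F) *ᵥ (fun i => σ (x i)) := by
      have hexp : ∀ y : Fin n → F, (P : Matrix (Fin n) (Fin n) F) *ᵥ y = ∑ j, y j • ((P : Matrix (Fin n) (Fin n) F) *ᵥ Pi.single j 1) := by
        intro y
        conv_lhs => rw [vec_eq_sum y, Matrix.mulVec_sum]
        exact Finset.sum_congr rfl (fun j _ => by rw [Matrix.mulVec_smul])
      let τh : (Fin n → F) →+ (Fin n → F) := AddMonoidHom.mk' τ' hτ'add
      have hτh : ∀ v, τ' v = τh v := fun v => rfl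
      rw [hexp x, hexp (fun i => σ (x i)), hτh, map_sum]
      refine Finset.sum_congr rfl (fun j _ => ?_)
      rw [← hτh, hτ'smul, hP]
    have h5 : (fun i => σ (x i)) = x := by
      have h6 : (P : Matrix (Fin n) (Fin n) F) *ᵥ (fun i => σ (x i)) = (P : Matrix (Fin n) (Fin n) F) *ᵥ x := by
        rw [← h4, h3]
      have h7 := congrArg (fun y => ((P⁻¹ : GL (Fin n) F) : Matrix (Fin n) (Fin n) F) *ᵥ y) h6
      simpa [Matrix.mulVec_mulVec] using h7
    change ((P⁻¹ * g * P : GL (Fin n) F) : Matrix (Fin n) (Fin n) F) i j ∈ F₀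
    rw [h1, mem_fixField]
    exact congrFun h5 i
  have hCle := le_subfieldSubgroup_of_over hCP
  have hscle : ∀ c : Fˣ, sc (Fin n) c ∈ subfieldSubgroup F₀ P := by
    intro c
    refine ⟨sc (Fin n) c, ?_, ?_⟩
    · apply (le_sup_right : scalars (Fin n) F ≤ _)
      exact ⟨c, rfl⟩
    · change P * sc (Fin n) c * P⁻¹ = sc (Fin n) c
      rw [← sc_comm, mul_assoc, mul_inv_cancel, mul_one]
  have hle : H ≤ subfieldSubgroup F₀ P := by
    intro g hg
    obtain ⟨c, hc⟩ := hτH g hg
    set κ : F := ((c⁻¹ : Fˣ) : F) with hκ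
    have hκ0 : κ ≠ 0 := Units.ne_zero _
    -- κ σ κ = 1
    have hκκ : σ κ * κ = 1 := by
      have h1 := hττ ((g : Matrix (Fin n) (Fin n) F) *ᵥ u₁)
      rw [hc, hτsmul, hc, hττ, smul_smul, Matrix.mulVec_smul, smul_comm] at h1
      have hgu : (g : Matrix (Fin n) (Fin n) F) *ᵥ u₁ ≠ 0 := by
        intro h0
        apply hu₁
        have := congrArg (fun y => ((g⁻¹ : GL (Fin n) F) : Matrix (Fin n) (Fin n) F) *ᵥ y) h0
        simpa [Matrix.mulVec_mulVec] using this
      have h2 : (σ κ * κ) • ((g : Matrix (Fin n) (Fin n) F) *ᵥ u₁) = (g : Matrix (Fin n) (Fin n) F) *ᵥ u₁ :=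
        smul_right_injective _ ha0 h1
      obtain ⟨i, hi⟩ := Function.ne_iff.mp hgu
      have h3 := congrFun h2 i
      rw [Pi.smul_apply, smul_eq_mul] at h3
      exact mul_eq_right₀ hi |>.mp h3
    -- Hilbert 90: σ μ * κ = μ
    obtain ⟨μ, hμ0, hμ⟩ : ∃ μ : F, μ ≠ 0 ∧ σ μ * κ = μ := by
      by_contra hno
      push Not at hno
      have h1 : ∀ x : F, x + κ * σ x = 0 := by
        intro x
        by_contra h0
        apply hno (x + κ * σ x) h0
        rw [map_add, map_mul, hσ2, add_mul]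
        have : σ κ * x * κ = x := by
          calc σ κ * x * κ = (σ κ * κ) * x := by ring
            _ = x := by rw [hκκ, one_mul]
        rw [this]; ring
      have h2 : κ = -1 := by
        have := h1 1
        rw [map_one, mul_one] at this
        exact (neg_eq_of_add_eq_zero_right this).symm
      apply hσ1
      ext x
      have := h1 x
      rw [h2, neg_one_mul] at this
      exact (add_neg_eq_zero.mp this).symm
    have hmem : sc (Fin n) (Units.mk0 μ hμ0) * g ∈ C := by
      rw [hCmem]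
      intro v
      have e1 : ∀ x : Fin n → F, ((sc (Fin n) (Units.mk0 μ hμ0) * g : GL (Fin n) F) : Matrix (Fin n) (Fin n) F) *ᵥ x =
          μ • ((g : Matrix (Fin n) (Fin n) F) *ᵥ x) := by
        intro x
        rw [Units.val_mul, sc_val, Matrix.smul_mul, one_mul, Matrix.smul_mulVec, Units.val_mk0]
      rw [e1, e1, hτ'smul]
      simp only [τ']
      rw [hc, Matrix.mulVec_smul, smul_smul, smul_smul, smul_smul]
      congr 1
      calc σ μ * (w : F) * κ = (σ μ * κ) * w := by ring
        _ = μ * w := by rw [hμ]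
    have h1 : g = (sc (Fin n) (Units.mk0 μ hμ0))⁻¹ * (sc (Fin n) (Units.mk0 μ hμ0) * g) := by
      rw [inv_mul_cancel_left]
    rw [h1]
    exact Subgroup.mul_mem _ (Subgroup.inv_mem _ (hscle _)) (hCle hmem)
  -- the forms
  have hfB : ∀ u v, VOver F₀ v → f ((P : Matrix (Fin n) (Fin n) F) *ᵥ u) ((P : Matrix (Fin n) (Fin n) F) *ᵥ v) =
      (w : F)⁻¹ * B ((P : Matrix (Fin n) (Fin n) F) *ᵥ u) ((P : Matrix (Fin n) (Fin n) F) *ᵥ v) := by
    intro u v hv
    have h1 : τ ((P : Matrix (Fin n) (Fin n) F) *ᵥ v) = (w : F)⁻¹ • ((P : Matrix (Fin n) (Fin n) F) *ᵥ v) := by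
      have h2 := hfix v hv
      have h3 : (w : F)⁻¹ • τ' ((P : Matrix (Fin n) (Fin n) F) *ᵥ v) = τ ((P : Matrix (Fin n) (Fin n) F) *ᵥ v) := by
        simp only [τ']
        rw [smul_smul, inv_mul_cancel₀ (Units.ne_zero w), one_smul]
      rw [← h3, h2]
    rw [hτ, h1, hB.sesq.smul_right]; rfl
  have hfσ : ∀ u v, VOver F₀ u → VOver F₀ v →
      f ((P : Matrix (Fin n) (Fin n) F) *ᵥ u) ((P : Matrix (Fin n) (Fin n) F) *ᵥ v) =
      ε * σ (f ((P : Matrix (Fin n) (Fin n) F) *ᵥ u) ((P : Matrix (Fin n) (Fin n) F) *ᵥ v)) := by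
    intro u v hu hv
    rw [← hfherm]
    rw [hfB u v hv, hfB v u hu, hBsymm]
    ring
  by_cases hcase : Odd q ∧ ε = 1
  · obtain ⟨hqo, hε⟩ := hcase
    refine ⟨subfieldSubgroup F₀ P ⊓ GU n F q, Or.inl ?_, le_inf hle hH⟩
    refine Or.inr (Or.inr (Or.inr (Or.inr (Or.inr (Or.inl ⟨F₀, P, hqo, hcard, ?_, rfl⟩)))))
    intro u v hu hv
    rw [one_mul]
    change f _ _ ∈ F₀
    rw [mem_fixField]
    have := hfσ u v hu hv
    rw [hε, one_mul] at this
    exact this.symm
  · have hskewB : ∀ u v, B u v = - B v u := by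
      intro u v
      rcases hB.eps with hε | hε
      · have hq : ¬ Odd q := fun hqo => hcase ⟨hqo, hε⟩
        have h2 : (2 : F) = 0 := by
          by_contra h2
          exact hq ((two_ne_zero_iff_odd hF).2 h2)
        have h3 : ∀ x : F, x = -x := by
          intro x
          have : x + x = 0 := by rw [← two_mul, h2, zero_mul]
          exact eq_neg_of_add_eq_zero_left this
        rw [← h3, hBsymm, hε, one_mul]
      · rw [hBsymm, hε, neg_one_mul]
    have halt : ∀ v, B v v = 0 := by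
      by_cases h2 : (2 : F) = 0
      · -- the kernel of the semilinear functional is invariant
        have hadd2 : ∀ u v, B (u + v) (u + v) = B u u + B v v := by
          intro u v
          rw [hB.sesq.add_left, hB.sesq.add_right, hB.sesq.add_right, hskewB u v]
          ring
        have hsm2 : ∀ (c : F) v, B (c • v) (c • v) = c ^ 2 * B v v := by
          intro c v
          rw [hB.sesq.smul_left, hB.sesq.smul_right, RingEquiv.refl_apply]; ring
        let W : Submodule F (Fin n → F) :=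
          { carrier := {v | B v v = 0}
            add_mem' := by
              intro x y hx hy
              have hx' : B x x = 0 := hx
              have hy' : B y y = 0 := hy
              change B (x + y) (x + y) = 0
              rw [hadd2, hx', hy', add_zero]
            zero_mem' := hB.sesq.zero_left 0
            smul_mem' := by
              intro c x hx
              have hx' : B x x = 0 := hx
              change B (c • x) (c • x) = 0
              rw [hsm2, hx', mul_zero] }
        have hW : ∀ s ∈ matrixSet H, W.map (Matrix.toLin' s) ≤ W := by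
          rintro _ ⟨g, hg, rfl⟩ _ ⟨v, hv, rfl⟩
          obtain ⟨c, hc⟩ := hHB hg
          have hv' : B v v = 0 := hv
          change B _ _ = 0
          rw [Matrix.toLin'_apply, hc, hv', mul_zero]
        rcases hirr W hW with h3 | h3
        · exfalso
          have h01 : (⟨0, by omega⟩ : Fin n) ≠ ⟨1, by omega⟩ := by
            intro h4
            have := congrArg Fin.val h4
            simp at this
          set e0 : Fin n → F := Pi.single ⟨0, by omega⟩ 1 with he0
          set e1 : Fin n → F := Pi.single ⟨1, by omega⟩ 1 with he1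
          obtain ⟨a0, ha0'⟩ := sqrt_of_char_two h2 (B e1 e1)
          obtain ⟨a1, ha1'⟩ := sqrt_of_char_two h2 (B e0 e0)
          have h5 : a0 • e0 + a1 • e1 ∈ W := by
            change B _ _ = 0
            rw [hadd2, hsm2, hsm2, ha0', ha1']
            have : B e1 e1 * B e0 e0 + B e0 e0 * B e1 e1 = 2 * (B e1 e1 * B e0 e0) := by ring
            rw [this, h2, zero_mul]
          rw [h3, Submodule.mem_bot] at h5
          have h6 := congrFun h5 ⟨0, by omega⟩
          simp only [he0, he1, Pi.add_apply, Pi.smul_apply, Pi.single_eq_same, smul_eq_mul, mul_one,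
            Pi.single_eq_of_ne h01, mul_zero, add_zero, Pi.zero_apply] at h6
          -- a0 = 0, so B e1 e1 = 0, so e1 ∈ W
          have h7 : B e1 e1 = 0 := by rw [← ha0', h6]; ring
          have h8 : e1 ∈ W := h7
          rw [h3, Submodule.mem_bot] at h8
          have h9 := congrFun h8 ⟨1, by omega⟩
          simp [he1] at h9
        · intro v
          have : v ∈ W := by rw [h3]; trivial
          exact this
      · intro v
        have h1 := hskewB v v
        have h3 : (2 : F) * B v v = 0 := by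
          rw [two_mul]
          nth_rewrite 1 [h1]
          exact neg_add_cancel _
        exact (mul_eq_zero.mp h3).resolve_left h2
    have hBsp : IsSymplecticForm B :=
      ⟨hB.sesq.to_bilinear, hskewB, halt, fun v hv => ⟨hB.nd' v hv, hB.nd v hv⟩⟩
    have heven : Even n := by
      have := even_of_symplectic hBsp
      rwa [Fintype.card_fin] at this
    -- ζ
    obtain ⟨ζ, hζ0, hζσ⟩ : ∃ ζ : F, ζ ≠ 0 ∧ σ ζ = -ζ := by
      obtain ⟨c, hc⟩ : ∃ c : F, σ c ≠ c := by
        by_contra hno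
        push Not at hno
        exact hσ1 (RingEquiv.ext hno)
      exact ⟨c - σ c, sub_ne_zero.mpr (Ne.symm hc), by rw [map_sub, hσ2]; ring⟩
    refine ⟨subfieldSubgroup F₀ P ⊓ GU n F q, Or.inl ?_, le_inf hle hH⟩
    refine Or.inr (Or.inr (Or.inr (Or.inr (Or.inr (Or.inr (Or.inl ⟨F₀, P, ζ, heven, hcard, hζ0, ?_, ?_, ?_, rfl⟩))))))
    · rw [← hσ, hζσ, add_neg_cancel]
    · intro u v hu hv
      change ζ * f _ _ ∈ F₀
      rw [mem_fixField, map_mul, hζσ]
      have h1 : f ((P : Matrix (Fin n) (Fin n) F) *ᵥ u) ((P : Matrix (Fin n) (Fin n) F) *ᵥ v) =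
          - σ (f ((P : Matrix (Fin n) (Fin n) F) *ᵥ u) ((P : Matrix (Fin n) (Fin n) F) *ᵥ v)) := by
        rw [← hfherm]
        rw [hfB u v hv, hfB v u hu, hskewB]
        ring
      nth_rewrite 2 [h1]
      ring
    · intro u hu
      change f _ _ = 0
      rw [hfB u u hu, halt, mul_zero]

end H96.AschSU3
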