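import Mathlib
import Cfsg.Agent.Lib.H97.AschFin
import Cfsg.Agent.Lib.H96.AschGU23

/-!
Aschbacher library: the main theorem for the unitary groups.
-/

set_option autoImplicit false

namespace H96.AschSUfin

open Cfsg Cfsg.Geo Matrix

variable {F : Type*} [Field F]

/-- **Main theorem, unitary groups.** -/
theorem gu_theorem [Fintype F] {n q : ℕ} (hF : Fintype.card F = q ^ 2) (hn : 2 ≤ n) {H : Subgroup (GL (Fin n) F)}
    (hH : H ≤ GU n F q) : (∃ M, InUnitaryClass n F q M ∧ H ≤ M) ∨ InUnitaryResidualClass H :=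
  H97.AschAsm.gu_main hF hn (fun hq e P σ hσ _ hH h => H96.AschGU23.gu23 hF hq e P σ hσ hH h)
    (fun hq => H97.AschFin.exc_gu hF hq) hH

end H96.AschSUfin
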