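import Cfsg.Agent.Lib.H96.FrCore
import Cfsg.Agent.Lib.H87.FrP9
import Cfsg.Agent.Lib.H79.FrP11f
import Cfsg.Agent.Lib.H60.FrJ
import Cfsg.Agent.Lib.H63.FrPhiAll
import Cfsg.Agent.Lib.H7.FrP13

set_option autoImplicit false
set_option linter.unusedSectionVars false

/-!
The main theorem for frame stabilisers.
-/

namespace H96.Fr

open Matrix
open scoped commutatorElement

variable {ι F : Type*} [Fintype ι] [DecidableEq ι] [Field F] {K : Subgroup ((ι → F) ≃ₗ[F] (ι → F))}

open Classical in
/-- in characteristic three (prime field) isometries of a three-dimensional space are monomial -/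
lemma mon3 [Fintype F] (hp : (Fintype.card F).Prime) (h3 : (3:F) = 0) (D : Dat K) : MonLe K 3 := by
  have hchar : Fintype.card F = 3 := by
    haveI : CharP F (Fintype.card F) := by
      haveI := Fact.mk hp
      obtain ⟨p, hpc⟩ := CharP.exists F
      haveI := hpc
      haveI hpp : Fact p.Prime := ⟨CharP.char_is_prime F p⟩
      obtain ⟨n, hn1, hn2⟩ := FiniteField.card F p
      have h5 : p ∣ Fintype.card F := by rw [hn2]; exact dvd_pow_self p n.2.ne'
      have h6 : p = Fintype.card F := (Nat.prime_dvd_prime_iff_eq hpp.1 hp).1 h5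
      rw [← h6]; exact hpc
    have h4 : ((3:ℕ) : F) = 0 := by exact_mod_cast h3
    have h5 := (CharP.cast_eq_zero_iff F (Fintype.card F) 3).1 h4
    rcases (Nat.dvd_prime (by norm_num)).1 h5 with h6 | h6
    · exact absurd h6 hp.one_lt.ne'
    · exact h6
  have hsq : ∀ a : F, a = 0 ∨ a * a = 1 := by
    intro a
    by_cases ha : a = 0
    · exact Or.inl ha
    · right
      have := FiniteField.pow_card_sub_one_eq_one a ha
      rw [hchar] at this
      rw [← this]; ring
  intro g hg I hI hs
  intro i
  by_cases hi : i ∈ I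
  · -- the vector `g (e i)` is a unit vector supported on `I`
    have hu : g (e i) ⬝ᵥ g (e i) = 1 := by
      rw [D.iso g hg, e_dot]; simp [e]
    have hz : ∀ k, k ∉ I → g (e i) k = 0 := by
      intro k hk
      rw [← e_dot k (g (e i)), ← hs k hk, D.iso g hg, e_dot]
      have : k ≠ i := fun h => hk (h ▸ hi)
      simp [e, this]
    have hsum : g (e i) ⬝ᵥ g (e i) = ((I.filter fun k => g (e i) k ≠ 0).card : F) := by
      rw [dotProduct, ← Finset.sum_subset (Finset.subset_univ (I.filter fun k => g (e i) k ≠ 0))]
      · rw [Finset.sum_congr rfl (g := fun _ => (1 : F))]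
        · simp
        · intro k hk
          rcases hsq (g (e i) k) with h | h
          · exact absurd h (Finset.mem_filter.1 hk).2
          · exact h
      · intro k _ hk
        have : g (e i) k = 0 := by
          by_contra h
          exact hk (Finset.mem_filter.2 ⟨by by_contra h1; exact h (hz k h1), h⟩)
        rw [this, mul_zero]
    set A := I.filter fun k => g (e i) k ≠ 0 with hA
    have hcard : A.card ≤ 3 := (Finset.card_filter_le _ _).trans hI
    rw [hu] at hsum
    have h10 : (1 : F) ≠ 0 := one_ne_zero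
    have h2' : (2 : F) ≠ 1 := by
      intro h
      apply h10
      linear_combination h
    have hA1 : A.card = 1 := by
      have h0 : A.card ≠ 0 := fun h => by rw [h, Nat.cast_zero] at hsum; exact h10 hsum
      have h2 : A.card ≠ 2 := fun h => by rw [h] at hsum; exact h2' (by rw [hsum]; norm_num)
      have h3' : A.card ≠ 3 := fun h => by
        rw [h] at hsum; exact h10 (by rw [hsum]; exact_mod_cast h3)
      omega
    obtain ⟨j, hj⟩ := Finset.card_eq_one.1 hA1
    have hj' : ∀ k, k ≠ j → g (e i) k = 0 := by
      intro k hk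
      by_contra h
      have : k ∈ A := Finset.mem_filter.2 ⟨by by_contra h1; exact h (hz k h1), h⟩
      rw [hj, Finset.mem_singleton] at this
      exact hk this
    have hjj : g (e i) j ≠ 0 := by
      have : j ∈ A := by rw [hj]; exact Finset.mem_singleton_self j
      exact (Finset.mem_filter.1 this).2
    refine ⟨j, ?_⟩
    have h1 : (g (e i) j - 1) * (g (e i) j + 1) = 0 := by
      rcases hsq (g (e i) j) with h | h
      · exact absurd h hjj
      · linear_combination h
    rcases mul_eq_zero.1 h1 with h | h
    · left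
      funext k
      by_cases hk : k = j
      · subst hk
        rw [show (e k : ι → F) k = 1 by simp [e]]
        linear_combination h
      · rw [hj' k hk]; simp [e, hk]
    · right
      funext k
      by_cases hk : k = j
      · subst hk
        rw [Pi.neg_apply, show (e k : ι → F) k = 1 by simp [e]]
        linear_combination h
      · rw [hj' k hk]; simp [e, hk]
  · exact ⟨i, Or.inl (hs i hi)⟩

/-- **Main theorem**: a group containing the even monomial group and a non-monomial element. -/
theorem main [Fintype F] (hp : (Fintype.card F).Prime) (h2 : (2:F) ≠ 0)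
    (hN : Fintype.card ι = 7 ∨ 9 ≤ Fintype.card ι) (Q : QuadraticForm F (ι → F)) {c : F} (hc : c ≠ 0)
    (hQ : ∀ x, Q x = c * (x ⬝ᵥ x)) (D : Dat K) (hn : ∃ g ∈ K, ¬ Mon g) :
    ⁅H7.OA.O Q, H7.OA.O Q⁆ ≤ K := by
  have hN5 : 5 ≤ Fintype.card ι := by omega
  have hN7 : 7 ≤ Fintype.card ι := by omega
  refine H7.FrP13.omega_all h2 hN7 Q hc hQ ?_
  by_cases hm : MonLe K 3
  · obtain ⟨g, hg, I, hI, hs, hgn⟩ := chain (core h2) D hN hn
    have hI4 : I.card = 4 := by
      by_contra h
      exact hgn (hm g hg I (by omega) hs)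
    have hf : F4 K := H87.FrP9.f4_ident D h2 (by omega) hm hg hI4 hs hgn
    by_cases h3 : (3:F) = 0
    · exact fun v hv => H60.FrJ.desc3' hp h2 hN7 D hf h3 v hv
    · exfalso
      obtain ⟨g', hg', J, hJ, hs', hgn'⟩ := H60.FrJ.desc3 hp h2 hN7 D hf h3
      exact hgn' (hm g' hg' J hJ.le hs')
  · have h3 : (3:F) ≠ 0 := fun h => hm (mon3 hp h D)
    unfold MonLe at hm
    push Not at hm
    obtain ⟨g, hg, I, hI, hs, hgn⟩ := hm
    obtain ⟨J, hIJ, hJ⟩ := Finset.exists_superset_card_eq hI (by omega : 3 ≤ Fintype.card ι)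
    have ht : TR K := H79.FrP11.tr_of hp h2 hN5 D hg hJ (sup_mono hs hIJ) hgn
    exact fun v hv => H63.FrPhiAll.phi_all D h2 h3 hN5 ht v hv

end H96.Fr
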