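import Mathlib

set_option autoImplicit false
set_option linter.unusedSectionVars false
set_option linter.unusedVariables false

/-!
Control of fusion by a subgroup in which some p-elements lie in a unique conjugate.
-/

namespace H96.StFus

open MulAction

variable {X : Type*} [Group X] [Finite X] {H : Subgroup X} {p : ℕ} [Fact p.Prime]

lemma mem_conj_of_fixed {g t : X} (h : t • (g : X ⧸ H) = (g : X ⧸ H)) : g⁻¹ * t * g ∈ H := by
  have h1 : ((t * g : X) : X ⧸ H) = (g : X ⧸ H) := h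
  have h2 := QuotientGroup.eq.mp h1.symm
  rwa [← mul_assoc] at h2

/-- a p-subgroup containing a good element is in `H` -/
theorem pg_le {t : X} (htH : t ∈ H) (htp : IsPGroup p (Subgroup.zpowers t)) (hgood : ∀ g : X, g⁻¹ * t * g ∈ H → g ∈ H)
    {P : Subgroup X} (hP : IsPGroup p P) (htP : t ∈ P) : P ≤ H := by
  have hcard1 : Nat.card (fixedPoints (Subgroup.zpowers t) (X ⧸ H)) = 1 := by
    rw [Nat.card_eq_one_iff_unique]
    refine ⟨⟨?_⟩, ⟨⟨((1 : X) : X ⧸ H), ?_⟩⟩⟩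
    · have key : ∀ q : fixedPoints (Subgroup.zpowers t) (X ⧸ H), (q : X ⧸ H) = ((1 : X) : X ⧸ H) := by
        rintro ⟨q, hq⟩
        induction q using QuotientGroup.induction_on with
        | H g =>
          have h1 := hq ⟨t, Subgroup.mem_zpowers t⟩
          have h2 := hgood g (mem_conj_of_fixed h1)
          change (g : X ⧸ H) = ((1 : X) : X ⧸ H)
          rw [eq_comm, QuotientGroup.eq, inv_one, one_mul]
          exact h2
      intro a b
      exact Subtype.ext ((key a).trans (key b).symm)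
    · rintro ⟨s, hs⟩
      have hsH : s ∈ H := (Subgroup.zpowers_le.mpr htH) hs
      change ((s * 1 : X) : X ⧸ H) = ((1 : X) : X ⧸ H)
      rw [mul_one, eq_comm, QuotientGroup.eq, inv_one, one_mul]
      exact hsH
  have h1 := htp.card_modEq_card_fixedPoints (X ⧸ H)
  have h2 := hP.card_modEq_card_fixedPoints (X ⧸ H)
  rw [hcard1] at h1
  have h3 : 1 ≡ Nat.card (fixedPoints P (X ⧸ H)) [MOD p] := h1.symm.trans h2
  have h4 : Nat.card (fixedPoints P (X ⧸ H)) ≠ 0 := by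
    intro h
    rw [h] at h3
    have h5 := (Nat.modEq_zero_iff_dvd).mp h3
    exact (Fact.out : p.Prime).one_lt.ne' (Nat.dvd_one.mp h5)
  have h5 : Nonempty (fixedPoints P (X ⧸ H)) := by
    by_contra hcon
    rw [not_nonempty_iff] at hcon
    exact h4 Nat.card_of_isEmpty
  obtain ⟨⟨q, hq⟩⟩ := h5
  induction q using QuotientGroup.induction_on with
  | H g =>
    have hg : g ∈ H := hgood g (mem_conj_of_fixed (hq ⟨t, htP⟩))
    intro s hs
    have h6 := mem_conj_of_fixed (hq ⟨s, hs⟩)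
    have h7 := H.mul_mem (H.mul_mem hg h6) (H.inv_mem hg)
    have h8 : g * (g⁻¹ * s * g) * g⁻¹ = s := by group
    change g⁻¹ * s * g ∈ H at h6
    change g * (g⁻¹ * s * g) * g⁻¹ ∈ H at h7
    rwa [h8] at h7

/-- good elements -/
def Good (H : Subgroup X) (p : ℕ) (t : X) : Prop :=
  t ∈ H ∧ IsPGroup p (Subgroup.zpowers t) ∧ ∀ g : X, g⁻¹ * t * g ∈ H → g ∈ H

/-- control of fusion -/
theorem fusion {C : Subgroup X} {t s g : X} (ht : Good H p t) (hs : Good H p s) (htC : t ∈ C)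
    (hsC : g * s * g⁻¹ ∈ C) : ∃ c ∈ C, c * g ∈ H := by
  obtain ⟨htH, htp, htg⟩ := ht
  obtain ⟨hsH, hsp, hsg⟩ := hs
  -- the two cyclic subgroups of C
  let t' : C := ⟨t, htC⟩
  let s' : C := ⟨g * s * g⁻¹, hsC⟩
  have hordt : ∀ x : X, IsPGroup p (Subgroup.zpowers x) → ∃ k, x ^ p ^ k = 1 := by
    intro x hx
    obtain ⟨k, hk⟩ := hx ⟨x, Subgroup.mem_zpowers x⟩
    exact ⟨k, congrArg Subtype.val hk⟩
  have hz : ∀ x : C, (∃ k, x ^ p ^ k = 1) → IsPGroup p (Subgroup.zpowers x) := by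
    rintro x ⟨k, hk⟩ ⟨y, hy⟩
    obtain ⟨n, rfl⟩ := Subgroup.mem_zpowers_iff.mp hy
    refine ⟨k, Subtype.ext ?_⟩
    change (x ^ n) ^ p ^ k = 1
    rw [← zpow_natCast, ← zpow_mul, mul_comm, zpow_mul, zpow_natCast, hk, one_zpow]
  have ht' : IsPGroup p (Subgroup.zpowers t') := by
    obtain ⟨k, hk⟩ := hordt t htp
    exact hz t' ⟨k, Subtype.ext hk⟩
  have hs' : IsPGroup p (Subgroup.zpowers s') := by
    obtain ⟨k, hk⟩ := hordt s hsp
    refine hz s' ⟨k, Subtype.ext ?_⟩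
    change (g * s * g⁻¹) ^ p ^ k = 1
    rw [conj_pow, hk, mul_one, mul_inv_cancel]
  obtain ⟨S, hS⟩ := ht'.exists_le_sylow
  obtain ⟨T, hT⟩ := hs'.exists_le_sylow
  obtain ⟨c, hc⟩ := MulAction.exists_smul_eq C T S
  have h1 : c * s' * c⁻¹ ∈ (S : Subgroup C) := by
    have h2 : s' ∈ (T : Subgroup C) := hT (Subgroup.mem_zpowers s')
    have h3 : MulAut.conj c • s' ∈ (c • T : Sylow p C) := Subgroup.smul_mem_pointwise_smul _ _ _ h2
    rw [hc] at h3
    exact h3
  -- the Sylow subgroup S is in H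
  have h2 : (S : Subgroup C).map C.subtype ≤ H := by
    refine pg_le htH htp htg (S.isPGroup'.map C.subtype) ?_
    exact ⟨t', hS (Subgroup.mem_zpowers t'), rfl⟩
  have h3 : (c : X) * (g * s * g⁻¹) * (c : X)⁻¹ ∈ H := h2 ⟨_, h1, rfl⟩
  refine ⟨c, c.2, ?_⟩
  have h4 : ((c : X) * g)⁻¹⁻¹ * s * ((c : X) * g)⁻¹ ∈ H := by
    have h5 : ((c : X) * g)⁻¹⁻¹ * s * ((c : X) * g)⁻¹ = (c : X) * (g * s * g⁻¹) * (c : X)⁻¹ := by group
    rw [h5]; exact h3
  have h6 := H.inv_mem (hsg _ h4)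
  rwa [inv_inv] at h6

end H96.StFus
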