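import Cfsg.Agent.Lib.H96.FrRes2

set_option autoImplicit false
set_option linter.unusedSectionVars false

/-!
The chain: a non-monomial element supported on at most four coordinates.
-/

namespace H96.Fr

open Matrix

universe u v

/-- the numerical condition of the core argument -/
def Cond (N r : ℕ) : Prop := (N = 5 ∧ r = 4) ∨ (N = 7 ∧ r = 5) ∨ (9 ≤ N ∧ N ≤ r + 2)

/-- the core theorem as a statement -/
def CoreH (F : Type v) [Field F] : Prop :=
  ∀ (κ : Type u) [Fintype κ] [DecidableEq κ] (L : Subgroup ((κ → F) ≃ₗ[F] (κ → F))), Dat L →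
    ∀ r, MonLe L r → Cond (Fintype.card κ) r → ∀ g ∈ L, Mon g

variable {ι : Type u} {F : Type v} [Fintype ι] [DecidableEq ι] [Field F]
  {K : Subgroup ((ι → F) ≃ₗ[F] (ι → F))}

lemma MonLe.mono {r s : ℕ} (h : MonLe K s) (hrs : r ≤ s) : MonLe K r :=
  fun g hg I hI hs => h g hg I (hI.trans hrs) hs

lemma step_card (hcore : CoreH.{u, v} F) (D : Dat K) {r N : ℕ} (hr : MonLe K r) (hc : Cond N r)
    {I : Finset ι} (hI : I.card = N) : ∀ x ∈ K, Sup x I → Mon x := by
  intro x hx hs
  apply lift_mon D hx hs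
  exact hcore _ _ (D.res I) r (hr.res I) (by rw [Fintype.card_coe, hI]; exact hc)

lemma sup_mono {x : (ι → F) ≃ₗ[F] (ι → F)} {I J : Finset ι} (h : Sup x I) (hIJ : I ⊆ J) : Sup x J :=
  fun j hj => h j fun h1 => hj (hIJ h1)

lemma monLe_of_card {m : ℕ} (hm : m ≤ Fintype.card ι)
    (h : ∀ I : Finset ι, I.card = m → ∀ x ∈ K, Sup x I → Mon x) : MonLe K m := by
  intro g hg I hI hs
  obtain ⟨J, hIJ, hJ⟩ := Finset.exists_superset_card_eq hI hm
  exact h J hJ g hg (sup_mono hs hIJ)

/-- The chain. -/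
theorem chain (hcore : CoreH.{u, v} F) (D : Dat K) (hN : Fintype.card ι = 7 ∨ 9 ≤ Fintype.card ι)
    (hn : ∃ g ∈ K, ¬ Mon g) : ∃ g ∈ K, ∃ I : Finset ι, I.card ≤ 4 ∧ Sup g I ∧ ¬ Mon g := by
  by_contra hcon
  have h4 : MonLe K 4 := by
    intro g hg I hI hs
    by_contra h
    exact hcon ⟨g, hg, I, hI, hs, h⟩
  have h5 : MonLe K 5 := monLe_of_card (by omega) fun I hI => step_card hcore D h4 (Or.inl ⟨rfl, rfl⟩) hI
  have h7 : MonLe K 7 := monLe_of_card (by omega) fun I hI => step_card hcore D h5 (Or.inr (Or.inl ⟨rfl, rfl⟩)) hI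
  have hall : MonLe K (Fintype.card ι) := by
    rcases hN with hN | hN
    · rw [hN]; exact h7
    · have key : ∀ m, 9 ≤ m → m ≤ Fintype.card ι → MonLe K m := by
        intro m hm
        induction m, hm using Nat.le_induction with
        | base =>
          intro hm
          exact monLe_of_card hm fun I hI => step_card hcore D h7 (Or.inr (Or.inr ⟨le_rfl, le_rfl⟩)) hI
        | succ m hm ih =>
          intro hm1
          exact monLe_of_card hm1 fun I hI => step_card hcore D (ih (by omega))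
            (Or.inr (Or.inr ⟨by omega, by omega⟩)) hI
      exact key _ hN le_rfl
  obtain ⟨g, hg, hgn⟩ := hn
  exact hgn (hall g hg Finset.univ (by rw [Finset.card_univ]) fun j hj => absurd (Finset.mem_univ j) hj)

end H96.Fr
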