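import Cfsg.Agent.Lib.H96.FrChain
import Cfsg.Agent.Lib.H9.FrP4b
import Cfsg.Agent.Lib.H41.FrC24
import Cfsg.Agent.Lib.H78.FrT2Big
import Cfsg.Agent.Lib.H26.FrP3
import Cfsg.Agent.Lib.H20.FrP5a
import Cfsg.Agent.Lib.H24.FrFam
import Cfsg.Agent.Lib.H73.FrComb
import Cfsg.Agent.Lib.H63.FrSupp

set_option autoImplicit false
set_option linter.unusedSectionVars false

/-!
The core argument and the main theorem for frame stabilisers.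
-/

namespace H96.Fr

open Matrix
open scoped commutatorElement

universe u v

theorem core {F : Type v} [Field F] [Finite F] (h2 : (2:F) ≠ 0) : CoreH.{u, v} F := by
  intro κ _ _ L D r hr hc
  by_contra hcon
  push Not at hcon
  obtain ⟨k₀, hk, hk'⟩ := hcon
  have hr4 : 4 ≤ r := by rcases hc with ⟨_, h⟩ | ⟨_, h⟩ | ⟨h, h'⟩ <;> omega
  have hN : 5 ≤ Fintype.card κ := by rcases hc with ⟨h, _⟩ | ⟨h, _⟩ | ⟨h, h'⟩ <;> omega
  have hm4 : MonLe L 4 := hr.mono hr4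
  have hc2 : C2 L := H41.FrC24.c2 D h2 hr (by rcases hc with ⟨h, _⟩ | ⟨h, _⟩ | ⟨h, h'⟩ <;> omega)
  have hc4 : C4 L := H41.FrC24.c4 D h2 hr (by rcases hc with ⟨h, _⟩ | ⟨h, _⟩ | ⟨h, h'⟩ <;> omega)
  have ht2' : T2' L := by
    rcases hc with ⟨h, _⟩ | ⟨h, h'⟩ | ⟨h, h'⟩
    · exact H9.FrP4.t2_five D h2 hm4 hc2 h
    · exact H26.FrP3.t2_seven D h2 (hr.mono h'.ge) hc2 h
    · exact H78.FrT2.t2_big D h2 hm4 hc2 h
  have ht2 : T2 L := H20.Fr.t2_of D h2 hN hc2 ht2'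
  obtain ⟨S, h1, hS, hS'⟩ := H24.FrFam.fam D h2 hN hm4 hc2 hc4 ht2
    (fun k hk hk' i j a b hij hab => H20.Fr.odd_prod D h2 hN hm4 hc2 ht2 hk hk' hij hab) hk hk'
  refine H73.FrComb.comb (by rcases hc with ⟨h, _⟩ | ⟨h, _⟩ | ⟨h, h'⟩ <;> omega) S h1 hS ?_ ?_
  · intro σ hσ
    obtain ⟨g, ho, hg, W, hW, hW'⟩ := hS' σ hσ
    exact (H63.FrSupp.supp_le h2 hg ho hW hW').1
  · intro σ hσ
    obtain ⟨g, ho, hg, W, hW, hW'⟩ := hS' σ hσ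
    exact (H63.FrSupp.supp_le h2 hg ho hW hW').2

end H96.Fr
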