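import Mathlib

set_option autoImplicit false

/-!
Frame stabilisers in orthogonal groups over prime fields: definitions.
-/

namespace H96.Fr

open Matrix

variable {ι F : Type*} [Fintype ι] [DecidableEq ι] [Field F]

/-- basis vector -/
def e (i : ι) : ι → F := Pi.single i 1

/-- sign change in the coordinates `i`, `j` -/
def sgm (i j : ι) : (ι → F) →ₗ[F] (ι → F) where
  toFun x k := if k = i ∨ k = j then - x k else x k
  map_add' x y := by
    funext k; by_cases h : k = i ∨ k = j <;> simp [h]; ring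
  map_smul' c x := by
    funext k; by_cases h : k = i ∨ k = j <;> simp [h]

lemma sgm_sgm (i j : ι) (x : ι → F) : sgm i j (sgm i j x) = x := by
  funext k; by_cases h : k = i ∨ k = j <;> simp [sgm, h]

/-- sign change in the coordinates `i`, `j` -/
def sg (i j : ι) : (ι → F) ≃ₗ[F] (ι → F) :=
  LinearEquiv.ofInvolutive (sgm i j) (sgm_sgm i j)

lemma sg_apply (i j : ι) (x : ι → F) (k : ι) : sg i j x k = if k = i ∨ k = j then - x k else x k := rfl

/-- permutation matrices: `pm σ (e i) = e (σ i)` -/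
def pm (σ : Equiv.Perm ι) : (ι → F) ≃ₗ[F] (ι → F) := LinearEquiv.funCongrLeft F F σ.symm

lemma pm_apply (σ : Equiv.Perm ι) (x : ι → F) (k : ι) : pm σ x k = x (σ.symm k) := rfl

lemma pm_e (σ : Equiv.Perm ι) (i : ι) : pm σ (e i) = (e (σ i) : ι → F) := by
  funext k
  rw [pm_apply]
  by_cases h : k = σ i
  · subst h; simp [e]
  · have h' : σ.symm k ≠ i := fun h1 => h (by rw [← h1, Equiv.apply_symm_apply])
    simp [e, h, h']

/-- isometry of the dot product -/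
def Iso (g : (ι → F) ≃ₗ[F] (ι → F)) : Prop := ∀ x y, g x ⬝ᵥ g y = x ⬝ᵥ y

/-- monomial -/
def Mon (g : (ι → F) ≃ₗ[F] (ι → F)) : Prop := ∀ i, ∃ j, g (e i) = e j ∨ g (e i) = - e j

/-- diagonal -/
def Dia (g : (ι → F) ≃ₗ[F] (ι → F)) : Prop := ∀ i, g (e i) = e i ∨ g (e i) = - e i

/-- supported on `I` -/
def Sup (g : (ι → F) ≃ₗ[F] (ι → F)) (I : Finset ι) : Prop := ∀ j, j ∉ I → g (e j) = e j

/-- the standing hypotheses on `K` -/
structure Dat (K : Subgroup ((ι → F) ≃ₗ[F] (ι → F))) : Prop where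
  iso : ∀ g ∈ K, Iso g
  det : ∀ g ∈ K, LinearMap.det (g : (ι → F) →ₗ[F] (ι → F)) = 1
  sg : ∀ i j, i ≠ j → sg i j ∈ K
  pm : ∀ σ : Equiv.Perm ι, Equiv.Perm.sign σ = 1 → pm σ ∈ K

/-- elements of `K` supported on at most `r` coordinates are monomial -/
def MonLe (K : Subgroup ((ι → F) ≃ₗ[F] (ι → F))) (r : ℕ) : Prop :=
  ∀ g ∈ K, ∀ I : Finset ι, I.card ≤ r → Sup g I → Mon g

/-- (1) centralisers of `sg i j` -/
def C2 (K : Subgroup ((ι → F) ≃ₗ[F] (ι → F))) : Prop :=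
  ∀ g ∈ K, ∀ i j, i ≠ j → g * sg i j = sg i j * g → Mon g

/-- (4) centralisers of `sg i j * sg k l` -/
def C4 (K : Subgroup ((ι → F) ≃ₗ[F] (ι → F))) : Prop :=
  ∀ g ∈ K, ∀ i j k l : ι, [i, j, k, l].Nodup → g * (sg i j * sg k l) = sg i j * sg k l * g → Mon g

/-- (2) `k d k⁻¹` monomial implies `k` monomial -/
def T2 (K : Subgroup ((ι → F) ≃ₗ[F] (ι → F))) : Prop :=
  ∀ k ∈ K, ∀ i j, i ≠ j → Mon (k * sg i j * k⁻¹) → Mon k

/-- (2') the non-diagonal case -/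
def T2' (K : Subgroup ((ι → F) ≃ₗ[F] (ι → F))) : Prop :=
  ∀ k ∈ K, ∀ i j, i ≠ j → Mon (k * sg i j * k⁻¹) → ¬ Dia (k * sg i j * k⁻¹) → Mon k

/-- the reflection in a unit vector `v` (`v ⬝ᵥ v = 1`); identity otherwise -/
def rfm (v : ι → F) : (ι → F) →ₗ[F] (ι → F) where
  toFun x := x - (2 * (x ⬝ᵥ v)) • v
  map_add' x y := by
    simp only [add_dotProduct, mul_add, add_smul]; abel
  map_smul' c x := by
    simp only [smul_dotProduct, smul_eq_mul, RingHom.id_apply, smul_sub, smul_smul]; congr 2; ring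

lemma rfm_rfm {v : ι → F} (hv : v ⬝ᵥ v = 1) (x : ι → F) : rfm v (rfm v x) = x := by
  simp only [rfm, LinearMap.coe_mk, AddHom.coe_mk, sub_dotProduct, smul_dotProduct, hv, smul_eq_mul]
  module

/-- the reflection in a unit vector `v` (identity if `v` is not a unit vector) -/
noncomputable def rf (v : ι → F) : (ι → F) ≃ₗ[F] (ι → F) :=
  open Classical in if hv : v ⬝ᵥ v = 1 then LinearEquiv.ofInvolutive (rfm v) (rfm_rfm hv) else 1

lemma rf_apply {v : ι → F} (hv : v ⬝ᵥ v = 1) (x : ι → F) : rf v x = x - (2 * (x ⬝ᵥ v)) • v := by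
  rw [rf, dif_pos hv]; rfl

/-- all products of a reflection in a unit vector `v` with coordinate reflections lie in `K` -/
def Phi (K : Subgroup ((ι → F) ≃ₗ[F] (ι → F))) (v : ι → F) : Prop :=
  v ⬝ᵥ v = 1 ∧ ∀ j, rf v * rf (e j) ∈ K

/-- `K` contains the F4-type reflections on all 4-subsets -/
def F4 (K : Subgroup ((ι → F) ≃ₗ[F] (ι → F))) : Prop :=
  ∀ v : ι → F, (∃ I : Finset ι, I.card = 4 ∧ (∀ i, i ∉ I → v i = 0) ∧ ∀ i ∈ I, 4 * (v i * v i) = 1) → Phi K v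

/-- transitivity of 3-coordinate subgroups on vectors of given nonzero norm -/
def TR (K : Subgroup ((ι → F) ≃ₗ[F] (ι → F))) : Prop :=
  ∀ I : Finset ι, I.card = 3 → ∀ y y' : ι → F, (∀ i, i ∉ I → y i = 0) → (∀ i, i ∉ I → y' i = 0) →
    y ⬝ᵥ y = y' ⬝ᵥ y' → y ⬝ᵥ y ≠ 0 → ∃ g ∈ K, Sup g I ∧ g y = y'

end H96.Fr
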