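import Cfsg.Agent.Lib.H96.FrDef

set_option autoImplicit false
set_option linter.unusedSectionVars false

/-!
Restriction of the frame setting to a subset of the coordinates.
-/

namespace H96.Fr

open Matrix

variable {ι F : Type*} [Fintype ι] [DecidableEq ι] [Field F]

/-- extension by zero -/
def up (I : Finset ι) (y : I → F) : ι → F := fun k => if h : k ∈ I then y ⟨k, h⟩ else 0

/-- restriction -/
def dn (I : Finset ι) (x : ι → F) : I → F := fun j => x j

lemma up_mem {I : Finset ι} (y : I → F) {k : ι} (h : k ∈ I) : up I y k = y ⟨k, h⟩ := dif_pos h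
lemma up_not {I : Finset ι} (y : I → F) {k : ι} (h : k ∉ I) : up I y k = 0 := dif_neg h

lemma dn_up {I : Finset ι} (y : I → F) : dn I (up I y) = y := by
  funext j; simp [dn, up]

lemma up_e {I : Finset ι} (i : I) : up I (e i : I → F) = e (i : ι) := by
  funext k
  by_cases h : k ∈ I
  · rw [up_mem _ h]
    by_cases h1 : k = i
    · subst h1; simp [e]
    · have : (⟨k, h⟩ : I) ≠ i := fun h2 => h1 (by rw [← h2])
      simp [e, h1, this]
  · rw [up_not _ h]
    have : k ≠ i := fun h2 => h (h2 ▸ i.2)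
    simp [e, this]

lemma up_neg {I : Finset ι} (y : I → F) : up I (-y) = - up I y := by
  funext k
  by_cases h : k ∈ I <;> simp [up, h]

lemma up_inj {I : Finset ι} {y z : I → F} (h : up I y = up I z) : y = z := by
  rw [← dn_up y, h, dn_up]

/-- the extension of a linear map -/
def exm (I : Finset ι) (g : (I → F) →ₗ[F] (I → F)) : (ι → F) →ₗ[F] (ι → F) where
  toFun x k := if h : k ∈ I then g (dn I x) ⟨k, h⟩ else x k
  map_add' x y := by
    funext k
    have : dn I (x + y) = dn I x + dn I y := rfl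
    by_cases h : k ∈ I <;> simp [h, this]
  map_smul' c x := by
    funext k
    have : dn I (c • x) = c • dn I x := rfl
    by_cases h : k ∈ I <;> simp [h, this]

lemma exm_mem {I : Finset ι} (g : (I → F) →ₗ[F] (I → F)) (x : ι → F) {k : ι} (h : k ∈ I) :
    exm I g x k = g (dn I x) ⟨k, h⟩ := dif_pos h
lemma exm_not {I : Finset ι} (g : (I → F) →ₗ[F] (I → F)) (x : ι → F) {k : ι} (h : k ∉ I) :
    exm I g x k = x k := dif_neg h

lemma dn_exm {I : Finset ι} (g : (I → F) →ₗ[F] (I → F)) (x : ι → F) : dn I (exm I g x) = g (dn I x) := by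
  funext j
  show exm I g x j = _
  rw [exm_mem g x j.2]

lemma exm_comp {I : Finset ι} (g g' : (I → F) →ₗ[F] (I → F)) (x : ι → F) :
    exm I g (exm I g' x) = exm I (g ∘ₗ g') x := by
  funext k
  by_cases h : k ∈ I
  · rw [exm_mem _ _ h, exm_mem _ _ h, dn_exm]; rfl
  · rw [exm_not _ _ h, exm_not _ _ h, exm_not _ _ h]

lemma exm_id {I : Finset ι} (x : ι → F) : exm I LinearMap.id x = x := by
  funext k
  by_cases h : k ∈ I
  · rw [exm_mem _ _ h]; rfl
  · rw [exm_not _ _ h]

/-- the extension of a linear equivalence -/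
def exf (I : Finset ι) (g : (I → F) ≃ₗ[F] (I → F)) : (ι → F) ≃ₗ[F] (ι → F) :=
  LinearEquiv.ofLinearMap (exm I g) (exm I g.symm)
    (by
      ext1 x
      apply LinearMap.ext
      intro c
      show exm I _ (exm I _ _) = _
      rw [exm_comp, LinearEquiv.comp_coe, LinearEquiv.symm_trans_self, LinearEquiv.refl_toLinearMap, exm_id]
      rfl)
    (by
      ext1 x
      apply LinearMap.ext
      intro c
      show exm I _ (exm I _ _) = _
      rw [exm_comp, LinearEquiv.comp_coe, LinearEquiv.self_trans_symm, LinearEquiv.refl_toLinearMap, exm_id]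
      rfl)

lemma exf_apply {I : Finset ι} (g : (I → F) ≃ₗ[F] (I → F)) (x : ι → F) : exf I g x = exm I g x := rfl

/-- the extension homomorphism -/
def ex (I : Finset ι) : ((I → F) ≃ₗ[F] (I → F)) →* ((ι → F) ≃ₗ[F] (ι → F)) where
  toFun := exf I
  map_one' := by
    apply LinearEquiv.ext; intro x
    exact exm_id x
  map_mul' g h := by
    apply LinearEquiv.ext; intro x
    rw [LinearEquiv.mul_apply, exf_apply, exf_apply, exf_apply, exm_comp]
    rfl

lemma ex_mem {I : Finset ι} (g : (I → F) ≃ₗ[F] (I → F)) (x : ι → F) {k : ι} (h : k ∈ I) :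
    ex I g x k = g (dn I x) ⟨k, h⟩ := exm_mem (g : (I → F) →ₗ[F] (I → F)) x h
lemma ex_not {I : Finset ι} (g : (I → F) ≃ₗ[F] (I → F)) (x : ι → F) {k : ι} (h : k ∉ I) :
    ex I g x k = x k := exm_not (g : (I → F) →ₗ[F] (I → F)) x h

lemma ex_up {I : Finset ι} (g : (I → F) ≃ₗ[F] (I → F)) (y : I → F) : ex I g (up I y) = up I (g y) := by
  funext k
  by_cases h : k ∈ I
  · rw [ex_mem _ _ h, up_mem _ h, dn_up]
  · rw [ex_not _ _ h, up_not _ h, up_not _ h]

lemma ex_e {I : Finset ι} (g : (I → F) ≃ₗ[F] (I → F)) (i : I) : ex I g (e (i : ι)) = up I (g (e i)) := by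
  rw [← up_e, ex_up]

lemma ex_sup {I : Finset ι} (g : (I → F) ≃ₗ[F] (I → F)) {j : ι} (hj : j ∉ I) : ex I g (e j) = e j := by
  funext k
  by_cases h : k ∈ I
  · rw [ex_mem _ _ h]
    have h1 : dn I (e j : ι → F) = 0 := by
      funext l
      have : (l : ι) ≠ j := fun h2 => hj (h2 ▸ l.2)
      simp [dn, e, this]
    have : k ≠ j := fun h2 => hj (h2 ▸ h)
    rw [h1, map_zero]; simp [e, this]
  · rw [ex_not _ _ h]

lemma dot_split (I : Finset ι) (x y : ι → F) :
    x ⬝ᵥ y = dn I x ⬝ᵥ dn I y + ∑ k ∈ Iᶜ, x k * y k := by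
  rw [dotProduct, dotProduct, ← Finset.sum_add_sum_compl I, ← Finset.sum_coe_sort I]
  rfl

lemma ex_iso {I : Finset ι} {g : (I → F) ≃ₗ[F] (I → F)} : Iso (ex I g) → Iso g := by
  intro h x y
  have h1 := h (up I x) (up I y)
  rw [ex_up, ex_up, dot_split I, dot_split I (up I x), dn_up, dn_up, dn_up, dn_up] at h1
  have h2 : ∀ z w : I → F, ∑ k ∈ Iᶜ, up I z k * up I w k = 0 := by
    intro z w
    apply Finset.sum_eq_zero
    intro k hk
    rw [Finset.mem_compl] at hk
    rw [up_not _ hk, zero_mul]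
  rw [h2, h2, add_zero, add_zero] at h1
  exact h1

lemma ex_mon {I : Finset ι} {g : (I → F) ≃ₗ[F] (I → F)} (h : Mon (ex I g)) : Mon g := by
  intro i
  obtain ⟨j, hj⟩ := h (i : ι)
  rw [ex_e] at hj
  by_cases hjI : j ∈ I
  · refine ⟨⟨j, hjI⟩, ?_⟩
    have h1 : (e j : ι → F) = up I (e (⟨j, hjI⟩ : I)) := (up_e (⟨j, hjI⟩ : I)).symm
    rcases hj with hj | hj
    · left; exact up_inj (hj.trans h1)
    · right; exact up_inj (hj.trans (by rw [h1, up_neg]))
  · exfalso
    rcases hj with hj | hj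
    · have := congrFun hj j
      rw [up_not _ hjI] at this
      simp [e] at this
    · have := congrFun hj j
      rw [up_not _ hjI] at this
      simp [e] at this

lemma mon_ex {I : Finset ι} {g : (I → F) ≃ₗ[F] (I → F)} (h : Mon g) : Mon (ex I g) := by
  intro i
  by_cases hi : i ∈ I
  · obtain ⟨j, hj⟩ := h ⟨i, hi⟩
    refine ⟨j, ?_⟩
    have h1 := ex_e g ⟨i, hi⟩
    rcases hj with hj | hj
    · left; rw [show (e i : ι → F) = e ((⟨i, hi⟩ : I) : ι) from rfl, h1, hj, up_e]
    · right; rw [show (e i : ι → F) = e ((⟨i, hi⟩ : I) : ι) from rfl, h1, hj, up_neg, up_e]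
  · exact ⟨i, Or.inl (ex_sup g hi)⟩

end H96.Fr
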