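import Cfsg.Agent.Lib.H96.FrRes

set_option autoImplicit false
set_option linter.unusedSectionVars false

/-!
Restriction of the frame setting to a subset of the coordinates, second part.
-/

namespace H96.Fr

open Matrix

variable {ι F : Type*} [Fintype ι] [DecidableEq ι] [Field F]

/-- splitting of the coordinates -/
def spl (I : Finset ι) : (ι → F) ≃ₗ[F] (I → F) × ({k // k ∉ I} → F) :=
  { Equiv.piEquivPiSubtypeProd (fun k => k ∈ I) (fun _ => F) with
    map_add' := fun _ _ => rfl
    map_smul' := fun _ _ => rfl }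

lemma det_ex (I : Finset ι) (g : (I → F) ≃ₗ[F] (I → F)) :
    LinearMap.det ((ex I g : (ι → F) ≃ₗ[F] (ι → F)) : (ι → F) →ₗ[F] (ι → F))
      = LinearMap.det (g : (I → F) →ₗ[F] (I → F)) := by
  have h1 : ((spl I : (ι → F) ≃ₗ[F] _) : (ι → F) →ₗ[F] (I → F) × ({k // k ∉ I} → F)) ∘ₗ
      ((ex I g : (ι → F) ≃ₗ[F] (ι → F)) : (ι → F) →ₗ[F] (ι → F)) ∘ₗ
      (((spl I : (ι → F) ≃ₗ[F] _).symm : ((I → F) × ({k // k ∉ I} → F)) ≃ₗ[F] (ι → F)) :
        ((I → F) × ({k // k ∉ I} → F)) →ₗ[F] (ι → F))
      = LinearMap.prodMap (g : (I → F) →ₗ[F] (I → F)) LinearMap.id := by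
    apply LinearMap.ext
    intro x
    obtain ⟨z, rfl⟩ := (spl I).surjective x
    show spl I (ex I g ((spl I).symm (spl I z))) = (g (spl I z).1, (spl I z).2)
    rw [LinearEquiv.symm_apply_apply]
    refine Prod.ext ?_ ?_
    · funext j
      show ex I g z j = g (dn I z) j
      rw [ex_mem g z j.2]
    · funext j
      show ex I g z j = z j
      rw [ex_not g z j.2]
  rw [← LinearMap.det_conj _ (spl I), h1, LinearMap.det_prodMap, LinearMap.det_id, mul_one]

lemma ex_sg {I : Finset ι} (i j : I) : ex I (sg i j : (I → F) ≃ₗ[F] (I → F)) = sg (i : ι) (j : ι) := by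
  apply LinearEquiv.ext
  intro x
  funext k
  by_cases h : k ∈ I
  · rw [ex_mem _ _ h, sg_apply, sg_apply]
    simp only [Subtype.ext_iff]
    rfl
  · rw [ex_not _ _ h, sg_apply, if_neg]
    rintro (h1 | h1)
    · exact h (h1 ▸ i.2)
    · exact h (h1 ▸ j.2)

lemma ex_pm {I : Finset ι} (σ : Equiv.Perm I) : ex I (pm σ : (I → F) ≃ₗ[F] (I → F)) = pm (σ.ofSubtype) := by
  apply LinearEquiv.ext
  intro x
  funext k
  by_cases h : k ∈ I
  · rw [ex_mem _ _ h, pm_apply, pm_apply]
    show x (σ.symm ⟨k, h⟩ : I) = _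
    congr 1
    rw [Equiv.eq_symm_apply, Equiv.Perm.ofSubtype_apply_coe, Equiv.apply_symm_apply]
  · rw [ex_not _ _ h, pm_apply]
    congr 1
    rw [Equiv.eq_symm_apply, Equiv.Perm.ofSubtype_apply_of_not_mem _ h]

variable {K : Subgroup ((ι → F) ≃ₗ[F] (ι → F))}

lemma Dat.res (D : Dat K) (I : Finset ι) : Dat (K.comap (ex I)) where
  iso g hg := ex_iso (D.iso _ hg)
  det g hg := by rw [← det_ex]; exact D.det _ hg
  sg i j hij := by
    rw [Subgroup.mem_comap, ex_sg]
    exact D.sg _ _ fun h => hij (Subtype.ext h)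
  pm σ hσ := by
    rw [Subgroup.mem_comap, ex_pm]
    exact D.pm _ (by rw [Equiv.Perm.sign_ofSubtype, hσ])

lemma MonLe.res {r : ℕ} (h : MonLe K r) (I : Finset ι) : MonLe (K.comap (ex I)) r := by
  intro g hg J hJ hs
  apply ex_mon (I := I)
  refine h _ hg (J.map (Function.Embedding.subtype _)) (by rw [Finset.card_map]; exact hJ) ?_
  intro j hj
  by_cases hjI : j ∈ I
  · have hjJ : (⟨j, hjI⟩ : I) ∉ J := fun h1 => hj (Finset.mem_map.2 ⟨_, h1, rfl⟩)
    have h1 := ex_e g ⟨j, hjI⟩
    rw [hs _ hjJ, up_e] at h1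
    exact h1
  · exact ex_sup g hjI

lemma e_dot (i : ι) (x : ι → F) : e i ⬝ᵥ x = x i := by simp [e, dotProduct, Pi.single_apply]

/-- an isometry supported on `I` is an extension -/
lemma exists_res {x : (ι → F) ≃ₗ[F] (ι → F)} (hx : Iso x) {I : Finset ι} (hs : Sup x I) :
    ∃ g : (I → F) ≃ₗ[F] (I → F), ex I g = x := by
  have hval : ∀ (y : ι → F) (k : ι), k ∉ I → x y k = y k := by
    intro y k hk
    rw [← e_dot k (x y), ← hs k hk, hx, e_dot]
  have hsym : ∀ (y : ι → F) (k : ι), k ∉ I → x.symm y k = y k := by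
    intro y k hk
    have := hval (x.symm y) k hk
    rw [LinearEquiv.apply_symm_apply] at this
    exact this.symm
  have hud : ∀ z : ι → F, (∀ k, k ∉ I → z k = 0) → up I (dn I z) = z := by
    intro z hz
    funext k
    by_cases h : k ∈ I
    · rw [up_mem _ h]; rfl
    · rw [up_not _ h, hz k h]
  have h0 : ∀ y : I → F, up I (dn I (x (up I y))) = x (up I y) := by
    intro y
    apply hud
    intro k hk
    rw [hval _ k hk, up_not _ hk]
  have h0' : ∀ y : I → F, up I (dn I (x.symm (up I y))) = x.symm (up I y) := by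
    intro y
    apply hud
    intro k hk
    rw [hsym _ k hk, up_not _ hk]
  have upadd : ∀ y z : I → F, up I (y + z) = up I y + up I z := by
    intro y z; funext k; by_cases h : k ∈ I <;> simp [up, h]
  have upsmul : ∀ (c : F) (y : I → F), up I (c • y) = c • up I y := by
    intro c y; funext k; by_cases h : k ∈ I <;> simp [up, h]
  let g : (I → F) ≃ₗ[F] (I → F) :=
    { toFun := fun y => dn I (x (up I y))
      invFun := fun y => dn I (x.symm (up I y))
      map_add' := fun y z => by rw [upadd, map_add]; rfl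
      map_smul' := fun c y => by rw [upsmul, map_smul]; rfl
      left_inv := fun y => by
        show dn I (x.symm (up I (dn I (x (up I y))))) = y
        rw [h0, LinearEquiv.symm_apply_apply, dn_up]
      right_inv := fun y => by
        show dn I (x (up I (dn I (x.symm (up I y))))) = y
        rw [h0', LinearEquiv.apply_symm_apply, dn_up] }
  refine ⟨g, ?_⟩
  have hb : ∀ i, ex I g (e i) = x (e i) := by
    intro i
    by_cases hi : i ∈ I
    · have h1 := ex_e g ⟨i, hi⟩
      have h2 : up I (g (e ⟨i, hi⟩)) = x (e i) := by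
        show up I (dn I (x (up I (e ⟨i, hi⟩)))) = _
        rw [h0, up_e]
      rw [← h2]; exact h1
    · rw [ex_sup g hi, hs i hi]
  apply LinearEquiv.toLinearMap_injective
  apply LinearMap.pi_ext'
  intro i
  apply LinearMap.ext_ring
  exact hb i

lemma lift_mon {x : (ι → F) ≃ₗ[F] (ι → F)} (D : Dat K) (hx : x ∈ K) {I : Finset ι} (hs : Sup x I)
    (h : ∀ g ∈ K.comap (ex I), Mon g) : Mon x := by
  obtain ⟨g, rfl⟩ := exists_res (D.iso x hx) hs
  exact mon_ex (h g hx)

end H96.Fr
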