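import Mathlib
import Cfsg.Agent.Lib.H95.OBridge
import Cfsg.Agent.Lib.H97.AschPosE

/-!
Even-dimensional orthogonal groups: root elements, transitivity, perfectness and non-containment of Ω (dimension ≥ 7).
-/

set_option autoImplicit false
set_option linter.unusedSectionVars false

namespace H96.OeOmega

open Module QuadraticMap H48.QuadSplit H95.OGeo H95.OSie H17.OrthAbs H95.Bridge H95.OBridge
open scoped commutatorElement

section abstractV

variable {F V : Type*} [Field F] [Finite F] [AddCommGroup V] [Module F V] [FiniteDimensional F V] {Q : QuadraticForm F V}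

/-- every root element is a commutator of two root elements -/
theorem root_comm (hQ : ND Q) (hn : 7 ≤ finrank F V) {u y : V} (hu : Q u = 0) (hy : Q y = 0) (huy : polar Q u y = 0)
    {M : Subgroup (V ≃ₗ[F] V)} (hM : ∀ u y, Q u = 0 → Q y = 0 → polar Q u y = 0 → sie Q u y ∈ M) :
    sie Q u y ∈ ⁅M, M⁆ := by
  have hfr : finrank F (Submodule.span F (Set.range ![u, y])) ≤ 2 := by
    have := finrank_range_le_card (R := F) ![u, y]
    rw [Fintype.card_fin] at this
    exact this
  obtain ⟨e, he, e', he', h1, h2, h3⟩ := exists_hyp hQ (L := Submodule.span F (Set.range ![u, y])) (by omega)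
  have hu' : u ∈ Submodule.span F (Set.range ![u, y]) := Submodule.subset_span ⟨0, rfl⟩
  have hy' : y ∈ Submodule.span F (Set.range ![u, y]) := Submodule.subset_span ⟨1, rfl⟩
  have e1 : polar Q u e = 0 := he u hu'
  have e2 : polar Q y e = 0 := he y hy'
  have e3 : polar Q u e' = 0 := he' u hu'
  have e4 : polar Q y e' = 0 := he' y hy'
  have e5 : polar Q e' y = 0 := by rw [p_comm, e4]
  have hfix : sie Q e' y u = u := by
    rw [sie_apply h2 e5, e3, huy]; simp
  have hmv : sie Q e' y e = e + y := by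
    rw [sie_apply h2 e5, h3, p_comm Q e y, e2, hy]; simp
  have h4 : ⁅sie Q e' y, sie Q u e⁆ = sie Q u y := by
    rw [commutatorElement_def, sie_conj hu e1 (sie_mem_O _ _ _), hfix, hmv, sie_inv hu e1,
      sie_mul hu (by rw [p_add', e1, huy, add_zero]) (by rw [p_neg', e1, neg_zero])]
    congr 1; abel
  rw [← h4]
  exact Subgroup.commutator_mem_commutator (hM _ _ h2 hy e5) (hM _ _ hu h1 e1)

theorem root_mem (hQ : ND Q) (hn : 7 ≤ finrank F V) {u y : V} (hu : Q u = 0) (hy : Q y = 0) (huy : polar Q u y = 0) :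
    sie Q u y ∈ ⁅O Q, O Q⁆ :=
  root_comm hQ hn hu hy huy (fun u y _ _ _ => sie_mem_O Q u y)

theorem sie_mem (hQ : ND Q) (hn : 7 ≤ finrank F V) {u y : V} (hu : Q u = 0) (huy : polar Q u y = 0) :
    sie Q u y ∈ ⁅O Q, O Q⁆ :=
  (full_of_root hQ hn hu (fun _ hy huy => root_mem hQ hn hu hy huy)).2 y huy

theorem perfect (hQ : ND Q) (hn : 7 ≤ finrank F V) : ⁅⁅O Q, O Q⁆, ⁅O Q, O Q⁆⁆ = ⁅O Q, O Q⁆ := by
  apply le_antisymm
  · exact (Subgroup.commutator_mono (omega_le_O Q) (omega_le_O Q))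
  · apply omega_le hQ hn
    intro u y hu hy huy
    exact root_comm hQ hn hu hy huy (fun u y hu hy huy => root_mem hQ hn hu hy huy)

theorem trans (hQ : ND Q) (hn : 7 ≤ finrank F V) {v w : V} (hv0 : v ≠ 0) (hw0 : w ≠ 0) (hvw : Q v = Q w) :
    ∃ e ∈ ⁅O Q, O Q⁆, e v = w := by
  obtain ⟨e, he, -, h⟩ := trans_val hQ hn (M := ⁅O Q, O Q⁆) (fun u hu => ⟨hu, fun y hy => sie_mem hQ hn hu hy⟩) hv0 hw0 hvw
  exact ⟨e, he, h⟩

end abstractV

section matrices

open Cfsg Cfsg.Geo Matrix

variable {ι : Type} [Fintype ι] [DecidableEq ι] {F : Type*} [Field F] [Finite F] {Q : QuadraticForm F (ι → F)}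

lemma finrank_eq : finrank F (ι → F) = Fintype.card ι := Module.finrank_fintype_fun_eq_card F

theorem transGL (hQ : ND Q) (hn : 7 ≤ Fintype.card ι) {v w : ι → F} (hv0 : v ≠ 0) (hw0 : w ≠ 0) (hvw : Q v = Q w) :
    ∃ g ∈ omegaGL (⇑Q), (g : Matrix ι ι F) *ᵥ v = w := by
  obtain ⟨e, he, h⟩ := trans hQ (by rw [finrank_eq]; exact hn) hv0 hw0 hvw
  refine ⟨(toEq ι F).symm e, ?_, ?_⟩
  · rw [mem_omegaGL, MulEquiv.apply_symm_apply]; exact he
  · rw [← toEq_apply, MulEquiv.apply_symm_apply]; exact h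

/-- the elements of Ω are isometries -/
lemma omegaGL_Q (Q : QuadraticForm F (ι → F)) {g : GL ι F} (hg : g ∈ omegaGL (⇑Q)) (v : ι → F) : Q ((g : Matrix ι ι F) *ᵥ v) = Q v := by
  rw [mem_omegaGL] at hg
  have := omega_le_O Q hg v
  rwa [toEq_apply] at this

/-- Siegel elements as matrices -/
theorem exists_sie (hQ : ND Q) (hn : 7 ≤ Fintype.card ι) {u y : ι → F} (hu : Q u = 0) (huy : polar Q u y = 0) :
    ∃ g ∈ omegaGL (⇑Q), ∀ x, (g : Matrix ι ι F) *ᵥ x = x + polar Q x u • y - polar Q x y • u - (Q y * polar Q x u) • u := by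
  refine ⟨(toEq ι F).symm (sie Q u y), ?_, ?_⟩
  · rw [mem_omegaGL, MulEquiv.apply_symm_apply]
    exact sie_mem hQ (by rw [finrank_eq]; exact hn) hu huy
  · intro x
    rw [← toEq_apply, MulEquiv.apply_symm_apply]
    exact sie_apply hu huy x

theorem perfectGL (hQ : ND Q) (hn : 7 ≤ Fintype.card ι) : ⁅omegaGL (⇑Q), omegaGL (⇑Q)⁆ = omegaGL (⇑Q) := by
  have h1 := perfect hQ (by rw [finrank_eq]; exact hn)
  have h2 : (omegaGL (⇑Q)).map (toEq ι F).toMonoidHom = ⁅O Q, O Q⁆ := by
    rw [omegaGL_eq, Subgroup.map_commutator, map_iso]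
  apply Subgroup.map_injective (f := (toEq ι F).toMonoidHom) (toEq ι F).injective
  rw [Subgroup.map_commutator, h2, h1]

/-! ### non-containment -/

/-- all vectors of given norm span -/
lemma span_norm (hQ : ND Q) (hn : 7 ≤ Fintype.card ι) (a : F) {W : Submodule F (ι → F)} (h : ∀ z, Q z = a → z ∈ W) : W = ⊤ := by
  rw [eq_top_iff]
  intro y _
  exact span_val hQ (by rw [finrank_eq]; exact hn) 0 W a (fun z hz _ => h z hz) (p_zero' Q y)

/-- Ω is irreducible -/
theorem not_le_subspace (hQ : ND Q) (hn : 7 ≤ Fintype.card ι) {W : Submodule F (ι → F)} (h0 : W ≠ ⊥) (h1 : W ≠ ⊤) :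
    ¬ omegaGL (⇑Q) ≤ subspaceStabilizer W := by
  intro hle
  obtain ⟨w, hw, hw0⟩ := Submodule.exists_mem_ne_zero_of_ne_bot h0
  apply h1
  apply span_norm hQ hn (Q w)
  intro z hz
  by_cases hz0 : z = 0
  · rw [hz0]; exact W.zero_mem
  obtain ⟨g, hg, hgz⟩ := transGL hQ hn hw0 hz0 hz.symm
  have := (mem_subspaceStabilizer.mp (hle hg) w).mp hw
  rw [toEq_apply, hgz] at this
  exact this

end matrices

/-! ### projections of a decomposition -/

section proj

variable {ι : Type} [Fintype ι] [DecidableEq ι] {F : Type*} [Field F]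

open Cfsg Cfsg.Geo Matrix

theorem exists_proj {t m : ℕ} {D : Fin t → Submodule F (ι → F)} (hD : IsMDecomposition m D) :
    ∃ p : Fin t → ((ι → F) →ₗ[F] (ι → F)), (∀ i v, p i v ∈ D i) ∧ (∀ v, ∑ i, p i v = v) ∧
      (∀ i j, i ≠ j → ∀ v ∈ D j, p i v = 0) ∧ (∀ i, ∀ v ∈ D i, p i v = v) := by
  classical
  have hcompl : ∀ i, IsCompl (D i) (⨆ (j) (_ : j ≠ i), D j) := by
    intro i
    refine ⟨hD.indep i, ?_⟩
    rw [codisjoint_iff, eq_top_iff, ← hD.iSup_eq_top]
    apply iSup_le
    intro j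
    by_cases hj : j = i
    · rw [hj]; exact le_sup_left
    · exact le_sup_of_le_right (le_iSup₂_of_le j hj le_rfl)
  let p : Fin t → ((ι → F) →ₗ[F] (ι → F)) := fun i => (D i).subtype ∘ₗ (D i).projectionOnto _ (hcompl i)
  have h1 : ∀ i v, p i v ∈ D i := fun i v => Subtype.coe_prop _
  have h3 : ∀ i j, i ≠ j → ∀ v ∈ D j, p i v = 0 := by
    intro i j hij v hv
    have : v ∈ (⨆ (j) (_ : j ≠ i), D j) := (le_iSup₂_of_le (f := fun j (_ : j ≠ i) => D j) j (Ne.symm hij) le_rfl) hv
    simp only [p, LinearMap.comp_apply, Submodule.subtype_apply]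
    rw [Submodule.projectionOnto_apply_of_mem_right]
    · rfl
    · exact this
  have h4 : ∀ i, ∀ v ∈ D i, p i v = v := by
    intro i v hv
    simp only [p, LinearMap.comp_apply, Submodule.subtype_apply]
    rw [Submodule.projectionOnto_apply_left (hcompl i) ⟨v, hv⟩]
  refine ⟨p, h1, ?_, h3, h4⟩
  have key : ∀ v ∈ (⨆ i, D i), ∑ i, p i v = v := by
    intro v hv
    refine Submodule.iSup_induction D (motive := fun v => ∑ i, p i v = v) hv ?_ ?_ ?_
    · intro j x hx
      rw [Finset.sum_eq_single j]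
      · exact h4 j x hx
      · intro i _ hij
        exact h3 i j hij x hx
      · intro h; exact absurd (Finset.mem_univ j) h
    · simp
    · intro x y hx hy
      simp only [map_add, Finset.sum_add_distrib]
      rw [hx, hy]
  intro v
  exact key v (by rw [hD.iSup_eq_top]; trivial)

/-- elements of the stabiliser permute the components -/
theorem proj_map {t : ℕ} {D : Fin t → Submodule F (ι → F)}
    {p : Fin t → ((ι → F) →ₗ[F] (ι → F))} (h1 : ∀ i v, p i v ∈ D i) (h2 : ∀ v, ∑ i, p i v = v)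
    (h3 : ∀ i j, i ≠ j → ∀ v ∈ D j, p i v = 0) (h4 : ∀ i, ∀ v ∈ D i, p i v = v)
    {g : GL ι F} {σ : Equiv.Perm (Fin t)} (hg : ∀ i, (D i).map (Matrix.toLin' (g : Matrix ι ι F)) = D (σ i)) (i : Fin t)
    (v : ι → F) : p (σ i) ((g : Matrix ι ι F) *ᵥ v) = (g : Matrix ι ι F) *ᵥ (p i v) := by
  have hmem : ∀ j, (g : Matrix ι ι F) *ᵥ (p j v) ∈ D (σ j) := by
    intro j
    rw [← hg j, ← Matrix.toLin'_apply]
    exact Submodule.mem_map_of_mem (h1 j v)
  conv_lhs => rw [← h2 v, Matrix.mulVec_sum, map_sum]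
  rw [Finset.sum_eq_single i]
  · exact h4 _ _ (hmem i)
  · intro j _ hj
    exact h3 _ _ (fun h => hj (σ.injective h).symm) _ (hmem j)
  · intro h; exact absurd (Finset.mem_univ i) h

open Classical in
/-- the number of non-zero components -/
noncomputable def wt {t : ℕ} (p : Fin t → ((ι → F) →ₗ[F] (ι → F))) (v : ι → F) : ℕ :=
  (Finset.univ.filter (fun i => p i v ≠ 0)).card

theorem wt_map {t : ℕ} {D : Fin t → Submodule F (ι → F)}
    {p : Fin t → ((ι → F) →ₗ[F] (ι → F))} (h1 : ∀ i v, p i v ∈ D i) (h2 : ∀ v, ∑ i, p i v = v)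
    (h3 : ∀ i j, i ≠ j → ∀ v ∈ D j, p i v = 0) (h4 : ∀ i, ∀ v ∈ D i, p i v = v)
    {g : GL ι F} (hg : g ∈ decompositionStabilizer D) (v : ι → F) : wt p ((g : Matrix ι ι F) *ᵥ v) = wt p v := by
  classical
  obtain ⟨σ, hσ⟩ := hg
  have hinj : ∀ w : ι → F, (g : Matrix ι ι F) *ᵥ w = 0 → w = 0 := by
    intro w hw
    have : ((g⁻¹ : GL ι F) : Matrix ι ι F) *ᵥ ((g : Matrix ι ι F) *ᵥ w) = 0 := by rw [hw, Matrix.mulVec_zero]
    rwa [Matrix.mulVec_mulVec, ← Units.val_mul, inv_mul_cancel, Units.val_one, Matrix.one_mulVec] at this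
  symm
  apply Finset.card_bij (fun i _ => σ i)
  · intro i hi
    rw [Finset.mem_filter] at hi ⊢
    refine ⟨Finset.mem_univ _, ?_⟩
    rw [proj_map h1 h2 h3 h4 hσ]
    exact fun h => hi.2 (hinj _ h)
  · intro i _ j _ h
    exact σ.injective h
  · intro j hj
    rw [Finset.mem_filter] at hj
    refine ⟨σ.symm j, ?_, by simp⟩
    rw [Finset.mem_filter]
    refine ⟨Finset.mem_univ _, fun h => hj.2 ?_⟩
    have := proj_map h1 h2 h3 h4 hσ (σ.symm j) v
    rw [Equiv.apply_symm_apply, h, Matrix.mulVec_zero] at this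
    exact this

/-- the sum of the blocks in a set has the right dimension -/
theorem finrank_blocks {t m : ℕ} {D : Fin t → Submodule F (ι → F)} (hD : IsMDecomposition m D) (S : Finset (Fin t)) :
    S.card * m ≤ finrank F (⨆ i ∈ S, D i : Submodule F (ι → F)) := by
  classical
  obtain ⟨p, h1, h2, h3, h4⟩ := exists_proj hD
  let φ : ((i : S) → D i) →ₗ[F] (⨆ i ∈ S, D i : Submodule F (ι → F)) :=
    { toFun := fun x => ⟨∑ i, (x i : ι → F), Submodule.sum_mem _ (fun i _ =>
        (le_iSup₂_of_le (f := fun i (_ : i ∈ S) => D i) (i : Fin t) i.2 le_rfl) (x i).2)⟩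
      map_add' := fun x y => by
        apply Subtype.ext
        simp only [Pi.add_apply, Submodule.coe_add, Finset.sum_add_distrib]
      map_smul' := fun c x => by
        apply Subtype.ext
        simp only [Pi.smul_apply, Submodule.coe_smul, RingHom.id_apply, Finset.smul_sum] }
  have hφ : Function.Injective φ := by
    rw [← LinearMap.ker_eq_bot, LinearMap.ker_eq_bot']
    intro x hx
    have hx' : ∑ i, (x i : ι → F) = 0 := congrArg Subtype.val hx
    funext i
    apply Subtype.ext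
    have h5 : p i (∑ j, (x j : ι → F)) = 0 := by rw [hx', map_zero]
    rw [map_sum, Finset.sum_eq_single i] at h5
    · rw [h4 i _ (x i).2] at h5
      exact h5
    · intro j _ hj
      exact h3 _ _ (fun h => hj (Subtype.ext h).symm) _ (x j).2
    · intro h; exact absurd (Finset.mem_univ i) h
  have h6 := LinearMap.finrank_le_finrank_of_injective hφ
  rw [Module.finrank_pi_fintype] at h6
  simp only [hD.finrank_eq, Finset.sum_const, Finset.card_univ, Fintype.card_coe, smul_eq_mul] at h6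
  exact h6

theorem card_eq_mul {t m : ℕ} {D : Fin t → Submodule F (ι → F)} (hD : IsMDecomposition m D) : Fintype.card ι = t * m := by
  classical
  obtain ⟨p, h1, h2, h3, h4⟩ := exists_proj hD
  have hle := finrank_blocks hD Finset.univ
  have h5 : (⨆ i ∈ (Finset.univ : Finset (Fin t)), D i : Submodule F (ι → F)) = ⊤ := by
    rw [← hD.iSup_eq_top]; simp
  rw [h5, finrank_top, Module.finrank_fintype_fun_eq_card, Finset.card_univ, Fintype.card_fin] at hle
  apply le_antisymm _ hle
  let φ : (ι → F) →ₗ[F] ((i : Fin t) → D i) := LinearMap.pi (fun i => (p i).codRestrict (D i) (h1 i))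
  have hφ : Function.Injective φ := by
    rw [← LinearMap.ker_eq_bot, LinearMap.ker_eq_bot']
    intro x hx
    rw [← h2 x]
    apply Finset.sum_eq_zero
    intro i _
    have := congrArg Subtype.val (congrFun hx i)
    exact this
  have h6 := LinearMap.finrank_le_finrank_of_injective hφ
  rw [Module.finrank_fintype_fun_eq_card, Module.finrank_pi_fintype] at h6
  simpa [hD.finrank_eq] using h6

lemma proj_of_blocks {t : ℕ} {D : Fin t → Submodule F (ι → F)} {p : Fin t → ((ι → F) →ₗ[F] (ι → F))}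
    (h3 : ∀ i j, i ≠ j → ∀ v ∈ D j, p i v = 0) (S : Finset (Fin t)) {i : Fin t} (hi : i ∉ S) {v : ι → F}
    (hv : v ∈ (⨆ i ∈ S, D i : Submodule F (ι → F))) : p i v = 0 := by
  have hle : (⨆ i ∈ S, D i : Submodule F (ι → F)) ≤ LinearMap.ker (p i) := by
    apply iSup₂_le
    intro j hj w hw
    exact h3 i j (fun h => hi (h ▸ hj)) w hw
  exact hle hv

end proj

section matrices2

open Cfsg Cfsg.Geo Matrix

variable {ι : Type} [Fintype ι] [DecidableEq ι] {F : Type*} [Field F] [Finite F] {Q : QuadraticForm F (ι → F)}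

/-- Ω does not stabilise an orthogonal decomposition -/
theorem not_le_decomp (hQ : ND Q) (hn : 8 ≤ Fintype.card ι) {t m : ℕ} {D : Fin t → Submodule F (ι → F)}
    (hD : IsMDecomposition m D) (horth : ∀ i j, i ≠ j → AreOrthogonalFor (polar Q) (D i) (D j)) :
    ¬ omegaGL (⇑Q) ≤ decompositionStabilizer D := by
  classical
  intro hle
  obtain ⟨p, h1, h2, h3, h4⟩ := exists_proj hD
  have hcard := card_eq_mul hD
  have ht := hD.two_le
  have hm := hD.pos
  -- a set of blocks
  obtain ⟨k, hk1, hk2, hk3⟩ : ∃ k, k ≤ t ∧ 3 ≤ k * m ∧ 3 ≤ (t - k) * m := by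
    by_cases hm3 : 3 ≤ m
    · refine ⟨1, by omega, by omega, ?_⟩
      calc 3 ≤ m := hm3
        _ = 1 * m := by ring
        _ ≤ (t - 1) * m := Nat.mul_le_mul_right _ (by omega)
    · by_cases hm2 : m = 2
      · subst hm2
        exact ⟨2, by omega, by omega, by omega⟩
      · have : m = 1 := by omega
        subst this
        exact ⟨3, by omega, by omega, by omega⟩
  obtain ⟨S, -, hS⟩ := Finset.exists_subset_card_eq (s := (Finset.univ : Finset (Fin t))) (n := k) (by simpa using hk1)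
  have hSc : (Sᶜ).card = t - k := by rw [Finset.card_compl, Fintype.card_fin, hS]
  obtain ⟨u, huU, hu0, huQ⟩ := exists_sing Q (U := ⨆ i ∈ S, D i) (le_trans (by rw [hS]; exact hk2) (finrank_blocks hD S))
  obtain ⟨w, hwU, hw0, hwQ⟩ := exists_sing Q (U := ⨆ i ∈ Sᶜ, D i) (le_trans (by rw [hSc]; exact hk3) (finrank_blocks hD Sᶜ))
  have hpu : ∀ i, i ∉ S → p i u = 0 := fun i hi => proj_of_blocks h3 S hi huU
  have hpw : ∀ i, i ∈ S → p i w = 0 := fun i hi => proj_of_blocks h3 Sᶜ (by simpa using hi) hwU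
  have huw : polar Q u w = 0 := by
    rw [← h2 u, ← h2 w]
    have hpsum : ∀ (f : Fin t → (ι → F)) (x : ι → F), polar Q (∑ i, f i) x = ∑ i, polar Q (f i) x := by
      intro f x
      exact map_sum ((bl Q).flip x) f Finset.univ
    rw [hpsum]
    apply Finset.sum_eq_zero
    intro i _
    rw [p_comm, hpsum]
    apply Finset.sum_eq_zero
    intro j _
    by_cases hij : j = i
    · subst hij
      by_cases hj : j ∈ S
      · rw [hpw j hj, p_zero]
      · rw [hpu j hj, p_zero']
    · exact horth j i hij _ (h1 j w) _ (h1 i u)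
  have hsum0 : u + w ≠ 0 := by
    intro h
    apply hu0
    rw [← h2 u]
    apply Finset.sum_eq_zero
    intro i _
    by_cases hi : i ∈ S
    · have h5 : p i (u + w) = 0 := by rw [h, map_zero]
      rw [map_add, hpw i hi, add_zero] at h5
      exact h5
    · exact hpu i hi
  obtain ⟨g, hg, hgu⟩ := transGL hQ (by omega) hu0 hsum0 (by rw [Q_add, huQ, hwQ, huw]; ring)
  have hwt := wt_map h1 h2 h3 h4 (hle hg) u
  rw [hgu] at hwt
  have h5 : wt p (u + w) = wt p u + wt p w := by
    unfold wt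
    rw [← Finset.card_union_of_disjoint]
    · congr 1
      ext i
      simp only [Finset.mem_filter, Finset.mem_univ, true_and, Finset.mem_union, map_add]
      by_cases hi : i ∈ S
      · rw [hpw i hi]; simp
      · rw [hpu i hi]; simp
    · rw [Finset.disjoint_filter]
      intro i _ h6
      by_cases hi : i ∈ S
      · rw [hpw i hi]; simp
      · exact absurd (hpu i hi) h6
  have h6 : wt p w ≠ 0 := by
    unfold wt
    intro h0
    rw [Finset.card_eq_zero, Finset.filter_eq_empty_iff] at h0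
    apply hw0
    rw [← h2 w]
    apply Finset.sum_eq_zero
    intro i hi
    have := h0 hi
    push Not at this
    exact this
  omega

/-- Ω does not stabilise a pair of complementary totally singular subspaces -/
theorem not_le_pair (hQ : ND Q) (hn : 7 ≤ Fintype.card ι) {k : ℕ} {D : Fin 2 → Submodule F (ι → F)}
    (hD : IsMDecomposition k D) (hts : ∀ i, IsTotallySingularQuad (⇑Q) (D i)) :
    ¬ omegaGL (⇑Q) ≤ decompositionStabilizer D := by
  classical
  intro hle
  obtain ⟨p, h1, h2, h3, h4⟩ := exists_proj hD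
  have hcard := card_eq_mul hD
  have hm := hD.pos
  -- u ∈ D 0 nonzero, w ∈ D 1 orthogonal to u
  obtain ⟨u, huU, hu0⟩ := Submodule.exists_mem_ne_zero_of_ne_bot (p := D 0) (by
    intro h0
    have := hD.finrank_eq 0
    rw [h0, finrank_bot] at this
    omega)
  have hex : ∃ w ∈ D 1, w ≠ 0 ∧ polar Q u w = 0 := by
    let ψ : D 1 →ₗ[F] F := (bl Q u) ∘ₗ (D 1).subtype
    have h5 := LinearMap.finrank_range_add_finrank_ker ψ
    rw [hD.finrank_eq] at h5
    have h6 : finrank F (LinearMap.range ψ) ≤ 1 := by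
      have := Submodule.finrank_le (LinearMap.range ψ)
      rwa [Module.finrank_self] at this
    obtain ⟨w, hw, hw0⟩ := Submodule.exists_mem_ne_zero_of_ne_bot (p := LinearMap.ker ψ) (by
      intro h0
      rw [h0, finrank_bot] at h5
      omega)
    exact ⟨w, w.2, fun h => hw0 (Subtype.ext h), hw⟩
  obtain ⟨w, hwU, hw0, huw⟩ := hex
  have huQ : Q u = 0 := hts 0 u huU
  have hwQ : Q w = 0 := hts 1 w hwU
  have hp1u : p 1 u = 0 := h3 1 0 (by decide) u huU
  have hp0w : p 0 w = 0 := h3 0 1 (by decide) w hwU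
  have hp0u : p 0 u = u := h4 0 u huU
  have hp1w : p 1 w = w := h4 1 w hwU
  have hsum0 : u + w ≠ 0 := by
    intro h
    apply hu0
    have h5 : p 0 (u + w) = 0 := by rw [h, map_zero]
    rwa [map_add, hp0w, add_zero, hp0u] at h5
  obtain ⟨g, hg, hgu⟩ := transGL hQ (by omega) hu0 hsum0 (by rw [Q_add, huQ, hwQ, huw]; ring)
  have hwt := wt_map h1 h2 h3 h4 (hle hg) u
  rw [hgu] at hwt
  have e1 : wt p (u + w) = 2 := by
    unfold wt
    rw [Finset.filter_true_of_mem]
    · simp
    · intro i _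
      fin_cases i
      · change p 0 (u + w) ≠ 0
        rw [map_add, hp0w, add_zero, hp0u]; exact hu0
      · change p 1 (u + w) ≠ 0
        rw [map_add, hp1u, zero_add, hp1w]; exact hw0
  have e2 : wt p u = 1 := by
    unfold wt
    rw [Finset.card_eq_one]
    refine ⟨0, ?_⟩
    ext i
    simp only [Finset.mem_filter, Finset.mem_univ, true_and, Finset.mem_singleton]
    fin_cases i
    · simp [hp0u, hu0]
    · simp [hp1u]
  omega

end matrices2

section matrices3

open Cfsg Cfsg.Geo Matrix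

variable {ι : Type} [Fintype ι] [DecidableEq ι] {F : Type*} [Field F] [Finite F] {Q : QuadraticForm F (ι → F)}

/-- two independent orthogonal singular vectors, the second outside a given small subspace -/
lemma exists_second (hQ : ND Q) (hn : 7 ≤ Fintype.card ι) (u : ι → F) (T : Submodule F (ι → F)) (hT : finrank F T ≤ 2) :
    ∃ y, Q y = 0 ∧ polar Q u y = 0 ∧ y ∉ T := by
  obtain ⟨z, hz, hz', hzT⟩ := perp_val hQ (k := 1) (by rw [finrank_eq]; omega) ![u] (T := T) (by rw [finrank_eq]; omega) 0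
  exact ⟨z, hz, by rw [p_comm]; exact hz' 0, hzT⟩

lemma exists_singular_vec (hQ : ND Q) (hn : 7 ≤ Fintype.card ι) : ∃ u, u ≠ 0 ∧ Q u = 0 := by
  obtain ⟨u, -, h1, h2⟩ := exists_sing Q (U := ⊤) (by rw [finrank_top, finrank_eq]; omega)
  exact ⟨u, h1, h2⟩

/-- Ω does not normalise an extension field -/
theorem not_le_field (hQ : ND Q) (hn : 7 ≤ Fintype.card ι) {r : ℕ} {K : Subalgebra F (Matrix ι ι F)}
    (hK : IsFieldSubalgebra r K) (hr : 2 ≤ r) : ¬ omegaGL (⇑Q) ≤ subalgebraNormalizer K := by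
  classical
  intro hle
  -- elements of K with a kernel vanish
  have hker : ∀ k ∈ K, ∀ v : ι → F, v ≠ 0 → k *ᵥ v = 0 → k = 0 := by
    intro k hk v hv hkv
    by_contra hk0
    obtain ⟨y, hy, hky⟩ := hK.inv k hk hk0
    rw [hK.comm k hk y hy] at hky
    apply hv
    rw [← Matrix.one_mulVec v, ← hky, ← Matrix.mulVec_mulVec, hkv, Matrix.mulVec_zero]
  have key : ∀ k ∈ K, ∀ u y : ι → F, Q u = 0 → Q y = 0 → polar Q u y = 0 → LinearIndependent F ![u, y] →
      k *ᵥ u ∈ Submodule.span F (Set.range ![u, y]) := by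
    intro k hk u y hu hy huy hli
    obtain ⟨g, hg, hgx⟩ := exists_sie hQ hn hu huy
    have hgx' : ∀ x, (g : Matrix ι ι F) *ᵥ x = x + polar Q x u • y - polar Q x y • u := by
      intro x; rw [hgx, hy]; simp
    set k' := (g : Matrix ι ι F) * k * ((g⁻¹ : GL ι F) : Matrix ι ι F) with hk'
    have hk'K : k' ∈ K := (hle hg k).mp hk
    have hgk : (g : Matrix ι ι F) * k = k' * (g : Matrix ι ι F) := by
      rw [hk', mul_assoc _ _ (g : Matrix ι ι F), ← Units.val_mul, inv_mul_cancel, Units.val_one, mul_one]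
    -- a vector fixed together with its image
    let ψ : (ι → F) →ₗ[F] (Fin 4 → F) := LinearMap.pi ![(bl Q).flip u, (bl Q).flip y,
      ((bl Q).flip u) ∘ₗ (Matrix.toLin' k), ((bl Q).flip y) ∘ₗ (Matrix.toLin' k)]
    have h5 := LinearMap.finrank_range_add_finrank_ker ψ
    rw [finrank_eq] at h5
    have h6 : finrank F (LinearMap.range ψ) ≤ 4 := by
      have := Submodule.finrank_le (LinearMap.range ψ)
      rwa [Module.finrank_fintype_fun_eq_card, Fintype.card_fin] at this
    obtain ⟨v, hv, hv0⟩ := Submodule.exists_mem_ne_zero_of_ne_bot (p := LinearMap.ker ψ) (by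
      intro h0
      rw [h0, finrank_bot] at h5
      omega)
    rw [LinearMap.mem_ker] at hv
    have e0 : polar Q v u = 0 := congrFun hv 0
    have e1 : polar Q v y = 0 := congrFun hv 1
    have e2 : polar Q (k *ᵥ v) u = 0 := congrFun hv 2
    have e3 : polar Q (k *ᵥ v) y = 0 := congrFun hv 3
    have h7 : (k - k') *ᵥ v = 0 := by
      have h8 := congrArg (fun X : Matrix ι ι F => X *ᵥ v) hgk
      simp only [← Matrix.mulVec_mulVec] at h8
      rw [hgx' v, hgx' (k *ᵥ v), e0, e1, e2, e3] at h8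
      simp only [zero_smul, add_zero, sub_zero] at h8
      rw [Matrix.sub_mulVec, h8, sub_self]
    have h8 : k = k' := sub_eq_zero.mp (hker _ (K.sub_mem hk hk'K) v hv0 h7)
    rw [← h8] at hgk
    -- x with polar x u = 0, polar x y = 1
    obtain ⟨x, hx⟩ := dual hQ hli ![0, 1]
    have hx0 : polar Q x u = 0 := hx 0
    have hx1 : polar Q x y = 1 := hx 1
    have h9 := congrArg (fun X : Matrix ι ι F => X *ᵥ x) hgk
    simp only [← Matrix.mulVec_mulVec] at h9
    rw [hgx' x, hgx' (k *ᵥ x), hx0, hx1, zero_smul, one_smul, add_zero, Matrix.mulVec_sub] at h9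
    have h10 : k *ᵥ u = polar Q (k *ᵥ x) y • u - polar Q (k *ᵥ x) u • y := by
      have h11 : k *ᵥ x + polar Q (k *ᵥ x) u • y - polar Q (k *ᵥ x) y • u - (k *ᵥ x - k *ᵥ u) = 0 := by rw [h9, sub_self]
      have h12 : k *ᵥ u - (polar Q (k *ᵥ x) y • u - polar Q (k *ᵥ x) u • y) = 0 := by
        rw [← h11]; abel
      exact sub_eq_zero.mp h12
    rw [h10]
    exact Submodule.sub_mem _ (Submodule.smul_mem _ _ (Submodule.subset_span ⟨0, rfl⟩))
      (Submodule.smul_mem _ _ (Submodule.subset_span ⟨1, rfl⟩))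
  obtain ⟨u, hu0, hu⟩ := exists_singular_vec hQ hn
  obtain ⟨y, hy, huy, hyT⟩ := exists_second hQ hn u (Submodule.span F {u}) (by rw [finrank_span_singleton hu0]; omega)
  have hli : LinearIndependent F ![u, y] := by
    apply H95.UBasic.pair_indep hu0
    intro c hc
    exact hyT (Submodule.mem_span_singleton.mpr ⟨c, hc.symm⟩)
  have hfr2 : finrank F (Submodule.span F (Set.range ![u, y])) ≤ 2 := by
    have := finrank_range_le_card (R := F) ![u, y]
    rwa [Fintype.card_fin] at this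
  obtain ⟨y', hy', huy', hyT'⟩ := exists_second hQ hn u (Submodule.span F (Set.range ![u, y])) hfr2
  have hli' : LinearIndependent F ![u, y'] := by
    apply H95.UBasic.pair_indep hu0
    intro c hc
    apply hyT'
    rw [hc]
    exact Submodule.smul_mem _ _ (Submodule.subset_span ⟨0, rfl⟩)
  have hscal : ∀ k ∈ K, ∃ c : F, k = algebraMap F _ c := by
    intro k hk
    have h1 := key k hk u y hu hy huy hli
    have h2 := key k hk u y' hu hy' huy' hli'
    rw [Submodule.mem_span_range_iff_exists_fun] at h2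
    obtain ⟨c, hc⟩ := h2
    rw [Fin.sum_univ_two] at hc
    change c 0 • u + c 1 • y' = k *ᵥ u at hc
    have hc1 : c 1 = 0 := by
      by_contra hne
      apply hyT'
      have h3 : y' = (c 1)⁻¹ • (k *ᵥ u - c 0 • u) := by
        rw [← hc, add_sub_cancel_left, smul_smul, inv_mul_cancel₀ hne, one_smul]
      rw [h3]
      exact Submodule.smul_mem _ _ (Submodule.sub_mem _ h1 (Submodule.smul_mem _ _ (Submodule.subset_span ⟨0, rfl⟩)))
    rw [hc1, zero_smul, add_zero] at hc
    refine ⟨c 0, ?_⟩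
    apply sub_eq_zero.mp
    apply hker _ (K.sub_mem hk (K.algebraMap_mem _)) u hu0
    rw [Matrix.sub_mulVec, ← hc, Algebra.algebraMap_eq_smul_one, Matrix.smul_mulVec, Matrix.one_mulVec, sub_self]
  have hbot : K = ⊥ := by
    rw [eq_bot_iff]
    intro k hk
    obtain ⟨c, hc⟩ := hscal k hk
    rw [hc]
    exact Subalgebra.algebraMap_mem _ _
  have hfr := hK.finrank_eq
  rw [hbot] at hfr
  have : Nonempty ι := Fintype.card_pos_iff.mp (by omega)
  have h1 : Module.finrank F (⊥ : Subalgebra F (Matrix ι ι F)) = 1 := Subalgebra.finrank_bot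
  omega

lemma comm_central {G : Type*} [Group G] {x y z w : G} (hz : ∀ v, z * v = v * z) (hw : ∀ v, w * v = v * w) :
    ⁅x * z, y * w⁆ = ⁅x, y⁆ := by
  rw [commutatorElement_def, commutatorElement_def, _root_.mul_inv_rev, _root_.mul_inv_rev]
  have e1 : x * z * (y * w) = (x * y) * (z * w) := by
    rw [mul_assoc x z, ← mul_assoc z y, hz y, mul_assoc y z, ← mul_assoc x y]
  have hzw : z * w * z⁻¹ = w := by rw [hz w, mul_assoc, mul_inv_cancel, mul_one]
  calc x * z * (y * w) * (z⁻¹ * x⁻¹) * (w⁻¹ * y⁻¹) = x * y * ((z * w * z⁻¹) * x⁻¹) * (w⁻¹ * y⁻¹) := by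
        rw [e1]; simp only [mul_assoc]
    _ = x * y * (w * x⁻¹) * (w⁻¹ * y⁻¹) := by rw [hzw]
    _ = x * y * (x⁻¹ * w) * (w⁻¹ * y⁻¹) := by rw [hw]
    _ = x * y * x⁻¹ * y⁻¹ := by group

/-- Ω is not contained in a subfield group -/
theorem not_le_subfield (hQ : ND Q) (hn : 7 ≤ Fintype.card ι) {F₀ : Subfield F} (h0 : F₀ ≠ ⊤) (P : GL ι F) :
    ¬ omegaGL (⇑Q) ≤ subfieldSubgroup F₀ P := by
  classical
  intro hle
  apply h0
  rw [eq_top_iff]
  intro c _
  -- commutators have entries in F₀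
  have hover : ∀ g ∈ omegaGL (⇑Q), ∀ a b, (((P⁻¹ : GL ι F) : Matrix ι ι F) * (g : Matrix ι ι F) * (P : Matrix ι ι F)) a b ∈ F₀ := by
    intro g hg
    rw [← perfectGL hQ hn] at hg
    let S : Subgroup (GL ι F) := ((Matrix.GeneralLinearGroup.map (F₀.subtype : F₀ →+* F)).range).map (MulAut.conj P).toMonoidHom
    have hS : ⁅omegaGL (⇑Q), omegaGL (⇑Q)⁆ ≤ S := by
      rw [Subgroup.commutator_le]
      intro a ha b hb
      obtain ⟨a', ha', rfl⟩ := hle ha
      obtain ⟨b', hb', rfl⟩ := hle hb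
      obtain ⟨x, hx, z, hz, rfl⟩ := Subgroup.mem_sup_of_normal_right.mp ha'
      obtain ⟨y, hy, w, hw, rfl⟩ := Subgroup.mem_sup_of_normal_right.mp hb'
      have hzc : ∀ v : GL ι F, z * v = v * z := by
        intro v
        obtain ⟨l, rfl⟩ := hz
        apply Units.ext
        rw [Units.val_mul, Units.val_mul]
        exact (Matrix.scalar_commute (l : F) (fun r' => mul_comm _ _) (v : Matrix ι ι F)).eq
      have hwc : ∀ v : GL ι F, w * v = v * w := by
        intro v
        obtain ⟨l, rfl⟩ := hw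
        apply Units.ext
        rw [Units.val_mul, Units.val_mul]
        exact (Matrix.scalar_commute (l : F) (fun r' => mul_comm _ _) (v : Matrix ι ι F)).eq
      refine ⟨⁅x, y⁆, ?_, ?_⟩
      · exact Subgroup.mul_mem _ (Subgroup.mul_mem _ (Subgroup.mul_mem _ hx hy) (Subgroup.inv_mem _ hx)) (Subgroup.inv_mem _ hy)
      · rw [← comm_central hzc hwc, map_commutatorElement]
    obtain ⟨x, ⟨X, rfl⟩, hxg⟩ := hS hg
    intro a b
    have h1 : P * (Matrix.GeneralLinearGroup.map (F₀.subtype : F₀ →+* F) X) * P⁻¹ = g := hxg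
    have h2 : ((P⁻¹ : GL ι F) : Matrix ι ι F) * (g : Matrix ι ι F) * (P : Matrix ι ι F) =
        ((Matrix.GeneralLinearGroup.map (F₀.subtype : F₀ →+* F) X : GL ι F) : Matrix ι ι F) := by
      rw [← h1, ← Units.val_mul, ← Units.val_mul]
      congr 1
      group
    rw [h2]
    exact ((X : Matrix ι ι F₀) a b).2
  obtain ⟨u, hu0, hu⟩ := exists_singular_vec hQ hn
  obtain ⟨y, hy, huy, hyT⟩ := exists_second hQ hn u (Submodule.span F {u}) (by rw [finrank_span_singleton hu0]; omega)
  have hli : LinearIndependent F ![u, y] := by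
    apply H95.UBasic.pair_indep hu0
    intro c hc
    exact hyT (Submodule.mem_span_singleton.mpr ⟨c, hc.symm⟩)
  -- the nilpotent endomorphism
  let N : Matrix ι ι F := LinearMap.toMatrix' (((bl Q).flip u).smulRight y - ((bl Q).flip y).smulRight u)
  have hN : ∀ x, N *ᵥ x = polar Q x u • y - polar Q x y • u := by
    intro x
    rw [← Matrix.toLin'_apply, Matrix.toLin'_toMatrix']
    rfl
  have hmem : ∀ d : F, ∀ a b, (((P⁻¹ : GL ι F) : Matrix ι ι F) * (1 + d • N) * (P : Matrix ι ι F)) a b ∈ F₀ := by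
    intro d
    obtain ⟨g, hg, hgx⟩ := exists_sie hQ hn hu (y := d • y) (by rw [p_smul', huy, mul_zero])
    have h1 : (g : Matrix ι ι F) = 1 + d • N := by
      apply Matrix.mulVec_injective
      funext x
      change (g : Matrix ι ι F) *ᵥ x = (1 + d • N) *ᵥ x
      rw [hgx, Matrix.add_mulVec, Matrix.one_mulVec, Matrix.smul_mulVec, hN, p_smul', Q_smul, hy]
      module
    rw [← h1]
    exact hover g hg
  have hmem' : ∀ d : F, ∀ a b, d * (((P⁻¹ : GL ι F) : Matrix ι ι F) * N * (P : Matrix ι ι F)) a b ∈ F₀ := by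
    intro d a b
    have h1 := F₀.sub_mem (hmem d a b) (hmem 0 a b)
    rw [zero_smul, add_zero, mul_add, add_mul, Matrix.add_apply, mul_one, add_sub_cancel_left, Matrix.mul_smul,
      Matrix.smul_mul, Matrix.smul_apply, smul_eq_mul] at h1
    exact h1
  have hN0 : ((P⁻¹ : GL ι F) : Matrix ι ι F) * N * (P : Matrix ι ι F) ≠ 0 := by
    intro h1
    have h2 : N = 0 := by
      have h3 : N = (P : Matrix ι ι F) * (((P⁻¹ : GL ι F) : Matrix ι ι F) * N * (P : Matrix ι ι F)) * ((P⁻¹ : GL ι F) : Matrix ι ι F) := by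
        calc N = ((P : Matrix ι ι F) * ((P⁻¹ : GL ι F) : Matrix ι ι F)) * N * ((P : Matrix ι ι F) * ((P⁻¹ : GL ι F) : Matrix ι ι F)) := by
              rw [← Units.val_mul, mul_inv_cancel, Units.val_one, one_mul, mul_one]
          _ = _ := by simp only [mul_assoc]
      rw [h3, h1, mul_zero, zero_mul]
    obtain ⟨x, hx⟩ := dual hQ hli ![1, 0]
    have hx0 : polar Q x u = 1 := hx 0
    have hx1 : polar Q x y = 0 := hx 1
    have h4 := hN x
    rw [h2, Matrix.zero_mulVec, hx0, hx1, one_smul, zero_smul, sub_zero] at h4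
    apply hyT
    rw [← h4]
    exact Submodule.zero_mem _
  obtain ⟨a, b, hab⟩ : ∃ a b, (((P⁻¹ : GL ι F) : Matrix ι ι F) * N * (P : Matrix ι ι F)) a b ≠ 0 := by
    by_contra hcon
    push Not at hcon
    exact hN0 (by ext a b; exact hcon a b)
  have h1 := hmem' (c * ((((P⁻¹ : GL ι F) : Matrix ι ι F) * N * (P : Matrix ι ι F)) a b)⁻¹) a b
  rwa [mul_assoc, inv_mul_cancel₀ hab, mul_one] at h1

/-! ### tensor products -/

/-- rank one is not rank two -/
lemma not_pure {d m : ℕ} {x x' : Fin d → F} {y y' : Fin m → F} (hx : LinearIndependent F ![x, x'])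
    (hy : LinearIndependent F ![y, y']) (z : Fin d → F) (w : Fin m → F)
    (h : ∀ i j, z i * w j = x i * y j + x' i * y' j) : False := by
  have hz : ∀ (φ : (Fin d → F) →ₗ[F] F), φ z • w = φ x • y + φ x' • y' := by
    intro φ
    funext j
    have h1 : w j • z = y j • x + y' j • x' := by
      funext i
      simp only [Pi.smul_apply, Pi.add_apply, smul_eq_mul]
      rw [mul_comm, h i j]; ring
    have h2 := congrArg φ h1
    rw [map_smul, map_add, map_smul, map_smul] at h2
    simp only [Pi.smul_apply, Pi.add_apply, smul_eq_mul] at h2 ⊢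
    rw [mul_comm (φ z), h2]; ring
  obtain ⟨φ, hφ⟩ := LinearMap.exists_extend ((Module.Basis.span hx).constr F (![1, 0] : Fin 2 → F))
  obtain ⟨ψ, hψ⟩ := LinearMap.exists_extend ((Module.Basis.span hx).constr F (![0, 1] : Fin 2 → F))
  have hval : ∀ (c : Fin 2 → F) (φ : (Fin d → F) →ₗ[F] F), φ ∘ₗ (Submodule.span F (Set.range ![x, x'])).subtype =
      (Module.Basis.span hx).constr F c → ∀ i, φ (![x, x'] i) = c i := by
    intro c φ hφ i
    have h1 := LinearMap.congr_fun hφ (Module.Basis.span hx i)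
    rw [Module.Basis.constr_basis, LinearMap.comp_apply, Submodule.subtype_apply, Module.Basis.span_apply] at h1
    exact h1
  have e0 := hval _ _ hφ 0
  have e1 := hval _ _ hφ 1
  have e2 := hval _ _ hψ 0
  have e3 := hval _ _ hψ 1
  change φ x = 1 at e0
  change φ x' = 0 at e1
  change ψ x = 0 at e2
  change ψ x' = 1 at e3
  have h1 := hz φ
  have h2 := hz ψ
  rw [e0, e1, one_smul, zero_smul, add_zero] at h1
  rw [e2, e3, zero_smul, one_smul, zero_add] at h2
  rw [← h1, ← h2] at hy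
  have h3 := LinearIndependent.pair_iff.mp hy (ψ z) (-(φ z)) (by rw [smul_smul, smul_smul, ← add_smul]; ring_nf; simp)
  have h4 := neg_eq_zero.mp h3.2
  rw [h4, zero_smul] at hy
  exact hy.ne_zero 0 rfl

open H97.AschPosE H97.AschTF H97.AschTensor H97.AschUnits in
/-- Ω is not contained in a tensor product group with suitable pure singular vectors -/
theorem not_le_tensor (hQ : ND Q) (hn : 7 ≤ Fintype.card ι) {d m : ℕ} {e : ι ≃ Fin d × Fin m} {P : GL ι F}
    {x x' : Fin d → F} {y y' : Fin m → F} (hx : LinearIndependent F ![x, x']) (hy : LinearIndependent F ![y, y'])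
    (h1 : Q ((P : Matrix ι ι F) *ᵥ (pv x y ∘ e)) = 0) (h2 : Q ((P : Matrix ι ι F) *ᵥ (pv x' y' ∘ e)) = 0)
    (h3 : polar Q ((P : Matrix ι ι F) *ᵥ (pv x y ∘ e)) ((P : Matrix ι ι F) *ᵥ (pv x' y' ∘ e)) = 0) :
    ¬ omegaGL (⇑Q) ≤ tensorProductSubgroup d m e P := by
  intro hle
  have hPinj : ∀ v w : Fin d × Fin m → F, (P : Matrix ι ι F) *ᵥ (v ∘ e) = (P : Matrix ι ι F) *ᵥ (w ∘ e) → v = w := by
    intro v w hvw
    have h4 := congrArg (fun z => ((P⁻¹ : GL ι F) : Matrix ι ι F) *ᵥ z) hvw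
    simp only [Matrix.mulVec_mulVec, ← Units.val_mul, inv_mul_cancel, Units.val_one, Matrix.one_mulVec] at h4
    funext a
    have := congrFun h4 (e.symm a)
    simpa using this
  have hx0 : x ≠ 0 := hx.ne_zero 0
  have hy0 : y ≠ 0 := hy.ne_zero 0
  have hpv0 : (P : Matrix ι ι F) *ᵥ (pv x y ∘ e) ≠ 0 := by
    intro h0
    obtain ⟨i, hi⟩ := Function.ne_iff.mp hx0
    obtain ⟨j, hj⟩ := Function.ne_iff.mp hy0
    have h4 : pv x y = 0 := hPinj _ _ (by
      rw [h0]
      have : ((0 : Fin d × Fin m → F) ∘ e) = 0 := rfl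
      rw [this, Matrix.mulVec_zero])
    have h5 := congrFun h4 (i, j)
    exact (mul_ne_zero hi hj) h5
  have hsum : (P : Matrix ι ι F) *ᵥ (pv x y ∘ e) + (P : Matrix ι ι F) *ᵥ (pv x' y' ∘ e) =
      (P : Matrix ι ι F) *ᵥ ((pv x y + pv x' y') ∘ e) := by
    rw [← Matrix.mulVec_add]; rfl
  have hsum0 : (P : Matrix ι ι F) *ᵥ ((pv x y + pv x' y') ∘ e) ≠ 0 := by
    intro h0
    have h4 : pv x y + pv x' y' = 0 := hPinj _ _ (by
      rw [h0]
      have : ((0 : Fin d × Fin m → F) ∘ e) = 0 := rfl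
      rw [this, Matrix.mulVec_zero])
    apply not_pure hx hy 0 0
    intro i j
    have h5 := congrFun h4 (i, j)
    have h6 : x i * y j + x' i * y' j = 0 := h5
    rw [h6]; simp
  obtain ⟨g, hg, hgv⟩ := transGL hQ hn hpv0 hsum0 (by rw [← hsum, Q_add, h1, h2, h3]; ring)
  obtain ⟨a, b, hab⟩ := (mem_tensorProductSubgroup_iff e P g).mp (hle hg)
  rw [hab, cr_mulVec', kron_pv] at hgv
  have h4 := hPinj _ _ hgv
  apply not_pure hx hy ((a : Matrix (Fin d) (Fin d) F) *ᵥ x) ((b : Matrix (Fin m) (Fin m) F) *ᵥ y)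
  intro i j
  exact congrFun h4 (i, j)

end matrices3

end H96.OeOmega
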