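import Mathlib
import Cfsg.Agent.Lib.H97.AschAsm
import Cfsg.Agent.Lib.H96.OeOmega

/-!
Even-dimensional orthogonal groups: reduction for a non-degenerate quadratic form on an arbitrary index type.
-/

set_option autoImplicit false
set_option linter.unusedSectionVars false

namespace H96.OeRed

open Cfsg Cfsg.Geo Matrix H97.AschRad H97.AschUnits H97.AschSkolem H97.AschCS H97.AschTensor H97.AschEnv
open H97.AschGrp H97.AschNonab H97.AschForm H97.AschTwo H97.AschDecomp H97.AschLinear H97.AschSubfield H97.AschIdem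
open H97.AschTF H97.AschTP H97.AschPos H97.AschPosE H97.AschPosI
open H96.AschAdj H96.AschSympType5 H96.AschComm H96.AschField H96.AschSp2
open QuadraticMap
open scoped Kronecker

variable {ι : Type} [Fintype ι] [DecidableEq ι] {F : Type*} [Field F] {Q : (ι → F) → F}

theorem q_hform (hQ : IsNondegenerateQuadraticForm Q) : HForm (RingEquiv.refl F) 1 (polar Q) where
  sesq := IsSesq.of_bilinear hQ.polar_bilinear
  invol _ := rfl
  eps := Or.inl rfl
  herm v w := by rw [one_mul]; exact polar_comm Q v w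
  nd v hv := (hQ.nondegenerate v hv).2

lemma mem_iso {g : GL ι F} : g ∈ isometryGroup F Q ↔ ∀ v, Q ((g : Matrix ι ι F) *ᵥ v) = Q v :=
  ⟨fun h v => h v v, fun h u _ => h u⟩

lemma iso_le (Q : (ι → F) → F) : isometryGroup F Q ≤ isom (polar Q) := by
  intro g hg u v
  have h := mem_iso.mp hg
  change Q ((g : Matrix ι ι F) *ᵥ u + (g : Matrix ι ι F) *ᵥ v) -
    Q ((g : Matrix ι ι F) *ᵥ u) - Q ((g : Matrix ι ι F) *ᵥ v) = _
  rw [← Matrix.mulVec_add, h, h, h]
  rfl

lemma Qadd (Q : (ι → F) → F) (u v : ι → F) : Q (u + v) = Q u + Q v + polar Q u v := by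
  simp [polar]

lemma Qzero (hQ : IsNondegenerateQuadraticForm Q) : Q 0 = 0 := by
  have := hQ.smul 0 0
  rwa [zero_smul, zero_pow (by norm_num), zero_mul] at this

lemma Qself (hQ : IsNondegenerateQuadraticForm Q) (v : ι → F) : polar Q v v = 2 * Q v := H97.AschForm.polar_self hQ v

/-- semilinear functions with invariant kernel vanish -/
theorem semi_invariant [Finite F] (h2 : (2 : F) = 0) {H : Subgroup (GL ι F)} (hirr : ActsIrreducibly (matrixSet H))
    (hn : 2 ≤ Fintype.card ι) {q : (ι → F) → F} (hadd : ∀ u v, q (u + v) = q u + q v)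
    (hsm : ∀ (c : F) v, q (c • v) = c ^ 2 * q v) (hinv : ∀ g ∈ H, ∀ v, q v = 0 → q ((g : Matrix ι ι F) *ᵥ v) = 0) :
    ∀ v, q v = 0 := by
  classical
  have := Fintype.ofFinite F
  have hz : q 0 = 0 := by
    have := hsm 0 0
    rwa [zero_smul, zero_pow (by norm_num), zero_mul] at this
  let S : Submodule F (ι → F) :=
    { carrier := {v | q v = 0}
      add_mem' := by
        intro a b ha hb
        change q (a + b) = 0
        rw [hadd, show q a = 0 from ha, show q b = 0 from hb, add_zero]
      zero_mem' := hz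
      smul_mem' := by
        intro c a ha
        change q (c • a) = 0
        rw [hsm, show q a = 0 from ha, mul_zero] }
  rcases hirr S (by
    rintro _ ⟨g, hg, rfl⟩
    rw [Submodule.map_le_iff_le_comap]
    intro v hv
    rw [Submodule.mem_comap, Matrix.toLin'_apply]
    exact hinv g hg v hv) with h | h
  · exfalso
    obtain ⟨i, j, hij⟩ := Fintype.exists_pair_of_one_lt_card (α := ι) (by omega)
    have hne : ∀ i : ι, (Pi.single i (1 : F) : ι → F) ≠ 0 := by
      intro i h0
      have := congrFun h0 i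
      simp at this
    have hq : ∀ v : ι → F, v ≠ 0 → q v ≠ 0 := by
      intro v hv hqv
      have : v ∈ S := hqv
      rw [h, Submodule.mem_bot] at this
      exact hv this
    obtain ⟨t, ht⟩ := H96.AschSp.sqrt_of_char_two h2 (q (Pi.single j 1) * (q (Pi.single i 1))⁻¹)
    have h3 : q (Pi.single j 1 + t • Pi.single i 1) = 0 := by
      rw [hadd, hsm, ht]
      have := hq _ (hne i)
      field_simp
      linear_combination (q (Pi.single j 1)) * h2
    apply hq _ _ h3
    intro h4
    have h5 := congrFun h4 j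
    rw [Pi.add_apply, Pi.smul_apply, Pi.single_eq_same, Pi.single_eq_of_ne hij.symm, smul_zero, add_zero] at h5
    exact one_ne_zero h5
  · intro v
    have : v ∈ S := by rw [h]; trivial
    exact this

/-! ### reducible groups -/

/-- reducible outcomes -/
def Red (Q : (ι → F) → F) (H : Subgroup (GL ι F)) : Prop :=
  (∃ W : Submodule F (ι → F), W ≠ ⊥ ∧ IsTotallySingularQuad Q W ∧ H ≤ subspaceStabilizer W) ∨
  (∃ W : Submodule F (ι → F), W ≠ ⊥ ∧ W ≠ ⊤ ∧ IsNondegenerateOn (polar Q) W ∧ H ≤ subspaceStabilizer W) ∨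
  ((2 : F) = 0 ∧ ∃ v : ι → F, Q v ≠ 0 ∧ H ≤ subspaceStabilizer (Submodule.span F {v}))

lemma le_stab {W : Submodule F (ι → F)} {H : Subgroup (GL ι F)} (h : ∀ g ∈ H, ∀ w ∈ W, (g : Matrix ι ι F) *ᵥ w ∈ W) :
    H ≤ subspaceStabilizer W := by
  intro g hg
  apply H95.Bridge.mem_subspaceStabilizer_of
  intro v hv
  rw [H95.Bridge.toEq_apply]
  exact h g hg v hv

lemma stab_apply {W : Submodule F (ι → F)} {g : GL ι F} (h : g ∈ subspaceStabilizer W) {w : ι → F} (hw : w ∈ W) :
    (g : Matrix ι ι F) *ᵥ w ∈ W := by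
  have := (H95.Bridge.mem_subspaceStabilizer.mp h w).mp hw
  rwa [H95.Bridge.toEq_apply] at this

theorem reducible_q [Finite F] (hQ : IsNondegenerateQuadraticForm Q) {H : Subgroup (GL ι F)} (hH : H ≤ isometryGroup F Q)
    (hred : ¬ ActsIrreducibly (matrixSet H)) : Red Q H := by
  classical
  have := Fintype.ofFinite F
  have h := q_hform hQ
  obtain ⟨W, hW0, hW1, hHW⟩ := exists_stabilizer_of_not_irreducible hred
  have hHp : H ≤ subspaceStabilizer (h.perp W) := fun g hg => h.perp_stab (iso_le Q (hH hg)) (hHW hg)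
  by_cases hrad : W ⊓ h.perp W = ⊥
  · exact Or.inr (Or.inl ⟨W, hW0, hW1, h.nondegOn_of_inf hrad, hHW⟩)
  · set U := W ⊓ h.perp W with hU
    have hHU : H ≤ subspaceStabilizer U := H96.AschAdj.HForm.stab_inf hHW hHp
    have hts : ∀ u ∈ U, ∀ v ∈ U, polar Q u v = 0 := fun u hu v hv => hu.2 v hv.1
    by_cases h2 : (2 : F) = 0
    · by_cases hq : ∀ u ∈ U, Q u = 0
      · exact Or.inl ⟨U, hrad, hq, hHU⟩
      push Not at hq
      obtain ⟨v, hvU, hv⟩ := hq
      let U' : Submodule F (ι → F) :=
        { carrier := {u | u ∈ U ∧ Q u = 0}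
          add_mem' := by
            rintro a b ⟨ha, ha'⟩ ⟨hb, hb'⟩
            exact ⟨U.add_mem ha hb, by rw [Qadd Q, ha', hb', hts a ha b hb]; ring⟩
          zero_mem' := ⟨U.zero_mem, Qzero hQ⟩
          smul_mem' := by
            rintro c a ⟨ha, ha'⟩
            exact ⟨U.smul_mem c ha, by rw [hQ.smul, ha', mul_zero]⟩ }
      by_cases hU' : U' = ⊥
      · right; right
        refine ⟨h2, v, hv, ?_⟩
        have hspan : U = Submodule.span F {v} := by
          apply le_antisymm
          · intro w hw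
            obtain ⟨t, ht⟩ := H96.AschSp.sqrt_of_char_two h2 (Q w * (Q v)⁻¹)
            have h3 : w + t • v ∈ U' := by
              refine ⟨U.add_mem hw (U.smul_mem _ hvU), ?_⟩
              rw [Qadd Q, hts w hw _ (U.smul_mem _ hvU), hQ.smul, ht]
              field_simp
              linear_combination (Q w) * h2
            rw [hU', Submodule.mem_bot] at h3
            rw [Submodule.mem_span_singleton]
            exact ⟨-t, by rw [neg_smul]; exact (eq_neg_of_add_eq_zero_left h3).symm⟩
          · rw [Submodule.span_le, Set.singleton_subset_iff]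
            exact hvU
        rw [← hspan]
        exact hHU
      · left
        refine ⟨U', hU', fun w hw => hw.2, le_stab ?_⟩
        rintro g hg w ⟨hw1, hw2⟩
        exact ⟨stab_apply (hHU hg) hw1, by rw [mem_iso.mp (hH hg), hw2]⟩
    · left
      refine ⟨U, hrad, ?_, hHU⟩
      intro w hw
      have h1 := hts w hw w hw
      rw [Qself hQ] at h1
      exact (mul_eq_zero.mp h1).resolve_left h2

/-! ### commutative algebras -/

/-- imprimitive outcomes -/
def Imp (Q : (ι → F) → F) (H : Subgroup (GL ι F)) : Prop :=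
  (∃ (t k : ℕ) (D : Fin t → Submodule F (ι → F)), IsOrthogonalMDecomposition Q k D ∧ H ≤ decompositionStabilizer D) ∨
  (∃ (k : ℕ) (D : Fin 2 → Submodule F (ι → F)), IsMDecomposition k D ∧ (∀ i, IsTotallySingularQuad Q (D i)) ∧
    H ≤ decompositionStabilizer D)

/-- field outcomes -/
def Fld (Q : (ι → F) → F) (H : Subgroup (GL ι F)) : Prop :=
  (∃ (r : ℕ) (K : Subalgebra F (Matrix ι ι F)), r.Prime ∧ IsFieldSubalgebra r K ∧ IsSelfAdjointFor (polar Q) K ∧
    H ≤ subalgebraNormalizer K) ∨
  (∃ K : Subalgebra F (Matrix ι ι F), IsFieldSubalgebra 2 K ∧ IsAdjointClosedFor (polar Q) K ∧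
    ¬ IsSelfAdjointFor (polar Q) K ∧ (∀ k ∈ K, ∃ c : F, ∀ v, Q (k *ᵥ v) = c * Q v) ∧ H ≤ subalgebraNormalizer K)

/-- the quadratic form on a degree two extension with non-trivial adjunction -/
theorem similar_of_unitary [Finite F] [Nonempty ι] (hQ : IsNondegenerateQuadraticForm Q) (hn : 2 ≤ Fintype.card ι)
    {H : Subgroup (GL ι F)} (hH : H ≤ isometryGroup F Q) (hirr : ActsIrreducibly (matrixSet H))
    {K : Subalgebra F (Matrix ι ι F)} (hKf : IsFieldSubalgebra 2 K) (hHK : NormSet H K)
    (hKadj : ∀ k ∈ K, (q_hform hQ).adj k ∈ K) {k : Matrix ι ι F} (hkK : k ∈ K) (hk : (q_hform hQ).adj k ≠ k) :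
    ∀ x ∈ K, ∃ c : F, ∀ v, Q (x *ᵥ v) = c * Q v := by
  classical
  have h := q_hform hQ
  have hadj := fun (X : Matrix ι ι F) => h.adj X
  intro x hx
  -- the norm
  obtain ⟨N, hN⟩ := scalar_of_selfadj h hKf hkK hk (x := h.adj x * x) (K.mul_mem (hKadj x hx) hx)
    (by rw [h.adj_mul, h.adj_adj])
  refine ⟨N, ?_⟩
  have hf : ∀ u v, polar Q (x *ᵥ u) (x *ᵥ v) = N * polar Q u v := by
    intro u v
    rw [h.adj_spec, Matrix.mulVec_mulVec, hN, Algebra.algebraMap_eq_smul_one, Matrix.smul_mulVec, Matrix.one_mulVec,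
      h.sesq.smul_right]
    rfl
  by_cases h2 : (2 : F) = 0
  · obtain ⟨T, hT⟩ := scalar_of_selfadj h hKf hkK hk (x := x + h.adj x) (K.add_mem hx (hKadj x hx))
      (by rw [h.adj_add, h.adj_adj, add_comm])
    -- conjugates of x are x or its adjoint
    have hconj : ∀ g ∈ H, (g : Matrix ι ι F) * x * ((g⁻¹ : GL ι F) : Matrix ι ι F) = x ∨
        (g : Matrix ι ι F) * x * ((g⁻¹ : GL ι F) : Matrix ι ι F) = h.adj x := by
      intro g hg
      set x' := (g : Matrix ι ι F) * x * ((g⁻¹ : GL ι F) : Matrix ι ι F) with hx'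
      have hx'K : x' ∈ K := hHK g hg x hx
      have e0 : h.adj x * x = x * h.adj x := hKf.comm _ (hKadj x hx) _ hx
      have e1 : x * x = algebraMap F _ T * x - algebraMap F _ N := by
        rw [← hT, ← hN, add_mul]; abel
      have e2 : x' * x' = algebraMap F _ T * x' - algebraMap F _ N := by
        have h5 := congrArg (conjAlg F g) e1
        rw [map_mul, map_sub, map_mul, AlgEquiv.commutes, AlgEquiv.commutes] at h5
        exact h5
      have e3 : (x' - x) * (x' - h.adj x) = 0 := by
        have e4 := hKf.comm x' hx'K x hx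
        have e5 : x' * h.adj x = algebraMap F _ T * x' - x' * x := by
          have : h.adj x = algebraMap F _ T - x := by rw [← hT]; abel
          rw [this, mul_sub, ← Algebra.commutes T x']
        calc (x' - x) * (x' - h.adj x) = x' * x' - x' * h.adj x - x * x' + x * h.adj x := by
              rw [sub_mul, mul_sub, mul_sub]; abel
          _ = 0 := by
              rw [e2, e5, ← e4, ← e0, hN]; abel
      by_cases hne : x' - x = 0
      · exact Or.inl (sub_eq_zero.mp hne)
      · right
        obtain ⟨y, hy, hyx⟩ := hKf.inv _ (K.sub_mem hx'K hx) hne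
        rw [hKf.comm _ (K.sub_mem hx'K hx) _ hy] at hyx
        have h6 := congrArg (fun X => y * X) e3
        simp only [mul_zero, ← mul_assoc] at h6
        rw [hyx, one_mul] at h6
        exact sub_eq_zero.mp h6
    have hadjx : ∀ v, h.adj x *ᵥ v = T • v + x *ᵥ v := by
      intro v
      have h3 : h.adj x = algebraMap F _ T - x := by rw [← hT]; abel
      have hchar : ∀ w : ι → F, -w = w := by
        intro w
        have : w + w = 0 := by rw [← two_smul F, h2, zero_smul]
        exact (eq_neg_of_add_eq_zero_left this).symm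
      rw [h3, Matrix.sub_mulVec, Algebra.algebraMap_eq_smul_one, Matrix.smul_mulVec, Matrix.one_mulVec, sub_eq_add_neg, hchar]
    have halt : ∀ v, polar Q v v = 0 := by intro v; rw [Qself hQ, h2, zero_mul]
    -- first function
    have hconj' : ∀ g ∈ H, ∀ v, x *ᵥ ((g : Matrix ι ι F) *ᵥ v) = (g : Matrix ι ι F) *ᵥ (x *ᵥ v) ∨
        x *ᵥ ((g : Matrix ι ι F) *ᵥ v) = (g : Matrix ι ι F) *ᵥ (h.adj x *ᵥ v) := by
      intro g hg v
      have h3 := hconj g⁻¹ (H.inv_mem hg)
      have h4 : ∀ z : Matrix ι ι F, ((g⁻¹ : GL ι F) : Matrix ι ι F) * x * (((g⁻¹)⁻¹ : GL ι F) : Matrix ι ι F) = z →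
          x *ᵥ ((g : Matrix ι ι F) *ᵥ v) = (g : Matrix ι ι F) *ᵥ (z *ᵥ v) := by
        intro z hz
        rw [← hz, inv_inv, Matrix.mulVec_mulVec, Matrix.mulVec_mulVec, ← mul_assoc, ← mul_assoc, ← Units.val_mul, mul_inv_cancel,
          Units.val_one, one_mul]
      exact h3.imp (h4 _) (h4 _)
    have hg2 : ∀ v, polar Q v (x *ᵥ v) + T * Q v = 0 := by
      apply semi_invariant h2 hirr hn
      · intro u v
        rw [Matrix.mulVec_add, h.sesq.add_left, h.sesq.add_right, h.sesq.add_right, Qadd Q]
        have h3 : polar Q v (x *ᵥ u) = T * polar Q u v + polar Q u (x *ᵥ v) := by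
          rw [polar_comm Q v, h.adj_spec, hadjx, h.sesq.add_right, h.sesq.smul_right]; rfl
        rw [h3]
        linear_combination (T * polar Q u v + polar Q u (x *ᵥ v)) * h2
      · intro c v
        rw [Matrix.mulVec_smul, h.sesq.smul_left, h.sesq.smul_right, hQ.smul]
        change c * (c * _) + _ = _
        ring
      · intro g hg v hv
        have hgi := iso_le Q (hH hg)
        rw [mem_iso.mp (hH hg)]
        rcases hconj' g hg v with h3 | h3
        · rw [h3, mem_isom.mp hgi]; exact hv
        · rw [h3, mem_isom.mp hgi, hadjx, h.sesq.add_right, h.sesq.smul_right, halt]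
          change T * 0 + _ + _ = 0
          rw [mul_zero, zero_add]; exact hv
    have hg1 : ∀ v, Q (x *ᵥ v) + N * Q v = 0 := by
      apply semi_invariant h2 hirr hn
      · intro u v
        rw [Matrix.mulVec_add, Qadd Q, Qadd Q, hf]
        linear_combination (N * polar Q u v) * h2
      · intro c v
        rw [Matrix.mulVec_smul, hQ.smul, hQ.smul]; ring
      · intro g hg v hv
        rw [mem_iso.mp (hH hg)]
        rcases hconj' g hg v with h3 | h3
        · rw [h3, mem_iso.mp (hH hg)]; exact hv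
        · rw [h3, mem_iso.mp (hH hg), hadjx, Qadd Q, hQ.smul, h.sesq.smul_left]
          have h4 := hg2 v
          linear_combination hv + T * h4
    intro v
    linear_combination hg1 v - (N * Q v) * h2
  · intro v
    have h3 := hf v v
    rw [Qself hQ, Qself hQ] at h3
    apply mul_left_cancel₀ h2
    linear_combination h3

theorem comm_q [Fintype F] (hQ : IsNondegenerateQuadraticForm Q) (hn : 3 ≤ Fintype.card ι) {H : Subgroup (GL ι F)}
    (hH : H ≤ isometryGroup F Q) (hirr : ActsIrreducibly (matrixSet H)) (Z : Subalgebra F (Matrix ι ι F))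
    (hcomm : ∀ x ∈ Z, ∀ y ∈ Z, x * y = y * x) (hZ : NormSet H Z) (hadj : IsAdjointClosedFor (polar Q) Z)
    (hne : ∃ z ∈ Z, ∀ c : F, z ≠ algebraMap F _ c) : Imp Q H ∨ Fld Q H := by
  classical
  have hnonempty : Nonempty ι := Fintype.card_pos_iff.mp (by omega)
  have h := q_hform hQ
  have hadj' := adj_mem_of_closed h hadj
  have hHi : H ≤ isom (polar Q) := hH.trans (iso_le Q)
  rcases comm_case h hHi hirr Z hcomm hZ hadj' with ⟨t, k, D, hD, hHD, htr⟩ | ⟨k, D, e, hD, hts, hHD, -, hone, hconj⟩ | hK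
  · left; left
    refine ⟨t, k, D, ⟨hD, ?_⟩, hHD⟩
    intro i j
    obtain ⟨g, hg, hgij⟩ := htr i j
    refine ⟨(Submodule.equivMapOfInjective _ (toLin_injective g) (D i)).trans (LinearEquiv.ofEq _ _ hgij), ?_⟩
    intro w
    rw [LinearEquiv.trans_apply, LinearEquiv.coe_ofEq_apply, Submodule.coe_equivMapOfInjective_apply,
      Matrix.toLin'_apply]
    exact mem_iso.mp (hH hg) _
  · left; right
    refine ⟨k, D, hD, ?_, hHD⟩
    by_cases h2 : (2 : F) = 0
    · obtain ⟨p, h1, h2', h3, h4⟩ := H96.OeOmega.exists_proj hD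
      have key : ∀ v, ∑ i, Q (p i v) = 0 := by
        apply semi_invariant h2 hirr (by omega)
        · intro u v
          rw [← Finset.sum_add_distrib]
          refine Finset.sum_congr rfl (fun i _ => ?_)
          rw [map_add, Qadd Q, hts i _ (h1 i u) _ (h1 i v), add_zero]
        · intro c v
          rw [Finset.mul_sum]
          refine Finset.sum_congr rfl (fun i _ => ?_)
          rw [map_smul, hQ.smul]
        · intro g hg v hv
          obtain ⟨σ, hσ⟩ := hHD hg
          rw [← hv, ← Equiv.sum_comp σ]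
          refine Finset.sum_congr rfl (fun i _ => ?_)
          rw [H96.OeOmega.proj_map h1 h2' h3 h4 hσ, mem_iso.mp (hH hg)]
      intro i w hw
      have h5 := key w
      rw [Finset.sum_eq_single i] at h5
      · rwa [h4 i w hw] at h5
      · intro j _ hj
        rw [h3 j i hj w hw, Qzero hQ]
      · intro hi; exact absurd (Finset.mem_univ i) hi
    · intro i w hw
      have h1 := hts i w hw w hw
      rw [Qself hQ] at h1
      exact (mul_eq_zero.mp h1).resolve_left h2
  · right
    have hs : Module.finrank F Z ≠ 1 := by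
      intro h1
      obtain ⟨z, hz, hzc⟩ := hne
      obtain ⟨c, hc⟩ := scalar_of_finrank_one Z h1 z hz
      exact hzc c hc
    rcases field_case_bilinear h hK hs hZ hadj' with ⟨r, K, hr, -, hKf, -, hHK, hsa⟩ | ⟨K, -, hKf, -, hHK, hKadj, k, hkK, hk⟩
    · left
      refine ⟨r, K, hr, hKf, ?_, le_subalgebraNormalizer K H hHK⟩
      intro k hk u v
      rw [h.adj_spec, hsa k hk]
    · right
      refine ⟨K, hKf, ?_, ?_, similar_of_unitary hQ (by omega) hH hirr hKf hHK hKadj hkK hk, le_subalgebraNormalizer K H hHK⟩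
      · intro x hx
        exact ⟨h.adj x, hKadj x hx, fun u v => h.adj_spec x u v⟩
      · intro hsa
        exact hk (h.adj_eq (hsa k hkK))

end H96.OeRed
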