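import Mathlib
import Cfsg.Agent.Lib.H96.OeRed

/-!
Even-dimensional orthogonal groups: the generic reduction theorem.
-/

set_option autoImplicit false
set_option linter.unusedSectionVars false

namespace H96.OeMain

open Cfsg Cfsg.Geo Matrix H97.AschRad H97.AschUnits H97.AschSkolem H97.AschCS H97.AschTensor H97.AschEnv
open H97.AschGrp H97.AschNonab H97.AschForm H97.AschTwo H97.AschDecomp H97.AschLinear H97.AschSubfield H97.AschIdem
open H97.AschTF H97.AschTP H97.AschPos H97.AschPosE H97.AschPosI H97.AschPosH H97.AschReal H97.AschPow H97.AschWreath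
open H96.AschSympType1 H96.AschSympType2 H96.AschSympType3 H96.AschSubForm
open H96.AschAdj H96.AschSympType5 H96.AschComm H96.AschField H96.AschSp2 H96.OeRed H96.AschDescent
open QuadraticMap
open scoped Kronecker

variable {ι : Type} [Fintype ι] [DecidableEq ι] {F : Type*} [Field F] {Q : (ι → F) → F}

lemma nd2 (hQ : IsNondegenerateQuadraticForm Q) : ∀ v : ι → F, v ≠ 0 → ∃ x, polar Q v x ≠ 0 :=
  fun v hv => (hQ.nondegenerate v hv).2

/-- subfield outcomes -/
def Sub [Fintype F] (Q : (ι → F) → F) (H : Subgroup (GL ι F)) : Prop :=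
  ∃ (F₀ : Subfield F) (r : ℕ) (P : GL ι F) (ζ : F), r.Prime ∧ Fintype.card F = Nat.card F₀ ^ r ∧ ζ ≠ 0 ∧
    IsQuadFormRationalStructure (fun v => ζ * Q v) F₀ P ∧ H ≤ subfieldSubgroup F₀ P

theorem sub_of_real [Fintype F] [Nonempty ι] (hQ : IsNondegenerateQuadraticForm Q) (hn : 2 ≤ Fintype.card ι)
    {H N : Subgroup (GL ι F)} (hN : N ≤ isometryGroup F Q) (hNB : NB H N) (hfull : Full N) (F₀ : Subfield F) (h0 : F₀ ≠ ⊤)
    (hreal : RealisableOver F₀ (matrixSet N)) : Sub Q H := by
  classical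
  have hses : IsSesq (RingEquiv.refl F) (polar Q) := IsSesq.of_bilinear hQ.polar_bilinear
  obtain ⟨F₁, r, P, ζ, _, hr, hcard, hP, hζ, hζ2⟩ := exists_rational_structure hfull (σ := RingEquiv.refl F) (k := 1)
    (fun x => by rw [pow_one]; rfl) hses (nd2 hQ) (fixesForm_iff.2 (hN.trans (iso_le Q))) F₀ h0 hreal
  refine ⟨F₁, r, P, ζ, hr, hcard, hζ, ?_, fun h hh => norm_mem_subfieldSubgroup hfull F₁ _ hP (fun x hx => hNB h hh x hx)⟩
  by_cases h2 : (2 : F) = 0
  · -- Frobenius
    set q₁ := Nat.card F₁ with hq₁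
    have : Fintype F₁ := Fintype.ofFinite F₁
    have hq₁' : Fintype.card F₁ = q₁ := by rw [hq₁, Nat.card_eq_fintype_card]
    obtain ⟨p, hchar⟩ := CharP.exists F
    have := hchar
    have : Fact p.Prime := ⟨CharP.char_is_prime F p⟩
    have : CharP F₁ p := (algebraMap F₁ F).charP (algebraMap F₁ F).injective p
    obtain ⟨n, hp, hn1⟩ := FiniteField.card F₁ p
    rw [hq₁'] at hn1
    have : ExpChar F p := ExpChar.prime (Fact.out)
    let τ : F ≃+* F := iterateFrobeniusEquiv F p n
    have hτ : ∀ x, τ x = x ^ q₁ := by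
      intro x
      rw [hn1]
      exact iterateFrobeniusEquiv_apply F p n x
    have hτF : ∀ x, x ∈ F₁ ↔ τ x = x := by
      intro x
      rw [hτ]
      constructor
      · intro hx
        have := FiniteField.pow_card (⟨x, hx⟩ : F₁)
        rw [hq₁'] at this
        exact congrArg Subtype.val this
      · intro hx
        -- roots of X^q - X
        by_contra hxn
        let S : Finset F := (Finset.univ : Finset F₁).map ⟨Subtype.val, Subtype.val_injective⟩
        have hS : S.card = q₁ := by rw [Finset.card_map, Finset.card_univ, hq₁']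
        have hxS : x ∉ S := by
          intro h
          rw [Finset.mem_map] at h
          obtain ⟨y, _, hy⟩ := h
          apply hxn
          rw [← hy]
          exact y.2
        have hq1 : 1 < q₁ := by rw [← hq₁']; exact Fintype.one_lt_card
        have hpoly : (Polynomial.X ^ q₁ - Polynomial.X : Polynomial F) ≠ 0 :=
          FiniteField.X_pow_card_sub_X_ne_zero F hq1
        have hdeg : (Polynomial.X ^ q₁ - Polynomial.X : Polynomial F).natDegree = q₁ :=
          FiniteField.X_pow_card_sub_X_natDegree_eq F hq1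
        have hroots : insert x S ⊆ (Polynomial.X ^ q₁ - Polynomial.X : Polynomial F).roots.toFinset := by
          intro y hy
          rw [Multiset.mem_toFinset, Polynomial.mem_roots hpoly, Polynomial.IsRoot.def, Polynomial.eval_sub,
            Polynomial.eval_pow, Polynomial.eval_X, sub_eq_zero]
          rcases Finset.mem_insert.mp hy with rfl | hy
          · exact hx
          · rw [Finset.mem_map] at hy
            obtain ⟨z, _, rfl⟩ := hy
            have := FiniteField.pow_card z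
            rw [hq₁'] at this
            exact congrArg Subtype.val this
        have h3 := Finset.card_le_card hroots
        rw [Finset.card_insert_of_notMem hxS, hS] at h3
        have h4 := Multiset.toFinset_card_le (Polynomial.X ^ q₁ - Polynomial.X : Polynomial F).roots
        have h5 := Polynomial.card_roots' (Polynomial.X ^ q₁ - Polynomial.X : Polynomial F)
        rw [hdeg] at h5
        omega
    -- twisted vectors
    let tw : (ι → F) → (ι → F) := fun w => (P : Matrix ι ι F) *ᵥ (fun i => τ ((((P⁻¹ : GL ι F) : Matrix ι ι F) *ᵥ w) i))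
    have htwadd : ∀ u v, tw (u + v) = tw u + tw v := by
      intro u v
      simp only [tw]
      rw [← Matrix.mulVec_add]
      congr 1
      funext i
      rw [Matrix.mulVec_add, Pi.add_apply, Pi.add_apply, map_add]
    have htwsm : ∀ (c : F) v, tw (c • v) = τ c • tw v := by
      intro c v
      simp only [tw]
      rw [← Matrix.mulVec_smul]
      congr 1
      funext i
      rw [Matrix.mulVec_smul, Pi.smul_apply, Pi.smul_apply, smul_eq_mul, smul_eq_mul, map_mul]
    have htwover : ∀ u, VOver F₁ u → tw ((P : Matrix ι ι F) *ᵥ u) = (P : Matrix ι ι F) *ᵥ u := by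
      intro u hu
      simp only [tw]
      congr 1
      funext i
      rw [Matrix.mulVec_mulVec, ← Units.val_mul, inv_mul_cancel, Units.val_one, Matrix.one_mulVec]
      exact (hτF _).mp (hu i)
    have htwg : ∀ g ∈ N, ∀ w, tw ((g : Matrix ι ι F) *ᵥ w) = (g : Matrix ι ι F) *ᵥ tw w := by
      intro g hg w
      have hov := hP g hg
      set g' : GL ι F := P⁻¹ * g * P with hg'
      have hgP : g = P * g' * P⁻¹ := by rw [hg']; group
      simp only [tw]
      rw [hgP]
      simp only [Units.val_mul, Matrix.mulVec_mulVec]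
      have e1 : ∀ X : Matrix ι ι F, ((P⁻¹ : GL ι F) : Matrix ι ι F) * ((P : Matrix ι ι F) * X) = X := by
        intro X
        rw [← mul_assoc, ← Units.val_mul, inv_mul_cancel, Units.val_one, one_mul]
      simp only [mul_assoc]
      rw [e1]
      have e2 : ((P⁻¹ : GL ι F) : Matrix ι ι F) * (P : Matrix ι ι F) = 1 := by
        rw [← Units.val_mul, inv_mul_cancel, Units.val_one]
      rw [e2, mul_one, ← Matrix.mulVec_mulVec (M := (P : Matrix ι ι F)), ← Matrix.mulVec_mulVec (M := (g' : Matrix ι ι F))]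
      congr 1
      funext i
      simp only [mulVec, dotProduct, map_sum, map_mul]
      refine Finset.sum_congr rfl (fun j _ => ?_)
      rw [(hτF _).mp (hov i j)]
    -- the polar form is compatible
    have hpol : ∀ u v, ζ * polar Q (tw u) (tw v) = τ (ζ * polar Q u v) := by
      have hbas : ∀ i, tw ((P : Matrix ι ι F) *ᵥ Pi.single i 1) = (P : Matrix ι ι F) *ᵥ Pi.single i 1 := by
        intro i
        apply htwover
        intro j
        by_cases hj : j = i
        · rw [hj, Pi.single_eq_same]; exact F₁.one_mem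
        · rw [Pi.single_eq_of_ne hj]; exact F₁.zero_mem
      have hex : ∀ w : ι → F, ∃ u : ι → F, w = ∑ i, u i • ((P : Matrix ι ι F) *ᵥ Pi.single i 1) := by
        intro w
        refine ⟨((P⁻¹ : GL ι F) : Matrix ι ι F) *ᵥ w, ?_⟩
        have h3 : w = (P : Matrix ι ι F) *ᵥ (((P⁻¹ : GL ι F) : Matrix ι ι F) *ᵥ w) := by
          rw [Matrix.mulVec_mulVec, ← Units.val_mul, mul_inv_cancel, Units.val_one, Matrix.one_mulVec]
        conv_lhs => rw [h3]
        rw [vec_eq_sum (((P⁻¹ : GL ι F) : Matrix ι ι F) *ᵥ w), Matrix.mulVec_sum]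
        refine Finset.sum_congr rfl (fun i _ => ?_)
        rw [Matrix.mulVec_smul, ← vec_eq_sum]
      have htwsum : ∀ (s : Finset ι) (u : ι → F), tw (∑ i ∈ s, u i • ((P : Matrix ι ι F) *ᵥ Pi.single i 1)) =
          ∑ i ∈ s, τ (u i) • ((P : Matrix ι ι F) *ᵥ Pi.single i 1) := by
        intro s u
        induction s using Finset.induction_on with
        | empty =>
          rw [Finset.sum_empty, Finset.sum_empty]
          have := htwsm 0 0
          rwa [zero_smul, map_zero, zero_smul] at this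
        | insert a s ha ih => rw [Finset.sum_insert ha, Finset.sum_insert ha, htwadd, htwsm, hbas, ih]
      have hs : ∀ i, VOver F₁ (Pi.single i (1 : F) : ι → F) := by
        intro i j
        by_cases hj : j = i
        · rw [hj, Pi.single_eq_same]; exact F₁.one_mem
        · rw [Pi.single_eq_of_ne hj]; exact F₁.zero_mem
      intro u v
      obtain ⟨a, rfl⟩ := hex u
      obtain ⟨b, rfl⟩ := hex v
      rw [htwsum, htwsum, hses.sum_left, hses.sum_left, Finset.mul_sum, Finset.mul_sum, map_sum]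
      refine Finset.sum_congr rfl (fun i _ => ?_)
      rw [hses.smul_left, hses.smul_left, hses.sum_right, hses.sum_right, Finset.mul_sum, Finset.mul_sum, Finset.mul_sum,
        Finset.mul_sum, map_sum]
      refine Finset.sum_congr rfl (fun j _ => ?_)
      rw [hses.smul_right, hses.smul_right]
      have h3 := (hτF _).mp (hζ2 _ _ (hs i) (hs j))
      change ζ * (τ (a i) * (τ (b j) * _)) = τ (ζ * (a i * (b j * _)))
      rw [map_mul] at h3
      rw [map_mul, map_mul, map_mul]
      linear_combination (-(τ (a i) * τ (b j))) * h3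
    have key : ∀ w, τ.symm (ζ * Q (tw w)) - ζ * Q w = 0 := by
      apply semi_invariant h2 hfull.irr hn
      · intro u v
        rw [htwadd, Qadd Q, Qadd Q, mul_add, mul_add, map_add, map_add, hpol, RingEquiv.symm_apply_apply]
        ring
      · intro c v
        rw [htwsm, hQ.smul, hQ.smul, mul_left_comm, map_mul, ← map_pow, RingEquiv.symm_apply_apply]
        ring
      · intro g hg v hv
        rw [htwg g hg, mem_iso.mp (hN hg), mem_iso.mp (hN hg)]
        exact hv
    intro u hu
    change ζ * Q ((P : Matrix ι ι F) *ᵥ u) ∈ F₁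
    rw [hτF]
    have h3 := key ((P : Matrix ι ι F) *ᵥ u)
    rw [htwover u hu, sub_eq_zero, RingEquiv.symm_apply_eq] at h3
    exact h3.symm
  · intro u hu
    have h3 := hζ2 u u hu hu
    rw [Qself hQ] at h3
    have h5 : (2 : F) ∈ F₁ := by
      have : (2 : F) = 1 + 1 := by norm_num
      rw [this]; exact F₁.add_mem F₁.one_mem F₁.one_mem
    have h6 := F₁.mul_mem (F₁.inv_mem h5) h3
    change ζ * Q ((P : Matrix ι ι F) *ᵥ u) ∈ F₁
    have h7 : (2 : F)⁻¹ * (ζ * (2 * Q ((P : Matrix ι ι F) *ᵥ u))) = ζ * Q ((P : Matrix ι ι F) *ᵥ u) := by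
      field_simp
    rwa [h7] at h6

theorem sub_of_unitary [Fintype F] [Nonempty ι] (hQ : IsNondegenerateQuadraticForm Q) (hn : 2 ≤ Fintype.card ι)
    {H N : Subgroup (GL ι F)} (hN : N ≤ isometryGroup F Q) (hNB : NB H N) (hfull : Full N)
    (hu : ∃ (σ : F ≃+* F) (f : (ι → F) → (ι → F) → F), IsUnitaryForm σ f ∧ FixesForm (matrixSet N) f) : Sub Q H := by
  obtain ⟨σ, f, hf, hfix⟩ := hu
  exact sub_of_real hQ hn hN hNB hfull (fixField σ) (fixField_ne_top hf.ne_refl)
    (realisable_of_two_forms hfull (IsSesq.of_unitary hf) (IsSesq.of_bilinear hQ.polar_bilinear)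
      (fun v hv => (hf.nondegenerate v hv).2) (nd2 hQ) hfix
      (fixesForm_iff.2 (hN.trans (iso_le Q))))

/-- the centre of the enveloping algebra of an invariant subgroup -/
theorem center_q [Fintype F] (hQ : IsNondegenerateQuadraticForm Q) (hn : 3 ≤ Fintype.card ι) {H N : Subgroup (GL ι F)}
    (hH : H ≤ isometryGroup F Q) (hirr : ActsIrreducibly (matrixSet H)) (hN : N ≤ isometryGroup F Q) (hNB : NB H N) :
    (Imp Q H ∨ Fld Q H) ∨
    ∀ z ∈ env N, (∀ b ∈ env N, z * b = b * z) → ∃ c : F, z = algebraMap F (Matrix ι ι F) c := by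
  classical
  have h := q_hform hQ
  have hadj : ∀ z ∈ centerSub (env N), h.adj z ∈ centerSub (env N) :=
    fun z hz => h.adj_mem_center (fun X hX => h.adj_mem_env (hN.trans (iso_le Q)) hX) hz
  have hnorm := centerSub_norm (env_norm H hNB)
  by_cases hne : ∃ z ∈ centerSub (env N), ∀ c : F, z ≠ algebraMap F _ c
  · left
    apply comm_q hQ hn hH hirr (centerSub (env N)) (centerSub_comm _) hnorm _ hne
    intro k hk
    exact ⟨h.adj k, hadj k hk, fun u v => h.adj_spec k u v⟩
  · right
    push Not at hne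
    intro z hz hzb
    exact hne z (mem_centerSub.mpr ⟨hz, hzb⟩)

/-- tensor outcomes -/
def Ten (Q : (ι → F) → F) (H : Subgroup (GL ι F)) : Prop :=
  (∃ (d k : ℕ) (e : ι ≃ Fin d × Fin k) (P : GL ι F) (G₁ : Matrix (Fin d) (Fin d) F) (G₂ : Matrix (Fin k) (Fin k) F),
    2 ≤ d ∧ 2 ≤ k ∧ TPos (RingEquiv.refl F) (polar Q) H e P G₁ G₂ ∧
    (∀ x, formOfGram (RingEquiv.refl F) G₁ x x = 0) ∧ (∀ x, formOfGram (RingEquiv.refl F) G₂ x x = 0) ∧
    ∀ x y, Q ((P : Matrix ι ι F) *ᵥ (pv x y ∘ e)) = 0) ∨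
  ((2 : F) ≠ 0 ∧ ∃ (d k : ℕ) (e : ι ≃ Fin d × Fin k) (P : GL ι F) (G₁ : Matrix (Fin d) (Fin d) F)
    (G₂ : Matrix (Fin k) (Fin k) F), 3 ≤ d ∧ 3 ≤ k ∧ TPos (RingEquiv.refl F) (polar Q) H e P G₁ G₂ ∧
    G₁ᵀ = G₁ ∧ G₂ᵀ = G₂)

lemma alt_of_skew (h2 : (2 : F) ≠ 0) {k : ℕ} {G : Matrix (Fin k) (Fin k) F} (h : Gᵀ = -G) (x : Fin k → F) :
    formOfGram (RingEquiv.refl F) G x x = 0 := by
  have hskew : ∀ v w, formOfGram (RingEquiv.refl F) G v w = - formOfGram (RingEquiv.refl F) G w v := by
    intro v w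
    change ∑ a, ∑ b, v a * G a b * w b = - ∑ a, ∑ b, w a * G a b * v b
    rw [Finset.sum_comm, ← Finset.sum_neg_distrib]
    refine Finset.sum_congr rfl (fun a _ => ?_)
    rw [← Finset.sum_neg_distrib]
    refine Finset.sum_congr rfl (fun b _ => ?_)
    have : G b a = - G a b := congrFun (congrFun h a) b
    rw [this]; ring
  have : (2 : F) * formOfGram (RingEquiv.refl F) G x x = 0 := by linear_combination hskew x x
  exact (mul_eq_zero.mp this).resolve_left h2

/-- in characteristic two, a quadratic form with the right polar form vanishes on pure vectors -/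
theorem pure_zero [Finite F] (h2 : (2 : F) = 0) (hQ : IsNondegenerateQuadraticForm Q) (hn : 2 ≤ Fintype.card ι)
    {H : Subgroup (GL ι F)} (hirr : ActsIrreducibly (matrixSet H)) (hH : H ≤ isometryGroup F Q)
    {d k : ℕ} (hd : 0 < d) (hk : 0 < k) {e : ι ≃ Fin d × Fin k} {P : GL ι F} {G₁ : Matrix (Fin d) (Fin d) F}
    {G₂ : Matrix (Fin k) (Fin k) F} (h : TPos (RingEquiv.refl F) (polar Q) H e P G₁ G₂)
    (h1 : ∀ x, formOfGram (RingEquiv.refl F) G₁ x x = 0) (h3 : ∀ x, formOfGram (RingEquiv.refl F) G₂ x x = 0) :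
    ∀ x y, Q ((P : Matrix ι ι F) *ᵥ (pv x y ∘ e)) = 0 := by
  classical
  have hses : IsSesq (RingEquiv.refl F) (coF e P (polar Q)) := coF_sesq e P (IsSesq.of_bilinear hQ.polar_bilinear)
  obtain ⟨Q', hQ', hQs', hQ0'⟩ := H97.AschPosE.exists_quad h2 hses (fun i => by
    change polar Q _ _ = 0
    rw [Qself hQ, h2, zero_mul]) (fun i j => by
    change polar Q _ _ = polar Q _ _
    rw [polar_comm])
  have hcoF : ∀ x x' : Fin d → F, ∀ y y' : Fin k → F, coF e P (polar Q) (pv x y) (pv x' y') =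
      formOfGram (RingEquiv.refl F) G₁ x x' * formOfGram (RingEquiv.refl F) G₂ y y' := by
    intro x x' y y'
    rw [h.form, fog_pv]
  have hp1 : ∀ (i : Fin d) (y : Fin k → F), Q' (pv (Pi.single i 1) y) = 0 := by
    intro i
    apply semi_zero
    · intro u v
      rw [pv_add_right, hQ', hcoF, h1, zero_mul, add_zero]
    · intro c v
      rw [pv_smul_right, hQs']
    · intro j
      rw [pv_single, hQ0']
  have hp2 : ∀ (x : Fin d → F) (y : Fin k → F), Q' (pv x y) = 0 := by
    intro x y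
    revert x
    apply semi_zero
    · intro u v
      rw [pv_add_left, hQ', hcoF, h3, mul_zero, add_zero]
    · intro c v
      rw [pv_smul_left, hQs']
    · intro i
      exact hp1 i y
  have hPe : ∀ u, (P : Matrix ι ι F) *ᵥ ((coo e P u) ∘ e) = u := by
    intro u
    have : (coo e P u) ∘ e = ((P⁻¹ : GL ι F) : Matrix ι ι F) *ᵥ u := by
      ext i
      change ((((P⁻¹ : GL ι F) : Matrix ι ι F) *ᵥ u) ∘ e.symm) (e i) = _
      simp
    rw [this, Matrix.mulVec_mulVec, ← Units.val_mul, mul_inv_cancel, Units.val_one, Matrix.one_mulVec]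
  have hpol : ∀ u v, coF e P (polar Q) (coo e P u) (coo e P v) = polar Q u v := by
    intro u v
    change polar Q (_ *ᵥ ((coo e P u) ∘ e)) (_ *ᵥ ((coo e P v) ∘ e)) = _
    rw [hPe, hPe]
  have key : ∀ v, Q' (coo e P v) - Q v = 0 := by
    apply semi_invariant h2 hirr hn
    · intro u v
      rw [map_add, hQ', Qadd Q, hpol]; ring
    · intro c v
      rw [map_smul, hQs', hQ.smul]; ring
    · intro g hg v hv
      obtain ⟨a, b, c, hc, hab, ha, hb⟩ := h.mult hd hk hg (fun u v => iso_le Q (hH hg) u v)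
      have h4 : Q' (coo e P ((g : Matrix ι ι F) *ᵥ v)) = Q' (coo e P v) := by
        rw [hab, coo_cr]
        apply quad_invariant hQ' hQs' hQ0'
        · intro u v
          exact coF_fix e P hab (fun u v => iso_le Q (hH hg) u v) u v
        · rintro ⟨i, j⟩
          rw [← pv_single, kron_pv, hp2]
      rw [h4, mem_iso.mp (hH hg)]
      exact hv
  intro x y
  have h5 := key ((P : Matrix ι ι F) *ᵥ (pv x y ∘ e))
  have h6 : coo e P ((P : Matrix ι ι F) *ᵥ (pv x y ∘ e)) = pv x y := by
    ext i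
    change ((((P⁻¹ : GL ι F) : Matrix ι ι F) *ᵥ ((P : Matrix ι ι F) *ᵥ (pv x y ∘ e))) ∘ e.symm) i = pv x y i
    rw [Matrix.mulVec_mulVec, ← Units.val_mul, inv_mul_cancel, Units.val_one, Matrix.one_mulVec]
    simp
  rw [h6, hp2, zero_sub, neg_eq_zero] at h5
  exact h5

/-- **Tensor position.** -/
theorem tensor_q [Fintype F] (hQ : IsNondegenerateQuadraticForm Q) (hn : 2 ≤ Fintype.card ι)
    {H N : Subgroup (GL ι F)} (hirr : ActsIrreducibly (matrixSet H))
    (hH : H ≤ isometryGroup F Q) (hNH : N ≤ H) {d k : ℕ} (hd : 2 ≤ d) (hk : 2 ≤ k) (e : ι ≃ Fin d × Fin k)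
    (P : GL ι F) (hle : H ≤ tensorProductSubgroup d k e P)
    (hN : ∀ X, X ∈ env N ↔ ∃ Y : Matrix (Fin d) (Fin d) F, X = cr e P (Y ⊗ₖ (1 : Matrix (Fin k) (Fin k) F))) :
    Ten Q H ∨
    (∃ A : Subalgebra F (Matrix ι ι F), (∀ x ∈ A, ∀ y ∈ A, x * y = y * x) ∧ NormSet H A ∧
      IsAdjointClosedFor (polar Q) A ∧ ∃ x ∈ A, ∀ c : F, x ≠ algebraMap F _ c) := by
  classical
  have hses : IsSesq (RingEquiv.refl F) (polar Q) := IsSesq.of_bilinear hQ.polar_bilinear
  have hiso : ∀ g ∈ H, ∀ u v, polar Q ((g : Matrix ι ι F) *ᵥ u) ((g : Matrix ι ι F) *ᵥ v) = polar Q u v :=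
    fun g hg u v => iso_le Q (hH hg) u v
  obtain ⟨G₁, G₂, c, hu1, hu2, hc, hs1, hs2, hfix, hform⟩ := tensor_bilinear (by omega : 0 < d) (by omega : 0 < k) e P hN
    hQ.polar_bilinear hQ.nondegenerate (ε := 1) (by
      rintro _ ⟨g, hg, rfl⟩ u v
      exact hiso g (hNH hg) u v) (fun v w => by rw [one_mul, polar_comm])
  have hpos : TPos (RingEquiv.refl F) (polar Q) H e P G₁ G₂ := ⟨hle, hu1, hu2, hform⟩
  by_cases h2 : (2 : F) = 0
  · left; left
    have hneg : (-1 : F) = 1 := by linear_combination (-1) * h2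
    have hc1 : c = 1 := by
      rcases hc with h | h
      · exact h
      · rw [h, hneg]
    rw [hc1, one_smul] at hs1
    rw [hc1, mul_one, one_smul] at hs2
    have a1 := alt_of_irr h2 (by omega) hd hpos.swap hs1 hirr hiso
    have a2 := alt_of_irr h2 (by omega) hk hpos hs2 hirr hiso
    exact ⟨d, k, e, P, G₁, G₂, hd, hk, hpos, a1, a2, pure_zero h2 hQ hn hirr hH (by omega) (by omega) hpos a1 a2⟩
  · rcases hc with rfl | rfl
    · rw [one_smul] at hs1
      rw [mul_one, one_smul] at hs2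
      by_cases hd3 : 3 ≤ d
      · by_cases hk3 : 3 ≤ k
        · left; right
          exact ⟨h2, d, k, e, P, G₁, G₂, hd3, hk3, hpos, hs1, hs2⟩
        · right
          have hk2 : k = 2 := by omega
          subst hk2
          exact hpos.swap.algebra_of_symm (by omega) hses h2 hs2 hiso
      · right
        have hd2 : d = 2 := by omega
        subst hd2
        exact hpos.algebra_of_symm (by omega) hses h2 hs1 hiso
    · left; left
      rw [neg_one_smul] at hs1
      rw [mul_neg_one, neg_one_smul] at hs2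
      have a1 := alt_of_skew h2 hs1
      have a2 := alt_of_skew h2 hs2
      refine ⟨d, k, e, P, G₁, G₂, hd, hk, hpos, a1, a2, ?_⟩
      intro x y
      have h3 : coF e P (polar Q) (pv x y) (pv x y) = 0 := by rw [hpos.form, fog_pv]; exact mul_eq_zero_of_left (a1 x) _
      change polar Q _ _ = 0 at h3
      rw [Qself hQ] at h3
      exact (mul_eq_zero.mp h3).resolve_left h2

/-- the nilpotent case -/
theorem nil_q [Fintype F] (hQ : IsNondegenerateQuadraticForm Q) (hn : 2 ≤ Fintype.card ι) {H N : Subgroup (GL ι F)}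
    (hH : H ≤ isometryGroup F Q) (hNH : N ≤ H) (hNB : NB H N) (hfull : Full N)
    (hnil : ∀ x ∈ N, ∀ y ∈ N, x * y * x⁻¹ * y⁻¹ ∈ scalars ι F)
    (hmin : ∀ M ≤ H, NB H M → M ≤ scalars ι F ∨ Full M) : ∃ k, 1 ≤ k ∧ Fintype.card ι = 2 ^ k := by
  classical
  have hne : Nonempty ι := Fintype.card_pos_iff.mp (by omega)
  have hses : IsSesq (RingEquiv.refl F) (polar Q) := IsSesq.of_bilinear hQ.polar_bilinear
  have hnz := exists_ne_of_nondeg (ι := ι) (F := F) (nd2 hQ)
  have hL := ctx_of H N hNH hNB hfull hnil hmin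
  obtain ⟨r, p, R, hD, hRN, hRH⟩ := exists_sympData hn H N hNH hNB hfull hnil hmin
  have hHI : H ≤ isom (polar Q) := hH.trans (iso_le Q)
  have hRs : R ≤ similarityGroup (polar Q) :=
    hRN.trans (sup_le ((hNH.trans hHI).trans (isom_le_sim _)) (scalars_le_sim hses))
  have hS := full_inf_isom hn hL hRN hRH hD.full hnz hRs hHI
  set S := R ⊓ isom (polar Q) with hSdef
  have hSR : S ≤ R := inf_le_left
  have hSnil : Nil2 S := fun x hx y hy => hD.nil x (hSR hx) y (hSR hy)
  have hsc : ∀ c : Fˣ, sc ι c ∈ S → (c : F) * (c : F) = 1 := by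
    intro c hc
    exact (sc_mem_isom hses hnz).1 hc.2
  rcases hD.cases with ⟨hro, hz, _⟩ | ⟨_, _, _, k, h1, _, h3⟩ | ⟨_, _, _, k, h1, _, h3⟩
  · exfalso
    apply not_comm_of_full hn hS
    intro x hx y hy
    obtain ⟨c, hc⟩ := mem_scalars_sc.1 (hSnil x hx y hy)
    have hcS : sc ι c ∈ S := by
      rw [hc]
      exact S.mul_mem (S.mul_mem (S.mul_mem hx hy) (S.inv_mem hx)) (S.inv_mem hy)
    have h1 := hsc c hcS
    have h3 : c ^ 2 = 1 := by
      apply Units.ext
      rw [Units.val_pow_eq_pow_val, _root_.sq, h1, Units.val_one]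
    have h4 := (hD.roots c).1 (hSR hcS)
    rw [hz] at h4
    have h5 : c = 1 := by
      obtain ⟨k, hk⟩ := hro
      rw [hk, pow_succ, pow_mul, h3, one_pow, one_mul] at h4
      exact h4
    rw [h5, map_one] at hc
    have : x * y = (x * y * x⁻¹ * y⁻¹) * (y * x) := by group
    rw [this, ← hc, one_mul]
  · exact ⟨k, h1, h3⟩
  · exact ⟨k, h1, h3⟩

/-- **Generic reduction theorem.** -/
theorem oe_main [Fintype F] (hQ : IsNondegenerateQuadraticForm Q) (hn : 3 ≤ Fintype.card ι) {H : Subgroup (GL ι F)}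
    (hH : H ≤ isometryGroup F Q) :
    Red Q H ∨ (ActsIrreducibly (matrixSet H) ∧ (Imp Q H ∨ Fld Q H ∨ Ten Q H ∨ Sub Q H ∨ InOrthogonalResidualClass H ∨
      ((∃ k, Fintype.card ι = 2 ^ k) ∧ ∃ N ≤ H, NB H N ∧ Full N ∧
        ∀ x ∈ N, ∀ y ∈ N, x * y * x⁻¹ * y⁻¹ ∈ scalars ι F) ∨
      ∃ (t d : ℕ) (e : ι ≃ (Fin t → Fin d)) (P : GL ι F) (N₀ : Subgroup (GL (Fin d) F)) (G : Matrix (Fin d) (Fin d) F)
        (C : F), 2 ≤ t ∧ 2 ≤ d ∧ PowPos (RingEquiv.refl F) (polar Q) H e P N₀ G C)) := by
  classical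
  have hne : Nonempty ι := Fintype.card_pos_iff.mp (by omega)
  by_cases hirr : ActsIrreducibly (matrixSet H)
  swap
  · exact Or.inl (reducible_q hQ hH hirr)
  right
  refine ⟨hirr, ?_⟩
  by_cases hI : Imp Q H
  · exact Or.inl hI
  by_cases hF : Fld Q H
  · exact Or.inr (Or.inl hF)
  by_cases hT : Ten Q H
  · exact Or.inr (Or.inr (Or.inl hT))
  by_cases hS : Sub Q H
  · exact Or.inr (Or.inr (Or.inr (Or.inl hS)))
  right; right; right; right
  have hall : ∀ N ≤ H, NB H N → N ≤ scalars ι F ∨ Full N := by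
    intro N hNH hNB
    rcases center_q hQ hn hH hirr (hNH.trans hH) hNB with h | hZ
    · exact absurd h (not_or.mpr ⟨hI, hF⟩)
    rcases tensor_position hirr hNB hZ with h | h | ⟨d, k, e, P, hd, hk, hle, hN⟩
    · exact Or.inl h
    · exact Or.inr h
    · exfalso
      rcases tensor_q hQ (by omega) hirr hH hNH hd hk e P hle hN with h | ⟨A, hcomm, hA, hadj, x, hx, hne⟩
      · exact hT h
      · exact not_or.mpr ⟨hI, hF⟩ (comm_q hQ hn hH hirr A hcomm hA hadj ⟨x, hx, hne⟩)
  obtain ⟨N, hNH, hN, hdich⟩ := H97.AschAsm.exists_min_of_irr (by omega) hirr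
  have hfull : Full N := by
    rcases hall N hNH hN.nb with h | h
    · exact absurd h hN.ns
    · exact h
  rcases hdich with hnil | hperf
  · right; left
    obtain ⟨k, -, hk⟩ := nil_q hQ (by omega) hH hNH hN.nb hfull hnil hall
    exact ⟨⟨k, hk⟩, N, hNH, hN.nb, hfull, hnil⟩
  · have hne2 : ∃ u v, polar Q u v ≠ 0 := by
      obtain ⟨i⟩ := hne
      obtain ⟨x, hx⟩ := nd2 hQ (Pi.single i 1) (by
        intro h0
        have := congrFun h0 i
        simp at this)
      exact ⟨_, x, hx⟩
    rcases pow_of_perfect (IsSesq.of_bilinear hQ.polar_bilinear) hne2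
      (fun g hg u v => (iso_le Q (hH hg)) u v) hN hperf hfull with
      hsimple | ⟨t, d, e, P, N₀, G, C, ht, hd, hpow⟩
    · left
      refine ⟨N, ?_, ?_⟩
      · apply core_of_simple hNH hN.nb hN.ns hperf hfull hsimple
        intro F₀ h0 hreal
        exact hS (sub_of_real hQ (by omega) (hNH.trans hH) hN.nb hfull F₀ h0 hreal)
      · intro hu
        exact hS (sub_of_unitary hQ (by omega) (hNH.trans hH) hN.nb hfull hu)
    · right; right
      exact ⟨t, d, e, P, N₀, G, C, ht, hd, hpow⟩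

end H96.OeMain
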