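import Mathlib
import Cfsg.Agent.Lib.H95.OSwap
import Cfsg.Agent.Lib.H48.QuadSim

set_option autoImplicit false
set_option linter.unusedSectionVars false

/-!
Types of non-degenerate quadratic spaces of even dimension over finite fields.
-/

namespace H96.OeType

open Module QuadraticMap H48.QuadSplit H48.QuadStd H95.OGeo

universe u

variable {F : Type*} [Field F]

section defs
variable {V V' : Type*} [AddCommGroup V] [Module F V] [AddCommGroup V'] [Module F V']

/-- plus type -/
def PT (Q : QuadraticForm F V) : Prop := ∃ U : Submodule F V, (∀ u ∈ U, Q u = 0) ∧ 2 * finrank F U = finrank F V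

theorem PT.of_equiv {Q : QuadraticForm F V} {Q' : QuadraticForm F V'} (h : Q.Equivalent Q') (hp : PT Q) : PT Q' := by
  obtain ⟨e⟩ := h
  obtain ⟨U, hU, hd⟩ := hp
  refine ⟨U.map e.toLinearEquiv.toLinearMap, ?_, ?_⟩
  · rintro _ ⟨u, hu, rfl⟩
    change Q' (e u) = 0
    rw [e.map_app, hU u hu]
  · rw [← e.toLinearEquiv.finrank_eq, ← hd]
    congr 1
    exact (LinearEquiv.finrank_map_eq e.toLinearEquiv U)

theorem pt_iff_of_equiv {Q : QuadraticForm F V} {Q' : QuadraticForm F V'} (h : Q.Equivalent Q') : PT Q ↔ PT Q' :=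
  ⟨PT.of_equiv h, PT.of_equiv h.symm⟩

theorem PT.prod [FiniteDimensional F V] [FiniteDimensional F V'] {Q : QuadraticForm F V} {Q' : QuadraticForm F V'}
    (h : PT Q) (h' : PT Q') : PT (Q.prod Q') := by
  obtain ⟨U, hU, hd⟩ := h
  obtain ⟨U', hU', hd'⟩ := h'
  refine ⟨LinearMap.range (U.subtype.prodMap U'.subtype), ?_, ?_⟩
  · rintro _ ⟨⟨x, y⟩, rfl⟩
    rw [QuadraticMap.prod_apply]
    change Q x + Q' y = 0
    rw [hU x x.2, hU' y y.2, add_zero]
  · rw [LinearMap.finrank_range_of_inj, finrank_prod, finrank_prod, ← hd, ← hd']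
    · ring
    · exact Prod.map_injective.mpr ⟨Submodule.injective_subtype U, Submodule.injective_subtype U'⟩

end defs

theorem pt_qPlus (m : ℕ) : PT (qPlus m F) := by
  let φ : (Fin m → F) →ₗ[F] (Fin m ⊕ Fin m → F) :=
    { toFun := fun v => Sum.elim v (fun _ => 0)
      map_add' := fun v w => by ext i; rcases i with i | i <;> simp
      map_smul' := fun c v => by ext i; rcases i with i | i <;> simp }
  have hinj : Function.Injective φ := by
    intro v w h
    funext i
    exact congrFun h (Sum.inl i)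
  refine ⟨LinearMap.range φ, ?_, ?_⟩
  · rintro _ ⟨v, rfl⟩
    rw [qPlus_apply]
    exact Finset.sum_eq_zero (fun i _ => by
      change _ * (0 : F) = 0
      rw [mul_zero])
  · rw [LinearMap.finrank_range_of_inj hinj, finrank_fintype_fun_eq_card, finrank_fintype_fun_eq_card,
      Fintype.card_sum, Fintype.card_fin]
    ring

/-- a form of plus type is hyperbolic -/
theorem equiv_of_ts : ∀ (m : ℕ) (V : Type u) [AddCommGroup V] [Module F V] [FiniteDimensional F V]
    (Q : QuadraticForm F V), ND Q → finrank F V = 2 * m →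
    (∃ U : Submodule F V, (∀ u ∈ U, Q u = 0) ∧ finrank F V ≤ 2 * finrank F U) → Q.Equivalent (qPlus m F) := by
  intro m
  induction m with
  | zero =>
    intro V _ _ _ Q _ hd _
    exact equivalent_of_finrank_zero _ _ hd (by simp)
  | succ m ih =>
    intro V _ _ _ Q hQ hd hp
    obtain ⟨U, hU, hUd⟩ := hp
    have hU1 : 0 < finrank F U := by omega
    obtain ⟨⟨v, hvU⟩, hv⟩ := (finrank_pos_iff_exists_ne_zero).mp hU1
    have hv0 : v ≠ 0 := fun h => hv (Subtype.ext h)
    obtain ⟨w, hw, hvw⟩ := exists_partner hQ hv0 (hU v hvU)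
    obtain ⟨U', hU', hND, hd', e, he, heQ⟩ := split_pair hQ (hU v hvU) hw hvw
    have hpt : ∃ T : Submodule F U', (∀ u ∈ T, (Q.restrict U') u = 0) ∧ finrank F U' ≤ 2 * finrank F T := by
      let π : U →ₗ[F] U' := (LinearMap.snd F (F × F) U') ∘ₗ e.symm.toLinearMap ∘ₗ U.subtype
      have hdec : ∀ u : U, (u : V) = (e.symm u).1.1 • v + (π u : V) := by
        intro u
        have h1 : e (e.symm (u : V)) = u := e.apply_symm_apply _
        rw [he] at h1
        have h2 : polar Q v u = 0 := by
          have : Q (v + u) = 0 := hU _ (U.add_mem hvU u.2)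
          rw [Q_add, hU v hvU, hU _ u.2] at this
          linear_combination this
        have h3 := ((hU' (e.symm (u : V)).2).mp (e.symm (u : V)).2.2).1
        have h4 : (e.symm (u : V)).1.2 = 0 := by
          rw [← h1, p_add', p_add', p_smul', p_smul', p_self, hU v hvU, hvw, h3] at h2
          linear_combination h2
        rw [h4, zero_smul, add_zero] at h1
        exact h1.symm
      have hker : finrank F (LinearMap.ker π) ≤ 1 := by
        have hle : (LinearMap.ker π).map U.subtype ≤ Submodule.span F {v} := by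
          rintro _ ⟨u, hu, rfl⟩
          have h1 := hdec u
          rw [LinearMap.mem_ker.mp hu] at h1
          rw [Submodule.mem_span_singleton]
          exact ⟨(e.symm (u : V)).1.1, by
            change _ = (u : V)
            rw [Submodule.coe_zero, add_zero] at h1
            exact h1.symm⟩
        have h2 := Submodule.finrank_mono hle
        rw [finrank_span_singleton hv0] at h2
        rwa [(Submodule.equivMapOfInjective _ (Submodule.injective_subtype U) _).finrank_eq.symm] at h2
      have hrk := LinearMap.finrank_range_add_finrank_ker π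
      have hsing : ∀ x ∈ LinearMap.range π, (Q.restrict U') x = 0 := by
        rintro _ ⟨u, rfl⟩
        change Q (π u : V) = 0
        have h1 := hdec u
        have h2 : (π u : V) = (u : V) + (-(e.symm (u : V)).1.1) • v := by
          rw [neg_smul]
          exact eq_add_neg_of_add_eq (by rw [add_comm]; exact h1.symm)
        rw [h2]
        exact hU _ (U.add_mem u.2 (U.smul_mem _ hvU))
      exact ⟨_, hsing, by omega⟩
    have h1 := ih U' (Q.restrict U') hND (by omega) hpt
    have h2 : Q.Equivalent ((hyp F).prod (Q.restrict U')) := ⟨⟨e.symm, fun x => by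
      have := heQ (e.symm x)
      rw [LinearEquiv.apply_symm_apply] at this
      exact this.symm⟩⟩
    exact h2.trans (((Equivalent.refl _).prod h1).trans (qPlus_succ m).symm)

theorem equiv_of_pt {m : ℕ} {V : Type u} [AddCommGroup V] [Module F V] [FiniteDimensional F V]
    {Q : QuadraticForm F V} (hQ : ND Q) (hd : finrank F V = 2 * m) (h : PT Q) : Q.Equivalent (qPlus m F) := by
  obtain ⟨U, hU, hUd⟩ := h
  exact equiv_of_ts m V Q hQ hd ⟨U, hU, by omega⟩

theorem pt_of_ts {m : ℕ} {V : Type u} [AddCommGroup V] [Module F V] [FiniteDimensional F V]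
    {Q : QuadraticForm F V} (hQ : ND Q) (hd : finrank F V = 2 * m) {U : Submodule F V} (hU : ∀ u ∈ U, Q u = 0)
    (hUd : finrank F V ≤ 2 * finrank F U) : PT Q :=
  (pt_qPlus m).of_equiv (equiv_of_ts m V Q hQ hd ⟨U, hU, hUd⟩).symm

theorem equiv_of_not_pt [Finite F] {m : ℕ} {V : Type u} [AddCommGroup V] [Module F V] [FiniteDimensional F V]
    {Q : QuadraticForm F V} (hQ : ND Q) (hd : finrank F V = 2 * m) (h : ¬ PT Q) :
    1 ≤ m ∧ ∃ z : F, (∀ t : F, t ^ 2 + t + z ≠ 0) ∧ Q.Equivalent (qMinus (m - 1) F 1 z) := by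
  rcases classify_even m V Q hQ hd with h1 | h1
  · exact absurd ((pt_qPlus m).of_equiv h1.symm) h
  · exact h1

theorem not_pt_qMinus [Finite F] {m : ℕ} {z : F} (hz : ∀ t : F, t ^ 2 + t + z ≠ 0) : ¬ PT (qMinus m F 1 z) := by
  intro h
  have h1 := equiv_of_pt (m := m + 1) (nd_qMinus m (disc_ne_zero' hz)) (by
    rw [finrank_fintype_fun_eq_card, Fintype.card_sum, Fintype.card_sum, Fintype.card_fin, Fintype.card_fin]
    ring) h
  exact not_equivalent m hz h1.symm

/-- spaces of the same dimension and type are isometric -/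
theorem equiv_of_same [Finite F] {m : ℕ} {V V' : Type u} [AddCommGroup V] [Module F V] [FiniteDimensional F V]
    [AddCommGroup V'] [Module F V'] [FiniteDimensional F V'] {Q : QuadraticForm F V} {Q' : QuadraticForm F V'}
    (hQ : ND Q) (hQ' : ND Q') (hd : finrank F V = 2 * m) (hd' : finrank F V' = 2 * m) (h : PT Q ↔ PT Q') :
    Q.Equivalent Q' := by
  by_cases hp : PT Q
  · exact (equiv_of_pt hQ hd hp).trans (equiv_of_pt hQ' hd' (h.mp hp)).symm
  · obtain ⟨_, z, hz, h1⟩ := equiv_of_not_pt hQ hd hp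
    obtain ⟨_, z', hz', h2⟩ := equiv_of_not_pt hQ' hd' (fun h' => hp (h.mpr h'))
    exact h1.trans ((qMinus_unique (m - 1) hz' hz).trans h2.symm)

/-- an orthogonal sum of two isometric even-dimensional spaces has plus type -/
theorem pt_self [Finite F] {m : ℕ} {V V' : Type u} [AddCommGroup V] [Module F V] [FiniteDimensional F V]
    [AddCommGroup V'] [Module F V'] [FiniteDimensional F V']
    {Q : QuadraticForm F V} {Q' : QuadraticForm F V'} (hQ : ND Q) (hd : finrank F V = 2 * m) (h : Q.Equivalent Q') :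
    PT (Q.prod Q') := by
  obtain ⟨s, hs⟩ := H95.OSwap.neg_similar hQ hd
  obtain ⟨e⟩ := h
  let φ : V →ₗ[F] V × V' := LinearMap.prod LinearMap.id (e.toLinearEquiv.toLinearMap ∘ₗ s.toLinearMap)
  have hinj : Function.Injective φ := fun x y h => (Prod.ext_iff.mp h).1
  refine ⟨LinearMap.range φ, ?_, ?_⟩
  · rintro _ ⟨x, rfl⟩
    rw [QuadraticMap.prod_apply]
    change Q x + Q' (e (s x)) = 0
    rw [e.map_app, hs, add_neg_cancel]
  · rw [LinearMap.finrank_range_of_inj hinj, finrank_prod, ← e.toLinearEquiv.finrank_eq]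
    ring

/-- the type of an orthogonal sum -/
theorem pt_prod_iff [Finite F] {m m' : ℕ} {V V' : Type u} [AddCommGroup V] [Module F V] [FiniteDimensional F V]
    [AddCommGroup V'] [Module F V'] [FiniteDimensional F V']
    {Q : QuadraticForm F V} {Q' : QuadraticForm F V'} (hQ : ND Q) (hQ' : ND Q') (hd : finrank F V = 2 * m)
    (hd' : finrank F V' = 2 * m') : PT (Q.prod Q') ↔ (PT Q ↔ PT Q') := by
  have key : ∀ (m m' : ℕ) (V V' : Type u) [AddCommGroup V] [Module F V] [FiniteDimensional F V]
    [AddCommGroup V'] [Module F V'] [FiniteDimensional F V']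
    (Q : QuadraticForm F V) (Q' : QuadraticForm F V') (hQ : ND Q) (hQ' : ND Q') (hd : finrank F V = 2 * m)
    (hd' : finrank F V' = 2 * m'), PT (Q.prod Q') → PT Q → PT Q' := by
    intro m m' V V' _ _ _ _ _ _ Q Q' hQ hQ' hd hd' h1 h2
    have e1 := equiv_of_pt hQ hd h2
    have e2 := equiv_of_pt (m := m + m') (nd_prod.2 ⟨hQ, hQ'⟩) (by rw [finrank_prod, hd, hd']; ring) h1
    have e3 := equiv_of_pt (m := m + m') (nd_prod.2 ⟨nd_qPlus (F := F) m, nd_qPlus (F := F) m'⟩) (by
      rw [finrank_prod, finrank_fintype_fun_eq_card, finrank_fintype_fun_eq_card, Fintype.card_sum, Fintype.card_sum,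
        Fintype.card_fin, Fintype.card_fin]; ring) ((pt_qPlus m).prod (pt_qPlus m'))
    have e4 : ((qPlus m F).prod Q').Equivalent ((qPlus m F).prod (qPlus m' F)) :=
      (((e1.symm).prod (Equivalent.refl _)).trans e2).trans e3.symm
    exact (pt_qPlus m').of_equiv (cancel (nd_qPlus m) (nd_qPlus m') e4).symm
  constructor
  · intro h
    refine ⟨key m m' V V' Q Q' hQ hQ' hd hd' h, ?_⟩
    exact key m' m V' V Q' Q hQ' hQ hd' hd (h.of_equiv (prod_comm_equiv _ _))
  · intro h
    by_cases hp : PT Q
    · exact hp.prod (h.mp hp)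
    · obtain ⟨_, z, hz, h1⟩ := equiv_of_not_pt hQ hd hp
      obtain ⟨_, z', hz', h2⟩ := equiv_of_not_pt hQ' hd' (fun h' => hp (h.mpr h'))
      have h3 := h1.trans (qMinus_equiv (m - 1) 1 z)
      have h4 := h2.trans (qMinus_equiv (m' - 1) 1 z')
      have h5 : PT ((qBin 1 z).prod (qBin 1 z')) :=
        pt_self (m := 1) (nd_qBin (disc_ne_zero' hz)) (by rw [finrank_prod, finrank_self]) (qBin_unique hz' hz)
      have h6 : PT (((qPlus (m - 1) F).prod (qPlus (m' - 1) F)).prod ((qBin 1 z).prod (qBin 1 z'))) :=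
        ((pt_qPlus _).prod (pt_qPlus _)).prod h5
      refine h6.of_equiv ?_
      refine Equivalent.trans ?_ (h3.symm.prod h4.symm)
      exact ⟨⟨LinearEquiv.prodProdProdComm F _ _ _ _, fun x => by
        obtain ⟨⟨a, b⟩, c, d⟩ := x
        change (qPlus (m - 1) F a + qBin 1 z c) + (qPlus (m' - 1) F b + qBin 1 z' d) =
          (qPlus (m - 1) F a + qPlus (m' - 1) F b) + (qBin 1 z c + qBin 1 z' d)
        ring⟩⟩

/-- the type of a space split by a non-degenerate subspace -/
theorem pt_split_iff [Finite F] {m m' : ℕ} {V : Type u} [AddCommGroup V] [Module F V] [FiniteDimensional F V]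
    {Q : QuadraticForm F V} (hQ : ND Q) {W : Submodule F V} (hW : ND (Q.restrict W)) (hd : finrank F W = 2 * m)
    (hd' : finrank F V = 2 * m') : PT Q ↔ (PT (Q.restrict W) ↔ PT (Q.restrict (orth Q W))) := by
  obtain ⟨e, he, heQ⟩ := ortho_split hW
  have h1 : ((Q.restrict W).prod (Q.restrict (orth Q W))).Equivalent Q := ⟨⟨e, heQ⟩⟩
  have h2 := finrank_orth hQ W
  rw [← pt_iff_of_equiv h1]
  exact pt_prod_iff (m := m) (m' := m' - m) hW (nd_orth hQ hW) hd (by omega)

end H96.OeType
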