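import Mathlib
import Cfsg.Agent.Lib.H96.OeType
import Cfsg.Agent.Lib.H96.OeMain

set_option autoImplicit false
set_option linter.unusedSectionVars false

/-!
Plus type from orthogonal decompositions.
-/

namespace H96.OeTyp2

open Module QuadraticMap H48.QuadSplit H48.QuadStd H95.OGeo H96.OeType H96.OeOmega Cfsg Cfsg.Geo Matrix

variable {ι : Type} [Fintype ι] [DecidableEq ι] {F : Type*} [Field F] {Q : QuadraticForm F (ι → F)}

lemma plus_iff {W : Submodule F (ι → F)} : IsPlusTypeOn (⇑Q) W ↔ PT (Q.restrict W) := by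
  constructor
  · rintro ⟨U, hUW, hU, hd⟩
    refine ⟨U.comap W.subtype, fun u hu => hU _ hu, ?_⟩
    rw [← hd, (Submodule.comapSubtypeEquivOfLe hUW).finrank_eq]
  · rintro ⟨U, hU, hd⟩
    refine ⟨U.map W.subtype, ?_, ?_, ?_⟩
    · rintro _ ⟨u, _, rfl⟩
      exact u.2
    · rintro _ ⟨u, hu, rfl⟩
      exact hU u hu
    · rw [← hd, ← (Submodule.equivMapOfInjective _ (Submodule.injective_subtype W) U).finrank_eq]

lemma plus_top {T : Submodule F (ι → F)} (hT : ∀ v ∈ T, Q v = 0) (hd : 2 * finrank F T = Fintype.card ι) :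
    IsPlusTypeOn (⇑Q) ⊤ :=
  ⟨T, le_top, hT, by rw [finrank_top, finrank_fintype_fun_eq_card, hd]⟩

lemma nd_on_iff {W : Submodule F (ι → F)} : IsNondegenerateOn (polar (⇑Q)) W ↔ ND (Q.restrict W) := by
  constructor
  · intro h x hx
    by_contra hx0
    obtain ⟨y, hy, hxy⟩ := (h x x.2 (fun h0 => hx0 (Subtype.ext h0))).2
    exact hxy (hx ⟨y, hy⟩)
  · intro h w hw hw0
    have key : ∃ x ∈ W, polar (⇑Q) w x ≠ 0 := by
      by_contra hcon
      push Not at hcon
      exact hw0 (congrArg Subtype.val (h ⟨w, hw⟩ (fun y => hcon y y.2)))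
    obtain ⟨x, hx, hxw⟩ := key
    exact ⟨⟨x, hx, by rwa [polar_comm]⟩, ⟨x, hx, hxw⟩⟩

/-- totally singular subspaces built from maps into the blocks -/
theorem ts_of_maps {t m : ℕ} {D : Fin t → Submodule F (ι → F)} (hD : IsNondegenerateMDecomposition (polar (⇑Q)) m D)
    {X : Type*} [AddCommGroup X] [Module F X] [FiniteDimensional F X] (ψ : Fin t → X →ₗ[F] (ι → F))
    (hψ : ∀ i x, ψ i x ∈ D i) (h0 : ∀ x, ∑ i, Q (ψ i x) = 0) (hinj : ∀ x, (∀ i, ψ i x = 0) → x = 0) :
    ∃ T : Submodule F (ι → F), (∀ v ∈ T, Q v = 0) ∧ finrank F T = finrank F X := by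
  classical
  obtain ⟨p, h1, h2, h3, h4⟩ := exists_proj hD.decomp
  let φ : X →ₗ[F] (ι → F) := ∑ i, ψ i
  have hφ : ∀ x, φ x = ∑ i, ψ i x := fun x => by simp only [φ, LinearMap.sum_apply]
  have hQ : ∀ (s : Finset (Fin t)) x, Q (∑ i ∈ s, ψ i x) = ∑ i ∈ s, Q (ψ i x) := by
    intro s x
    induction s using Finset.induction_on with
    | empty => rw [Finset.sum_empty, Finset.sum_empty, QuadraticMap.map_zero]
    | insert a s ha ih =>
      rw [Finset.sum_insert ha, Finset.sum_insert ha, Q_add, ih]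
      have : polar (⇑Q) (ψ a x) (∑ i ∈ s, ψ i x) = 0 := by
        have hh : ∀ (s : Finset (Fin t)), a ∉ s → polar (⇑Q) (ψ a x) (∑ i ∈ s, ψ i x) = 0 := by
          intro s
          induction s using Finset.induction_on with
          | empty => intro _; rw [Finset.sum_empty, p_zero']
          | insert b s hb ih2 =>
            intro hab
            rw [Finset.sum_insert hb, p_add', ih2 (fun h => hab (Finset.mem_insert_of_mem h)),
              hD.orthogonal a b (fun h => hab (h ▸ Finset.mem_insert_self _ _)) _ (hψ a x) _ (hψ b x), add_zero]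
        exact hh s ha
      rw [this, add_zero]
  have hφinj : Function.Injective φ := by
    rw [← LinearMap.ker_eq_bot, LinearMap.ker_eq_bot']
    intro x hx
    apply hinj
    intro i
    have h5 : p i (φ x) = 0 := by rw [hx, map_zero]
    rw [hφ, map_sum, Finset.sum_eq_single i] at h5
    · rwa [h4 i _ (hψ i x)] at h5
    · intro j _ hj
      exact h3 _ _ hj.symm _ (hψ j x)
    · intro h; exact absurd (Finset.mem_univ i) h
  refine ⟨LinearMap.range φ, ?_, LinearMap.finrank_range_of_inj hφinj⟩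
  rintro _ ⟨x, rfl⟩
  rw [hφ, hQ, h0]

/-- reference isometries -/
lemma exists_ref {t m : ℕ} {D : Fin t → Submodule F (ι → F)} (hD : IsOrthogonalMDecomposition (⇑Q) m D) (i₀ : Fin t) :
    ∃ φ : Fin t → D i₀ →ₗ[F] (ι → F), (∀ i x, φ i x ∈ D i) ∧ (∀ i x, Q (φ i x) = Q (x : ι → F)) ∧
      (∀ i x, φ i x = 0 → x = 0) := by
  choose e he using hD.isometric i₀
  refine ⟨fun i => (D i).subtype ∘ₗ (e i).toLinearMap, fun i x => (e i x).2, fun i x => he i x, ?_⟩
  intro i x hx
  have : e i x = 0 := Subtype.ext hx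
  exact (LinearEquiv.map_eq_zero_iff (e i)).mp this

/-- self-orthogonal codes -/
theorem ts_of_code {t m : ℕ} {D : Fin t → Submodule F (ι → F)} (hD : IsOrthogonalMDecomposition (⇑Q) m D)
    {σ τ : Type*} [Fintype σ] [DecidableEq σ] [Fintype τ] [DecidableEq τ] (e : τ ≃ Fin t) (A : Matrix σ τ F)
    (B : Matrix τ σ F) (hA : A * Aᵀ = 0) (hB : A * B = 1) :
    ∃ T : Submodule F (ι → F), (∀ v ∈ T, Q v = 0) ∧ finrank F T = Fintype.card σ * m := by
  classical
  let i₀ : Fin t := ⟨0, by have := hD.decomp.decomp.two_le; omega⟩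
  obtain ⟨φ, h1, h2, h3⟩ := exists_ref hD i₀
  let ψ : Fin t → (σ → D i₀) →ₗ[F] (ι → F) := fun i =>
    φ i ∘ₗ (∑ j, (A j (e.symm i)) • (LinearMap.proj j : (σ → D i₀) →ₗ[F] D i₀))
  have hψ : ∀ i x, ψ i x = φ i (∑ j, (A j (e.symm i)) • x j) := by
    intro i x
    simp only [ψ, LinearMap.comp_apply, LinearMap.sum_apply, LinearMap.smul_apply, LinearMap.proj_apply]
  obtain ⟨T, hT, hd⟩ := ts_of_maps hD.decomp ψ (fun i x => by rw [hψ]; exact h1 i _) (by
    intro x
    simp only [hψ, h2]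
    rw [← Equiv.sum_comp e]
    simp only [Equiv.symm_apply_apply]
    have hAA : ∀ j j', ∑ k, A j k * A j' k = 0 := by
      intro j j'
      have := congrFun (congrFun hA j) j'
      rw [Matrix.mul_apply] at this
      exact this
    have key : ∀ s : Finset σ, ∑ k, Q ((∑ j ∈ s, A j k • x j : D i₀) : ι → F) = 0 := by
      intro s
      induction s using Finset.induction_on with
      | empty =>
        apply Finset.sum_eq_zero
        intro k _
        rw [Finset.sum_empty, Submodule.coe_zero, QuadraticMap.map_zero]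
      | insert a s ha ih =>
        have hstep : ∀ k, Q ((∑ j ∈ insert a s, A j k • x j : D i₀) : ι → F) =
            (A a k * A a k) * Q (x a : ι → F) + Q ((∑ j ∈ s, A j k • x j : D i₀) : ι → F) +
              ∑ j ∈ s, (A a k * A j k) * polar (⇑Q) (x a : ι → F) (x j : ι → F) := by
          intro k
          rw [Finset.sum_insert ha, Submodule.coe_add, Q_add, Submodule.coe_smul, H95.OGeo.Q_smul]
          congr 1
          have hpol : ∀ (s : Finset σ), polar (⇑Q) (A a k • (x a : ι → F)) ((∑ j ∈ s, A j k • x j : D i₀) : ι → F) =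
              ∑ j ∈ s, (A a k * A j k) * polar (⇑Q) (x a : ι → F) (x j : ι → F) := by
            intro s
            induction s using Finset.induction_on with
            | empty => rw [Finset.sum_empty, Finset.sum_empty, Submodule.coe_zero, p_zero']
            | insert b s hb ih2 =>
              rw [Finset.sum_insert hb, Finset.sum_insert hb, Submodule.coe_add, p_add', ih2, Submodule.coe_smul,
                p_smul, p_smul']
              ring
          exact hpol s
        rw [Finset.sum_congr rfl (fun k _ => hstep k), Finset.sum_add_distrib, Finset.sum_add_distrib, ih,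
          ← Finset.sum_mul, hAA, zero_mul, Finset.sum_comm, zero_add, zero_add]
        apply Finset.sum_eq_zero
        intro j _
        rw [← Finset.sum_mul, hAA, zero_mul]
    exact key Finset.univ) (by
    intro x hx
    have h4 : ∀ k : τ, ∑ j, A j k • x j = 0 := by
      intro k
      have := hx (e k)
      rw [hψ, Equiv.symm_apply_apply] at this
      exact h3 _ _ this
    funext j'
    have h5 : ∑ k, B k j' • (∑ j, A j k • x j) = 0 := Finset.sum_eq_zero (fun k _ => by rw [h4 k, smul_zero])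
    simp only [Finset.smul_sum, smul_smul] at h5
    rw [Finset.sum_comm] at h5
    have h6 : ∀ j, ∑ k, (B k j' * A j k) • x j = (if j = j' then x j else 0) := by
      intro j
      rw [← Finset.sum_smul]
      have h7 := congrFun (congrFun hB j) j'
      rw [Matrix.mul_apply, Matrix.one_apply] at h7
      have h8 : ∑ k, B k j' * A j k = if j = j' then 1 else 0 := by
        rw [← h7]; exact Finset.sum_congr rfl (fun k _ => mul_comm _ _)
      rw [h8]
      split_ifs <;> simp
    simp only [h6] at h5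
    rw [Finset.sum_ite_eq' Finset.univ j' x, if_pos (Finset.mem_univ _)] at h5
    exact h5)
  refine ⟨T, hT, ?_⟩
  rw [hd, Module.finrank_pi_fintype]
  simp [hD.decomp.decomp.finrank_eq]

/-- pairing the blocks with a similarity of multiplier `-1` -/
theorem ts_of_neg [Finite F] {t m m' : ℕ} {D : Fin t → Submodule F (ι → F)} (hD : IsOrthogonalMDecomposition (⇑Q) m D)
    (hm : m = 2 * m') {κ : Type*} [Fintype κ] [DecidableEq κ] (e : Fin 2 × κ ≃ Fin t) :
    ∃ T : Submodule F (ι → F), (∀ v ∈ T, Q v = 0) ∧ finrank F T = Fintype.card κ * m := by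
  classical
  let i₀ : Fin t := ⟨0, by have := hD.decomp.decomp.two_le; omega⟩
  obtain ⟨φ, h1, h2, h3⟩ := exists_ref hD i₀
  obtain ⟨s, hs⟩ := H95.OSwap.neg_similar (m := m') (nd_on_iff.mp (hD.decomp.nondegenerate i₀))
    (by rw [hD.decomp.decomp.finrank_eq, hm])
  let c : Fin 2 → D i₀ →ₗ[F] D i₀ := fun a => if a = 0 then LinearMap.id else s.toLinearMap
  have hc0 : ∀ x, c 0 x = x := fun x => by simp [c]
  have hc1 : ∀ x, c 1 x = s x := fun x => by simp [c]
  let ψ : Fin t → (κ → D i₀) →ₗ[F] (ι → F) := fun i =>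
    φ i ∘ₗ c (e.symm i).1 ∘ₗ (LinearMap.proj (e.symm i).2 : (κ → D i₀) →ₗ[F] D i₀)
  have hψ : ∀ i x, ψ i x = φ i (c (e.symm i).1 (x (e.symm i).2)) := fun i x => rfl
  obtain ⟨T, hT, hd⟩ := ts_of_maps hD.decomp ψ (fun i x => by rw [hψ]; exact h1 i _) (by
    intro x
    simp only [hψ, h2]
    rw [← Equiv.sum_comp e]
    simp only [Equiv.symm_apply_apply]
    rw [Fintype.sum_prod_type, Fin.sum_univ_two, ← Finset.sum_add_distrib]
    apply Finset.sum_eq_zero
    intro j _
    rw [hc0, hc1]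
    have h5 : Q ((s (x j) : D i₀) : ι → F) = - Q (x j : ι → F) := hs (x j)
    rw [h5, add_neg_cancel]) (by
    intro x hx
    funext j
    have h5 := hx (e (0, j))
    rw [hψ, Equiv.symm_apply_apply, hc0] at h5
    exact h3 _ _ h5)
  refine ⟨T, hT, ?_⟩
  rw [hd, Module.finrank_pi_fintype]
  simp [hD.decomp.decomp.finrank_eq]

/-- blocks of plus type -/
theorem ts_of_plus {t m : ℕ} {D : Fin t → Submodule F (ι → F)} (hD : IsOrthogonalMDecomposition (⇑Q) m D) (i₀ : Fin t)
    (hp : IsPlusTypeOn (⇑Q) (D i₀)) :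
    ∃ T : Submodule F (ι → F), (∀ v ∈ T, Q v = 0) ∧ 2 * finrank F T = t * m := by
  classical
  obtain ⟨φ, h1, h2, h3⟩ := exists_ref hD i₀
  obtain ⟨U, hU, hUd⟩ := plus_iff.mp hp
  let ψ : Fin t → (Fin t → U) →ₗ[F] (ι → F) := fun i =>
    φ i ∘ₗ U.subtype ∘ₗ (LinearMap.proj i : (Fin t → U) →ₗ[F] U)
  have hψ : ∀ i x, ψ i x = φ i (x i : D i₀) := fun i x => rfl
  obtain ⟨T, hT, hd⟩ := ts_of_maps (X := Fin t → U) hD.decomp ψ (fun i x => by rw [hψ]; exact h1 i _) (by
    intro x
    apply Finset.sum_eq_zero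
    intro i _
    rw [hψ, h2]
    exact hU _ (x i).2) (by
    intro x hx
    funext i
    have h5 := hx i
    rw [hψ] at h5
    exact Subtype.ext (h3 _ _ h5))
  refine ⟨T, hT, ?_⟩
  rw [hd, Module.finrank_pi_fintype]
  simp only [Finset.sum_const, Finset.card_univ, Fintype.card_fin, smul_eq_mul]
  have : 2 * finrank F U = m := by rw [hUd, hD.decomp.decomp.finrank_eq]
  rw [← this]; ring

/-- number of blocks divisible by four -/
theorem plus_of_four [Finite F] {t m k : ℕ} {D : Fin t → Submodule F (ι → F)} (hD : IsOrthogonalMDecomposition (⇑Q) m D)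
    (ht : t = 4 * k) : IsPlusTypeOn (⇑Q) ⊤ := by
  classical
  have := Fintype.ofFinite F
  obtain ⟨p, hchar⟩ := CharP.exists F
  have := hchar
  have hp : Fact p.Prime := ⟨CharP.char_is_prime F p⟩
  obtain ⟨a, b, hab⟩ : ∃ a b : F, 1 + a ^ 2 + b ^ 2 = 0 := by
    obtain ⟨a, b, h⟩ := ZMod.sq_add_sq p (-1)
    refine ⟨ZMod.castHom (dvd_refl p) F a, ZMod.castHom (dvd_refl p) F b, ?_⟩
    have h1 := congrArg (ZMod.castHom (dvd_refl p) F) h
    rw [map_add, map_pow, map_pow, map_neg, map_one] at h1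
    linear_combination h1
  let A₀ : Matrix (Fin 2) (Fin 4) F := !![1, 0, a, b; 0, 1, b, -a]
  let B₀ : Matrix (Fin 4) (Fin 2) F := !![1, 0; 0, 1; 0, 0; 0, 0]
  have hA₀ : A₀ * A₀ᵀ = 0 := by
    ext i j
    fin_cases i <;> fin_cases j <;>
      simp [A₀, Matrix.mul_apply, Fin.sum_univ_succ] <;> first | linear_combination hab | ring
  have hB₀ : A₀ * B₀ = 1 := by
    ext i j
    fin_cases i <;> fin_cases j <;> simp [A₀, B₀, Matrix.mul_apply, Fin.sum_univ_succ]
  obtain ⟨T, hT, hd⟩ := ts_of_code hD (σ := Fin 2 × Fin k) (τ := Fin 4 × Fin k)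
    (finProdFinEquiv.trans (finCongr ht.symm)) (Matrix.kroneckerMap (· * ·) A₀ (1 : Matrix (Fin k) (Fin k) F))
    (Matrix.kroneckerMap (· * ·) B₀ (1 : Matrix (Fin k) (Fin k) F)) (by
      have h1 : (Matrix.kroneckerMap (· * ·) A₀ (1 : Matrix (Fin k) (Fin k) F))ᵀ =
        Matrix.kroneckerMap (· * ·) A₀ᵀ (1 : Matrix (Fin k) (Fin k) F)ᵀ := rfl
      rw [h1, Matrix.transpose_one, ← Matrix.mul_kronecker_mul, hA₀, one_mul]
      ext i j
      simp [Matrix.kroneckerMap_apply]) (by
      rw [← Matrix.mul_kronecker_mul, hB₀, one_mul]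
      exact Matrix.one_kronecker_one)
  refine plus_top hT ?_
  rw [hd, card_eq_mul hD.decomp.decomp, Fintype.card_prod, Fintype.card_fin, Fintype.card_fin, ht]
  ring

/-- an even number of even-dimensional blocks -/
theorem plus_of_two [Finite F] {t m k m' : ℕ} {D : Fin t → Submodule F (ι → F)}
    (hD : IsOrthogonalMDecomposition (⇑Q) m D) (ht : t = 2 * k) (hm : m = 2 * m') : IsPlusTypeOn (⇑Q) ⊤ := by
  obtain ⟨T, hT, hd⟩ := ts_of_neg hD hm (κ := Fin k) (finProdFinEquiv.trans (finCongr ht.symm))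
  refine plus_top hT ?_
  rw [hd, card_eq_mul hD.decomp.decomp, Fintype.card_fin, ht]
  ring

theorem plus_of_plus {t m : ℕ} {D : Fin t → Submodule F (ι → F)}
    (hD : IsOrthogonalMDecomposition (⇑Q) m D) {i : Fin t} (hi : IsPlusTypeOn (⇑Q) (D i)) : IsPlusTypeOn (⇑Q) ⊤ := by
  obtain ⟨T, hT, hd⟩ := ts_of_plus hD i hi
  exact plus_top hT (by rw [hd, card_eq_mul hD.decomp.decomp])

/-- two blocks, when `-1` is a square -/
theorem plus_of_sq {t m k : ℕ} {D : Fin t → Submodule F (ι → F)} (hD : IsOrthogonalMDecomposition (⇑Q) m D)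
    (ht : t = 2 * k) {a : F} (ha : a * a = -1) : IsPlusTypeOn (⇑Q) ⊤ := by
  classical
  let A₀ : Matrix (Fin 1) (Fin 2) F := !![1, a]
  let B₀ : Matrix (Fin 2) (Fin 1) F := !![1; 0]
  have hA₀ : A₀ * A₀ᵀ = 0 := by
    ext i j
    fin_cases i; fin_cases j
    simp [A₀, Matrix.mul_apply, Fin.sum_univ_succ]
    linear_combination ha
  have hB₀ : A₀ * B₀ = 1 := by
    ext i j
    fin_cases i; fin_cases j
    simp [A₀, B₀, Matrix.mul_apply, Fin.sum_univ_succ]
  obtain ⟨T, hT, hd⟩ := ts_of_code hD (σ := Fin 1 × Fin k) (τ := Fin 2 × Fin k)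
    (finProdFinEquiv.trans (finCongr ht.symm)) (Matrix.kroneckerMap (· * ·) A₀ (1 : Matrix (Fin k) (Fin k) F))
    (Matrix.kroneckerMap (· * ·) B₀ (1 : Matrix (Fin k) (Fin k) F)) (by
      have h1 : (Matrix.kroneckerMap (· * ·) A₀ (1 : Matrix (Fin k) (Fin k) F))ᵀ =
        Matrix.kroneckerMap (· * ·) A₀ᵀ (1 : Matrix (Fin k) (Fin k) F)ᵀ := rfl
      rw [h1, Matrix.transpose_one, ← Matrix.mul_kronecker_mul, hA₀, one_mul]
      ext i j
      simp [Matrix.kroneckerMap_apply]) (by
      rw [← Matrix.mul_kronecker_mul, hB₀, one_mul]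
      exact Matrix.one_kronecker_one)
  refine plus_top hT ?_
  rw [hd, card_eq_mul hD.decomp.decomp, Fintype.card_prod, Fintype.card_fin, Fintype.card_fin, ht]
  ring

end H96.OeTyp2
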