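import Mathlib
import Cfsg.Agent.Lib.H96.OeTyp2

set_option autoImplicit false
set_option linter.unusedSectionVars false

/-!
Plus type from subfields, tensor decompositions, tensor powers and extraspecial groups.
-/

namespace H96.OeTyp3

open Module QuadraticMap H48.QuadSplit H48.QuadStd H95.OGeo H96.OeType H96.OeTyp2 H96.OeOmega H96.OeRed H96.OeMain
open Cfsg Cfsg.Geo Matrix H97.AschNonab H97.AschEnv H97.AschGrp H97.AschTF H97.AschPos H97.AschPosE H97.AschPosI H97.AschPow
open H97.AschPow2 H97.AschCS H97.AschUnits H97.AschWreathNorm H97.AschTwo H97.AschWreath H97.AschForm H97.AschTensor H96.AschSympType1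

variable {ι : Type} [Fintype ι] [DecidableEq ι] {F : Type*} [Field F] {Q : QuadraticForm F (ι → F)}

theorem plus_of_family {σ : Type*} [Fintype σ] [DecidableEq σ] (v : σ → ι → F) (hli : LinearIndependent F v)
    (hs : ∀ i, Q (v i) = 0) (ho : ∀ i j, i ≠ j → polar (⇑Q) (v i) (v j) = 0) (hc : 2 * Fintype.card σ = Fintype.card ι) :
    IsPlusTypeOn (⇑Q) ⊤ := by
  classical
  refine plus_top (T := Submodule.span F (Set.range v)) ?_ (by rw [finrank_span_eq_card hli, hc])
  have hort : ∀ (s : Finset σ) (c : σ → F) (i : σ), polar (⇑Q) (v i) (∑ j ∈ s, c j • v j) = 0 := by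
    intro s c i
    induction s using Finset.induction_on with
    | empty => rw [Finset.sum_empty, p_zero']
    | insert a s ha ih =>
      rw [Finset.sum_insert ha, p_add', ih, p_smul', add_zero]
      by_cases hia : i = a
      · rw [hia, p_self, hs, mul_zero, mul_zero]
      · rw [ho i a hia, mul_zero]
  have key : ∀ (s : Finset σ) (c : σ → F), Q (∑ j ∈ s, c j • v j) = 0 := by
    intro s c
    induction s using Finset.induction_on with
    | empty => rw [Finset.sum_empty, QuadraticMap.map_zero]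
    | insert a s ha ih => rw [Finset.sum_insert ha, Q_add, ih, H95.OGeo.Q_smul, hs, p_smul, hort, mul_zero, mul_zero]; ring
  intro w hw
  obtain ⟨c, rfl⟩ := (Submodule.mem_span_range_iff_exists_fun F).mp hw
  exact key _ _

/-- a tensor product of two alternating forms with a two-dimensional factor -/
theorem plus_of_tensor {k : ℕ} {e : ι ≃ Fin 2 × Fin k} {P : GL ι F}
    (h0 : ∀ x y, Q ((P : Matrix ι ι F) *ᵥ (pv x y ∘ e)) = 0) : IsPlusTypeOn (⇑Q) ⊤ := by
  classical
  let φ : (Fin k → F) →ₗ[F] (ι → F) :=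
    { toFun := fun y => (P : Matrix ι ι F) *ᵥ (pv (Pi.single 0 (1 : F)) y ∘ e)
      map_add' := fun y y' => by
        rw [pv_add_right, ← Matrix.mulVec_add]; rfl
      map_smul' := fun c y => by
        rw [pv_smul_right, RingHom.id_apply, ← Matrix.mulVec_smul]; rfl }
  have hinj : Function.Injective φ := by
    rw [← LinearMap.ker_eq_bot, LinearMap.ker_eq_bot']
    intro y hy
    have h1 : ((P⁻¹ : GL ι F) : Matrix ι ι F) *ᵥ ((P : Matrix ι ι F) *ᵥ (pv (Pi.single 0 (1 : F)) y ∘ e)) = 0 := by
      change (P : Matrix ι ι F) *ᵥ (pv (Pi.single 0 (1 : F)) y ∘ e) = 0 at hy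
      rw [hy, Matrix.mulVec_zero]
    rw [Matrix.mulVec_mulVec, ← Units.val_mul, inv_mul_cancel, Units.val_one, Matrix.one_mulVec] at h1
    funext i
    have h2 := congrFun h1 (e.symm (0, i))
    rw [Function.comp, Equiv.apply_symm_apply, pv] at h2
    simpa using h2
  refine plus_top (T := LinearMap.range φ) ?_ ?_
  · rintro _ ⟨y, rfl⟩
    exact h0 _ y
  · rw [LinearMap.finrank_range_of_inj hinj, finrank_fintype_fun_eq_card, Fintype.card_fin, Fintype.card_congr e,
      Fintype.card_prod, Fintype.card_fin, Fintype.card_fin]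

omit [Fintype ι] [DecidableEq ι] in
/-- the Frobenius map of a subfield -/
theorem exists_frob [Fintype F] (F₁ : Subfield F) :
    ∃ τ : F ≃+* F, (∀ x, τ x = x ^ Nat.card F₁) ∧ ∀ x, x ∈ F₁ ↔ τ x = x := by
  classical
  set q₁ := Nat.card F₁ with hq₁
  have : Fintype F₁ := Fintype.ofFinite F₁
  have hq₁' : Fintype.card F₁ = q₁ := by rw [hq₁, Nat.card_eq_fintype_card]
  obtain ⟨p, hchar⟩ := CharP.exists F
  have := hchar
  have : Fact p.Prime := ⟨CharP.char_is_prime F p⟩
  have : CharP F₁ p := (algebraMap F₁ F).charP (algebraMap F₁ F).injective p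
  obtain ⟨n, hp, hn1⟩ := FiniteField.card F₁ p
  rw [hq₁'] at hn1
  have : ExpChar F p := ExpChar.prime (Fact.out)
  let τ : F ≃+* F := iterateFrobeniusEquiv F p n
  have hτ : ∀ x, τ x = x ^ q₁ := by
    intro x
    rw [hn1]
    exact iterateFrobeniusEquiv_apply F p n x
  refine ⟨τ, hτ, fun x => ?_⟩
  rw [hτ]
  constructor
  · intro hx
    have := FiniteField.pow_card (⟨x, hx⟩ : F₁)
    rw [hq₁'] at this
    exact congrArg Subtype.val this
  · intro hx
    by_contra hxn
    let S : Finset F := (Finset.univ : Finset F₁).map ⟨Subtype.val, Subtype.val_injective⟩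
    have hS : S.card = q₁ := by rw [Finset.card_map, Finset.card_univ, hq₁']
    have hxS : x ∉ S := by
      intro h
      rw [Finset.mem_map] at h
      obtain ⟨y, _, hy⟩ := h
      apply hxn
      rw [← hy]
      exact y.2
    have hq1 : 1 < q₁ := by rw [← hq₁']; exact Fintype.one_lt_card
    have hpoly : (Polynomial.X ^ q₁ - Polynomial.X : Polynomial F) ≠ 0 :=
      FiniteField.X_pow_card_sub_X_ne_zero F hq1
    have hdeg : (Polynomial.X ^ q₁ - Polynomial.X : Polynomial F).natDegree = q₁ :=
      FiniteField.X_pow_card_sub_X_natDegree_eq F hq1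
    have hroots : insert x S ⊆ (Polynomial.X ^ q₁ - Polynomial.X : Polynomial F).roots.toFinset := by
      intro y hy
      rw [Multiset.mem_toFinset, Polynomial.mem_roots hpoly, Polynomial.IsRoot.def, Polynomial.eval_sub,
        Polynomial.eval_pow, Polynomial.eval_X, sub_eq_zero]
      rcases Finset.mem_insert.mp hy with rfl | hy
      · exact hx
      · rw [Finset.mem_map] at hy
        obtain ⟨z, _, rfl⟩ := hy
        have := FiniteField.pow_card z
        rw [hq₁'] at this
        exact congrArg Subtype.val this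
    have h3 := Finset.card_le_card hroots
    rw [Finset.card_insert_of_notMem hxS, hS] at h3
    have h4 := Multiset.toFinset_card_le (Polynomial.X ^ q₁ - Polynomial.X : Polynomial F).roots
    have h5 := Polynomial.card_roots' (Polynomial.X ^ q₁ - Polynomial.X : Polynomial F)
    rw [hdeg] at h5
    omega

omit [Fintype ι] [DecidableEq ι] in
/-- an irreducible quadratic polynomial over a subfield of index two, with a root -/
theorem exists_root_pair [Fintype F] {F₀ : Subfield F} (hcard : Fintype.card F = Nat.card F₀ ^ 2) :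
    ∃ (n : F₀) (t : F), t ^ 2 + t + n = 0 ∧ ∀ s : F₀, s ^ 2 + s + n ≠ 0 := by
  classical
  obtain ⟨τ, hτ, hF₀⟩ := exists_frob F₀
  have hinv : ∀ x, τ (τ x) = x := by
    intro x
    rw [hτ, hτ, ← pow_mul, ← _root_.sq, ← hcard, FiniteField.pow_card]
  have htop : ∃ θ : F, τ θ ≠ θ := by
    by_contra hcon
    push Not at hcon
    have h1 : ∀ x : F, x ∈ F₀ := fun x => (hF₀ x).mpr (hcon x)
    have : Fintype F₀ := Fintype.ofFinite F₀
    have h2 : Nat.card F₀ = Fintype.card F := by
      rw [Nat.card_eq_fintype_card]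
      exact Fintype.card_congr (Equiv.subtypeUnivEquiv h1)
    have h3 : 1 < Fintype.card F := Fintype.one_lt_card
    rw [h2] at hcard
    nlinarith
  obtain ⟨θ, hθ⟩ := htop
  obtain ⟨t, ht, htr⟩ : ∃ t : F, τ t ≠ t ∧ t + τ t = -1 := by
    by_cases h2 : (2 : F) = 0
    · have hT : θ + τ θ ≠ 0 := by
        intro h
        apply hθ
        have : τ θ = - θ := (neg_eq_of_add_eq_zero_right h).symm
        rw [this]
        linear_combination (-θ) * h2
      have hTF : τ (θ + τ θ) = θ + τ θ := by rw [map_add, hinv, add_comm]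
      have hinvT : τ ((θ + τ θ)⁻¹) = (θ + τ θ)⁻¹ := by rw [map_inv₀, hTF]
      refine ⟨(θ + τ θ)⁻¹ * θ, ?_, ?_⟩
      · rw [map_mul, hinvT]
        intro h
        exact hθ (mul_left_cancel₀ (inv_ne_zero hT) h)
      · rw [map_mul, hinvT, ← mul_add, inv_mul_cancel₀ hT]
        linear_combination h2
    · refine ⟨θ - (θ + τ θ + 1) / 2, ?_, ?_⟩
      · rw [map_sub, map_div₀, map_add, map_add, map_one, hinv]
        have h3 : τ (2 : F) = 2 := by rw [map_ofNat]
        rw [h3]
        intro h
        apply hθ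
        have : τ θ + θ = θ + τ θ := add_comm _ _
        rw [this] at h
        linear_combination h
      · rw [map_sub, map_div₀, map_add, map_add, map_one, hinv]
        have h3 : τ (2 : F) = 2 := by rw [map_ofNat]
        rw [h3]
        field_simp
        ring
  have hn : t * τ t ∈ F₀ := by rw [hF₀, map_mul, hinv, mul_comm]
  have hquad : t ^ 2 + t + t * τ t = 0 := by linear_combination t * htr
  refine ⟨⟨t * τ t, hn⟩, t, hquad, fun s hs => ?_⟩
  have h1 : ((s : F)) ^ 2 + s + t * τ t = 0 := congrArg Subtype.val hs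
  have h2 : ((s : F) - t) * (s - τ t) = 0 := by linear_combination h1 - (s : F) * htr
  have hsF : τ (s : F) = s := (hF₀ _).mp s.2
  rcases mul_eq_zero.mp h2 with h3 | h3
  · have h4 : (s : F) = t := sub_eq_zero.mp h3
    exact ht (by rw [← h4]; exact hsF)
  · have h4 : (s : F) = τ t := sub_eq_zero.mp h3
    apply ht
    rw [← h4, ← hsF, h4, hinv]

/-- a rational structure of index two -/
theorem plus_of_subfield [Fintype F] (hQ : ND Q) {m : ℕ} (hm : Fintype.card ι = 2 * m) {F₀ : Subfield F}
    (hcard : Fintype.card F = Nat.card F₀ ^ 2) {P : GL ι F} {ζ : F} (hζ : ζ ≠ 0)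
    (hrat : IsQuadFormRationalStructure (fun v => ζ * Q v) F₀ P) : IsPlusTypeOn (⇑Q) ⊤ := by
  classical
  have : Fintype F₀ := Fintype.ofFinite F₀
  -- the form over the subfield
  let up : (ι → F₀) → (ι → F) := fun u i => (u i : F)
  have hup : ∀ u, ζ * Q ((P : Matrix ι ι F) *ᵥ up u) ∈ F₀ := fun u => hrat (up u) (fun i => (u i).2)
  have hupadd : ∀ u v, up (u + v) = up u + up v := fun u v => rfl
  have hupsm : ∀ (c : F₀) u, up (c • u) = (c : F) • up u := fun c u => by
    funext i; rfl
  let q₀ : (ι → F₀) → F₀ := fun u => ⟨_, hup u⟩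
  have hq₀ : ∀ u, ((q₀ u : F₀) : F) = ζ * Q ((P : Matrix ι ι F) *ᵥ up u) := fun u => rfl
  have hpolmem : ∀ u v, ((polar q₀ u v : F₀) : F) = ζ * polar (⇑Q) ((P : Matrix ι ι F) *ᵥ up u) ((P : Matrix ι ι F) *ᵥ up v) := by
    intro u v
    simp only [polar]
    rw [Subfield.coe_sub, Subfield.coe_sub, hq₀, hq₀, hq₀, hupadd, Matrix.mulVec_add]
    ring
  have hpadd : ∀ u u' v, polar q₀ (u + u') v = polar q₀ u v + polar q₀ u' v := by
    intro u u' v
    apply Subtype.ext
    rw [Subfield.coe_add, hpolmem, hpolmem, hpolmem, hupadd, Matrix.mulVec_add, p_add]; ring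
  have hpsm : ∀ (c : F₀) u v, polar q₀ (c • u) v = c * polar q₀ u v := by
    intro c u v
    apply Subtype.ext
    rw [Subfield.coe_mul, hpolmem, hpolmem, hupsm, Matrix.mulVec_smul, p_smul]; ring
  have hpcomm : ∀ u v, polar q₀ u v = polar q₀ v u := fun u v => polar_comm _ u v
  let Q₀ : QuadraticForm F₀ (ι → F₀) :=
    { toFun := q₀
      toFun_smul := by
        intro c u
        apply Subtype.ext
        rw [hq₀, hupsm, Matrix.mulVec_smul, H95.OGeo.Q_smul]
        change _ = (c : F) * (c : F) * _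
        rw [hq₀]; ring
      exists_companion' := by
        refine ⟨LinearMap.mk₂ F₀ (polar q₀) hpadd hpsm ?_ ?_, ?_⟩
        · intro u v v'
          rw [hpcomm, hpadd, hpcomm v, hpcomm v']
        · intro c u v
          rw [hpcomm, hpsm, hpcomm v]; rfl
        · intro u v
          simp [polar] }
  have hQ₀ : ∀ u, Q₀ u = q₀ u := fun u => rfl
  have hpolQ₀ : ∀ u v, ((polar (⇑Q₀) u v : F₀) : F) = ζ * polar (⇑Q) ((P : Matrix ι ι F) *ᵥ up u) ((P : Matrix ι ι F) *ᵥ up v) :=
    hpolmem
  -- basis change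
  have hPinv : ∀ w : ι → F, (P : Matrix ι ι F) *ᵥ (((P⁻¹ : GL ι F) : Matrix ι ι F) *ᵥ w) = w := by
    intro w
    rw [Matrix.mulVec_mulVec, ← Units.val_mul, mul_inv_cancel, Units.val_one, Matrix.one_mulVec]
  have hPinv' : ∀ w : ι → F, ((P⁻¹ : GL ι F) : Matrix ι ι F) *ᵥ ((P : Matrix ι ι F) *ᵥ w) = w := by
    intro w
    rw [Matrix.mulVec_mulVec, ← Units.val_mul, inv_mul_cancel, Units.val_one, Matrix.one_mulVec]
  have hND₀ : ND Q₀ := by
    intro u hu
    have h1 : (P : Matrix ι ι F) *ᵥ up u = 0 := by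
      apply hQ
      intro y
      -- y is a combination of rational vectors
      have h2 : ∀ i, polar (⇑Q) ((P : Matrix ι ι F) *ᵥ up u) ((P : Matrix ι ι F) *ᵥ Pi.single i 1) = 0 := by
        intro i
        have h3 := hpolQ₀ u (Pi.single i 1)
        rw [hu, Subfield.coe_zero] at h3
        have h4 : up (Pi.single i (1 : F₀)) = Pi.single i (1 : F) := by
          funext j
          by_cases hj : j = i
          · rw [hj, Pi.single_eq_same]
            change ((Pi.single i (1 : F₀) : ι → F₀) i : F) = 1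
            rw [Pi.single_eq_same]; rfl
          · rw [Pi.single_eq_of_ne hj]
            change ((Pi.single i (1 : F₀) : ι → F₀) j : F) = 0
            rw [Pi.single_eq_of_ne hj]; rfl
        rw [h4] at h3
        exact (mul_eq_zero.mp h3.symm).resolve_left hζ
      have h3 : y = ∑ i, (((P⁻¹ : GL ι F) : Matrix ι ι F) *ᵥ y) i • ((P : Matrix ι ι F) *ᵥ Pi.single i 1) := by
        conv_lhs => rw [← hPinv y, H97.AschForm.vec_eq_sum (((P⁻¹ : GL ι F) : Matrix ι ι F) *ᵥ y), Matrix.mulVec_sum]
        refine Finset.sum_congr rfl (fun i _ => ?_)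
        rw [Matrix.mulVec_smul]
      have h4 : ∀ (s : Finset ι) (c : ι → F), polar (⇑Q) ((P : Matrix ι ι F) *ᵥ up u)
          (∑ i ∈ s, c i • ((P : Matrix ι ι F) *ᵥ Pi.single i 1)) = 0 := by
        intro s c
        induction s using Finset.induction_on with
        | empty => rw [Finset.sum_empty, p_zero']
        | insert a s ha ih => rw [Finset.sum_insert ha, p_add', ih, p_smul', h2, mul_zero, add_zero]
      rw [h3]
      exact h4 _ _
    have h2 : up u = 0 := by rw [← hPinv' (up u), h1, Matrix.mulVec_zero]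
    funext i
    exact Subtype.ext (congrFun h2 i)
  have hfr : finrank F₀ (ι → F₀) = 2 * m := by rw [finrank_fintype_fun_eq_card, hm]
  -- transfer along an isometry with a standard form
  have transfer : ∀ (κ : Type) [Fintype κ] [DecidableEq κ] (q : QuadraticForm F₀ (κ → F₀)), Q₀.Equivalent q →
      ∃ V : (κ → F) →ₗ[F] (ι → F), Function.Injective V ∧
        (∀ x : κ → F₀, ζ * Q (V (fun i => (x i : F))) = q x) ∧
        ∀ x y : κ → F₀, ζ * polar (⇑Q) (V (fun i => (x i : F))) (V (fun i => (y i : F))) = polar (⇑q) x y := by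
    intro κ _ _ q hq
    obtain ⟨e⟩ := hq
    let E : (κ → F₀) ≃ₗ[F₀] (ι → F₀) := e.toLinearEquiv.symm
    have hEq : ∀ x, Q₀ (E x) = q x := by
      intro x
      have h1 := e.map_app (E x)
      have h2 : e (E x) = x := e.toLinearEquiv.apply_symm_apply x
      rw [h2] at h1
      exact h1.symm
    let M : Matrix ι κ F₀ := LinearMap.toMatrix' (E : (κ → F₀) →ₗ[F₀] (ι → F₀))
    let M' : Matrix κ ι F₀ := LinearMap.toMatrix' (E.symm : (ι → F₀) →ₗ[F₀] (κ → F₀))
    have hMM : M' * M = 1 := by
      rw [← LinearMap.toMatrix'_comp]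
      have : (E.symm : (ι → F₀) →ₗ[F₀] (κ → F₀)) ∘ₗ (E : (κ → F₀) →ₗ[F₀] (ι → F₀)) = LinearMap.id := by
        ext; simp
      rw [this, LinearMap.toMatrix'_id]
    have hMx : ∀ x, M *ᵥ x = E x := by
      intro x
      change (LinearMap.toMatrix' (E : (κ → F₀) →ₗ[F₀] (ι → F₀))) *ᵥ x = _
      rw [← Matrix.toLin'_apply, Matrix.toLin'_toMatrix']; rfl
    let MF : Matrix ι κ F := M.map (algebraMap F₀ F)
    let MF' : Matrix κ ι F := M'.map (algebraMap F₀ F)
    have hMF : MF' * MF = 1 := by
      change M'.map (algebraMap F₀ F) * M.map (algebraMap F₀ F) = 1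
      rw [← Matrix.map_mul, hMM, Matrix.map_one _ (map_zero _) (map_one _)]
    have hMFx : ∀ x : κ → F₀, MF *ᵥ (fun i => (x i : F)) = up (E x) := by
      intro x
      rw [← hMx]
      funext i
      simp only [mulVec, dotProduct, up]
      change ∑ j, (M i j : F) * (x j : F) = ((∑ j, M i j * x j : F₀) : F)
      rw [AddSubmonoidClass.coe_finsetSum]
      rfl
    let V : (κ → F) →ₗ[F] (ι → F) := Matrix.toLin' ((P : Matrix ι ι F) * MF)
    have hV : ∀ w, V w = (P : Matrix ι ι F) *ᵥ (MF *ᵥ w) := by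
      intro w
      rw [Matrix.toLin'_apply, ← Matrix.mulVec_mulVec]
    refine ⟨V, ?_, ?_, ?_⟩
    · intro w w' h
      rw [hV, hV] at h
      have h1 := congrArg (fun u => MF' *ᵥ (((P⁻¹ : GL ι F) : Matrix ι ι F) *ᵥ u)) h
      simp only [hPinv'] at h1
      rwa [Matrix.mulVec_mulVec, Matrix.mulVec_mulVec, hMF, Matrix.one_mulVec, Matrix.one_mulVec] at h1
    · intro x
      rw [hV, hMFx, ← hEq, hQ₀, hq₀]
    · intro x y
      rw [hV, hV, hMFx, hMFx]
      have h1 := hpolQ₀ (E x) (E y)
      rw [← h1]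
      congr 1
      simp only [polar]
      rw [← map_add, hEq, hEq, hEq]
  rcases classify_even m (ι → F₀) Q₀ hND₀ hfr with h1 | ⟨hm1, z, hz, h1⟩
  · obtain ⟨V, hVi, hVQ, hVp⟩ := transfer _ _ h1
    have hsing : ∀ i : Fin m, (fun j => ((Pi.single (Sum.inl i) (1 : F₀) : Fin m ⊕ Fin m → F₀) j : F)) =
        (Pi.single (Sum.inl i) (1 : F) : Fin m ⊕ Fin m → F) := by
      intro i
      funext j
      by_cases hj : j = Sum.inl i
      · rw [hj, Pi.single_eq_same, Pi.single_eq_same]; rfl
      · rw [Pi.single_eq_of_ne hj, Pi.single_eq_of_ne hj]; rfl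
    refine plus_of_family (σ := Fin m) (fun i => V (Pi.single (Sum.inl i) 1)) ?_ ?_ ?_ (by rw [Fintype.card_fin, hm])
    · have h2 : LinearIndependent F (fun i : Fin m => (Pi.single (Sum.inl i) (1 : F) : Fin m ⊕ Fin m → F)) := by
        have h3 := (Pi.basisFun F (Fin m ⊕ Fin m)).linearIndependent.comp (Sum.inl : Fin m → Fin m ⊕ Fin m) Sum.inl_injective
        convert h3 using 1
        funext i
        simp
      exact h2.map' V (LinearMap.ker_eq_bot.mpr hVi)
    · intro i
      have h2 := hVQ (Pi.single (Sum.inl i) 1)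
      rw [hsing, qPlus_apply] at h2
      have h3 : ∑ k : Fin m, (Pi.single (Sum.inl i) (1 : F₀) : Fin m ⊕ Fin m → F₀) (Sum.inl k) *
          (Pi.single (Sum.inl i) (1 : F₀) : Fin m ⊕ Fin m → F₀) (Sum.inr k) = 0 := by
        apply Finset.sum_eq_zero
        intro k _
        rw [Pi.single_eq_of_ne (i' := Sum.inr k) (by simp), mul_zero]
      rw [h3] at h2
      exact (mul_eq_zero.mp h2).resolve_left hζ
    · intro i j _
      have h2 := hVp (Pi.single (Sum.inl i) 1) (Pi.single (Sum.inl j) 1)
      rw [hsing, hsing, polar_qPlus] at h2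
      have h3 : ∑ k : Fin m, ((Pi.single (Sum.inl i) (1 : F₀) : Fin m ⊕ Fin m → F₀) (Sum.inl k) *
          (Pi.single (Sum.inl j) (1 : F₀) : Fin m ⊕ Fin m → F₀) (Sum.inr k) +
          (Pi.single (Sum.inl i) (1 : F₀) : Fin m ⊕ Fin m → F₀) (Sum.inr k) *
          (Pi.single (Sum.inl j) (1 : F₀) : Fin m ⊕ Fin m → F₀) (Sum.inl k)) = 0 := by
        apply Finset.sum_eq_zero
        intro k _
        rw [Pi.single_eq_of_ne (i := Sum.inl i) (i' := Sum.inr k) (by simp),
          Pi.single_eq_of_ne (i := Sum.inl j) (i' := Sum.inr k) (by simp), mul_zero, zero_mul, add_zero]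
      rw [h3] at h2
      exact (mul_eq_zero.mp h2).resolve_left hζ
  · obtain ⟨n, t, ht, hn⟩ := exists_root_pair hcard
    obtain ⟨V, hVi, hVQ, hVp⟩ := transfer _ _ (h1.trans (qMinus_unique (m - 1) hn hz))
    let κ := (Fin (m - 1) ⊕ Fin (m - 1)) ⊕ Fin 2
    have hsing : ∀ i : κ, (fun j => ((Pi.single i (1 : F₀) : κ → F₀) j : F)) = (Pi.single i (1 : F) : κ → F) := by
      intro i
      funext j
      by_cases hj : j = i
      · rw [hj, Pi.single_eq_same, Pi.single_eq_same]; rfl
      · rw [Pi.single_eq_of_ne hj, Pi.single_eq_of_ne hj]; rfl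
    have hsum0 : ∀ (f g : Fin (m - 1) → F₀), (∀ k, g k = 0) → ∑ k, f k * g k = 0 := by
      intro f g h
      exact Finset.sum_eq_zero (fun k _ => by rw [h k, mul_zero])
    have hA : ∀ i, Q (V (Pi.single (Sum.inl (Sum.inl i)) (1 : F))) = 0 := by
      intro i
      have h2 := hVQ (Pi.single (Sum.inl (Sum.inl i)) 1)
      rw [hsing, qMinus_apply, hsum0 _ _ (fun k => by rw [Pi.single_eq_of_ne (by simp)]),
        Pi.single_eq_of_ne (i := Sum.inl (Sum.inl i)) (i' := Sum.inr 0) (by simp),
        Pi.single_eq_of_ne (i := Sum.inl (Sum.inl i)) (i' := Sum.inr 1) (by simp)] at h2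
      norm_num at h2
      exact h2.resolve_left hζ
    have hB : ζ * Q (V (Pi.single (Sum.inr 0) (1 : F))) = 1 := by
      have h2 := hVQ (Pi.single (Sum.inr 0) 1)
      rw [hsing, qMinus_apply, hsum0 _ _ (fun k => by rw [Pi.single_eq_of_ne (by simp)]), Pi.single_eq_same,
        Pi.single_eq_of_ne (i := (Sum.inr 0 : κ)) (i' := Sum.inr 1) (by simp)] at h2
      rw [h2]; push_cast; ring
    have hC : ζ * Q (V (Pi.single (Sum.inr 1) (1 : F))) = n := by
      have h2 := hVQ (Pi.single (Sum.inr 1) 1)
      rw [hsing, qMinus_apply, hsum0 _ _ (fun k => by rw [Pi.single_eq_of_ne (by simp)]), Pi.single_eq_same,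
        Pi.single_eq_of_ne (i := (Sum.inr 1 : κ)) (i' := Sum.inr 0) (by simp)] at h2
      rw [h2]; push_cast; ring
    have hD : ∀ i j, polar (⇑Q) (V (Pi.single (Sum.inl (Sum.inl i)) (1 : F))) (V (Pi.single (Sum.inl (Sum.inl j)) (1 : F))) = 0 := by
      intro i j
      have h2 := hVp (Pi.single (Sum.inl (Sum.inl i)) 1) (Pi.single (Sum.inl (Sum.inl j)) 1)
      rw [hsing, hsing, polar_qMinus, Finset.sum_add_distrib, hsum0 _ _ (fun k => by rw [Pi.single_eq_of_ne (by simp)]),
        Pi.single_eq_of_ne (i := Sum.inl (Sum.inl i)) (i' := Sum.inr 0) (by simp),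
        Pi.single_eq_of_ne (i := Sum.inl (Sum.inl i)) (i' := Sum.inr 1) (by simp)] at h2
      have h3 : ∑ k : Fin (m - 1), (Pi.single (Sum.inl (Sum.inl i)) (1 : F₀) : κ → F₀) (Sum.inl (Sum.inr k)) *
          (Pi.single (Sum.inl (Sum.inl j)) (1 : F₀) : κ → F₀) (Sum.inl (Sum.inl k)) = 0 :=
        Finset.sum_eq_zero (fun k _ => by rw [Pi.single_eq_of_ne (by intro h; cases h), zero_mul])
      rw [h3] at h2
      norm_num at h2
      exact h2.resolve_left hζ
    have hE : ∀ i (a : Fin 2), polar (⇑Q) (V (Pi.single (Sum.inl (Sum.inl i)) (1 : F))) (V (Pi.single (Sum.inr a) (1 : F))) = 0 := by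
      intro i a
      have h2 := hVp (Pi.single (Sum.inl (Sum.inl i)) 1) (Pi.single (Sum.inr a) 1)
      rw [hsing, hsing, polar_qMinus, Finset.sum_add_distrib, hsum0 _ _ (fun k => by rw [Pi.single_eq_of_ne (by simp)]),
        hsum0 _ _ (fun k => by rw [Pi.single_eq_of_ne (by simp)]),
        Pi.single_eq_of_ne (i := Sum.inl (Sum.inl i)) (i' := Sum.inr 0) (by simp),
        Pi.single_eq_of_ne (i := Sum.inl (Sum.inl i)) (i' := Sum.inr 1) (by simp)] at h2
      norm_num at h2
      exact h2.resolve_left hζ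
    have hG : ζ * polar (⇑Q) (V (Pi.single (Sum.inr 0) (1 : F))) (V (Pi.single (Sum.inr 1) (1 : F))) = 1 := by
      have h2 := hVp (Pi.single (Sum.inr 0) 1) (Pi.single (Sum.inr 1) 1)
      rw [hsing, hsing, polar_qMinus, Finset.sum_add_distrib, hsum0 _ _ (fun k => by rw [Pi.single_eq_of_ne (by simp)]),
        hsum0 _ _ (fun k => by rw [Pi.single_eq_of_ne (by simp)]), Pi.single_eq_same, Pi.single_eq_same,
        Pi.single_eq_of_ne (i := (Sum.inr 0 : κ)) (i' := Sum.inr 1) (by simp),
        Pi.single_eq_of_ne (i := (Sum.inr 1 : κ)) (i' := Sum.inr 0) (by simp)] at h2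
      rw [h2]; push_cast; ring
    let w : Fin (m - 1) ⊕ Unit → (κ → F) := Sum.elim (fun i => Pi.single (Sum.inl (Sum.inl i)) 1)
      (fun _ => t • Pi.single (Sum.inr 0) 1 + Pi.single (Sum.inr 1) 1)
    refine plus_of_family (σ := Fin (m - 1) ⊕ Unit) (fun i => V (w i)) ?_ ?_ ?_ (by
      rw [Fintype.card_sum, Fintype.card_fin, Fintype.card_unit, hm]; omega)
    · have h2 : LinearIndependent F w := by
        rw [Fintype.linearIndependent_iff]
        intro c hc i
        rw [Fintype.sum_sum_type] at hc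
        rcases i with i | i
        · have h3 := congrFun hc (Sum.inl (Sum.inl i))
          simp only [w, Sum.elim_inl, Sum.elim_inr, Finset.univ_unique, Finset.sum_singleton, Pi.add_apply,
            Finset.sum_apply, Pi.smul_apply, smul_eq_mul, Pi.zero_apply] at h3
          rw [Finset.sum_eq_single i] at h3
          · simpa using h3
          · intro j _ hj
            rw [Pi.single_eq_of_ne (fun h => hj (Sum.inl_injective (Sum.inl_injective h)).symm), mul_zero]
          · intro h; exact absurd (Finset.mem_univ i) h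
        · have h3 := congrFun hc (Sum.inr 1)
          simp only [w, Sum.elim_inl, Sum.elim_inr, Finset.univ_unique, Finset.sum_singleton, Pi.add_apply,
            Finset.sum_apply, Pi.smul_apply, smul_eq_mul, Pi.zero_apply] at h3
          rw [Finset.sum_eq_zero] at h3
          · simpa using h3
          · intro j _
            rw [Pi.single_eq_of_ne (by simp), mul_zero]
      exact h2.map' V (LinearMap.ker_eq_bot.mpr hVi)
    · rintro (i | i)
      · exact hA i
      · change Q (V (t • Pi.single (Sum.inr 0) 1 + Pi.single (Sum.inr 1) 1)) = 0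
        rw [map_add, map_smul, Q_add, H95.OGeo.Q_smul, p_smul]
        apply mul_left_cancel₀ hζ
        rw [mul_zero]
        linear_combination (t * t) * hB + hC + t * hG + ht
    · have hF : ∀ i, polar (⇑Q) (V (Pi.single (Sum.inl (Sum.inl i)) (1 : F)))
          (V (t • Pi.single (Sum.inr 0) 1 + Pi.single (Sum.inr 1) 1)) = 0 := by
        intro i
        rw [map_add, map_smul, p_add', p_smul', hE, hE, mul_zero, add_zero]
      rintro (i | i) (j | j) hij
      · exact hD i j
      · exact hF i
      · change polar (⇑Q) (V (t • Pi.single (Sum.inr 0) 1 + Pi.single (Sum.inr 1) 1)) (V (Pi.single (Sum.inl (Sum.inl j)) (1 : F))) = 0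
        rw [p_comm]; exact hF j
      · exact absurd rfl hij

/-- groups of symplectic type in dimension divisible by four -/
theorem plus_of_nil [Fintype F] (hQ : ND Q) {m : ℕ} (hm : Fintype.card ι = 4 * m) (hm2 : 2 ≤ m) {N : Subgroup (GL ι F)}
    (hN : N ≤ isometryGroup F (⇑Q)) (hfull : Full N)
    (hnil : ∀ x ∈ N, ∀ y ∈ N, x * y * x⁻¹ * y⁻¹ ∈ scalars ι F) : IsPlusTypeOn (⇑Q) ⊤ := by
  classical
  have hne : Nonempty ι := Fintype.card_pos_iff.mp (by omega)
  obtain ⟨i₀⟩ := hne
  have hne : Nonempty ι := ⟨i₀⟩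
  have hiso : ∀ g ∈ N, ∀ v, Q ((g : Matrix ι ι F) *ᵥ v) = Q v := fun g hg => mem_iso.mp (hN hg)
  have hpol : ∀ g ∈ N, ∀ u v, polar (⇑Q) ((g : Matrix ι ι F) *ᵥ u) ((g : Matrix ι ι F) *ᵥ v) = polar (⇑Q) u v :=
    fun g hg u v => iso_le _ (hN hg) u v
  obtain ⟨u₀, v₀, huv⟩ : ∃ u v, polar (⇑Q) u v ≠ 0 := by
    by_contra hcon
    push Not at hcon
    have := hQ (Pi.single i₀ 1) (fun y => hcon _ y)
    have := congrFun this i₀
    simp at this
  -- scalar isometries
  have hsc : ∀ g ∈ N, ∀ c : F, (g : Matrix ι ι F) = c • (1 : Matrix ι ι F) → c = 1 ∨ c = -1 := by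
    intro g hg c hc
    have h1 := hpol g hg u₀ v₀
    rw [hc, Matrix.smul_mulVec, Matrix.smul_mulVec, Matrix.one_mulVec, Matrix.one_mulVec, p_smul, p_smul'] at h1
    have h2 : c * c = 1 := by
      have : (c * c - 1) * polar (⇑Q) u₀ v₀ = 0 := by linear_combination h1
      exact sub_eq_zero.mp ((mul_eq_zero.mp this).resolve_right huv)
    exact mul_self_eq_one_iff.mp h2
  -- elements commute or anticommute
  have hca : ∀ x ∈ N, ∀ y ∈ N, (x : Matrix ι ι F) * y = y * x ∨ (x : Matrix ι ι F) * y = -(y * x) := by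
    intro x hx y hy
    obtain ⟨c, hc⟩ := (mem_scalars_iff _).mp (hnil x hx y hy)
    have hmem : x * y * x⁻¹ * y⁻¹ ∈ N := N.mul_mem (N.mul_mem (N.mul_mem hx hy) (N.inv_mem hx)) (N.inv_mem hy)
    have h1 : (x : Matrix ι ι F) * y = (c : F) • ((y : Matrix ι ι F) * x) := by
      have h2 : x * y = (x * y * x⁻¹ * y⁻¹) * (y * x) := by group
      have h3 := congrArg Units.val h2
      rw [Units.val_mul, Units.val_mul (x * y * x⁻¹ * y⁻¹), hc, Matrix.smul_mul, one_mul, Units.val_mul] at h3
      exact h3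
    rcases hsc _ hmem _ hc with h | h
    · left; rw [h1, h, one_smul]
    · right; rw [h1, h, neg_one_smul]
  -- a non-commuting pair
  obtain ⟨x, hx, y, hy, hxy⟩ : ∃ x ∈ N, ∃ y ∈ N, (x : Matrix ι ι F) * y ≠ y * x := by
    have h1 := not_comm_of_full (by omega) hfull
    push Not at h1
    obtain ⟨x, hx, y, hy, hxy⟩ := h1
    exact ⟨x, hx, y, hy, fun h => hxy (Units.ext h)⟩
  have hxy' := (hca x hx y hy).resolve_left hxy
  have h2 : (2 : F) ≠ 0 := by
    intro h2
    apply hxy
    rw [hxy']
    ext i j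
    rw [Matrix.neg_apply]
    linear_combination (-(((y : Matrix ι ι F) * x) i j)) * h2
  -- squares
  have hsq : ∀ z ∈ N, (z : Matrix ι ι F) * z = 1 ∨ (z : Matrix ι ι F) * z = -1 := by
    intro z hz
    have h1 : z * z ∈ scalars ι F := by
      apply scalar_of_full_comm hfull
      intro w hw
      apply Units.ext
      simp only [Units.val_mul]
      rcases hca z hz w hw with h | h
      · rw [mul_assoc, h, ← mul_assoc, h, mul_assoc]
      · rw [mul_assoc, h, mul_neg, ← mul_assoc, h, neg_mul, neg_neg, mul_assoc]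
    obtain ⟨c, hc⟩ := (mem_scalars_iff _).mp h1
    rw [Units.val_mul] at hc
    rcases hsc (z * z) (N.mul_mem hz hz) c (by rw [Units.val_mul]; exact hc) with h | h
    · left; rw [hc, h, one_smul]
    · right; rw [hc, h, neg_one_smul]
  -- a non-central involution with an anticommuting partner
  obtain ⟨z, hz, w, hw, hz1, hzw⟩ : ∃ z ∈ N, ∃ w ∈ N, (z : Matrix ι ι F) * z = 1 ∧ (z : Matrix ι ι F) * w = -(w * z) := by
    rcases hsq x hx with hx1 | hx1
    · exact ⟨x, hx, y, hy, hx1, hxy'⟩
    rcases hsq y hy with hy1 | hy1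
    · exact ⟨y, hy, x, hx, hy1, by rw [hxy', neg_neg]⟩
    -- a non-central element commuting with x and y
    obtain ⟨z, hz, hzx, hzy, hzn⟩ : ∃ z ∈ N, (z : Matrix ι ι F) * x = x * z ∧ (z : Matrix ι ι F) * y = y * z ∧
        z ∉ scalars ι F := by
      by_contra hcon
      push Not at hcon
      -- then the enveloping algebra has dimension at most four
      let S : Submodule F (Matrix ι ι F) := Submodule.span F (Set.range ![(1 : Matrix ι ι F), x, y, (x : Matrix ι ι F) * y])
      have hS : ∀ n ∈ N, (n : Matrix ι ι F) ∈ S := by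
        intro n hn
        have hmem : ∀ u ∈ N, (u : Matrix ι ι F) ∈ S → (n : Matrix ι ι F) * u⁻¹.val * x = x * (n * u⁻¹.val) →
            (n : Matrix ι ι F) * u⁻¹.val * y = y * (n * u⁻¹.val) → (n : Matrix ι ι F) ∈ S := by
          intro u hu huS h1 h3
          have h4 := hcon (n * u⁻¹) (N.mul_mem hn (N.inv_mem hu)) h1 h3
          obtain ⟨c, hc⟩ := (mem_scalars_iff _).mp h4
          have h5 : (n : Matrix ι ι F) = (c : F) • (u : Matrix ι ι F) := by
            have h6 : n = (n * u⁻¹) * u := by group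
            have h7 := congrArg Units.val h6
            rw [Units.val_mul (n * u⁻¹), hc, Matrix.smul_mul, one_mul] at h7
            exact h7
          rw [h5]
          exact S.smul_mem _ huS
        have m1 : (1 : Matrix ι ι F) ∈ S := Submodule.subset_span ⟨0, rfl⟩
        have mx : (x : Matrix ι ι F) ∈ S := Submodule.subset_span ⟨1, rfl⟩
        have my : (y : Matrix ι ι F) ∈ S := Submodule.subset_span ⟨2, rfl⟩
        have mxy : (x : Matrix ι ι F) * y ∈ S := Submodule.subset_span ⟨3, rfl⟩
        have ix : (x⁻¹ : GL ι F).val = -(x : Matrix ι ι F) := by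
          have : (x : Matrix ι ι F) * (-(x : Matrix ι ι F)) = 1 := by rw [mul_neg, hx1, neg_neg]
          calc (x⁻¹ : GL ι F).val = (x⁻¹ : GL ι F).val * ((x : Matrix ι ι F) * (-(x : Matrix ι ι F))) := by rw [this, mul_one]
            _ = _ := by rw [← mul_assoc, ← Units.val_mul, inv_mul_cancel, Units.val_one, one_mul]
        have iy : (y⁻¹ : GL ι F).val = -(y : Matrix ι ι F) := by
          have : (y : Matrix ι ι F) * (-(y : Matrix ι ι F)) = 1 := by rw [mul_neg, hy1, neg_neg]
          calc (y⁻¹ : GL ι F).val = (y⁻¹ : GL ι F).val * ((y : Matrix ι ι F) * (-(y : Matrix ι ι F))) := by rw [this, mul_one]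
            _ = _ := by rw [← mul_assoc, ← Units.val_mul, inv_mul_cancel, Units.val_one, one_mul]
        have hyx : (y : Matrix ι ι F) * x = -(x * y) := by rw [hxy', neg_neg]
        rcases hca n hn x hx with hnx | hnx <;> rcases hca n hn y hy with hny | hny
        · exact hmem 1 N.one_mem m1 (by simpa using hnx) (by simpa using hny)
        · -- commutes with x, anticommutes with y : u = x
          refine hmem x hx mx ?_ ?_
          · rw [ix, mul_neg, neg_mul, mul_neg, hnx, mul_assoc]
            rw [show (n : Matrix ι ι F) * x = x * n from hnx]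
          · rw [ix, mul_neg, neg_mul, mul_neg, mul_assoc, hxy', mul_neg, ← mul_assoc, hny, neg_mul, neg_neg, mul_assoc]
        · -- anticommutes with x, commutes with y : u = y
          refine hmem y hy my ?_ ?_
          · rw [iy, mul_neg, neg_mul, mul_neg, mul_assoc, hyx, mul_neg, ← mul_assoc, hnx, neg_mul, neg_neg, mul_assoc]
          · rw [iy, mul_neg, neg_mul, mul_neg, hny, mul_assoc]
            rw [show (n : Matrix ι ι F) * y = y * n from hny]
        · -- anticommutes with both : u = x y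
          refine hmem (x * y) (N.mul_mem hx hy) (by rw [Units.val_mul]; exact mxy) ?_ ?_
          · rw [_root_.mul_inv_rev, Units.val_mul, ix, iy, neg_mul_neg]
            have hxn : (x : Matrix ι ι F) * n = -(n * x) := by rw [hnx, neg_neg]
            calc (n : Matrix ι ι F) * (y * x) * x = n * (y * x) * x := rfl
              _ = -(n * (x * y)) * x := by rw [hyx, mul_neg]
              _ = -(n * x) * (y * x) := by simp only [neg_mul, mul_assoc]
              _ = x * (n * (y * x)) := by rw [← hxn]; simp only [mul_assoc]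
          · rw [_root_.mul_inv_rev, Units.val_mul, ix, iy, neg_mul_neg]
            have hyn : (y : Matrix ι ι F) * n = -(n * y) := by rw [hny, neg_neg]
            calc (n : Matrix ι ι F) * (y * x) * y = n * y * (x * y) := by simp only [mul_assoc]
              _ = -(n * y) * (y * x) := by rw [hxy', mul_neg, neg_mul]
              _ = y * (n * (y * x)) := by rw [← hyn]; simp only [mul_assoc]
      have hSall : ∀ X : Matrix ι ι F, X ∈ S := by
        intro X
        have hX : X ∈ env N := by rw [show env N = ⊤ from hfull]; trivial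
        exact env_induction (p := fun X => X ∈ S) hS (fun _ _ => S.add_mem) (fun c _ => S.smul_mem c) S.zero_mem hX
      have h4 : finrank F (Matrix ι ι F) ≤ 4 := by
        have h5 : S = ⊤ := by ext X; exact ⟨fun _ => trivial, fun _ => hSall X⟩
        have h6 := finrank_range_le_card (R := F) ![(1 : Matrix ι ι F), x, y, (x : Matrix ι ι F) * y]
        rw [Set.finrank] at h6
        change finrank F S ≤ _ at h6
        rw [h5, finrank_top, Fintype.card_fin] at h6
        exact h6
      rw [Module.finrank_matrix, finrank_self] at h4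
      simp only [mul_one] at h4
      rw [hm] at h4
      nlinarith
    rcases hsq z hz with hz1 | hz1
    · -- z itself is a non-central involution
      have hex : ∃ w ∈ N, ¬ (z : Matrix ι ι F) * w = w * z := by
        by_contra hcon
        push Not at hcon
        exact hzn (scalar_of_full_comm hfull (fun w hw => Units.ext (hcon w hw)))
      obtain ⟨w, hw, hwz⟩ := hex
      exact ⟨z, hz, w, hw, hz1, (hca z hz w hw).resolve_left hwz⟩
    · refine ⟨x * z, N.mul_mem hx hz, y, hy, ?_, ?_⟩
      · rw [Units.val_mul]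
        calc (x : Matrix ι ι F) * z * (x * z) = x * (z * x) * z := by simp only [mul_assoc]
          _ = (x * x) * (z * z) := by rw [hzx]; simp only [mul_assoc]
          _ = 1 := by rw [hx1, hz1]; simp
      · rw [Units.val_mul, mul_assoc, hzy, ← mul_assoc, hxy', neg_mul, mul_assoc]
  -- eigenspaces
  let W : Submodule F (ι → F) := LinearMap.ker (Matrix.toLin' ((z : Matrix ι ι F) - 1))
  have hW : ∀ v, v ∈ W ↔ (z : Matrix ι ι F) *ᵥ v = v := by
    intro v
    rw [LinearMap.mem_ker, Matrix.toLin'_apply, Matrix.sub_mulVec, Matrix.one_mulVec, sub_eq_zero]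
  let W' : Submodule F (ι → F) := LinearMap.ker (Matrix.toLin' ((z : Matrix ι ι F) + 1))
  have hW' : ∀ v, v ∈ W' ↔ (z : Matrix ι ι F) *ᵥ v = -v := by
    intro v
    rw [LinearMap.mem_ker, Matrix.toLin'_apply, Matrix.add_mulVec, Matrix.one_mulVec]
    exact add_eq_zero_iff_eq_neg
  have horth : ∀ u ∈ W, ∀ v ∈ W', polar (⇑Q) u v = 0 := by
    intro u hu v hv
    have h3 := hpol z hz u v
    rw [(hW u).mp hu, (hW' v).mp hv, p_neg'] at h3
    have : (2 : F) * polar (⇑Q) u v = 0 := by linear_combination -h3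
    exact (mul_eq_zero.mp this).resolve_left h2
  have hhalf : (2 : F) * (2 : F)⁻¹ = 1 := mul_inv_cancel₀ h2
  have hzz : ∀ v, (z : Matrix ι ι F) *ᵥ ((z : Matrix ι ι F) *ᵥ v) = v := by
    intro v
    rw [Matrix.mulVec_mulVec, hz1, Matrix.one_mulVec]
  have hdec : ∀ v, ∃ a ∈ W, ∃ b ∈ W', v = a + b := by
    intro v
    refine ⟨(2 : F)⁻¹ • (v + (z : Matrix ι ι F) *ᵥ v), ?_, (2 : F)⁻¹ • (v - (z : Matrix ι ι F) *ᵥ v), ?_, ?_⟩
    · rw [hW, Matrix.mulVec_smul, Matrix.mulVec_add, hzz, add_comm]
    · rw [hW', Matrix.mulVec_smul, Matrix.mulVec_sub, hzz, ← smul_neg, neg_sub]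
    · rw [← smul_add, add_add_sub_cancel, ← two_smul F v, smul_smul, inv_mul_cancel₀ h2, one_smul]
  have hwW : ∀ u ∈ W, (w : Matrix ι ι F) *ᵥ u ∈ W' := by
    intro u hu
    rw [hW', Matrix.mulVec_mulVec, hzw, Matrix.neg_mulVec, ← Matrix.mulVec_mulVec, (hW u).mp hu]
  have hwW' : ∀ u ∈ W', (w : Matrix ι ι F) *ᵥ u ∈ W := by
    intro u hu
    rw [hW, Matrix.mulVec_mulVec, hzw, Matrix.neg_mulVec, ← Matrix.mulVec_mulVec, (hW' u).mp hu, Matrix.mulVec_neg, neg_neg]
  have hND : ND (Q.restrict W) := by
    intro u hu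
    apply Subtype.ext
    apply hQ
    intro v
    obtain ⟨a, ha, b, hb, rfl⟩ := hdec v
    rw [p_add', horth u u.2 b hb, add_zero]
    exact hu ⟨a, ha⟩
  have hwinj : Function.Injective (Matrix.toLin' (w : Matrix ι ι F)) := H97.AschDecomp.toLin_injective w
  have hle1 : finrank F W ≤ finrank F W' := by
    have : (W.map (Matrix.toLin' (w : Matrix ι ι F))) ≤ W' := by
      rintro _ ⟨u, hu, rfl⟩
      rw [Matrix.toLin'_apply]; exact hwW u hu
    have h3 := Submodule.finrank_mono this
    rwa [← (Submodule.equivMapOfInjective _ hwinj W).finrank_eq] at h3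
  have hle2 : finrank F W' ≤ finrank F W := by
    have : (W'.map (Matrix.toLin' (w : Matrix ι ι F))) ≤ W := by
      rintro _ ⟨u, hu, rfl⟩
      rw [Matrix.toLin'_apply]; exact hwW' u hu
    have h3 := Submodule.finrank_mono this
    rwa [← (Submodule.equivMapOfInjective _ hwinj W').finrank_eq] at h3
  have hsup : W ⊔ W' = ⊤ := by
    rw [eq_top_iff]
    intro v _
    obtain ⟨a, ha, b, hb, rfl⟩ := hdec v
    exact Submodule.add_mem_sup ha hb
  have hinf : W ⊓ W' = ⊥ := by
    rw [eq_bot_iff]
    rintro v ⟨h3, h4⟩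
    rw [Submodule.mem_bot]
    have h5 := (hW v).mp h3
    rw [(hW' v).mp h4] at h5
    have h6 : (2 : F) • v = 0 := by rw [two_smul]; nth_rewrite 1 [← h5]; simp
    exact (smul_eq_zero.mp h6).resolve_left h2
  have hdim := Submodule.finrank_sup_add_finrank_inf_eq W W'
  rw [hsup, hinf, finrank_top, finrank_bot, finrank_fintype_fun_eq_card, hm] at hdim
  let g : (ι → F) ≃ₗ[F] (ι → F) := H95.Bridge.toEq ι F w
  obtain ⟨T, hT, hTd⟩ := H95.OSwap.plus_of_swap (Q := Q) (m := m) hND (by omega) (g := g) (by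
    intro v
    change Q (H95.Bridge.toEq ι F w v) = Q v
    rw [H95.Bridge.toEq_apply]
    exact hiso w hw v) (by
    intro u hu
    rw [mem_orth]
    intro v hv
    change polar (⇑Q) v (H95.Bridge.toEq ι F w u) = 0
    rw [H95.Bridge.toEq_apply]
    exact horth v hv _ (hwW u hu))
  exact plus_top hT (by rw [hTd, hm]; omega)

/-- tensor cubes of a two-dimensional space -/
theorem plus_of_pow [Fintype F] (hQ : IsNondegenerateQuadraticForm (⇑Q)) (hn : 2 ≤ Fintype.card ι)
    {H : Subgroup (GL ι F)} (hirr : ActsIrreducibly (matrixSet H)) (hH : H ≤ isometryGroup F (⇑Q))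
    {e : ι ≃ (Fin 3 → Fin 2)} {P : GL ι F} {N₀ : Subgroup (GL (Fin 2) F)} {G : Matrix (Fin 2) (Fin 2) F} {C : F}
    (h : PowPos (RingEquiv.refl F) (polar (⇑Q)) H e P N₀ G C) : IsPlusTypeOn (⇑Q) ⊤ := by
  classical
  have hne : Nonempty ι := Fintype.card_pos_iff.mp (by omega)
  have hfu : ∃ u v, polar (⇑Q) u v ≠ 0 := by
    obtain ⟨i⟩ := hne
    obtain ⟨x, hx⟩ := nd2 hQ (Pi.single i 1) (by
      intro h0
      have := congrFun h0 i
      simp at this)
    exact ⟨_, x, hx⟩
  obtain ⟨c, hc, hc3, hG⟩ := H97.AschPow2.PowPos.flip (by norm_num) h (ε := 1) (fun u v => by rw [one_mul, polar_comm]) hfu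
  have hGs : ∀ a b, G b a = G a b := by
    intro a b
    rcases hc with rfl | rfl
    · rw [hG, one_mul]
    · have h2 : (2 : F) = 0 := by linear_combination -hc3
      rw [hG]
      linear_combination (-(G a b)) * h2
  have hGT : Gᵀ = G := by ext a b; exact hGs a b
  have hgu : IsUnit G := unit_of_nondeg (RingEquiv.refl F) h.nd
  by_cases h2 : (2 : F) = 0
  swap
  · exfalso
    -- a traceless matrix commuting with everything
    have hdet : ∀ g ∈ N₀, (g : Matrix (Fin 2) (Fin 2) F).det = 1 := by
      intro g hg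
      have h3 : N₀ ≤ (Matrix.GeneralLinearGroup.det : GL (Fin 2) F →* Fˣ).ker := by
        rw [← h.perf, Subgroup.commutator_le]
        intro a _ b _
        rw [MonoidHom.mem_ker, map_commutatorElement]
        exact commutatorElement_eq_one_iff_mul_comm.mpr (mul_comm _ _)
      have h4 := h3 hg
      rw [MonoidHom.mem_ker] at h4
      have h5 := congrArg Units.val h4
      exact h5
    have hcomm : ∀ g ∈ N₀, (J2 F * G) * (g : Matrix (Fin 2) (Fin 2) F) = (g : Matrix (Fin 2) (Fin 2) F) * (J2 F * G) := by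
      intro g hg
      have h3 : (g : Matrix (Fin 2) (Fin 2) F)ᵀ * G * (g : Matrix (Fin 2) (Fin 2) F) = G := by
        have h4 : ∀ x y, formOfGram (RingEquiv.refl F) ((g : Matrix (Fin 2) (Fin 2) F)ᵀ * G * (g : Matrix (Fin 2) (Fin 2) F).map (RingEquiv.refl F)) x y =
            formOfGram (RingEquiv.refl F) G x y := by
          intro x y
          rw [← fog_mul]
          exact h.fix _ ⟨g, hg, rfl⟩ x y
        exact fog_injective h4
      have h4 := J2_conj' (F := F) (g : Matrix (Fin 2) (Fin 2) F)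
      rw [hdet g hg, one_smul] at h4
      have h5 : (J2 F * G) * (g : Matrix (Fin 2) (Fin 2) F) = (g : Matrix (Fin 2) (Fin 2) F) * J2 F * ((g : Matrix (Fin 2) (Fin 2) F)ᵀ * G * g) := by
        conv_lhs => rw [← h4]
        simp only [mul_assoc]
      rw [h5, h3, mul_assoc]
    obtain ⟨c', hc'⟩ := h.full.comm (X := J2 F * G) (fun g hg => hcomm g hg)
    have htr : (J2 F * G).trace = 0 := by
      have h5 : G 0 1 = G 1 0 := hGs 1 0
      rw [Matrix.trace_fin_two, Matrix.mul_apply, Matrix.mul_apply, Fin.sum_univ_two, Fin.sum_univ_two, h5]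
      simp only [J2, Matrix.of_apply, Matrix.cons_val', Matrix.cons_val_zero, Matrix.cons_val_one, Matrix.cons_val_fin_one]
      ring
    rw [hc', Matrix.trace_fin_two, Matrix.algebraMap_matrix_apply, Matrix.algebraMap_matrix_apply, if_pos rfl,
      if_pos rfl] at htr
    have hc0 : c' = 0 := by
      have h6 : (2 : F) * c' = 0 := by
        have : c' + c' = 0 := htr
        linear_combination this
      exact (mul_eq_zero.mp h6).resolve_left h2
    rw [hc0, map_zero] at hc'
    have h8 : (J2 F)ᵀ * (J2 F * G) = G := by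
      rw [← mul_assoc]
      have : (J2 F)ᵀ * J2 F = 1 := by
        ext i j
        fin_cases i <;> fin_cases j <;> simp [J2, Matrix.mul_apply, Fin.sum_univ_two]
      rw [this, one_mul]
    rw [hc', mul_zero] at h8
    rw [← h8] at hgu
    exact not_isUnit_zero hgu
  -- characteristic two
  have hfs := fog_sesq (RingEquiv.refl F) G
  have hfsymm : ∀ x y, formOfGram (RingEquiv.refl F) G x y = formOfGram (RingEquiv.refl F) G y x := by
    intro v w
    change ∑ a, ∑ b, v a * G a b * w b = ∑ a, ∑ b, w a * G a b * v b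
    rw [Finset.sum_comm]
    refine Finset.sum_congr rfl (fun a _ => Finset.sum_congr rfl (fun b _ => ?_))
    rw [hGs a b]; ring
  have halt : ∀ x, formOfGram (RingEquiv.refl F) G x x = 0 := by
    apply semi_invariant h2 h.full.irr (by rw [Fintype.card_fin])
    · intro u v
      rw [hfs.add_left, hfs.add_right, hfs.add_right, hfsymm v u]
      linear_combination (formOfGram (RingEquiv.refl F) G u v) * h2
    · intro c v
      rw [hfs.smul_left, hfs.smul_right]
      change c * (c * _) = _
      ring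
    · intro g hg v hv
      have h3 := h.fix _ ⟨g, hg, rfl⟩ v v
      change formOfGram (RingEquiv.refl F) G _ _ = formOfGram (RingEquiv.refl F) G _ _ at h3
      rw [h3, hv]
  have hses : IsSesq (RingEquiv.refl F) (coF e P (polar (⇑Q))) := coF_sesq e P (IsSesq.of_bilinear hQ.polar_bilinear)
  obtain ⟨Q', hQ', hQs', hQ0'⟩ := H97.AschPosE.exists_quad h2 hses (fun i => by
    change polar (⇑Q) _ _ = 0
    rw [p_self, h2, zero_mul]) (fun i j => by
    change polar (⇑Q) _ _ = polar (⇑Q) _ _
    rw [polar_comm])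
  have hpure : ∀ (s : Finset (Fin 3)) (x : Fin 3 → Fin 2 → F), (∀ i, i ∉ s → ∃ k, x i = Pi.single k 1) →
      Q' (pureV x) = 0 := by
    intro s
    induction s using Finset.induction_on with
    | empty =>
      intro x hx
      choose k hk using fun i => hx i (Finset.notMem_empty i)
      have : x = fun i => (Pi.single (k i) (1 : F) : Fin 2 → F) := funext hk
      rw [this, pureV_single, hQ0']
    | insert j s hj ih =>
      intro x hx
      have key : ∀ y : Fin 2 → F, Q' (pureV (Function.update x j y)) = 0 := by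
        apply semi_zero
        · intro u v
          rw [pureV_update_add, hQ', h.form, powForm_pureV]
          have : ∏ i, formOfGram (RingEquiv.refl F) G (Function.update x j u i) (Function.update x j v i) = 0 := by
            have hex : ∃ i : Fin 3, i ≠ j := exists_ne j
            obtain ⟨i, hi⟩ := hex
            refine Finset.prod_eq_zero (Finset.mem_univ i) ?_
            rw [Function.update_of_ne hi, Function.update_of_ne hi, halt]
          rw [this, mul_zero, add_zero]
        · intro c v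
          rw [pureV_update_smul, hQs']
        · intro k
          apply ih
          intro i hi
          by_cases hij : i = j
          · subst hij
            exact ⟨k, Function.update_self _ _ _⟩
          · rw [Function.update_of_ne hij]
            apply hx
            rw [Finset.mem_insert]
            rintro (h | h)
            · exact hij h
            · exact hi h
      have h3 := key (x j)
      rwa [Function.update_eq_self] at h3
  have hPe : ∀ u, (P : Matrix ι ι F) *ᵥ ((coo e P u) ∘ e) = u := by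
    intro u
    have : (coo e P u) ∘ e = ((P⁻¹ : GL ι F) : Matrix ι ι F) *ᵥ u := by
      ext i
      change ((((P⁻¹ : GL ι F) : Matrix ι ι F) *ᵥ u) ∘ e.symm) (e i) = _
      simp
    rw [this, Matrix.mulVec_mulVec, ← Units.val_mul, mul_inv_cancel, Units.val_one, Matrix.one_mulVec]
  have hpol : ∀ u v, coF e P (polar (⇑Q)) (coo e P u) (coo e P v) = polar (⇑Q) u v := by
    intro u v
    change polar (⇑Q) (_ *ᵥ ((coo e P u) ∘ e)) (_ *ᵥ ((coo e P v) ∘ e)) = _
    rw [hPe, hPe]
  have key : ∀ v, Q' (coo e P v) - Q v = 0 := by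
    apply semi_invariant h2 hirr hn
    · intro u v
      rw [map_add, hQ', Q_add, hpol]; ring
    · intro c v
      rw [map_smul, hQs', H95.OGeo.Q_smul]; ring
    · intro g hg v hv
      obtain ⟨π, a, hga⟩ := h.elts g hg
      have hg2 : (g : Matrix ι ι F) = cr e P ((factorPerm 2 3 F π * pureGL a : GL (Fin 3 → Fin 2) F) : Matrix _ _ F) := by
        rw [hga]; rfl
      have h4 : Q' (coo e P ((g : Matrix ι ι F) *ᵥ v)) = Q' (coo e P v) := by
        rw [hg2, coo_cr]
        apply quad_invariant hQ' hQs' hQ0'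
        · intro u v
          exact coF_fix e P hg2 (fun u v => iso_le _ (hH hg) u v) u v
        · intro b
          rw [Units.val_mul, ← Matrix.mulVec_mulVec, pureGL_val, ← pureV_single, pureT_pureV, factorPerm_pureV]
          exact hpure Finset.univ _ (fun i hi => absurd (Finset.mem_univ i) hi)
      rw [h4, mem_iso.mp (hH hg)]
      exact hv
  have hcoo : ∀ x, coo e P ((P : Matrix ι ι F) *ᵥ (x ∘ e)) = x := by
    intro x
    ext i
    change ((((P⁻¹ : GL ι F) : Matrix ι ι F) *ᵥ ((P : Matrix ι ι F) *ᵥ (x ∘ e))) ∘ e.symm) i = x i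
    rw [Matrix.mulVec_mulVec, ← Units.val_mul, inv_mul_cancel, Units.val_one, Matrix.one_mulVec]
    simp
  have hsing : ∀ i : ι, (Pi.single i (1 : F) : ι → F) = (Pi.single (e i) (1 : F)) ∘ e := by
    intro i
    ext x
    rw [Function.comp]
    by_cases hx : x = i
    · rw [hx, Pi.single_eq_same, Pi.single_eq_same]
    · rw [Pi.single_eq_of_ne hx, Pi.single_eq_of_ne (fun h => hx (e.injective h))]
  refine plus_of_family (σ := {a : Fin 3 → Fin 2 // a 0 = 0})
    (fun a => (P : Matrix ι ι F) *ᵥ (Pi.single (e.symm a.1) 1)) ?_ ?_ ?_ ?_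
  · have h3 : LinearIndependent F (fun a : {a : Fin 3 → Fin 2 // a 0 = 0} => (Pi.single (e.symm a.1) (1 : F) : ι → F)) := by
      have h4 := (Pi.basisFun F ι).linearIndependent.comp (fun a : {a : Fin 3 → Fin 2 // a 0 = 0} => e.symm a.1)
        (fun a b hab => Subtype.ext (e.symm.injective hab))
      convert h4 using 1
      funext i
      simp
    have h5 := h3.map' (Matrix.toLin' (P : Matrix ι ι F)) (LinearMap.ker_eq_bot.mpr (H97.AschDecomp.toLin_injective P))
    have h6 : (fun a : {a : Fin 3 → Fin 2 // a 0 = 0} => (P : Matrix ι ι F) *ᵥ (Pi.single (e.symm a.1) (1 : F) : ι → F)) =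
        (Matrix.toLin' (P : Matrix ι ι F)) ∘ (fun a : {a : Fin 3 → Fin 2 // a 0 = 0} => (Pi.single (e.symm a.1) (1 : F) : ι → F)) := by
      funext a
      rw [Function.comp, Matrix.toLin'_apply]
    rw [h6]
    exact h5
  · rintro ⟨a, ha⟩
    have h3 := key ((P : Matrix ι ι F) *ᵥ (Pi.single (e.symm a) 1))
    rw [hsing, Equiv.apply_symm_apply, hcoo, hQ0', zero_sub, neg_eq_zero] at h3
    rw [hsing, Equiv.apply_symm_apply]
    exact h3
  · rintro ⟨a, ha⟩ ⟨b, hb⟩ _
    rw [hsing, hsing, Equiv.apply_symm_apply, Equiv.apply_symm_apply]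
    have h3 := h.form (Pi.single a 1) (Pi.single b 1)
    change polar (⇑Q) _ _ = _ at h3
    rw [h3, ← pureV_single, ← pureV_single, powForm_pureV, Finset.prod_eq_zero (Finset.mem_univ 0), mul_zero]
    rw [ha, hb, halt]
  · rw [Fintype.card_congr e]
    decide

end H96.OeTyp3
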