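import Mathlib
import Cfsg.Agent.Lib.H96.OeTyp3
import Cfsg.Agent.Lib.H97.AschCases

set_option autoImplicit false
set_option linter.unusedSectionVars false

/-!
Subspaces, small fields.
-/

namespace H96.OeSmall

open Module QuadraticMap H48.QuadSplit H48.QuadStd H95.OGeo H96.OeType H96.OeTyp2 H96.OeTyp3 H96.OeOmega H96.OeRed H96.OeMain
open Cfsg Cfsg.Geo Matrix H97.AschPosE

/-- hyperbolic coordinates in a plane of plus type -/
theorem hyp_coords {F : Type*} [Field F] {V : Type*} [AddCommGroup V] [Module F V] [FiniteDimensional F V]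
    {Q : QuadraticForm F V} (hQ : ND Q) (hd : finrank F V = 2) (hp : PT Q) :
    ∃ u w : V, Q u = 0 ∧ Q w = 0 ∧ polar (⇑Q) u w = 1 ∧ ∀ x, ∃ a b : F, x = a • u + b • w := by
  obtain ⟨U, hU, hUd⟩ := hp
  have h1 : 0 < finrank F U := by omega
  obtain ⟨⟨u, huU⟩, hu⟩ := (finrank_pos_iff_exists_ne_zero).mp h1
  have hu0 : u ≠ 0 := fun h => hu (Subtype.ext h)
  obtain ⟨w, hw, huw⟩ := exists_partner hQ hu0 (hU u huU)
  obtain ⟨U', -, -, hd', e, he, -⟩ := split_pair hQ (hU u huU) hw huw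
  refine ⟨u, w, hU u huU, hw, huw, fun x => ?_⟩
  have h2 := he (e.symm x)
  rw [LinearEquiv.apply_symm_apply] at h2
  have h3 : (e.symm x).2 = 0 := by
    have h4 : finrank F U' = 0 := by omega
    have h5 : Subsingleton U' := finrank_zero_iff.mp h4
    exact Subsingleton.elim _ _
  rw [h3, Submodule.coe_zero, add_zero] at h2
  exact ⟨_, _, h2⟩

variable {ι : Type} [Fintype ι] [DecidableEq ι] {F : Type*} [Field F] {Q : QuadraticForm F (ι → F)}

lemma mem_stab {W : Submodule F (ι → F)} {g : GL ι F} : g ∈ subspaceStabilizer W ↔ ∀ v, v ∈ W ↔ (g : Matrix ι ι F) *ᵥ v ∈ W :=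
  Iff.rfl

lemma orth_stab (Q : QuadraticForm F (ι → F)) {W : Submodule F (ι → F)} {H : Subgroup (GL ι F)}
    (hH : H ≤ isometryGroup F (⇑Q)) (hW : H ≤ subspaceStabilizer W) : H ≤ subspaceStabilizer (orth Q W) := by
  apply le_stab
  intro g hg v hv
  rw [mem_orth]
  intro u hu
  have h1 : (((g⁻¹ : GL ι F) : Matrix ι ι F) *ᵥ u) ∈ W := stab_apply (hW (H.inv_mem hg)) hu
  have h2 : polar (⇑Q) ((g : Matrix ι ι F) *ᵥ (((g⁻¹ : GL ι F) : Matrix ι ι F) *ᵥ u)) ((g : Matrix ι ι F) *ᵥ v) =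
      polar (⇑Q) (((g⁻¹ : GL ι F) : Matrix ι ι F) *ᵥ u) v := iso_le _ (hH hg) _ _
  rw [Matrix.mulVec_mulVec, ← Units.val_mul, mul_inv_cancel, Units.val_one, Matrix.one_mulVec] at h2
  rw [h2]
  exact mem_orth.mp hv _ h1

lemma span_stab {v : ι → F} {H : Subgroup (GL ι F)} (h : ∀ g ∈ H, ∃ c : F, (g : Matrix ι ι F) *ᵥ v = c • v) :
    H ≤ subspaceStabilizer (Submodule.span F {v}) := by
  apply le_stab
  intro g hg w hw
  obtain ⟨a, rfl⟩ := Submodule.mem_span_singleton.mp hw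
  obtain ⟨c, hc⟩ := h g hg
  rw [Matrix.mulVec_smul, hc, smul_smul]
  exact Submodule.smul_mem _ _ (Submodule.mem_span_singleton_self v)

/-- odd-dimensional non-degenerate spaces have odd characteristic -/
lemma odd_of_nd [Fintype F] {W : Submodule F (ι → F)} (hW : IsNondegenerateOn (polar (⇑Q)) W) (hodd : Odd (finrank F W)) :
    Odd (Fintype.card F) := by
  obtain ⟨m, hm⟩ := hodd
  obtain ⟨h2, -⟩ := classify_odd m W (Q.restrict W) (nd_on_iff.mp hW) hm
  by_contra h
  exact h2 (H96.AschSp.two_eq_zero_of_even h)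

/-- non-degenerate subspaces of at most half dimension -/
theorem nd_half (hQ : ND Q) {W : Submodule F (ι → F)} {H : Subgroup (GL ι F)}
    (hH : H ≤ isometryGroup F (⇑Q)) (hW0 : W ≠ ⊥) (hW1 : W ≠ ⊤) (hnd : IsNondegenerateOn (polar (⇑Q)) W)
    (hHW : H ≤ subspaceStabilizer W) :
    ∃ W' : Submodule F (ι → F), W' ≠ ⊥ ∧ W' ≠ ⊤ ∧ IsNondegenerateOn (polar (⇑Q)) W' ∧ H ≤ subspaceStabilizer W' ∧
      2 * finrank F W' ≤ Fintype.card ι := by
  by_cases hle : 2 * finrank F W ≤ Fintype.card ι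
  · exact ⟨W, hW0, hW1, hnd, hHW, hle⟩
  · have hfr := finrank_orth hQ W
    rw [finrank_fintype_fun_eq_card] at hfr
    have hpos : 0 < finrank F W := Module.finrank_pos_iff.mpr ((Submodule.nontrivial_iff_ne_bot).mpr hW0)
    have hlt : finrank F W < Fintype.card ι := by
      have := Submodule.finrank_lt hW1
      rwa [finrank_fintype_fun_eq_card] at this
    refine ⟨orth Q W, ?_, ?_, nd_on_iff.mpr (nd_orth hQ (nd_on_iff.mp hnd)), orth_stab Q hH hHW, by omega⟩
    · intro h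
      rw [h, finrank_bot] at hfr
      omega
    · intro h
      rw [h, finrank_top, finrank_fintype_fun_eq_card] at hfr
      omega

lemma ts_ne_top (hQ : ND Q) [Nonempty ι] {W : Submodule F (ι → F)} (hW : IsTotallySingularQuad (⇑Q) W) : W ≠ ⊤ := by
  rintro rfl
  obtain ⟨i⟩ := ‹Nonempty ι›
  have h1 : (Pi.single i (1 : F) : ι → F) = 0 := by
    apply hQ
    intro y
    have h2 := hW (Pi.single i 1 + y) trivial
    rw [Q_add, hW _ trivial, hW _ trivial] at h2
    linear_combination h2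
  have := congrFun h1 i
  simp at this

/-- a hyperbolic plane over a field with at most three elements contains an invariant non-singular line -/
theorem plane_small [Fintype F] (hq : Fintype.card F ≤ 3) {W : Submodule F (ι → F)} {H : Subgroup (GL ι F)}
    (hH : H ≤ isometryGroup F (⇑Q)) (hd : finrank F W = 2) (hnd : IsNondegenerateOn (polar (⇑Q)) W)
    (hp : IsPlusTypeOn (⇑Q) W) (hHW : H ≤ subspaceStabilizer W) :
    ∃ v, Q v ≠ 0 ∧ H ≤ subspaceStabilizer (Submodule.span F {v}) := by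
  obtain ⟨⟨u, huW⟩, ⟨w, hwW⟩, hu, hw, huw, hx⟩ := hyp_coords (nd_on_iff.mp hnd) hd (plus_iff.mp hp)
  have hu : Q u = 0 := hu
  have hw : Q w = 0 := hw
  have huw : polar (⇑Q) u w = 1 := huw
  have hQuw : ∀ a b : F, Q (a • u + b • w) = a * b := by
    intro a b
    rw [Q_add, H95.OGeo.Q_smul, H95.OGeo.Q_smul, hu, hw, p_smul, p_smul', huw]; ring
  refine ⟨u + w, ?_, span_stab ?_⟩
  · have := hQuw 1 1
    rw [one_smul, one_smul] at this
    rw [this]; norm_num
  · intro g hg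
    have h1 : (g : Matrix ι ι F) *ᵥ (u + w) ∈ W := stab_apply (hHW hg) (W.add_mem huW hwW)
    obtain ⟨a, b, hab⟩ := hx ⟨_, h1⟩
    have hab : (g : Matrix ι ι F) *ᵥ (u + w) = a • u + b • w := congrArg Subtype.val hab
    have h2 : a * b = 1 := by
      rw [← hQuw, ← hab, mem_iso.mp (hH hg)]
      have := hQuw 1 1
      rw [one_smul, one_smul] at this
      rw [this]; norm_num
    have ha : a ≠ 0 := left_ne_zero_of_mul_eq_one h2
    have haa : a * a = 1 := by
      have h3 := FiniteField.pow_card_sub_one_eq_one a ha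
      have h4 : 1 < Fintype.card F := Fintype.one_lt_card
      have h5 : Fintype.card F - 1 = 1 ∨ Fintype.card F - 1 = 2 := by omega
      rcases h5 with h5 | h5
      · rw [h5, pow_one] at h3; rw [h3, one_mul]
      · rw [h5] at h3; rw [← h3]; ring
    have hb : b = a := by
      apply mul_left_cancel₀ ha
      rw [h2, haa]
    exact ⟨a, by rw [hab, hb, smul_add]⟩

lemma pure_swap {d k : ℕ} {e : ι ≃ Fin d × Fin k} {P : GL ι F}
    (h0 : ∀ x y, Q ((P : Matrix ι ι F) *ᵥ (pv x y ∘ e)) = 0) :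
    ∀ x y, Q ((P : Matrix ι ι F) *ᵥ (pv x y ∘ (e.trans (Equiv.prodComm _ _)))) = 0 := by
  intro x y
  have : (pv x y ∘ (e.trans (Equiv.prodComm _ _)) : ι → F) = pv y x ∘ e := by
    funext i
    simp only [Function.comp, pv, Equiv.trans_apply, Equiv.prodComm_apply, Prod.fst_swap, Prod.snd_swap]
    ring
  rw [this]
  exact h0 y x

lemma nd_span {v : ι → F} (h2 : (2 : F) ≠ 0) (hv : Q v ≠ 0) : IsNondegenerateOn (polar (⇑Q)) (Submodule.span F {v}) := by
  intro w hw hw0
  obtain ⟨a, rfl⟩ := Submodule.mem_span_singleton.mp hw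
  have ha : a ≠ 0 := by rintro rfl; exact hw0 (zero_smul _ _)
  have h1 : polar (⇑Q) v (a • v) ≠ 0 := by
    rw [p_smul', p_self]
    exact mul_ne_zero ha (mul_ne_zero h2 hv)
  have hm := Submodule.mem_span_singleton_self (R := F) v
  exact ⟨⟨v, hm, h1⟩, ⟨v, hm, by rwa [p_comm]⟩⟩

lemma finrank_span {v : ι → F} (hv : Q v ≠ 0) : finrank F (Submodule.span F {v}) = 1 := by
  apply finrank_span_singleton
  rintro rfl
  exact hv (QuadraticMap.map_zero Q)

end H96.OeSmall
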