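import Mathlib
import Cfsg.Agent.Lib.H96.OeSmall
import Cfsg.Agent.Lib.H97.AschFrame
import Cfsg.Agent.Lib.H61.AschNCO5

set_option autoImplicit false
set_option linter.unusedSectionVars false

/-!
Tensor decompositions of type 3 × 4.
-/

namespace H96.OeTen

open Module QuadraticMap H48.QuadSplit H48.QuadStd H95.OGeo H96.OeType H96.OeTyp2 H96.OeTyp3 H96.OeOmega H96.OeRed H96.OeMain
open H96.OeSmall Cfsg Cfsg.Geo Matrix H97.AschPosE H97.AschPos H97.AschPosH H97.AschTF H97.AschForm H97.AschFrame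
open H97.AschUnits H97.AschLinear H97.AschDecomp H96.AschSympType5
open scoped Kronecker

variable {ι : Type} [Fintype ι] [DecidableEq ι] {F : Type*} [Field F] {Q : QuadraticForm F (ι → F)}

/-- alternating forms in dimension three are degenerate -/
lemma alt_three {G : Matrix (Fin 3) (Fin 3) F} (hu : IsUnit G) (h : ∀ x, formOfGram (RingEquiv.refl F) G x x = 0) : False := by
  have hs := fog_sesq (RingEquiv.refl F) G
  have hd : ∀ i, G i i = 0 := by
    intro i
    rw [← fog_single (RingEquiv.refl F) G i i, h]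
  have hsk : ∀ i j, G j i = - G i j := by
    intro i j
    have h1 := h (Pi.single i 1 + Pi.single j 1)
    rw [hs.add_left, hs.add_right, hs.add_right, h, h, fog_single, fog_single] at h1
    linear_combination h1
  have h1 : G.det = 0 := by
    rw [Matrix.det_fin_three, hd 0, hd 1, hd 2, hsk 0 1, hsk 0 2, hsk 1 2]
    ring
  exact ((Matrix.isUnit_iff_isUnit_det _).mp hu).ne_zero h1

/-- an irreducible group permutes the blocks transitively -/
theorem iso_of_irr {m t : ℕ} {D : Fin t → Submodule F (ι → F)} (hD : IsNondegenerateMDecomposition (polar (⇑Q)) m D)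
    {H : Subgroup (GL ι F)} (hH : H ≤ isometryGroup F (⇑Q)) (hirr : ActsIrreducibly (matrixSet H))
    (hHD : H ≤ decompositionStabilizer D) : IsOrthogonalMDecomposition (⇑Q) m D := by
  classical
  have htr : ∀ i j, ∃ g ∈ H, (D i).map (Matrix.toLin' (g : Matrix ι ι F)) = D j := by
    intro i j
    obtain ⟨E, hE⟩ : ∃ E : H → Submodule F (ι → F), ∀ g : H, E g = (D i).map (Matrix.toLin' ((g : GL ι F) : Matrix ι ι F)) :=
      ⟨_, fun _ => rfl⟩
    obtain ⟨W, hWdef⟩ : ∃ W : Submodule F (ι → F), W = ⨆ g : H, E g := ⟨_, rfl⟩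
    have hW : ∀ s ∈ matrixSet H, W.map (Matrix.toLin' s) ≤ W := by
      rintro _ ⟨g, hg, rfl⟩
      rw [hWdef, Submodule.map_iSup]
      apply iSup_le
      intro k
      have h1 : (E k).map (Matrix.toLin' (g : Matrix ι ι F)) = E (⟨g, hg⟩ * k) := by
        rw [hE, hE, Subgroup.coe_mul, Units.val_mul, Matrix.toLin'_mul, Submodule.map_comp]
      have h2 : (E k).map (Matrix.toLin' (g : Matrix ι ι F)) ≤ ⨆ g : H, E g := by rw [h1]; exact le_iSup E _
      exact h2
    have hWt : W = ⊤ := by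
      rcases hirr W hW with h | h
      · exfalso
        have h1 : D i ≤ W := by
          have h2 : E 1 = D i := by
            rw [hE, Subgroup.coe_one, Units.val_one, Matrix.toLin'_one, Submodule.map_id]
          rw [hWdef, ← h2]
          exact le_iSup E 1
        rw [h, le_bot_iff] at h1
        have h2 := hD.decomp.finrank_eq i
        rw [h1, finrank_bot] at h2
        exact hD.decomp.pos.ne h2
      · exact h
    by_contra hcon
    push Not at hcon
    have h1 : W ≤ ⨆ (k) (_ : k ≠ j), D k := by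
      rw [hWdef]
      apply iSup_le
      rintro ⟨g, hg⟩
      obtain ⟨σ, hσ⟩ := hHD hg
      rw [hE]
      change (D i).map (Matrix.toLin' (g : Matrix ι ι F)) ≤ _
      rw [hσ i]
      refine le_iSup₂_of_le (σ i) ?_ le_rfl
      intro h2
      exact hcon g hg (by rw [hσ i, h2])
    have h2 := hD.decomp.indep j
    rw [disjoint_iff] at h2
    have h3 : (⨆ (k) (_ : k ≠ j), D k) = ⊤ := by rw [eq_top_iff, ← hWt]; exact h1
    rw [h3, inf_top_eq] at h2
    have h4 := hD.decomp.finrank_eq j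
    rw [h2, finrank_bot] at h4
    exact hD.decomp.pos.ne h4
  refine ⟨hD, fun i j => ?_⟩
  obtain ⟨g, hg, hgij⟩ := htr i j
  refine ⟨(Submodule.equivMapOfInjective _ (toLin_injective g) (D i)).trans (LinearEquiv.ofEq _ _ hgij), ?_⟩
  intro w
  rw [LinearEquiv.trans_apply, LinearEquiv.coe_ofEq_apply, Submodule.coe_equivMapOfInjective_apply,
    Matrix.toLin'_apply]
  exact mem_iso.mp (hH hg) _

lemma symm_fog {k : ℕ} {G : Matrix (Fin k) (Fin k) F} (hs : Gᵀ = G) (v w : Fin k → F) :
    formOfGram (RingEquiv.refl F) G v w = formOfGram (RingEquiv.refl F) G w v := by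
  change ∑ a, ∑ b, v a * G a b * w b = ∑ a, ∑ b, w a * G a b * v b
  rw [Finset.sum_comm]
  refine Finset.sum_congr rfl (fun a _ => Finset.sum_congr rfl (fun b _ => ?_))
  have : G b a = G a b := congrFun (congrFun hs a) b
  rw [this]; ring

lemma symmForm {k : ℕ} {G : Matrix (Fin k) (Fin k) F} (hu : IsUnit G) (hs : Gᵀ = G) :
    IsSymmetricForm (formOfGram (RingEquiv.refl F) G) :=
  ⟨(fog_sesq _ _).to_bilinear, symm_fog hs, fog_nondeg _ hu⟩

/-- a symmetric factor of plus type -/
theorem plus_of_factor {d k : ℕ} (h2 : (2 : F) ≠ 0) {H : Subgroup (GL ι F)} {e : ι ≃ Fin d × Fin k} {P : GL ι F}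
    {G₁ : Matrix (Fin d) (Fin d) F} {G₂ : Matrix (Fin k) (Fin k) F} (h : TPos (RingEquiv.refl F) (polar (⇑Q)) H e P G₁ G₂)
    (hs : G₂ᵀ = G₂) (hp : IsPlusTypeOn (fun v : Fin k → F => formOfGram (RingEquiv.refl F) G₂ v v) ⊤) :
    IsPlusTypeOn (⇑Q) ⊤ := by
  classical
  obtain ⟨U, -, hU, hUd⟩ := hp
  rw [finrank_top, finrank_fintype_fun_eq_card, Fintype.card_fin] at hUd
  have hses := fog_sesq (RingEquiv.refl F) G₂
  have hU2 : ∀ u ∈ U, ∀ w ∈ U, formOfGram (RingEquiv.refl F) G₂ u w = 0 := by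
    intro u hu w hw
    have h1 := hU _ (U.add_mem hu hw)
    have h3 := hU u hu
    have h4 := hU w hw
    simp only at h1 h3 h4
    rw [hses.add_left, hses.add_right, hses.add_right, h3, h4, symm_fog hs w u] at h1
    have : (2 : F) * formOfGram (RingEquiv.refl F) G₂ u w = 0 := by linear_combination h1
    exact (mul_eq_zero.mp this).resolve_left h2
  let Φ : (Fin d → U) →ₗ[F] (ι → F) :=
    { toFun := fun x => (P : Matrix ι ι F) *ᵥ ((fun p : Fin d × Fin k => (x p.1 : Fin k → F) p.2) ∘ e)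
      map_add' := fun x y => by rw [← Matrix.mulVec_add]; rfl
      map_smul' := fun c x => by rw [RingHom.id_apply, ← Matrix.mulVec_smul]; rfl }
  have hinj : Function.Injective Φ := by
    rw [← LinearMap.ker_eq_bot, LinearMap.ker_eq_bot']
    intro x hx
    have h1 : ((P⁻¹ : GL ι F) : Matrix ι ι F) *ᵥ ((P : Matrix ι ι F) *ᵥ ((fun p : Fin d × Fin k => (x p.1 : Fin k → F) p.2) ∘ e)) = 0 := by
      change (P : Matrix ι ι F) *ᵥ ((fun p : Fin d × Fin k => (x p.1 : Fin k → F) p.2) ∘ e) = 0 at hx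
      rw [hx, Matrix.mulVec_zero]
    rw [Matrix.mulVec_mulVec, ← Units.val_mul, inv_mul_cancel, Units.val_one, Matrix.one_mulVec] at h1
    funext i
    apply Subtype.ext
    funext j
    have h3 := congrFun h1 (e.symm (i, j))
    rw [Function.comp, Equiv.apply_symm_apply] at h3
    exact h3
  refine plus_top (T := LinearMap.range Φ) ?_ ?_
  · rintro _ ⟨x, rfl⟩
    have h3 : polar (⇑Q) (Φ x) (Φ x) = 0 := by
      change coF e P (polar (⇑Q)) _ _ = 0
      rw [h.form]
      change ∑ p : Fin d × Fin k, ∑ p' : Fin d × Fin k, (x p.1 : Fin k → F) p.2 * (G₁ ⊗ₖ G₂) p p' * (x p'.1 : Fin k → F) p'.2 = 0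
      rw [Fintype.sum_prod_type]
      simp only [Fintype.sum_prod_type, Matrix.kroneckerMap_apply]
      apply Finset.sum_eq_zero
      intro i _
      rw [Finset.sum_comm]
      apply Finset.sum_eq_zero
      intro i' _
      have h4 : ∑ y, ∑ b, (x i : Fin k → F) y * (G₁ i i' * G₂ y b) * (x i' : Fin k → F) b =
          G₁ i i' * formOfGram (RingEquiv.refl F) G₂ (x i : Fin k → F) (x i' : Fin k → F) := by
        change _ = G₁ i i' * ∑ y, ∑ b, (x i : Fin k → F) y * G₂ y b * (x i' : Fin k → F) b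
        rw [Finset.mul_sum]
        refine Finset.sum_congr rfl (fun y _ => ?_)
        rw [Finset.mul_sum]
        refine Finset.sum_congr rfl (fun b _ => by ring)
      rw [h4, hU2 _ (x i).2 _ (x i').2, mul_zero]
    rw [p_self] at h3
    exact (mul_eq_zero.mp h3).resolve_left h2
  · rw [LinearMap.finrank_range_of_inj hinj, Module.finrank_pi_fintype, Fintype.card_congr e, Fintype.card_prod,
      Fintype.card_fin, Fintype.card_fin]
    simp only [Finset.sum_const, Finset.card_univ, Fintype.card_fin, smul_eq_mul]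
    calc 2 * (d * finrank F U) = d * (2 * finrank F U) := by ring
      _ = d * k := by rw [hUd]

/-- standard form of an odd-dimensional symmetric matrix -/
lemma diag_odd [Finite F] (h2 : (2 : F) ≠ 0) {d : ℕ} (hd : Odd d) (G : Matrix (Fin d) (Fin d) F) (hu : IsUnit G) (hs : Gᵀ = G) :
    ∃ (A : GL (Fin d) F) (l : F), l ≠ 0 ∧
      (A : Matrix (Fin d) (Fin d) F)ᵀ * G * (A : Matrix (Fin d) (Fin d) F) = l • (1 : Matrix (Fin d) (Fin d) F) := by
  have hdet : G.det ≠ 0 := ((Matrix.isUnit_iff_isUnit_det _).mp hu).ne_zero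
  have hdet1 : (G.det • (1 : Matrix (Fin d) (Fin d) F)).det = G.det ^ d := by
    rw [Matrix.det_smul, Matrix.det_one, mul_one, Fintype.card_fin]
  obtain ⟨A, hA⟩ := symm_congr h2 G (G.det • 1) hu
    ((Matrix.isUnit_iff_isUnit_det _).mpr (by rw [hdet1]; exact (IsUnit.mk0 _ hdet).pow _)) hs
    (by rw [Matrix.transpose_smul, Matrix.transpose_one]) (by
      rw [hdet1]
      obtain ⟨r, hr⟩ := hd
      have hpw : ∀ x : F, x * x ^ d = x ^ (r + 1) * x ^ (r + 1) := by
        intro x; rw [hr]; ring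
      exact ⟨G.det ^ (r + 1), hpw _⟩)
  exact ⟨A, G.det, hdet, hA⟩

/-- over the field with three elements a three-dimensional symmetric factor gives a decomposition -/
theorem frame_three [Fintype F] (hF3 : Fintype.card F = 3) (hQ : IsNondegenerateQuadraticForm (⇑Q)) {d : ℕ} (hd : 0 < d)
    {H : Subgroup (GL ι F)} (hH : H ≤ isometryGroup F (⇑Q)) (hirr : ActsIrreducibly (matrixSet H))
    {e : ι ≃ Fin 3 × Fin d} {P : GL ι F}
    {G₁ : Matrix (Fin 3) (Fin 3) F} {G₂ : Matrix (Fin d) (Fin d) F} (h : TPos (RingEquiv.refl F) (polar (⇑Q)) H e P G₁ G₂)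
    (hs : G₁ᵀ = G₁) :
    ∃ D : Fin 3 → Submodule F (ι → F), IsOrthogonalMDecomposition (⇑Q) d D ∧ H ≤ decompositionStabilizer D := by
  classical
  have hodd : Odd (Fintype.card F) := by rw [hF3]; decide
  have h2 : (2 : F) ≠ 0 := H96.AschSp.two_ne_zero_of_odd hodd
  have hHi : H ≤ isom (polar (⇑Q)) := hH.trans (iso_le _)
  obtain ⟨A, l, hl, hA⟩ := diag_odd h2 (by decide) G₁ h.u1 hs
  have h3 := TPos.change h A 1
  have hA' : (A : Matrix (Fin 3) (Fin 3) F)ᵀ * G₁ * (A : Matrix (Fin 3) (Fin 3) F).map (RingEquiv.refl F) =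
      l • (1 : Matrix (Fin 3) (Fin 3) F) := hA
  rw [hA'] at h3
  have hsq : ∀ x : F, x ≠ 0 → x * x = 1 := by
    intro x hx
    have := FiniteField.pow_card_sub_one_eq_one x hx
    rw [hF3] at this
    rw [← this]; ring
  obtain ⟨D, hD, hHD⟩ := frame (q_hform hQ) hHi hd (by norm_num) hl h3.swap (by
    intro b c hc hb
    have h4 : (b : Matrix (Fin 3) (Fin 3) F)ᵀ * (b : Matrix (Fin 3) (Fin 3) F) = c • (1 : Matrix (Fin 3) (Fin 3) F) := hb
    have h5 := congrArg Matrix.det h4
    have hdet : (b : Matrix (Fin 3) (Fin 3) F).det ≠ 0 := ((Matrix.isUnit_iff_isUnit_det _).mp b.isUnit).ne_zero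
    rw [Matrix.det_mul, Matrix.det_transpose, Matrix.det_smul, Matrix.det_one, mul_one, Fintype.card_fin, hsq _ hdet] at h5
    have h6 : c = 1 := by
      have h7 := hsq c hc
      linear_combination (-c) * h7 - h5
    rw [h6, one_smul] at h4
    exact H97.AschPosJ.monomial_three hF3 b h4)
  exact ⟨D, iso_of_irr hD hH hirr hHD, hHD⟩

end H96.OeTen
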