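import Mathlib
import Cfsg.Agent.Lib.H96.OeTen
import Cfsg.Agent.Lib.H48.MaxSing

set_option autoImplicit false
set_option linter.unusedSectionVars false

/-!
Parity arguments for totally singular subspaces of half the dimension.
-/

namespace H96.OePar

open Module QuadraticMap H48.QuadSplit H48.QuadStd H95.OGeo H96.OeType H96.OeTyp2 H96.OeTyp3 H96.OeOmega H96.OeRed H96.OeMain
open H96.OeSmall Cfsg Cfsg.Geo Matrix H48.MaxSing H48.OmegaPlus

variable {ι : Type} [Fintype ι] [DecidableEq ι] {F : Type*} [Field F] {Q : QuadraticForm F (ι → F)}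

lemma rprod_reverse (vs : List (ι → F)) (h1 : ∀ v ∈ vs, Q v ≠ 0) : rprod Q vs * rprod Q vs.reverse = 1 := by
  induction vs with
  | nil => simp [rprod]
  | cons v vs ih =>
    rw [List.reverse_cons, rprod_append, rprod_cons]
    have h4 : Cfsg.reflectionMatrix (⇑Q) v * Cfsg.reflectionMatrix (⇑Q) v = 1 := by
      have := congrArg (fun g : ↥(Cfsg.isometryGroup F (⇑Q)) =>
        ((g : GeneralLinearGroup ι F) : Matrix ι ι F))
        (H17.OrthSO.refl_mul_self Q v (h1 v List.mem_cons_self))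
      exact this
    calc Cfsg.reflectionMatrix (⇑Q) v * rprod Q vs * (rprod Q vs.reverse * rprod Q [v])
        = Cfsg.reflectionMatrix (⇑Q) v * (rprod Q vs * rprod Q vs.reverse) * rprod Q [v] := by
          simp only [mul_assoc]
      _ = 1 := by
          rw [ih (fun w hw => h1 w (List.mem_cons_of_mem _ hw)), mul_one]
          simp only [rprod, List.map_cons, List.map_nil, List.prod_cons, List.prod_nil, mul_one]
          exact h4

/-- products of an even number of reflections -/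
def EP (Q : QuadraticForm F (ι → F)) (g : GL ι F) : Prop :=
  ∃ vs : List (ι → F), (∀ v ∈ vs, Q v ≠ 0) ∧ Even vs.length ∧ (g : Matrix ι ι F) = rprod Q vs

lemma EP.mul {g h : GL ι F} (hg : EP Q g) (hh : EP Q h) : EP Q (g * h) := by
  obtain ⟨vs, h1, h2, h3⟩ := hg
  obtain ⟨ws, h4, h5, h6⟩ := hh
  refine ⟨vs ++ ws, ?_, ?_, ?_⟩
  · intro v hv
    rcases List.mem_append.mp hv with h | h
    · exact h1 v h
    · exact h4 v h
  · rw [List.length_append]; exact h2.add h5
  · rw [rprod_append, ← h3, ← h6]; rfl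

lemma inv_coe {g : GL ι F} {vs : List (ι → F)} (h1 : ∀ v ∈ vs, Q v ≠ 0) (h3 : (g : Matrix ι ι F) = rprod Q vs) :
    ((g⁻¹ : GL ι F) : Matrix ι ι F) = rprod Q vs.reverse := by
  have h4 := rprod_reverse vs h1
  rw [← h3] at h4
  calc ((g⁻¹ : GL ι F) : Matrix ι ι F) = ((g⁻¹ : GL ι F) : Matrix ι ι F) * ((g : Matrix ι ι F) * rprod Q vs.reverse) := by
        rw [h4, mul_one]
    _ = rprod Q vs.reverse := by
        rw [← mul_assoc, ← Units.val_mul, inv_mul_cancel, Units.val_one, one_mul]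

lemma EP.inv {g : GL ι F} (hg : EP Q g) : EP Q g⁻¹ := by
  obtain ⟨vs, h1, h2, h3⟩ := hg
  exact ⟨vs.reverse, fun v hv => h1 v (List.mem_reverse.mp hv), by rw [List.length_reverse]; exact h2, inv_coe h1 h3⟩

/-- elements of Ω are products of an even number of reflections -/
theorem even_rprod [Fintype F] (hQ : ND Q) (h : Fintype.card F ≠ 2 ∨ Fintype.card ι ≠ 4) {g : GL ι F}
    (hg : g ∈ omegaGL (⇑Q)) : EP Q g := by
  obtain ⟨x, hx, rfl⟩ := hg
  replace hx : x ∈ Subgroup.closure (commutatorSet ↥(isometryGroup F (⇑Q))) := by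
    rw [← commutator_eq_closure]; exact hx
  change EP Q (x : GL ι F)
  induction hx using Subgroup.closure_induction with
  | mem x hx =>
    obtain ⟨a, b, rfl⟩ := hx
    obtain ⟨vs, h1, h2⟩ := exists_rprod_all hQ h a
    obtain ⟨ws, h3, h4⟩ := exists_rprod_all hQ h b
    refine ⟨vs ++ (ws ++ (vs.reverse ++ ws.reverse)), ?_, ?_, ?_⟩
    · intro v hv
      simp only [List.mem_append, List.mem_reverse] at hv
      rcases hv with h | h | h | h
      · exact h1 v h
      · exact h3 v h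
      · exact h1 v h
      · exact h3 v h
    · simp only [List.length_append, List.length_reverse]
      exact ⟨vs.length + ws.length, by ring⟩
    · rw [rprod_append, rprod_append, rprod_append, ← h2, ← h4, ← inv_coe h1 h2, ← inv_coe h3 h4]
      simp only [commutatorElement_def, Subgroup.coe_mul, Units.val_mul, Subgroup.coe_inv, mul_assoc]
  | one => exact ⟨[], by simp, by simp, by simp [rprod]⟩
  | mul x y _ _ hx hy => exact hx.mul hy
  | inv x _ hx => exact hx.inv

theorem omega_parity [Fintype F] (hQ : ND Q) (h : Fintype.card F ≠ 2 ∨ Fintype.card ι ≠ 4) {m : ℕ}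
    (hd : Fintype.card ι = 2 * m) {W : Submodule F (ι → F)} (hW : MS Q m W) {g : GL ι F} (hg : g ∈ omegaGL (⇑Q)) :
    (Even (finrank F ↥(W ⊓ W.map (Matrix.toLin' (g : Matrix ι ι F)))) ↔ Even m) ∧
      MS Q m (W.map (Matrix.toLin' (g : Matrix ι ι F))) := by
  obtain ⟨vs, h1, h2, h3⟩ := even_rprod hQ h hg
  obtain ⟨h4, h5⟩ := parity_rprod hQ hd hW hW vs h1
  rw [← h3] at h4 h5
  refine ⟨?_, h5⟩
  rw [h4, inf_idem, hW.d]
  tauto

/-- totally singular subspaces lie in maximal ones -/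
theorem exists_ms [Fintype F] (hQ : ND Q) {m : ℕ} (hd : Fintype.card ι = 2 * m) (hp : IsPlusTypeOn (⇑Q) ⊤)
    {W : Submodule F (ι → F)} (hW : IsTotallySingularQuad (⇑Q) W) (hdW : finrank F W ≤ m) :
    ∃ U, MS Q m U ∧ W ≤ U := by
  obtain ⟨U₀, -, hU₀, hdU⟩ := hp
  rw [finrank_top, finrank_fintype_fun_eq_card, hd] at hdU
  have hdU : finrank F U₀ = m := by omega
  -- a subspace of U₀ of the same dimension
  obtain ⟨φ, hφ⟩ : ∃ φ : W →ₗ[F] U₀, Function.Injective φ :=
    finrank_le_iff_exists_linearMap.mp (by rw [hdU]; exact hdW)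
  obtain ⟨g, hg, hgx⟩ := H48.QuadWitt.witt_extension (nd_iff.mp hQ) W (U₀.subtype ∘ₗ φ)
    (fun a b hab => hφ (Subtype.ext hab)) (fun x => by rw [hW x x.2]; exact hU₀ _ (φ x).2)
  have hU : MS Q m U₀ := ⟨hU₀, hdU⟩
  refine ⟨U₀.map (g.symm : (ι → F) →ₗ[F] (ι → F)), hU.map g.symm (fun x => by
    conv_rhs => rw [← g.apply_symm_apply x, hg]), ?_⟩
  intro w hw
  refine ⟨g w, ?_, by simp⟩
  have := hgx ⟨w, hw⟩
  change g w = _ at this
  rw [this]
  exact (φ ⟨w, hw⟩).2

/-- stabilisers of totally singular subspaces of codimension one in a maximal one -/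
theorem stab_of_hyper [Fintype F] (hQ : ND Q) (h : Fintype.card F ≠ 2 ∨ Fintype.card ι ≠ 4) {m : ℕ}
    (hd : Fintype.card ι = 2 * m) (hp : IsPlusTypeOn (⇑Q) ⊤)
    {W : Submodule F (ι → F)} (hW : IsTotallySingularQuad (⇑Q) W) (hdW : finrank F W + 1 = m)
    {H : Subgroup (GL ι F)} (hH : H ≤ omegaGL (⇑Q)) (hHW : H ≤ subspaceStabilizer W) :
    ∃ U, MS Q m U ∧ H ≤ subspaceStabilizer U := by
  obtain ⟨U, hU, hWU⟩ := exists_ms hQ hd hp hW (by omega)
  refine ⟨U, hU, le_stab ?_⟩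
  intro g hg v hv
  obtain ⟨h1, h2⟩ := omega_parity hQ h hd hU (hH hg)
  have h3 : W ≤ U ⊓ U.map (Matrix.toLin' (g : Matrix ι ι F)) := by
    refine le_inf hWU ?_
    intro w hw
    have h4 : (((g⁻¹ : GL ι F) : Matrix ι ι F) *ᵥ w) ∈ W := stab_apply (hHW (H.inv_mem hg)) hw
    refine ⟨_, hWU h4, ?_⟩
    rw [Matrix.toLin'_apply, Matrix.mulVec_mulVec, ← Units.val_mul, mul_inv_cancel, Units.val_one, Matrix.one_mulVec]
  have h4 := Submodule.finrank_mono h3
  have h5 : finrank F ↥(U ⊓ U.map (Matrix.toLin' (g : Matrix ι ι F))) ≤ finrank F U := Submodule.finrank_mono inf_le_left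
  rw [hU.d] at h5
  have h6 : finrank F ↥(U ⊓ U.map (Matrix.toLin' (g : Matrix ι ι F))) = m := by
    have h7 : finrank F ↥(U ⊓ U.map (Matrix.toLin' (g : Matrix ι ι F))) = m ∨
      finrank F ↥(U ⊓ U.map (Matrix.toLin' (g : Matrix ι ι F))) + 1 = m := by omega
    rcases h7 with h7 | h7
    · exact h7
    · exfalso
      rw [← h7, Nat.even_add_one] at h1
      tauto
  have h7 : U ⊓ U.map (Matrix.toLin' (g : Matrix ι ι F)) = U :=
    Submodule.eq_of_le_of_finrank_eq inf_le_left (by rw [h6, hU.d])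
  have h8 : U ⊓ U.map (Matrix.toLin' (g : Matrix ι ι F)) = U.map (Matrix.toLin' (g : Matrix ι ι F)) :=
    Submodule.eq_of_le_of_finrank_eq inf_le_right (by rw [h6, h2.d])
  rw [← h7, h8]
  exact ⟨v, hv, Matrix.toLin'_apply _ _⟩

/-- a pair of complementary maximal totally singular subspaces of odd dimension is not swapped -/
theorem stab_of_pair [Fintype F] (hQ : ND Q) (h : Fintype.card F ≠ 2 ∨ Fintype.card ι ≠ 4) {m : ℕ}
    (hd : Fintype.card ι = 2 * m) (hm : Odd m) {D : Fin 2 → Submodule F (ι → F)} (hD : IsMDecomposition m D)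
    (hts : ∀ i, IsTotallySingularQuad (⇑Q) (D i))
    {H : Subgroup (GL ι F)} (hH : H ≤ omegaGL (⇑Q)) (hHD : H ≤ decompositionStabilizer D) :
    H ≤ subspaceStabilizer (D 0) := by
  have hU : MS Q m (D 0) := ⟨hts 0, hD.finrank_eq 0⟩
  apply le_stab
  intro g hg v hv
  obtain ⟨h1, h2⟩ := omega_parity hQ h hd hU (hH hg)
  obtain ⟨σ, hσ⟩ := hHD hg
  have h3 : σ 0 = 0 ∨ σ 0 = 1 := by
    have : ∀ i : Fin 2, i = 0 ∨ i = 1 := by decide
    exact this _
  rcases h3 with h3 | h3
  · have h4 := hσ 0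
    rw [h3] at h4
    rw [← h4]
    exact ⟨v, hv, Matrix.toLin'_apply _ _⟩
  · exfalso
    have h4 := hσ 0
    rw [h3] at h4
    have h5 : D 0 ⊓ (D 0).map (Matrix.toLin' (g : Matrix ι ι F)) = ⊥ := by
      rw [h4]
      have := hD.indep
      exact (this.pairwiseDisjoint (by decide : (0 : Fin 2) ≠ 1)).eq_bot
    rw [h5, finrank_bot] at h1
    have := h1.mp (by decide)
    exact (Nat.not_even_iff_odd.mpr hm) this

end H96.OePar
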