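import Mathlib
import Cfsg.Agent.Lib.H96.OePar
import Cfsg.Agent.Lib.H97.AschFrame

set_option autoImplicit false
set_option linter.unusedSectionVars false

/-!
Refining orthogonal decompositions.
-/

namespace H96.OeBlk

open Module QuadraticMap H48.QuadSplit H48.QuadStd H95.OGeo H96.OeType H96.OeTyp2 H96.OeTyp3 H96.OeOmega H96.OeRed H96.OeMain
open H96.OeSmall Cfsg Cfsg.Geo Matrix

variable {ι : Type} [Fintype ι] [DecidableEq ι] {F : Type*} [Field F] {Q : QuadraticForm F (ι → F)}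

lemma mem_decomp_of_maps {t m : ℕ} {D : Fin t → Submodule F (ι → F)} (hD : IsMDecomposition m D) {g : GL ι F}
    (h : ∀ i, ∃ j, ∀ x ∈ D i, (g : Matrix ι ι F) *ᵥ x ∈ D j) : g ∈ decompositionStabilizer D := by
  choose σ hσ using h
  have hinj := H97.AschDecomp.toLin_injective g
  have hmap : ∀ i, (D i).map (Matrix.toLin' (g : Matrix ι ι F)) = D (σ i) := by
    intro i
    apply Submodule.eq_of_le_of_finrank_eq
    · rintro _ ⟨x, hx, rfl⟩
      rw [Matrix.toLin'_apply]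
      exact hσ i x hx
    · rw [← (Submodule.equivMapOfInjective _ hinj (D i)).finrank_eq, hD.finrank_eq, hD.finrank_eq]
  have hne : ∀ i, D i ≠ ⊥ := by
    intro i h0
    have h1 := hD.finrank_eq i
    rw [h0, finrank_bot] at h1
    have := hD.pos
    omega
  have hDinj : Function.Injective D := hD.indep.injective hne
  have hσinj : Function.Injective σ := by
    intro i j hij
    apply hDinj
    apply Submodule.map_injective_of_injective hinj
    rw [hmap, hmap, hij]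
  exact ⟨Equiv.ofBijective σ (Finite.injective_iff_bijective.mp hσinj), fun i => hmap i⟩

/-- refinement of an orthogonal decomposition by isometry-invariant decompositions of the blocks -/
theorem refine {t m : ℕ} (hQ : IsNondegenerateQuadraticForm (⇑Q)) {D : Fin t → Submodule F (ι → F)} (hD : IsOrthogonalMDecomposition (⇑Q) m D) (i₀ : Fin t)
    {s m' : ℕ} (hs : 0 < s) (hm' : 0 < m') (E : Fin s → Submodule F (D i₀)) (hfr : ∀ k, finrank F (E k) = m')
    (hnd : ∀ k, ∀ x ∈ E k, x ≠ 0 → ∃ y ∈ E k, polar (⇑Q) (x : ι → F) (y : ι → F) ≠ 0)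
    (horth : ∀ k k', k ≠ k' → ∀ x ∈ E k, ∀ y ∈ E k', polar (⇑Q) (x : ι → F) (y : ι → F) = 0)
    (hiso : ∀ k k', ∃ ε : E k ≃ₗ[F] E k', ∀ x, Q ((ε x : D i₀) : ι → F) = Q ((x : D i₀) : ι → F))
    (hsup : ⨆ k, E k = ⊤)
    (hinv : ∀ ρ : D i₀ ≃ₗ[F] D i₀, (∀ x, Q (ρ x : ι → F) = Q (x : ι → F)) → ∀ k, ∃ k', ∀ x ∈ E k, ρ x ∈ E k') :
    ∃ D' : Fin (t * s) → Submodule F (ι → F), IsOrthogonalMDecomposition (⇑Q) m' D' ∧
      (∀ p, ∃ k, ∃ ε : E k ≃ₗ[F] D' p, ∀ x, Q (ε x : ι → F) = Q ((x : D i₀) : ι → F)) ∧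
      ∀ g ∈ decompositionStabilizer D, g ∈ isometryGroup F (⇑Q) → g ∈ decompositionStabilizer D' := by
  classical
  have ht := hD.decomp.decomp.two_le
  choose e he using fun i => hD.isometric i₀ i
  have hep : ∀ i (x y : D i₀), polar (⇑Q) (e i x : ι → F) (e i y : ι → F) = polar (⇑Q) (x : ι → F) y := by
    intro i x y
    have h3 := he i (x + y)
    rw [map_add] at h3
    have h4 := he i x
    have h5 := he i y
    simp only [Submodule.coe_add] at h3
    rw [QuadraticMap.polar, QuadraticMap.polar, h3, h4, h5]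
  let φ : Fin t → D i₀ →ₗ[F] (ι → F) := fun i => (D i).subtype ∘ₗ (e i).toLinearMap
  have hφ : ∀ i x, φ i x = (e i x : ι → F) := fun i x => rfl
  have hφinj : ∀ i, Function.Injective (φ i) := fun i a b hab => (e i).injective (Subtype.ext hab)
  let p : Fin (t * s) ≃ Fin t × Fin s := finProdFinEquiv.symm
  let D' : Fin (t * s) → Submodule F (ι → F) := fun q => (E (p q).2).map (φ (p q).1)
  have hD'le : ∀ q, D' q ≤ D (p q).1 := by
    rintro q _ ⟨x, _, rfl⟩
    exact (e _ x).2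
  have horth' : ∀ q q', q ≠ q' → AreOrthogonalFor (polar (⇑Q)) (D' q) (D' q') := by
    intro q q' hqq v hv w hw
    by_cases h1 : (p q).1 = (p q').1
    · have h3 : (p q).2 ≠ (p q').2 := fun h => hqq (p.injective (Prod.ext h1 h))
      obtain ⟨x, hx, rfl⟩ := hv
      obtain ⟨y, hy, rfl⟩ := hw
      rw [hφ, hφ, ← h1, hep]
      exact horth _ _ h3 x hx y hy
    · exact hD.decomp.orthogonal _ _ h1 v (hD'le q hv) w (hD'le q' hw)
  have hnd' : ∀ q, IsNondegenerateOn (polar (⇑Q)) (D' q) := by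
    rintro q _ ⟨x, hx, rfl⟩ h0
    have hx0 : x ≠ 0 := by rintro rfl; exact h0 (map_zero _)
    obtain ⟨y, hy, hxy⟩ := hnd _ x hx hx0
    have h1 : polar (⇑Q) (φ (p q).1 x) (φ (p q).1 y) ≠ 0 := by
      rw [hφ, hφ, hep]; exact hxy
    exact ⟨⟨_, ⟨y, hy, rfl⟩, by rwa [polar_comm]⟩, ⟨_, ⟨y, hy, rfl⟩, h1⟩⟩
  have hind := H97.AschFrame.indep_of_orth (q_hform hQ) hnd' horth'
  have hfr' : ∀ q, finrank F (D' q) = m' := by
    intro q
    rw [← (Submodule.equivMapOfInjective _ (hφinj _) (E (p q).2)).finrank_eq]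
    exact hfr _
  have hsup' : iSup D' = ⊤ := by
    rw [eq_top_iff, ← hD.decomp.decomp.iSup_eq_top]
    apply iSup_le
    intro i v hv
    have h1 : v = φ i ((e i).symm ⟨v, hv⟩) := by rw [hφ, LinearEquiv.apply_symm_apply]
    have h2 : ((e i).symm ⟨v, hv⟩) ∈ ⨆ k, E k := by rw [hsup]; trivial
    rw [h1]
    have h3 : (⨆ k, E k).map (φ i) ≤ iSup D' := by
      rw [Submodule.map_iSup]
      apply iSup_le
      intro k
      have h4 : (E k).map (φ i) = D' (p.symm (i, k)) := by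
        simp only [D', Equiv.apply_symm_apply]
      rw [h4]
      exact le_iSup D' _
    exact h3 ⟨_, h2, rfl⟩
  have ht1 : 2 ≤ t * s := by nlinarith
  have hMD : IsMDecomposition m' D' := ⟨ht1, hm', hfr', hind, hsup'⟩
  have hE : ∀ q, ∃ ε : E (p q).2 ≃ₗ[F] D' q, ∀ x, Q (ε x : ι → F) = Q ((x : D i₀) : ι → F) := by
    intro q
    refine ⟨Submodule.equivMapOfInjective (φ (p q).1) (hφinj _) (E (p q).2), fun x => ?_⟩
    rw [Submodule.coe_equivMapOfInjective_apply, hφ, he]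
  refine ⟨D', ⟨⟨hMD, hnd', horth'⟩, ?_⟩, fun q => ⟨_, hE q⟩, ?_⟩
  · intro q q'
    obtain ⟨ε, hε⟩ := hE q
    obtain ⟨ε', hε'⟩ := hE q'
    obtain ⟨δ, hδ⟩ := hiso (p q).2 (p q').2
    refine ⟨ε.symm.trans (δ.trans ε'), fun w => ?_⟩
    rw [LinearEquiv.trans_apply, LinearEquiv.trans_apply, hε', hδ, ← hε, LinearEquiv.apply_symm_apply]
  · rintro g ⟨τ, hτ⟩ hgi
    apply mem_decomp_of_maps hMD
    intro q
    have hmaps : ∀ x ∈ D (p q).1, (g : Matrix ι ι F) *ᵥ x ∈ D (τ (p q).1) := by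
      intro x hx
      rw [← hτ]
      exact ⟨x, hx, Matrix.toLin'_apply _ _⟩
    let γ : D (p q).1 →ₗ[F] D (τ (p q).1) := ((Matrix.toLin' (g : Matrix ι ι F)).restrict (p := D (p q).1) (q := D (τ (p q).1))
      (fun x hx => by rw [Matrix.toLin'_apply]; exact hmaps x hx))
    have hγ : ∀ x, (γ x : ι → F) = (g : Matrix ι ι F) *ᵥ (x : ι → F) := fun x => by
      simp only [γ, LinearMap.coe_restrict_apply, Matrix.toLin'_apply]
    have hγinj : Function.Injective γ := by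
      intro a b hab
      apply Subtype.ext
      apply H97.AschDecomp.toLin_injective g
      rw [Matrix.toLin'_apply, Matrix.toLin'_apply, ← hγ, ← hγ, hab]
    let γ' : D (p q).1 ≃ₗ[F] D (τ (p q).1) := LinearEquiv.ofInjectiveOfFinrankEq γ hγinj (by
      rw [hD.decomp.decomp.finrank_eq, hD.decomp.decomp.finrank_eq])
    have hγ' : ∀ x, (γ' x : ι → F) = (g : Matrix ι ι F) *ᵥ (x : ι → F) := fun x => hγ x
    obtain ⟨k', hk'⟩ := hinv ((e (p q).1).trans (γ'.trans (e (τ (p q).1)).symm)) (by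
      intro x
      rw [LinearEquiv.trans_apply, LinearEquiv.trans_apply, ← he (τ (p q).1), LinearEquiv.apply_symm_apply, hγ',
        mem_iso.mp hgi, he]) (p q).2
    refine ⟨p.symm (τ (p q).1, k'), ?_⟩
    rintro _ ⟨x, hx, rfl⟩
    have h1 := hk' x hx
    simp only [D', Equiv.apply_symm_apply]
    refine ⟨_, h1, ?_⟩
    rw [hφ, LinearEquiv.trans_apply, LinearEquiv.trans_apply, LinearEquiv.apply_symm_apply, hγ', hφ]

end H96.OeBlk
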