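import Mathlib
import Cfsg.Agent.Lib.H96.OeBlk

set_option autoImplicit false
set_option linter.unusedSectionVars false

/-!
Small fields: refining or destroying decompositions into planes.
-/

namespace H96.OeBlk2

open Module QuadraticMap H48.QuadSplit H48.QuadStd H95.OGeo H96.OeType H96.OeTyp2 H96.OeTyp3 H96.OeOmega H96.OeRed H96.OeMain
open H96.OeSmall H96.OeBlk Cfsg Cfsg.Geo Matrix

variable {ι : Type} [Fintype ι] [DecidableEq ι] {F : Type*} [Field F] {Q : QuadraticForm F (ι → F)}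

lemma isND (hQ : IsNondegenerateQuadraticForm (⇑Q)) : ND Q := by
  intro x hx
  by_contra h0
  obtain ⟨y, hy⟩ := nd2 hQ x h0
  exact hy (hx y)

/-- refining planes with two orthogonal vectors of the same norm -/
theorem lines_pair (hQ : IsNondegenerateQuadraticForm (⇑Q)) (h2 : (2 : F) ≠ 0)
    (hab : ∀ a b : F, a * a + b * b = 1 → a = 0 ∨ b = 0) {t : ℕ} {D : Fin t → Submodule F (ι → F)}
    (hD : IsOrthogonalMDecomposition (⇑Q) 2 D) (i₀ : Fin t) {x₀ x₁ : ι → F} (hx₀ : x₀ ∈ D i₀) (hx₁ : x₁ ∈ D i₀) {c : F}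
    (hc : c ≠ 0) (h0 : Q x₀ = c) (h1 : Q x₁ = c) (h01 : polar (⇑Q) x₀ x₁ = 0) :
    ∃ D' : Fin (t * 2) → Submodule F (ι → F), IsOrthogonalMDecomposition (⇑Q) 1 D' ∧
      ∀ g ∈ decompositionStabilizer D, g ∈ isometryGroup F (⇑Q) → g ∈ decompositionStabilizer D' := by
  classical
  let z : Fin 2 → D i₀ := ![⟨x₀, hx₀⟩, ⟨x₁, hx₁⟩]
  have hzQ : ∀ k, Q (z k : ι → F) = c := by
    intro k; fin_cases k
    · exact h0
    · exact h1
  have hz0 : ∀ k, z k ≠ 0 := by
    intro k h
    have := hzQ k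
    rw [h, Submodule.coe_zero, map_zero] at this
    exact hc this.symm
  have hzo : ∀ k k', k ≠ k' → polar (⇑Q) (z k : ι → F) (z k') = 0 := by
    intro k k' hkk
    fin_cases k <;> fin_cases k' <;> first | exact absurd rfl hkk | exact h01 | (rw [polar_comm]; exact h01)
  have hzz : ∀ k, polar (⇑Q) (z k : ι → F) (z k) ≠ 0 := fun k => by
    rw [p_self, hzQ]; exact mul_ne_zero h2 hc
  have hcomb : ∀ x : D i₀, ∃ a b : F, x = a • z 0 + b • z 1 := by
    intro x
    have hli : LinearIndependent F z := by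
      rw [Fintype.linearIndependent_iff]
      intro g hg k
      have h3 : polar (⇑Q) ((∑ j, g j • z j : D i₀) : ι → F) (z k : ι → F) = 0 := by rw [hg, Submodule.coe_zero, p_zero]
      rw [Fin.sum_univ_two, Submodule.coe_add, Submodule.coe_smul, Submodule.coe_smul, p_add, p_smul, p_smul] at h3
      have h01' : polar (⇑Q) (z 0 : ι → F) (z 1) = 0 := hzo 0 1 (by decide)
      have h10' : polar (⇑Q) (z 1 : ι → F) (z 0) = 0 := hzo 1 0 (by decide)
      have hk : k = 0 ∨ k = 1 := (by decide : ∀ i : Fin 2, i = 0 ∨ i = 1) k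
      rcases hk with rfl | rfl
      · rw [h10', mul_zero, add_zero] at h3
        exact (mul_eq_zero.mp h3).resolve_right (hzz 0)
      · rw [h01', mul_zero, zero_add] at h3
        exact (mul_eq_zero.mp h3).resolve_right (hzz 1)
    have hsp : Submodule.span F (Set.range z) = ⊤ := by
      apply hli.span_eq_top_of_card_eq_finrank'
      rw [Fintype.card_fin, hD.decomp.decomp.finrank_eq]
    have h3 : x ∈ Submodule.span F (Set.range z) := by rw [hsp]; trivial
    obtain ⟨g, hg⟩ := (Submodule.mem_span_range_iff_exists_fun F).mp h3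
    exact ⟨g 0, g 1, by rw [← hg, Fin.sum_univ_two]⟩
  have key : ∀ x : D i₀, Q (x : ι → F) = c → ∃ k, x ∈ Submodule.span F {z k} := by
    intro x hx
    obtain ⟨a, b, hxab⟩ := hcomb x
    have h3 : Q (x : ι → F) = c * (a * a + b * b) := by
      rw [hxab, Submodule.coe_add, Submodule.coe_smul, Submodule.coe_smul, Q_add, H95.OGeo.Q_smul, H95.OGeo.Q_smul, hzQ, hzQ,
        p_smul, p_smul', hzo 0 1 (by decide)]
      ring
    rw [hx] at h3
    have h4 : a * a + b * b = 1 := by
      apply mul_left_cancel₀ hc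
      rw [mul_one]; exact h3.symm
    rcases hab a b h4 with rfl | rfl
    · refine ⟨1, ?_⟩
      rw [hxab, zero_smul, zero_add]
      exact Submodule.smul_mem _ _ (Submodule.mem_span_singleton_self _)
    · refine ⟨0, ?_⟩
      rw [hxab, zero_smul, add_zero]
      exact Submodule.smul_mem _ _ (Submodule.mem_span_singleton_self _)
  obtain ⟨D', hD', -, hst⟩ := OeBlk.refine hQ hD i₀ (s := 2) (m' := 1) (by norm_num) one_pos (fun k => Submodule.span F {z k})
    (fun k => finrank_span_singleton (hz0 k))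
    (by
      intro k x hx hx0
      obtain ⟨a, rfl⟩ := Submodule.mem_span_singleton.mp hx
      have ha : a ≠ 0 := by rintro rfl; exact hx0 (zero_smul _ _)
      refine ⟨z k, Submodule.mem_span_singleton_self _, ?_⟩
      rw [Submodule.coe_smul, p_smul]
      exact mul_ne_zero ha (hzz k))
    (by
      intro k k' hkk x hx y hy
      obtain ⟨a, rfl⟩ := Submodule.mem_span_singleton.mp hx
      obtain ⟨b, rfl⟩ := Submodule.mem_span_singleton.mp hy
      rw [Submodule.coe_smul, Submodule.coe_smul, p_smul, p_smul', hzo k k' hkk, mul_zero, mul_zero])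
    (by
      intro k k'
      let ε₁ := LinearEquiv.toSpanNonzeroSingleton F (D i₀) (z k) (hz0 k)
      let ε₂ := LinearEquiv.toSpanNonzeroSingleton F (D i₀) (z k') (hz0 k')
      refine ⟨ε₁.symm.trans ε₂, fun x => ?_⟩
      obtain ⟨a, ha⟩ := ε₁.surjective x
      rw [← ha, LinearEquiv.trans_apply, LinearEquiv.symm_apply_apply]
      change Q ((a • z k' : D i₀) : ι → F) = Q ((a • z k : D i₀) : ι → F)
      rw [Submodule.coe_smul, Submodule.coe_smul, H95.OGeo.Q_smul, H95.OGeo.Q_smul, hzQ, hzQ])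
    (by
      rw [eq_top_iff]
      intro x _
      obtain ⟨a, b, rfl⟩ := hcomb x
      refine Submodule.add_mem _ (Submodule.smul_mem _ _ ?_) (Submodule.smul_mem _ _ ?_)
      · exact Submodule.mem_iSup_of_mem 0 (Submodule.mem_span_singleton_self _)
      · exact Submodule.mem_iSup_of_mem 1 (Submodule.mem_span_singleton_self _))
    (by
      intro ρ hρ k
      obtain ⟨k', hk'⟩ := key (ρ (z k)) (by rw [hρ, hzQ])
      refine ⟨k', fun x hx => ?_⟩
      obtain ⟨a, rfl⟩ := Submodule.mem_span_singleton.mp hx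
      rw [map_smul]
      exact Submodule.smul_mem _ _ hk')
  exact ⟨D', hD', hst⟩

lemma sum_sq_three [Fintype F] (hF : Fintype.card F = 3) (a b : F) (h : a * a + b * b = 1) : a = 0 ∨ b = 0 := by
  by_contra hcon
  push Not at hcon
  have hs : ∀ x : F, x ≠ 0 → x * x = 1 := by
    intro x hx
    have := FiniteField.pow_card_sub_one_eq_one x hx
    rw [hF] at this
    rw [← this]; ring
  rw [hs a hcon.1, hs b hcon.2] at h
  exact one_ne_zero (α := F) (by linear_combination h)

lemma sum_sq_five [Fintype F] (hF : Fintype.card F = 5) (a b : F) (h : a * a + b * b = 1) : a = 0 ∨ b = 0 := by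
  by_contra hcon
  push Not at hcon
  have h5 : (5 : F) = 0 := by
    have := Nat.cast_card_eq_zero F
    rw [hF] at this
    exact_mod_cast this
  have hs : ∀ x : F, x ≠ 0 → x * x = 1 ∨ x * x = -1 := by
    intro x hx
    have := FiniteField.pow_card_sub_one_eq_one x hx
    rw [hF] at this
    have h3 : (x * x - 1) * (x * x + 1) = 0 := by
      have : x ^ 4 = 1 := this
      linear_combination this
    rcases mul_eq_zero.mp h3 with h4 | h4
    · left; linear_combination h4
    · right; linear_combination h4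
  have h1 : (1 : F) ≠ 0 := one_ne_zero
  have h3 : (3 : F) ≠ 0 := by
    intro h3
    apply h1
    linear_combination 2 * h3 - h5
  rcases hs a hcon.1 with ha | ha <;> rcases hs b hcon.2 with hb | hb <;> rw [ha, hb] at h
  · exact h1 (by linear_combination h)
  · exact h1 (by linear_combination -h)
  · exact h1 (by linear_combination -h)
  · exact h3 (by linear_combination -h)

/-- q = 5, planes of plus type -/
theorem lines_five [Fintype F] (hF : Fintype.card F = 5) (hQ : IsNondegenerateQuadraticForm (⇑Q)) {t : ℕ}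
    {D : Fin t → Submodule F (ι → F)} (hD : IsOrthogonalMDecomposition (⇑Q) 2 D) (i₀ : Fin t)
    (hp : IsPlusTypeOn (⇑Q) (D i₀)) :
    ∃ D' : Fin (t * 2) → Submodule F (ι → F), IsOrthogonalMDecomposition (⇑Q) 1 D' ∧
      ∀ g ∈ decompositionStabilizer D, g ∈ isometryGroup F (⇑Q) → g ∈ decompositionStabilizer D' := by
  have h5 : (5 : F) = 0 := by
    have := Nat.cast_card_eq_zero F
    rw [hF] at this
    exact_mod_cast this
  have h1 : (1 : F) ≠ 0 := one_ne_zero
  have h2 : (2 : F) ≠ 0 := by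
    intro h
    apply h1
    linear_combination h5 - 2 * h
  obtain ⟨⟨u, huW⟩, ⟨w, hwW⟩, hu, hw, huw, hx⟩ := hyp_coords (nd_on_iff.mp (hD.decomp.nondegenerate i₀))
    (hD.decomp.decomp.finrank_eq i₀) (plus_iff.mp hp)
  have hu : Q u = 0 := hu
  have hw : Q w = 0 := hw
  have huw : polar (⇑Q) u w = 1 := huw
  have hQuw : ∀ a b : F, Q (a • u + b • w) = a * b := by
    intro a b
    rw [Q_add, H95.OGeo.Q_smul, H95.OGeo.Q_smul, hu, hw, p_smul, p_smul', huw]; ring
  apply lines_pair hQ h2 (sum_sq_five hF) hD i₀ (x₀ := (1 : F) • u + (1 : F) • w) (x₁ := (2 : F) • u + (-2 : F) • w)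
    ((D i₀).add_mem ((D i₀).smul_mem _ huW) ((D i₀).smul_mem _ hwW))
    ((D i₀).add_mem ((D i₀).smul_mem _ huW) ((D i₀).smul_mem _ hwW)) (c := 1) h1
  · rw [hQuw, mul_one]
  · rw [hQuw]; linear_combination -h5
  · rw [p_add, p_add', p_add', p_smul, p_smul, p_smul, p_smul, p_smul', p_smul', p_smul', p_smul', p_self, p_self, hu, hw,
      huw, p_comm, huw]
    ring

/-- q = 3, planes of minus type -/
theorem lines_three [Fintype F] (hF : Fintype.card F = 3) (hQ : IsNondegenerateQuadraticForm (⇑Q)) {t : ℕ}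
    {D : Fin t → Submodule F (ι → F)} (hD : IsOrthogonalMDecomposition (⇑Q) 2 D) (i₀ : Fin t)
    (hp : ¬ IsPlusTypeOn (⇑Q) (D i₀)) :
    ∃ D' : Fin (t * 2) → Submodule F (ι → F), IsOrthogonalMDecomposition (⇑Q) 1 D' ∧
      ∀ g ∈ decompositionStabilizer D, g ∈ isometryGroup F (⇑Q) → g ∈ decompositionStabilizer D' := by
  have h3 : (3 : F) = 0 := by
    have := Nat.cast_card_eq_zero F
    rw [hF] at this
    exact_mod_cast this
  have h1 : (1 : F) ≠ 0 := one_ne_zero
  have h2 : (2 : F) ≠ 0 := by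
    intro h
    apply h1
    linear_combination h3 - h
  have hfr := hD.decomp.decomp.finrank_eq i₀
  -- anisotropic
  have hani : ∀ x ∈ D i₀, Q x = 0 → x = 0 := by
    intro x hx hx0
    by_contra hne
    apply hp
    refine ⟨Submodule.span F {x}, ?_, ?_, ?_⟩
    · rw [Submodule.span_singleton_le_iff_mem]; exact hx
    · intro y hy
      obtain ⟨a, rfl⟩ := Submodule.mem_span_singleton.mp hy
      rw [H95.OGeo.Q_smul, hx0, mul_zero]
    · rw [finrank_span_singleton hne, hfr]
  obtain ⟨⟨x₀, hx₀⟩, hx₀'⟩ := (finrank_pos_iff_exists_ne_zero (R := F) (M := D i₀)).mp (by omega)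
  have hx₀0 : x₀ ≠ 0 := fun h => hx₀' (Subtype.ext h)
  -- an orthogonal vector
  obtain ⟨x₁, hx₁, hx₁0, h01⟩ : ∃ x₁ ∈ D i₀, x₁ ≠ 0 ∧ polar (⇑Q) x₀ x₁ = 0 := by
    let L : D i₀ →ₗ[F] F := (polarBilin Q x₀) ∘ₗ (D i₀).subtype
    have h4 := LinearMap.finrank_range_add_finrank_ker L
    have h5 : finrank F (LinearMap.range L) ≤ 1 := by
      have := Submodule.finrank_le (LinearMap.range L)
      rwa [finrank_self] at this
    obtain ⟨⟨⟨y, hyD⟩, hyk⟩, hy0⟩ := (finrank_pos_iff_exists_ne_zero (R := F) (M := LinearMap.ker L)).mp (by omega)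
    refine ⟨y, hyD, ?_, hyk⟩
    rintro rfl
    exact hy0 (Subtype.ext (Subtype.ext rfl))
  have hs : ∀ x : F, x ≠ 0 → x * x = 1 := by
    intro x hx
    have := FiniteField.pow_card_sub_one_eq_one x hx
    rw [hF] at this
    rw [← this]; ring
  have hQ0 : Q x₀ ≠ 0 := fun h => hx₀0 (hani x₀ hx₀ h)
  have hQ1 : Q x₁ ≠ 0 := fun h => hx₁0 (hani x₁ hx₁ h)
  have hsum : Q (x₀ + x₁) = Q x₀ + Q x₁ := by rw [Q_add, h01, add_zero]
  have hne : Q x₀ + Q x₁ ≠ 0 := by
    intro h
    have h4 := hani _ ((D i₀).add_mem hx₀ hx₁) (by rw [hsum, h])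
    have h5 : x₁ = -x₀ := (neg_eq_of_add_eq_zero_right h4).symm
    rw [h5, p_neg', p_self] at h01
    exact mul_ne_zero h2 hQ0 (neg_eq_zero.mp h01)
  have heq : Q x₀ = Q x₁ := by
    have h4 : (Q x₀ + Q x₁) * (Q x₀ - Q x₁) = 0 := by
      linear_combination hs _ hQ0 - hs _ hQ1
    have := (mul_eq_zero.mp h4).resolve_left hne
    linear_combination this
  exact lines_pair hQ h2 (sum_sq_three hF) hD i₀ hx₀ hx₁ hQ0 rfl heq.symm h01

/-- q ≤ 3, planes of plus type -/
theorem not_irr_small [Fintype F] (hF : Fintype.card F ≤ 3) (hQ : IsNondegenerateQuadraticForm (⇑Q)) {t : ℕ}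
    {D : Fin t → Submodule F (ι → F)} (hD : IsOrthogonalMDecomposition (⇑Q) 2 D)
    (hp : ∀ i, IsPlusTypeOn (⇑Q) (D i)) {H : Subgroup (GL ι F)} (hH : H ≤ isometryGroup F (⇑Q))
    (hHD : H ≤ decompositionStabilizer D) : ¬ ActsIrreducibly (matrixSet H) := by
  intro hirr
  have ht := hD.decomp.decomp.two_le
  let i₀ : Fin t := ⟨0, by omega⟩
  let S : Set (ι → F) := {v | ∃ i, v ∈ D i ∧ Q v = 1}
  obtain ⟨⟨u, huW⟩, ⟨w, hwW⟩, hu, hw, huw, hx⟩ := hyp_coords (nd_on_iff.mp (hD.decomp.nondegenerate i₀))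
    (hD.decomp.decomp.finrank_eq i₀) (plus_iff.mp (hp i₀))
  have hu : Q u = 0 := hu
  have hw : Q w = 0 := hw
  have huw : polar (⇑Q) u w = 1 := huw
  have hQuw : ∀ a b : F, Q (a • u + b • w) = a * b := by
    intro a b
    rw [Q_add, H95.OGeo.Q_smul, H95.OGeo.Q_smul, hu, hw, p_smul, p_smul', huw]; ring
  have hsq : ∀ a b : F, a * b = 1 → b = a := by
    intro a b hab
    have ha : a ≠ 0 := left_ne_zero_of_mul_eq_one hab
    have haa : a * a = 1 := by
      have h3 := FiniteField.pow_card_sub_one_eq_one a ha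
      have h4 : 1 < Fintype.card F := Fintype.one_lt_card
      have h5 : Fintype.card F - 1 = 1 ∨ Fintype.card F - 1 = 2 := by omega
      rcases h5 with h5 | h5
      · rw [h5, pow_one] at h3; rw [h3, one_mul]
      · rw [h5] at h3; rw [← h3]; ring
    apply mul_left_cancel₀ ha
    rw [hab, haa]
  have horth : ∀ v ∈ S, polar (⇑Q) (u - w) v = 0 := by
    rintro v ⟨i, hvi, hv1⟩
    by_cases hi : i = i₀
    · subst hi
      obtain ⟨a, b, hab⟩ := hx ⟨v, hvi⟩
      have hab : v = a • u + b • w := congrArg Subtype.val hab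
      have h3 : a * b = 1 := by rw [← hQuw, ← hab, hv1]
      rw [hab, hsq a b h3, p_sub, p_add', p_add', p_smul', p_smul', p_smul', p_smul', p_self, p_self, hu, hw, huw, p_comm _ w u,
        huw]
      ring
    · have h3 := hD.decomp.orthogonal i₀ i (fun h => hi h.symm) (u - w) ((D i₀).sub_mem huW hwW) v hvi
      exact h3
  rcases hirr (Submodule.span F S) (by
    rintro _ ⟨g, hg, rfl⟩
    rw [Submodule.map_span, Submodule.span_le]
    rintro _ ⟨v, ⟨i, hvi, hv1⟩, rfl⟩
    apply Submodule.subset_span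
    obtain ⟨σ, hσ⟩ := hHD hg
    refine ⟨σ i, ?_, ?_⟩
    · rw [← hσ]; exact ⟨v, hvi, rfl⟩
    · rw [Matrix.toLin'_apply, mem_iso.mp (hH hg), hv1]) with h | h
  · have h3 : (1 : F) • u + (1 : F) • w ∈ Submodule.span F S :=
      Submodule.subset_span ⟨i₀, (D i₀).add_mem ((D i₀).smul_mem _ huW) ((D i₀).smul_mem _ hwW), by rw [hQuw, mul_one]⟩
    rw [h, Submodule.mem_bot] at h3
    have h4 := hQuw 1 1
    rw [h3, map_zero, mul_one] at h4
    exact zero_ne_one h4
  · have h3 : u - w = 0 := by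
      apply isND hQ
      intro y
      have hy : y ∈ Submodule.span F S := by rw [h]; trivial
      induction hy using Submodule.span_induction with
      | mem y hy => exact horth y hy
      | zero => exact p_zero' _ _
      | add a b _ _ ha hb => rw [p_add', ha, hb, add_zero]
      | smul c a _ ha => rw [p_smul', ha, mul_zero]
    have h4 := hQuw 1 (-1)
    rw [one_smul, neg_smul, one_smul, ← sub_eq_add_neg, h3, map_zero] at h4
    exact one_ne_zero (α := F) (by linear_combination h4)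

end H96.OeBlk2
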