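import Mathlib
import Cfsg.Agent.Lib.H96.OeBlk2

set_option autoImplicit false
set_option linter.unusedSectionVars false

/-!
Subfield structures from decompositions.
-/

namespace H96.OeBlk3

open Module QuadraticMap H48.QuadSplit H48.QuadStd H95.OGeo H96.OeType H96.OeTyp2 H96.OeTyp3 H96.OeOmega H96.OeRed H96.OeMain
open H96.OeSmall H96.OeBlk H96.OeBlk2 Cfsg Cfsg.Geo Matrix H96.AschSubForm H96.AschSympType3 H97.AschReal

variable {ι : Type} [Fintype ι] [DecidableEq ι] {F : Type*} [Field F] {Q : QuadraticForm F (ι → F)}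

/-- subfield outcomes from a basis -/
theorem sub_of_family [Fintype F] {τ : Type} [Fintype τ] [DecidableEq τ] (φ : ι ≃ τ) {F₀ : Subfield F} {r : ℕ} (hr : r.Prime)
    (hcard : Fintype.card F = Nat.card F₀ ^ r) (v : τ → ι → F) (hli : LinearIndependent F v) {ζ : F} (hζ : ζ ≠ 0)
    (hQv : ∀ u : τ → F, (∀ i, u i ∈ F₀) → ζ * Q (∑ i, u i • v i) ∈ F₀) {H : Subgroup (GL ι F)}
    (hH : ∀ g ∈ H, ∀ j, ∃ c : τ → F, (∀ i, c i ∈ F₀) ∧ (g : Matrix ι ι F) *ᵥ v j = ∑ i, c i • v i) : Sub (⇑Q) H := by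
  classical
  have hsp : ⊤ ≤ Submodule.span F (Set.range v) := by
    apply le_of_eq
    symm
    apply hli.span_eq_top_of_card_eq_finrank'
    rw [← Fintype.card_congr φ, Module.finrank_fintype_fun_eq_card]
  let b := (Module.Basis.mk hli hsp).reindex φ.symm
  have hb : ∀ j, b j = v (φ j) := by
    intro j
    rw [Module.Basis.reindex_apply, Equiv.symm_symm, Module.Basis.mk_apply]
  let P : GL ι F := ⟨(Pi.basisFun F ι).toMatrix b, b.toMatrix (Pi.basisFun F ι),
    Module.Basis.toMatrix_mul_toMatrix_flip _ _, Module.Basis.toMatrix_mul_toMatrix_flip _ _⟩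
  have hP : ∀ j, (P : Matrix ι ι F) *ᵥ Pi.single j 1 = v (φ j) := by
    intro j
    rw [Matrix.mulVec_single_one]
    funext i
    change (Pi.basisFun F ι).toMatrix b i j = _
    rw [Module.Basis.toMatrix_apply, Pi.basisFun_repr, hb]
  have hPu : ∀ u : ι → F, (P : Matrix ι ι F) *ᵥ u = ∑ j, u j • v (φ j) := by
    intro u
    conv_lhs => rw [pi_eq_sum_univ' u, Matrix.mulVec_sum]
    refine Finset.sum_congr rfl (fun j _ => ?_)
    rw [← hP, ← Matrix.mulVec_smul]
  refine ⟨F₀, r, P, ζ, hr, hcard, hζ, ?_, H96.AschOdd2.le_subfieldSubgroup_of_over ?_⟩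
  · intro u hu
    change ζ * Q _ ∈ F₀
    rw [hPu, ← Equiv.sum_comp φ.symm]
    simp only [Equiv.apply_symm_apply]
    exact hQv (fun i => u (φ.symm i)) (fun i => hu _)
  · intro g hg i j
    obtain ⟨c, hc, hgc⟩ := hH g hg (φ j)
    have h1 : ((P⁻¹ * g * P : GL ι F) : Matrix ι ι F) *ᵥ Pi.single j 1 = fun i => c (φ i) := by
      rw [Units.val_mul, Units.val_mul, ← Matrix.mulVec_mulVec, hP, ← Matrix.mulVec_mulVec, hgc]
      have h2 : (P : Matrix ι ι F) *ᵥ (fun i => c (φ i)) = ∑ i, c i • v i := by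
        rw [hPu, ← Equiv.sum_comp φ]
      rw [← h2, Matrix.mulVec_mulVec, Units.inv_mul, Matrix.one_mulVec]
    have h3 := congrFun h1 i
    rw [Matrix.mulVec_single_one] at h3
    change ((P⁻¹ * g * P : GL ι F) : Matrix ι ι F) i j = _ at h3
    rw [h3]
    exact hc _

lemma Q_sum {τ : Type*} [DecidableEq τ] (s : Finset τ) (x : τ → ι → F)
    (h : ∀ i j, i ≠ j → polar (⇑Q) (x i) (x j) = 0) : Q (∑ i ∈ s, x i) = ∑ i ∈ s, Q (x i) := by
  have hp : ∀ (s : Finset τ) (a : τ), a ∉ s → polar (⇑Q) (x a) (∑ i ∈ s, x i) = 0 := by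
    intro s
    induction s using Finset.induction_on with
    | empty => intro a _; rw [Finset.sum_empty, p_zero']
    | insert b s hb ih =>
      intro a ha
      rw [Finset.sum_insert hb, p_add', ih a (fun h => ha (Finset.mem_insert_of_mem h)),
        h a b (fun h => ha (h ▸ Finset.mem_insert_self _ _)), add_zero]
  induction s using Finset.induction_on with
  | empty => rw [Finset.sum_empty, Finset.sum_empty, map_zero]
  | insert a s ha ih => rw [Finset.sum_insert ha, Finset.sum_insert ha, Q_add, hp s a ha, add_zero, ih]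

/-- orthogonal frames over a non-prime field -/
theorem lines_sub [Fintype F] (hodd : Odd (Fintype.card F)) (hnp : ¬ (Fintype.card F).Prime) {t : ℕ}
    {D : Fin t → Submodule F (ι → F)} (hD : IsOrthogonalMDecomposition (⇑Q) 1 D) {H : Subgroup (GL ι F)}
    (hH : H ≤ isometryGroup F (⇑Q)) (hHD : H ≤ decompositionStabilizer D) : Sub (⇑Q) H := by
  classical
  have h2 := H96.AschSp.two_ne_zero_of_odd hodd
  let i0 : Fin t := ⟨0, by have := hD.decomp.decomp.two_le; omega⟩
  have hd1 : ∀ i, Module.finrank F (D i) = 1 := hD.decomp.decomp.finrank_eq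
  obtain ⟨v0, hv0⟩ := finrank_eq_one_iff'.mp (hd1 i0)
  have hv00 : v0 ≠ 0 := hv0.1
  choose e he using fun i => hD.isometric i0 i
  let v : Fin t → (ι → F) := fun i => (e i v0 : D i)
  have hvD : ∀ i, v i ∈ D i := fun i => (e i v0).2
  have hv0' : ∀ i, v i ≠ 0 := by
    intro i h0
    have h3 : e i v0 = 0 := Subtype.ext h0
    exact hv00 ((e i).map_eq_zero_iff.mp h3)
  set c : F := Q (v0 : ι → F) with hc
  have hQv : ∀ i, Q (v i) = c := fun i => he i v0
  have hspan : ∀ i, ∀ w ∈ D i, ∃ a : F, w = a • v i := by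
    intro i w hw
    obtain ⟨a, ha⟩ := (finrank_eq_one_iff_of_nonzero' (e i v0) (fun h0 => hv0' i (congrArg Subtype.val h0))).mp (hd1 i) ⟨w, hw⟩
    exact ⟨a, (congrArg Subtype.val ha).symm⟩
  have horth : ∀ i j, i ≠ j → polar (⇑Q) (v i) (v j) = 0 :=
    fun i j hij => hD.decomp.orthogonal i j hij _ (hvD i) _ (hvD j)
  have hvv : ∀ i, polar (⇑Q) (v i) (v i) = 2 * c := fun i => by rw [p_self, hQv]
  have hc0 : c ≠ 0 := by
    intro h0
    obtain ⟨x, hx, hx0⟩ := (hD.decomp.nondegenerate i0 (v i0) (hvD i0) (hv0' i0)).1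
    obtain ⟨a, rfl⟩ := hspan i0 x hx
    apply hx0
    rw [p_smul, hvv, h0, mul_zero, mul_zero]
  have hli : LinearIndependent F v := by
    rw [Fintype.linearIndependent_iff]
    intro g hg i
    have h3 : polarBilin Q (∑ j, g j • v j) (v i) = 0 := by rw [hg, map_zero]; rfl
    rw [map_sum, LinearMap.sum_apply, Finset.sum_eq_single i] at h3
    · rw [map_smul, LinearMap.smul_apply, polarBilin_apply_apply, hvv, smul_eq_mul] at h3
      exact (mul_eq_zero.mp h3).resolve_right (mul_ne_zero h2 hc0)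
    · intro j _ hj
      rw [map_smul, LinearMap.smul_apply, polarBilin_apply_apply, horth j i hj, smul_zero]
    · intro h; exact absurd (Finset.mem_univ _) h
  have hcard : Fintype.card ι = t := by
    have := H96.OeOmega.card_eq_mul hD.decomp.decomp
    rw [this, mul_one]
  obtain ⟨p, hp⟩ := CharP.exists F
  obtain ⟨d, hpp, hcardF⟩ := FiniteField.card F p
  have : Fact p.Prime := ⟨hpp⟩
  have hd2 : 1 < (d : ℕ) := by
    have := d.pos
    by_contra hlt
    have hd' : (d : ℕ) = 1 := by omega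
    rw [hd', pow_one] at hcardF
    rw [hcardF] at hnp
    exact hnp hpp
  obtain ⟨F₁, r, -, hr, hcard1⟩ := exists_prime_subfield (powField F p 1) (powField_ne_top one_pos hd2 hcardF)
  refine sub_of_family (Fintype.equivOfCardEq (by rw [Fintype.card_fin, hcard])) hr hcard1 v hli (ζ := c⁻¹)
    (inv_ne_zero hc0) ?_ ?_
  · intro u hu
    rw [Q_sum _ _ (fun i j hij => by rw [p_smul, p_smul', horth i j hij, mul_zero, mul_zero]), Finset.mul_sum]
    apply F₁.sum_mem
    intro i _
    rw [H95.OGeo.Q_smul, hQv]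
    have : c⁻¹ * (u i * u i * c) = u i * u i := by field_simp
    rw [this]
    exact F₁.mul_mem (hu i) (hu i)
  · intro g hg j
    obtain ⟨s, hs⟩ := hHD hg
    have h3 : (g : Matrix ι ι F) *ᵥ v j ∈ D (s j) := by
      rw [← hs]
      exact ⟨v j, hvD _, by rw [Matrix.toLin'_apply]⟩
    obtain ⟨a, ha⟩ := hspan _ _ h3
    have ha2 : a * a = 1 := by
      have h4 := mem_iso.mp (hH hg) (v j)
      rw [ha, H95.OGeo.Q_smul, hQv, hQv] at h4
      exact mul_eq_right₀ hc0 |>.mp h4
    have ha1 : a ∈ F₁ := by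
      rcases mul_self_eq_one_iff.mp ha2 with h5 | h5
      · rw [h5]; exact F₁.one_mem
      · rw [h5]; exact F₁.neg_mem F₁.one_mem
    refine ⟨Pi.single (s j) a, ?_, ?_⟩
    · intro i
      by_cases hi : i = s j
      · rw [hi, Pi.single_eq_same]; exact ha1
      · rw [Pi.single_eq_of_ne hi]; exact F₁.zero_mem
    · rw [ha, Finset.sum_eq_single (s j)]
      · rw [Pi.single_eq_same]
      · intro i _ hi
        rw [Pi.single_eq_of_ne hi, zero_smul]
      · intro h; exact absurd (Finset.mem_univ _) h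

/-- q = 4, planes of plus type -/
theorem sub_four [Fintype F] (hF : Fintype.card F = 4) (hQ : IsNondegenerateQuadraticForm (⇑Q)) {t : ℕ}
    {D : Fin t → Submodule F (ι → F)} (hD : IsOrthogonalMDecomposition (⇑Q) 2 D)
    (hp : ∀ i, IsPlusTypeOn (⇑Q) (D i)) {H : Subgroup (GL ι F)} (hH : H ≤ isometryGroup F (⇑Q))
    (hHD : H ≤ decompositionStabilizer D) : Sub (⇑Q) H := by
  classical
  obtain ⟨p, hpc⟩ := CharP.exists F
  obtain ⟨d, hpp, hcardF⟩ := FiniteField.card F p
  have : Fact p.Prime := ⟨hpp⟩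
  have hp2 : p = 2 := by
    have h1 : p ∣ 2 ^ 2 := by
      have : p ∣ p ^ (d : ℕ) := dvd_pow_self p d.ne_zero
      rw [← hcardF, hF] at this
      exact this
    exact (Nat.prime_dvd_prime_iff_eq hpp Nat.prime_two).mp (hpp.dvd_of_dvd_pow h1)
  subst hp2
  have h20 : (2 : F) = 0 := by exact_mod_cast CharP.cast_eq_zero F 2
  have hpow4 : ∀ x : F, x ^ 4 = x := by
    intro x
    have := FiniteField.pow_card x
    rwa [hF] at this
  obtain ⟨F₀, r, -, hr, hcard1⟩ := exists_prime_subfield (powField F 2 1)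
    (powField_ne_top (e := 2) one_pos (by norm_num) (by rw [hF]; norm_num))
  have hfin : Fintype F₀ := Fintype.ofFinite F₀
  have hc2 : Nat.card F₀ = 2 ∧ r = 2 := by
    rw [hF] at hcard1
    have h2r := hr.two_le
    have h1 : 1 < Nat.card F₀ := by
      rw [Nat.card_eq_fintype_card]; exact Fintype.one_lt_card
    have h3 : Nat.card F₀ < 3 := by
      by_contra hcon
      have : 3 ^ 2 ≤ Nat.card F₀ ^ r := (Nat.pow_le_pow_left (by omega) 2).trans (Nat.pow_le_pow_right (by omega) h2r)
      omega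
    have h4 : Nat.card F₀ = 2 := by omega
    rw [h4] at hcard1
    refine ⟨h4, ?_⟩
    have : (2 : ℕ) ^ 2 = 2 ^ r := by rw [← hcard1]; norm_num
    exact (Nat.pow_right_injective (le_refl 2) this).symm
  obtain ⟨hc2, rfl⟩ := hc2
  have hmem : ∀ x : F, x ∈ F₀ ↔ x * x = x := by
    intro x
    constructor
    · intro hx
      have := FiniteField.pow_card (⟨x, hx⟩ : F₀)
      rw [← Nat.card_eq_fintype_card, hc2] at this
      have := congrArg Subtype.val this
      change x ^ 2 = x at this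
      rw [← this]; ring_nf
      rw [show x ^ 4 = (x ^ 2) ^ 2 by ring, this, this]
    · intro hx
      have : x * (x - 1) = 0 := by rw [mul_sub, hx, mul_one, sub_self]
      rcases mul_eq_zero.mp this with h | h
      · rw [h]; exact F₀.zero_mem
      · rw [sub_eq_zero.mp h]; exact F₀.one_mem
  obtain ⟨ω, hω⟩ : ∃ ω : F, ω ∉ F₀ := by
    by_contra hcon
    push Not at hcon
    have h1 : Nat.card F₀ = Nat.card F :=
      Nat.card_congr (Equiv.ofBijective Subtype.val ⟨Subtype.val_injective, fun x => ⟨⟨x, hcon x⟩, rfl⟩⟩)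
    rw [hc2, Nat.card_eq_fintype_card, hF] at h1
    omega
  have hω2 : ω * ω - ω ≠ 0 := fun h => hω ((hmem ω).mpr (sub_eq_zero.mp h))
  -- hyperbolic pairs
  have hhyp : ∀ i, ∃ u w : ι → F, u ∈ D i ∧ w ∈ D i ∧ Q u = 0 ∧ Q w = 0 ∧ polar (⇑Q) u w = 1 ∧
      ∀ x ∈ D i, ∃ a b : F, x = a • u + b • w := by
    intro i
    obtain ⟨⟨u, huW⟩, ⟨w, hwW⟩, hu, hw, huw, hx⟩ := hyp_coords (nd_on_iff.mp (hD.decomp.nondegenerate i))
      (hD.decomp.decomp.finrank_eq i) (plus_iff.mp (hp i))
    refine ⟨u, w, huW, hwW, hu, hw, huw, fun x hxD => ?_⟩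
    obtain ⟨a, b, hab⟩ := hx ⟨x, hxD⟩
    exact ⟨a, b, congrArg Subtype.val hab⟩
  choose u w huD hwD hu hw huw hx using hhyp
  have hQuw : ∀ i (a b : F), Q (a • u i + b • w i) = a * b := by
    intro i a b
    rw [Q_add, H95.OGeo.Q_smul, H95.OGeo.Q_smul, hu, hw, p_smul, p_smul', huw]; ring
  have hpuw : ∀ i (a b a' b' : F), polar (⇑Q) (a • u i + b • w i) (a' • u i + b' • w i) = a * b' + b * a' := by
    intro i a b a' b'
    rw [p_add, p_add', p_add', p_smul, p_smul, p_smul, p_smul, p_smul', p_smul', p_smul', p_smul', p_self, p_self, hu, hw,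
      huw, p_comm _ (w i), huw]
    ring
  have horth : ∀ i j, i ≠ j → ∀ x ∈ D i, ∀ y ∈ D j, polar (⇑Q) x y = 0 := fun i j hij x hx y hy =>
    hD.decomp.orthogonal i j hij x hx y hy
  let z : Fin t × Fin 2 → F := fun k => if k.2 = 0 then 1 else ω
  let v : Fin t × Fin 2 → (ι → F) := fun k => z k • u k.1 + (z k * z k) • w k.1
  have hvD : ∀ k, v k ∈ D k.1 := fun k => (D _).add_mem ((D _).smul_mem _ (huD _)) ((D _).smul_mem _ (hwD _))
  have hcomb : ∀ (c : Fin t × Fin 2 → F), ∑ k, c k • v k =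
      ∑ i, ((c (i, 0) + c (i, 1) * ω) • u i + (c (i, 0) + c (i, 1) * (ω * ω)) • w i) := by
    intro c
    rw [Fintype.sum_prod_type]
    refine Finset.sum_congr rfl (fun i _ => ?_)
    rw [Fin.sum_univ_two]
    simp only [v, z, if_true, one_ne_zero, if_false, one_mul]
    module
  have hcD : ∀ (c : Fin t × Fin 2 → F) i,
      (c (i, 0) + c (i, 1) * ω) • u i + (c (i, 0) + c (i, 1) * (ω * ω)) • w i ∈ D i := fun c i =>
    (D _).add_mem ((D _).smul_mem _ (huD _)) ((D _).smul_mem _ (hwD _))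
  have hli : LinearIndependent F v := by
    rw [Fintype.linearIndependent_iff]
    intro c hc
    rw [hcomb] at hc
    have key : ∀ i, ∀ y ∈ D i, polar (⇑Q) ((c (i, 0) + c (i, 1) * ω) • u i + (c (i, 0) + c (i, 1) * (ω * ω)) • w i) y = 0 := by
      intro i y hy
      have h3 : polarBilin Q (∑ i, ((c (i, 0) + c (i, 1) * ω) • u i + (c (i, 0) + c (i, 1) * (ω * ω)) • w i)) y = 0 := by
        rw [hc, map_zero]; rfl
      rw [map_sum, LinearMap.sum_apply, Finset.sum_eq_single i] at h3
      · exact h3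
      · intro j _ hj
        exact horth j i hj _ (hcD c j) y hy
      · intro h; exact absurd (Finset.mem_univ _) h
    have h4 : ∀ i, c (i, 0) = 0 ∧ c (i, 1) = 0 := by
      intro i
      have e1 := key i ((1 : F) • u i + (0 : F) • w i) ((D _).add_mem ((D _).smul_mem _ (huD _)) ((D _).smul_mem _ (hwD _)))
      have e2 := key i ((0 : F) • u i + (1 : F) • w i) ((D _).add_mem ((D _).smul_mem _ (huD _)) ((D _).smul_mem _ (hwD _)))
      rw [hpuw] at e1 e2
      have e3 : (ω * ω - ω) * c (i, 1) = 0 := by linear_combination e1 - e2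
      have e4 := (mul_eq_zero.mp e3).resolve_left hω2
      refine ⟨?_, e4⟩
      rw [e4] at e2
      linear_combination e2
    rintro ⟨i, k⟩
    have hk : k = 0 ∨ k = 1 := (by decide : ∀ i : Fin 2, i = 0 ∨ i = 1) k
    rcases hk with rfl | rfl
    · exact (h4 i).1
    · exact (h4 i).2
  have hcard : Fintype.card ι = Fintype.card (Fin t × Fin 2) := by
    have := H96.OeOmega.card_eq_mul hD.decomp.decomp
    rw [this, Fintype.card_prod, Fintype.card_fin, Fintype.card_fin]
  refine sub_of_family (Fintype.equivOfCardEq hcard) hr (by rw [hF, hc2]; norm_num) v hli (ζ := 1) one_ne_zero ?_ ?_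
  · intro c hc
    rw [one_mul, hcomb, Q_sum _ _ (fun i j hij => horth i j hij _ (hcD c i) _ (hcD c j))]
    apply F₀.sum_mem
    intro i _
    rw [hQuw, hmem]
    have h0 := (hmem _).mp (hc (i, 0))
    have h1 := (hmem _).mp (hc (i, 1))
    have h4 := hpow4 (c (i, 0) + c (i, 1) * ω)
    have h5 : c (i, 0) + c (i, 1) * (ω * ω) = (c (i, 0) + c (i, 1) * ω) * (c (i, 0) + c (i, 1) * ω) := by
      linear_combination -h0 - (ω * ω) * h1 - c (i, 0) * c (i, 1) * ω * h20
    rw [h5]
    linear_combination ((c (i, 0) + c (i, 1) * ω) * (c (i, 0) + c (i, 1) * ω)) * h4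
  · rintro g hg ⟨j, k⟩
    obtain ⟨s, hs⟩ := hHD hg
    have hgD : ∀ x ∈ D j, (g : Matrix ι ι F) *ᵥ x ∈ D (s j) := by
      intro x hx
      rw [← hs]
      exact ⟨x, hx, by rw [Matrix.toLin'_apply]⟩
    -- images lie in the lattice
    obtain ⟨a, b, hab⟩ := hx _ _ (hgD _ (huD j))
    obtain ⟨a', b', hab'⟩ := hx _ _ (hgD _ (hwD j))
    have hab0 : a * b = 0 := by rw [← hQuw (s j), ← hab, mem_iso.mp (hH hg), hu]
    have hab0' : a' * b' = 0 := by rw [← hQuw (s j), ← hab', mem_iso.mp (hH hg), hw]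
    have hab1 : a * b' + b * a' = 1 := by
      have h3 : polar (⇑Q) ((g : Matrix ι ι F) *ᵥ u j) ((g : Matrix ι ι F) *ᵥ w j) = polar (⇑Q) (u j) (w j) :=
        iso_le _ (hH hg) _ _
      rw [← hpuw (s j), ← hab, ← hab', h3, huw]
    have himg : ∀ x : F, ∃ μ : F, (g : Matrix ι ι F) *ᵥ (x • u j + (x * x) • w j) = μ • u (s j) + (μ * μ) • w (s j) := by
      intro x
      have e1 : (g : Matrix ι ι F) *ᵥ (x • u j + (x * x) • w j) =
          (x * a + x * x * a') • u (s j) + (x * b + x * x * b') • w (s j) := by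
        rw [Matrix.mulVec_add, Matrix.mulVec_smul, Matrix.mulVec_smul, hab, hab']
        module
      rcases mul_eq_zero.mp hab0 with h0 | h0
      · -- a = 0
        rw [h0, zero_mul, zero_add] at hab1
        have ha' : a' ≠ 0 := right_ne_zero_of_mul_eq_one hab1
        have hb' : b' = 0 := (mul_eq_zero.mp hab0').resolve_left ha'
        have hb : b = a' * a' := by
          have h3 := hpow4 a'
          apply mul_right_cancel₀ ha'
          have h4 : a' ^ 3 = 1 := by
            apply mul_right_cancel₀ ha'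
            linear_combination h3
          linear_combination hab1 - h4
        refine ⟨x * x * a', ?_⟩
        rw [e1, h0, hb', mul_zero, zero_add, mul_zero, add_zero, hb]
        congr 2
        linear_combination -(a' * a') * hpow4 x
      · rw [h0, zero_mul, add_zero] at hab1
        have hb' : b' ≠ 0 := right_ne_zero_of_mul_eq_one hab1
        have ha' : a' = 0 := (mul_eq_zero.mp hab0').resolve_right hb'
        have ha : a ≠ 0 := left_ne_zero_of_mul_eq_one hab1
        have hb : b' = a * a := by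
          have h3 := hpow4 a
          apply mul_left_cancel₀ ha
          have h4 : a ^ 3 = 1 := by
            apply mul_right_cancel₀ ha
            linear_combination h3
          linear_combination hab1 - h4
        refine ⟨x * a, ?_⟩
        rw [e1, ha', h0, mul_zero, add_zero, mul_zero, zero_add, hb]
        congr 2
        ring
    obtain ⟨μ, hμ⟩ := himg (z (j, k))
    -- coordinates of an element of the lattice
    set c₁ : F := (μ * μ - μ) / (ω * ω - ω) with hc₁
    have hc₁' : c₁ * (ω * ω - ω) = μ * μ - μ := div_mul_cancel₀ _ hω2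
    have hc₁m : c₁ * c₁ = c₁ := by
      have h3 := hpow4 μ
      have h4 := hpow4 ω
      have h5 : (ω * ω - ω) * (ω * ω - ω) = ω * ω - ω := by
        linear_combination h4 + (ω - ω * ω * ω) * h20
      have h6 : (μ * μ - μ) * (μ * μ - μ) = μ * μ - μ := by
        linear_combination h3 + (μ - μ * μ * μ) * h20
      rw [← hc₁'] at h6
      apply mul_right_cancel₀ hω2
      have h7 : c₁ * c₁ * (ω * ω - ω) = c₁ * c₁ * ((ω * ω - ω) * (ω * ω - ω)) := by rw [h5]
      rw [h7]
      linear_combination h6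
    set c₀ : F := μ - c₁ * ω with hc₀
    have hc₀m : c₀ * c₀ = c₀ := by
      rw [hc₀]
      linear_combination (ω * ω) * hc₁m - hc₁' + (-(μ * c₁ * ω) + (ω * ω) * c₁) * h20
    refine ⟨fun k' => if k'.1 = s j then (if k'.2 = 0 then c₀ else c₁) else 0, ?_, ?_⟩
    · rintro ⟨i, k'⟩
      dsimp only
      split_ifs
      · exact (hmem _).mpr hc₀m
      · exact (hmem _).mpr hc₁m
      · exact F₀.zero_mem
    · rw [hcomb, Finset.sum_eq_single (s j)]
      · simp only [if_true, one_ne_zero, if_false]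
        have e1 : c₀ + c₁ * ω = μ := by rw [hc₀]; ring
        have e2 : c₀ + c₁ * (ω * ω) = μ * μ := by rw [hc₀]; linear_combination hc₁'
        rw [e1, e2]
        exact hμ
      · intro i _ hi
        simp only [if_neg hi, zero_mul, add_zero, zero_smul]
      · intro h; exact absurd (Finset.mem_univ _) h

end H96.OeBlk3
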