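import Mathlib
import Cfsg.Agent.Lib.H96.OeBlk3

set_option autoImplicit false
set_option linter.unusedSectionVars false

/-!
Decompositions over the field of two elements: hyperbolic 4-spaces.
-/

namespace H96.OeBlk4

open Module QuadraticMap H48.QuadSplit H48.QuadStd H95.OGeo H96.OeType H96.OeTyp2 H96.OeTyp3 H96.OeOmega H96.OeRed H96.OeMain
open H96.OeSmall H96.OeBlk H96.OeBlk2 Cfsg Cfsg.Geo Matrix

lemma two_vals {F : Type*} [Field F] [Fintype F] (hF : Fintype.card F = 2) (a : F) (ha : a ≠ 0) : a = 1 := by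
  have h3 := FiniteField.pow_card_sub_one_eq_one a ha
  rw [hF] at h3
  simpa using h3

/-- the two anisotropic planes of a hyperbolic 4-space over the field of two elements -/
theorem aniso_split {F : Type*} [Field F] [Fintype F] (hF : Fintype.card F = 2) {V : Type*} [AddCommGroup V] [Module F V]
    [FiniteDimensional F V] {Q : QuadraticForm F V} (hQ : ND Q) (hd : finrank F V = 4) (hp : PT Q) :
    ∃ E : Fin 2 → Submodule F V, (∀ k, finrank F (E k) = 2) ∧ (∀ k, ∀ x ∈ E k, x ≠ 0 → Q x = 1) ∧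
      (∀ k k', k ≠ k' → ∀ x ∈ E k, ∀ y ∈ E k', polar (⇑Q) x y = 0) ∧ (∀ x, ∃ a ∈ E 0, ∃ b ∈ E 1, x = a + b) := by
  have h2 : (2 : F) = 0 := by
    have := Nat.cast_card_eq_zero F
    rw [hF] at this
    exact_mod_cast this
  obtain ⟨ε⟩ := (equiv_of_pt (m := 2) hQ (by rw [hd]) hp).symm
  have hεQ : ∀ x, Q (ε x) = qPlus 2 F x := fun x => ε.map_app x
  let u := ε (Sum.elim ![1, 0] ![1, 0])
  let v := ε (Sum.elim ![0, 1] ![1, 1])
  have hu : Q u = 1 := by
    simp only [u, hεQ, qPlus_apply]; simp [Fin.sum_univ_two]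
  have hv : Q v = 1 := by
    simp only [v, hεQ, qPlus_apply]; simp [Fin.sum_univ_two]
  have huv : polar (⇑Q) u v = 1 := by
    have h3 : Q (u + v) = 1 := by
      have : u + v = ε (Sum.elim ![1, 1] ![1 + 1, 1]) := by
        simp only [u, v]
        rw [← map_add]
        congr 1
        ext i
        rcases i with i | i <;> fin_cases i <;> simp
      rw [this, hεQ, qPlus_apply]
      simp only [Fin.sum_univ_two, Sum.elim_inl, Sum.elim_inr, Matrix.cons_val_zero, Matrix.cons_val_one]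
      linear_combination h2
    rw [QuadraticMap.polar, h3, hu, hv]
    linear_combination -h2
  have hpuu : polar (⇑Q) u u = 0 := by rw [p_self, h2, zero_mul]
  have hpvv : polar (⇑Q) v v = 0 := by rw [p_self, h2, zero_mul]
  let E₀ := Submodule.span F (Set.range ![u, v])
  have hE₀ : ∀ x ∈ E₀, ∃ a b : F, x = a • u + b • v := by
    intro x hx
    obtain ⟨g, hg⟩ := (Submodule.mem_span_range_iff_exists_fun F).mp hx
    exact ⟨g 0, g 1, by rw [← hg, Fin.sum_univ_two]; rfl⟩
  have huE : u ∈ E₀ := Submodule.subset_span ⟨0, rfl⟩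
  have hvE : v ∈ E₀ := Submodule.subset_span ⟨1, rfl⟩
  have hpx : ∀ a b : F, polar (⇑Q) (a • u + b • v) u = b ∧ polar (⇑Q) (a • u + b • v) v = a := by
    intro a b
    constructor
    · rw [p_add, p_smul, p_smul, hpuu, p_comm _ v u, huv]; ring
    · rw [p_add, p_smul, p_smul, hpvv, huv]; ring
  have hli : LinearIndependent F ![u, v] := by
    rw [LinearIndependent.pair_iff]
    intro a b hab
    have h3 := hpx a b
    rw [hab, p_zero, p_zero] at h3
    exact ⟨h3.2.symm, h3.1.symm⟩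
  have hfr₀ : finrank F E₀ = 2 := by
    have := finrank_span_eq_card hli
    rw [Fintype.card_fin] at this
    exact this
  have hQ₀ : ∀ x ∈ E₀, x ≠ 0 → Q x = 1 := by
    intro x hx hx0
    obtain ⟨a, b, rfl⟩ := hE₀ x hx
    rw [Q_add, H95.OGeo.Q_smul, H95.OGeo.Q_smul, hu, hv, p_smul, p_smul', huv]
    by_cases ha : a = 0
    · by_cases hb : b = 0
      · exfalso; apply hx0; rw [ha, hb]; simp
      · rw [ha, two_vals hF b hb]; ring
    · by_cases hb : b = 0
      · rw [hb, two_vals hF a ha]; ring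
      · rw [two_vals hF a ha, two_vals hF b hb]; linear_combination h2
  have hND₀ : ND (Q.restrict E₀) := by
    rintro ⟨x, hx⟩ hxy
    obtain ⟨a, b, rfl⟩ := hE₀ x hx
    have h3 : polar (⇑Q) (a • u + b • v) u = 0 := hxy ⟨u, huE⟩
    have h4 : polar (⇑Q) (a • u + b • v) v = 0 := hxy ⟨v, hvE⟩
    rw [(hpx a b).1] at h3
    rw [(hpx a b).2] at h4
    apply Subtype.ext
    change a • u + b • v = 0
    rw [h3, h4]; simp
  have hnot₀ : ¬ PT (Q.restrict E₀) := by
    rintro ⟨U, hU, hUd⟩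
    rw [hfr₀] at hUd
    obtain ⟨⟨⟨y, hyE⟩, hyU⟩, hy0⟩ := (finrank_pos_iff_exists_ne_zero (R := F) (M := U)).mp (by omega)
    have h3 : Q y = 0 := hU _ hyU
    rw [hQ₀ y hyE (by rintro rfl; exact hy0 (Subtype.ext (Subtype.ext rfl)))] at h3
    exact one_ne_zero h3
  have hsplit := (pt_split_iff (m := 1) (m' := 2) hQ hND₀ (by rw [hfr₀]) (by rw [hd])).mp hp
  have hnot₁ : ¬ PT (Q.restrict (orth Q E₀)) := fun h => hnot₀ (hsplit.mpr h)
  have hfr₁ : finrank F (orth Q E₀) = 2 := by
    have := finrank_orth hQ E₀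
    omega
  have hQ₁ : ∀ x ∈ orth Q E₀, x ≠ 0 → Q x = 1 := by
    intro x hx hx0
    apply two_vals hF
    intro h3
    apply hnot₁
    refine ⟨Submodule.span F {⟨x, hx⟩}, ?_, ?_⟩
    · intro y hy
      obtain ⟨a, rfl⟩ := Submodule.mem_span_singleton.mp hy
      change Q (a • x) = 0
      rw [H95.OGeo.Q_smul, h3, mul_zero]
    · rw [finrank_span_singleton (fun h => hx0 (congrArg Subtype.val h)), hfr₁]
  refine ⟨![E₀, orth Q E₀], ?_, ?_, ?_, ?_⟩
  · intro k; fin_cases k
    · exact hfr₀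
    · exact hfr₁
  · intro k; fin_cases k
    · exact hQ₀
    · exact hQ₁
  · intro k k' hkk x hx y hy
    fin_cases k <;> fin_cases k'
    · exact absurd rfl hkk
    · exact mem_orth.mp hy x hx
    · rw [polar_comm]; exact mem_orth.mp hx y hy
    · exact absurd rfl hkk
  · intro x
    have h3 : x ∈ E₀ ⊔ orth Q E₀ := by rw [(isCompl_orth hND₀).sup_eq_top]; trivial
    obtain ⟨a, ha, b, hb, h⟩ := Submodule.mem_sup.mp h3
    exact ⟨a, ha, b, hb, h.symm⟩

variable {ι : Type} [Fintype ι] [DecidableEq ι] {F : Type*} [Field F] {Q : QuadraticForm F (ι → F)}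

/-- q = 2, hyperbolic 4-spaces -/
theorem planes_two [Fintype F] (hF : Fintype.card F = 2) (hQ : IsNondegenerateQuadraticForm (⇑Q)) {t : ℕ}
    {D : Fin t → Submodule F (ι → F)} (hD : IsOrthogonalMDecomposition (⇑Q) 4 D) (i₀ : Fin t)
    (hp : IsPlusTypeOn (⇑Q) (D i₀)) :
    ∃ D' : Fin (t * 2) → Submodule F (ι → F), IsOrthogonalMDecomposition (⇑Q) 2 D' ∧ (∀ i, ¬ IsPlusTypeOn (⇑Q) (D' i)) ∧
      ∀ g ∈ decompositionStabilizer D, g ∈ isometryGroup F (⇑Q) → g ∈ decompositionStabilizer D' := by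
  classical
  have h2 : (2 : F) = 0 := by
    have := Nat.cast_card_eq_zero F
    rw [hF] at this
    exact_mod_cast this
  obtain ⟨E, hE1, hE2, hE3, hE4⟩ := aniso_split hF (nd_on_iff.mp (hD.decomp.nondegenerate i₀))
    (hD.decomp.decomp.finrank_eq i₀) (plus_iff.mp hp)
  have hE2' : ∀ k, ∀ x ∈ E k, x ≠ 0 → Q (x : ι → F) = 1 := hE2
  have key : ∀ x : D i₀, Q (x : ι → F) = 1 → x ∈ E 0 ∨ x ∈ E 1 := by
    intro x hx
    obtain ⟨a, ha, b, hb, rfl⟩ := hE4 x
    by_cases ha0 : a = 0
    · right; rw [ha0, zero_add]; exact hb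
    · by_cases hb0 : b = 0
      · left; rw [hb0, add_zero]; exact ha
      · exfalso
        rw [Submodule.coe_add, Q_add, hE2' 0 a ha ha0, hE2' 1 b hb hb0] at hx
        have h3 : polar (⇑Q) (a : ι → F) (b : ι → F) = 0 := hE3 0 1 (by decide) a ha b hb
        rw [h3] at hx
        exact one_ne_zero (α := F) (by linear_combination hx)
  have hnotboth : ∀ x : D i₀, x ∈ E 0 → x ∈ E 1 → x = 0 := by
    intro x h0 h1
    by_contra hx0
    have h3 : ∀ y, polar (⇑(Q.restrict (D i₀))) x y = 0 := by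
      intro y
      obtain ⟨a, ha, b, hb, rfl⟩ := hE4 y
      rw [p_add', hE3 1 0 (by decide) x h1 a ha, hE3 0 1 (by decide) x h0 b hb, add_zero]
    exact hx0 (nd_on_iff.mp (hD.decomp.nondegenerate i₀) x h3)
  obtain ⟨D', hD', hDE, hst⟩ := OeBlk.refine hQ hD i₀ (s := 2) (m' := 2) (by norm_num) (by norm_num) E hE1
    (by
      intro k x hx hx0
      by_contra hcon
      push Not at hcon
      have h3 : ∀ y, polar (⇑(Q.restrict (D i₀))) x y = 0 := by
        intro y
        obtain ⟨a, ha, b, hb, rfl⟩ := hE4 y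
        rw [p_add']
        have hk : k = 0 ∨ k = 1 := (by decide : ∀ i : Fin 2, i = 0 ∨ i = 1) k
        rcases hk with rfl | rfl
        · have e1 : polar (⇑(Q.restrict (D i₀))) x a = 0 := hcon a ha
          rw [e1, hE3 0 1 (by decide) x hx b hb, add_zero]
        · have e1 : polar (⇑(Q.restrict (D i₀))) x b = 0 := hcon b hb
          rw [e1, hE3 1 0 (by decide) x hx a ha, add_zero]
      exact hx0 (nd_on_iff.mp (hD.decomp.nondegenerate i₀) x h3))
    (fun k k' hkk x hx y hy => hE3 k k' hkk x hx y hy)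
    (by
      intro k k'
      have hfree : ∀ k, Module.Free F (E k) := fun k => Module.Free.of_divisionRing F (E k)
      obtain ⟨δ⟩ := FiniteDimensional.nonempty_linearEquiv_of_finrank_eq (R := F) (M := E k) (M' := E k')
        ((hE1 k).trans (hE1 k').symm)
      refine ⟨δ, fun x => ?_⟩
      by_cases hx : x = 0
      · rw [hx, map_zero]; rfl
      · have h3 : (x : D i₀) ≠ 0 := fun h => hx (Subtype.ext h)
        rw [hE2' k x x.2 h3]
        apply hE2' k' _ (Subtype.prop _)
        intro h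
        exact hx ((LinearEquiv.map_eq_zero_iff _).mp (Subtype.ext h)))
    (by
      rw [eq_top_iff]
      intro x _
      obtain ⟨a, ha, b, hb, rfl⟩ := hE4 x
      exact Submodule.add_mem _ (Submodule.mem_iSup_of_mem 0 ha) (Submodule.mem_iSup_of_mem 1 hb))
    (by
      intro ρ hρ k
      by_contra hcon
      push Not at hcon
      obtain ⟨x, hx, hx0⟩ := hcon 0
      obtain ⟨y, hy, hy1⟩ := hcon 1
      have hxne : x ≠ 0 := by rintro rfl; exact hx0 (by rw [map_zero]; exact Submodule.zero_mem _)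
      have hyne : y ≠ 0 := by rintro rfl; exact hy1 (by rw [map_zero]; exact Submodule.zero_mem _)
      have hx1 := (key (ρ x) (by rw [hρ, hE2' k x hx hxne])).resolve_left hx0
      have hy0 := (key (ρ y) (by rw [hρ, hE2' k y hy hyne])).resolve_right hy1
      have hxy : x + y ≠ 0 := by
        intro h
        have h3 : y = -x := (neg_eq_of_add_eq_zero_right h).symm
        apply hy1
        rw [h3, map_neg]
        exact Submodule.neg_mem _ hx1
      have h3 := hE2' k (x + y) ((E k).add_mem hx hy) hxy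
      rw [← hρ, map_add, Submodule.coe_add, Q_add] at h3
      have h4 : polar (⇑Q) (ρ x : ι → F) (ρ y : ι → F) = 0 := hE3 1 0 (by decide) _ hx1 _ hy0
      rw [h4, hρ, hρ, hE2' k x hx hxne, hE2' k y hy hyne] at h3
      exact one_ne_zero (α := F) (by linear_combination h2 - h3))
  refine ⟨D', hD', ?_, hst⟩
  rintro p ⟨U, hUle, hU, hUd⟩
  rw [hD'.decomp.decomp.finrank_eq] at hUd
  obtain ⟨k, ε, hε⟩ := hDE p
  obtain ⟨⟨y, hyU⟩, hy0⟩ := (finrank_pos_iff_exists_ne_zero (R := F) (M := U)).mp (by omega)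
  have hyne : y ≠ 0 := fun h => hy0 (Subtype.ext h)
  obtain ⟨x, hx⟩ := ε.surjective ⟨y, hUle hyU⟩
  have hxne : (x : D i₀) ≠ 0 := by
    intro h
    apply hyne
    have h3 : x = 0 := Subtype.ext h
    rw [h3, map_zero] at hx
    exact (congrArg Subtype.val hx).symm
  have h3 := hε x
  rw [hx, hE2' k x x.2 hxne] at h3
  have h4 := hU y hyU
  change Q y = 1 at h3
  rw [h3] at h4
  exact one_ne_zero h4

end H96.OeBlk4
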