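import Mathlib
import Cfsg.Agent.Lib.H96.OeBlk4

set_option autoImplicit false
set_option linter.unusedSectionVars false

/-!
Types of orthogonal sums inside a quadratic space.
-/

namespace H96.OeSum

open Module QuadraticMap H48.QuadSplit H48.QuadStd H95.OGeo H96.OeType H96.OeTyp2 H96.OeTyp3 H96.OeOmega H96.OeRed H96.OeMain
open H96.OeSmall H96.OeBlk H96.OeBlk2 Cfsg Cfsg.Geo Matrix

universe u

section Abs
variable {F : Type*} [Field F] {V : Type u} [AddCommGroup V] [Module F V] [FiniteDimensional F V] {Q : QuadraticForm F V}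

lemma disj_of_orth {W₁ W₂ : Submodule F V} (h1 : ND (Q.restrict W₁)) (horth : ∀ x ∈ W₁, ∀ y ∈ W₂, polar (⇑Q) x y = 0) :
    Disjoint W₁ W₂ := by
  rw [Submodule.disjoint_def]
  intro x hx hx'
  have := h1 ⟨x, hx⟩ (fun y => by
    change polar (⇑Q) x (y : V) = 0
    rw [polar_comm]; exact horth y y.2 x hx')
  exact congrArg Subtype.val this

/-- the orthogonal sum of two subspaces -/
theorem sup_equiv {W₁ W₂ : Submodule F V} (h1 : ND (Q.restrict W₁)) (horth : ∀ x ∈ W₁, ∀ y ∈ W₂, polar (⇑Q) x y = 0) :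
    ((Q.restrict W₁).prod (Q.restrict W₂)).Equivalent (Q.restrict (W₁ ⊔ W₂)) := by
  have hdis := disj_of_orth h1 horth
  let φ : (W₁ × W₂) →ₗ[F] ↥(W₁ ⊔ W₂) :=
    LinearMap.coprod (Submodule.inclusion le_sup_left) (Submodule.inclusion le_sup_right)
  have hφ : ∀ x, (φ x : V) = (x.1 : V) + (x.2 : V) := fun x => rfl
  have hinj : Function.Injective φ := by
    rw [injective_iff_map_eq_zero]
    rintro ⟨x, y⟩ h
    have h3 : (x : V) + (y : V) = 0 := by rw [← hφ (x, y), h]; rfl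
    have h4 : (x : V) = 0 := by
      apply Submodule.disjoint_def.mp hdis _ x.2
      rw [eq_neg_of_add_eq_zero_left h3]
      exact W₂.neg_mem y.2
    rw [h4, zero_add] at h3
    exact Prod.ext (Subtype.ext h4) (Subtype.ext h3)
  have hsurj : Function.Surjective φ := by
    rintro ⟨v, hv⟩
    obtain ⟨a, ha, b, hb, rfl⟩ := Submodule.mem_sup.mp hv
    exact ⟨(⟨a, ha⟩, ⟨b, hb⟩), Subtype.ext rfl⟩
  refine ⟨⟨LinearEquiv.ofBijective φ ⟨hinj, hsurj⟩, fun x => ?_⟩⟩
  change Q ((x.1 : V) + (x.2 : V)) = Q x.1 + Q x.2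
  exact map_add_of_orth (horth _ x.1.2 _ x.2.2)

lemma finrank_sup_eq {W₁ W₂ : Submodule F V} (h1 : ND (Q.restrict W₁)) (horth : ∀ x ∈ W₁, ∀ y ∈ W₂, polar (⇑Q) x y = 0) :
    finrank F ↥(W₁ ⊔ W₂) = finrank F W₁ + finrank F W₂ := by
  have := Submodule.finrank_sup_add_finrank_inf_eq W₁ W₂
  rw [(disj_of_orth h1 horth).eq_bot, finrank_bot, add_zero] at this
  exact this

lemma nd_sup {W₁ W₂ : Submodule F V} (h1 : ND (Q.restrict W₁)) (h2 : ND (Q.restrict W₂))
    (horth : ∀ x ∈ W₁, ∀ y ∈ W₂, polar (⇑Q) x y = 0) : ND (Q.restrict (W₁ ⊔ W₂)) :=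
  nd_of_equivalent (sup_equiv h1 horth) (nd_prod.2 ⟨h1, h2⟩)

theorem pt_sup_iff [Finite F] {W₁ W₂ : Submodule F V} (h1 : ND (Q.restrict W₁)) (h2 : ND (Q.restrict W₂))
    (horth : ∀ x ∈ W₁, ∀ y ∈ W₂, polar (⇑Q) x y = 0) {m m' : ℕ} (hm : finrank F W₁ = 2 * m) (hm' : finrank F W₂ = 2 * m') :
    PT (Q.restrict (W₁ ⊔ W₂)) ↔ (PT (Q.restrict W₁) ↔ PT (Q.restrict W₂)) := by
  rw [← pt_iff_of_equiv (sup_equiv h1 horth)]
  exact pt_prod_iff h1 h2 hm hm'

lemma pt_top : PT (Q.restrict ⊤) ↔ PT Q := by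
  apply pt_iff_of_equiv
  exact ⟨⟨Submodule.topEquiv, fun x => rfl⟩⟩

lemma nd_bot : ND (Q.restrict ⊥) := by
  rintro ⟨x, hx⟩ _
  exact Subtype.ext ((Submodule.mem_bot F).mp hx)

lemma pt_bot : PT (Q.restrict (⊥ : Submodule F V)) := by
  refine ⟨⊤, ?_, ?_⟩
  · rintro ⟨x, hx⟩ _
    change Q x = 0
    rw [(Submodule.mem_bot F).mp hx, QuadraticMap.map_zero]
  · rw [finrank_top, finrank_bot]

end Abs

variable {ι : Type} [Fintype ι] [DecidableEq ι] {F : Type*} [Field F] {Q : QuadraticForm F (ι → F)}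

/-- the type of an orthogonal decomposition into isometric even-dimensional blocks -/
theorem type_sum [Finite F] {t m m' : ℕ} (hm : m = 2 * m') {D : Fin t → Submodule F (ι → F)}
    (hD : IsOrthogonalMDecomposition (⇑Q) m D) (i₀ : Fin t) (S : Finset (Fin t)) :
    ND (Q.restrict (⨆ i ∈ S, D i)) ∧ finrank F ↥(⨆ i ∈ S, D i) = 2 * (S.card * m') ∧
      (PT (Q.restrict (⨆ i ∈ S, D i)) ↔ (IsPlusTypeOn (⇑Q) (D i₀) ∨ Even S.card)) := by
  classical
  have htype : ∀ i, IsPlusTypeOn (⇑Q) (D i) ↔ IsPlusTypeOn (⇑Q) (D i₀) := by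
    intro i
    rw [plus_iff, plus_iff]
    obtain ⟨e, he⟩ := hD.isometric i i₀
    exact pt_iff_of_equiv ⟨⟨e, fun x => he x⟩⟩
  induction S using Finset.induction_on with
  | empty =>
    have h1 : (⨆ i ∈ (∅ : Finset (Fin t)), D i) = ⊥ := by simp
    rw [h1]
    refine ⟨nd_bot, by rw [finrank_bot]; simp, ?_⟩
    constructor
    · intro _; right; simp
    · intro _; exact pt_bot
  | insert a S ha ih =>
    obtain ⟨ih1, ih2, ih3⟩ := ih
    rw [Finset.iSup_insert]
    have horth : ∀ x ∈ D a, ∀ y ∈ (⨆ i ∈ S, D i), polar (⇑Q) x y = 0 := by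
      intro x hx y hy
      have hle : (⨆ i ∈ S, D i) ≤ LinearMap.ker (polarBilin Q x) := by
        apply iSup₂_le
        intro i hi z hz
        exact hD.decomp.orthogonal a i (fun h => ha (h ▸ hi)) x hx z hz
      exact hle hy
    have hnda := nd_on_iff.mp (hD.decomp.nondegenerate a)
    have hfa := hD.decomp.decomp.finrank_eq a
    refine ⟨nd_sup hnda ih1 horth, ?_, ?_⟩
    · rw [finrank_sup_eq hnda horth, hfa, ih2, Finset.card_insert_of_notMem ha, hm]; ring
    · rw [pt_sup_iff hnda ih1 horth (by rw [hfa, hm]) ih2, ih3, ← plus_iff, htype a, Finset.card_insert_of_notMem ha,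
        Nat.even_add_one]
      tauto

/-- an odd number of blocks has the type of a block -/
theorem type_odd [Finite F] {t m m' : ℕ} (hm : m = 2 * m') (ht : Odd t) {D : Fin t → Submodule F (ι → F)}
    (hD : IsOrthogonalMDecomposition (⇑Q) m D) (i₀ : Fin t) : IsPlusTypeOn (⇑Q) ⊤ ↔ IsPlusTypeOn (⇑Q) (D i₀) := by
  obtain ⟨-, -, h⟩ := type_sum hm hD i₀ Finset.univ
  have h1 : (⨆ i ∈ (Finset.univ : Finset (Fin t)), D i) = ⊤ := by
    rw [← hD.decomp.decomp.iSup_eq_top]; simp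
  rw [h1, Finset.card_univ, Fintype.card_fin] at h
  rw [plus_iff, h]
  constructor
  · rintro (h | h)
    · exact h
    · exact absurd ht (Nat.not_odd_iff_even.mpr h)
  · exact Or.inl

/-- a nondegenerate subspace of half dimension and its complement -/
theorem half_pair (hQ : IsNondegenerateQuadraticForm (⇑Q)) {W : Submodule F (ι → F)} {m : ℕ} (hm : 0 < m)
    (hd : finrank F W = m) (hc : Fintype.card ι = 2 * m) (hW : IsNondegenerateOn (polar (⇑Q)) W) {H : Subgroup (GL ι F)}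
    (hH : H ≤ isometryGroup F (⇑Q)) (hHW : H ≤ subspaceStabilizer W) :
    IsNondegenerateMDecomposition (polar (⇑Q)) m ![W, orth Q W] ∧ H ≤ decompositionStabilizer ![W, orth Q W] := by
  have h := q_hform hQ
  have hW0 : W ≠ ⊥ := by rintro rfl; rw [finrank_bot] at hd; omega
  have hperp : h.perp W = orth Q W := by
    ext v
    rw [h.mem_perp', mem_orth]
  have := h.decomp_of_half hW0 (h.inf_of_nondegOn hW) (by rw [hd, hc]) (hH.trans (iso_le (⇑Q))) hHW
  rw [hperp, hd] at this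
  exact this

/-- in even dimension 2m with m even: type plus gives isometric halves -/
theorem half_iso [Finite F] (hQ : IsNondegenerateQuadraticForm (⇑Q)) {W : Submodule F (ι → F)} {m : ℕ}
    (hd : finrank F W = 2 * m) (hc : Fintype.card ι = 4 * m) (hW : IsNondegenerateOn (polar (⇑Q)) W)
    (hp : IsPlusTypeOn (⇑Q) ⊤) : AreIsometricFor (⇑Q) W (orth Q W) := by
  have hND := isND hQ
  have hW' := nd_on_iff.mp hW
  have h1 := (pt_split_iff (m := m) (m' := 2 * m) hND hW' hd (by rw [finrank_fintype_fun_eq_card, hc]; ring)).mp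
    (pt_top.mp (plus_iff.mp hp))
  have h2 := finrank_orth hND W
  rw [finrank_fintype_fun_eq_card, hc] at h2
  obtain ⟨e⟩ := equiv_of_same (m := m) hW' (nd_orth hND hW') hd (by omega) h1
  exact ⟨e.toLinearEquiv, fun w => e.map_app w⟩

lemma iso_decomp {m : ℕ} {W W' : Submodule F (ι → F)} (h : IsNondegenerateMDecomposition (polar (⇑Q)) m ![W, W'])
    (hi : AreIsometricFor (⇑Q) W W') : IsOrthogonalMDecomposition (⇑Q) m ![W, W'] := by
  refine ⟨h, ?_⟩
  have hs : AreIsometricFor (⇑Q) W' W := by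
    obtain ⟨e, he⟩ := hi
    exact ⟨e.symm, fun w => by rw [← he, LinearEquiv.apply_symm_apply]⟩
  have hr : ∀ U : Submodule F (ι → F), AreIsometricFor (⇑Q) U U := fun U => ⟨LinearEquiv.refl F _, fun w => rfl⟩
  intro i j
  fin_cases i <;> fin_cases j
  · exact hr W
  · exact hi
  · exact hs
  · exact hr W'

end H96.OeSum
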