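import Mathlib
import Cfsg.Agent.Lib.H96.OeSum

set_option autoImplicit false
set_option linter.unusedSectionVars false

/-!
Orthogonal sums of two odd-dimensional spaces of the same dimension.
-/

namespace H96.OePair

open Module QuadraticMap H48.QuadSplit H48.QuadStd H95.OGeo H96.OeType H96.OeTyp2 H96.OeTyp3 H96.OeOmega H96.OeRed H96.OeMain
open H96.OeSmall H96.OeBlk H96.OeBlk2 H96.OeSum Cfsg Cfsg.Geo Matrix

universe u

section Abs
variable {F : Type*} [Field F]

lemma qUn_equiv_iff {c c' : F} (hc : c ≠ 0) (hc' : c' ≠ 0) : (qUn c).Equivalent (qUn c') ↔ IsSquare (c * c') := by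
  constructor
  · rintro ⟨e⟩
    have h := e.map_app 1
    rw [qUn_apply, qUn_apply] at h
    exact ⟨c' * e 1, by linear_combination (-c') * h⟩
  · rintro ⟨s, hs⟩
    have hs0 : s ≠ 0 := by
      rintro rfl
      rw [mul_zero] at hs
      exact mul_ne_zero hc hc' hs
    refine ⟨⟨LinearEquiv.smulOfNeZero F F (c / s) (div_ne_zero hc hs0), fun x => ?_⟩⟩
    change qUn c' ((c / s) • x) = qUn c x
    rw [qUn_apply, qUn_apply, smul_eq_mul]
    field_simp
    linear_combination (x ^ 2) * hs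

lemma qOdd_equiv_iff {m : ℕ} {c c' : F} (hc : c ≠ 0) (hc' : c' ≠ 0) (h2 : (2 : F) ≠ 0) :
    (qOdd m F c).Equivalent (qOdd m F c') ↔ IsSquare (c * c') := by
  rw [← qUn_equiv_iff hc hc']
  constructor
  · intro h
    have h1 : ((qPlus m F).prod (qUn c)).Equivalent ((qPlus m F).prod (qUn c')) :=
      (prod_comm_equiv _ _).trans (((qOdd_equiv m c).symm.trans (h.trans (qOdd_equiv m c'))).trans (prod_comm_equiv _ _))
    exact cancel (nd_qPlus m) (nd_qUn h2 hc') h1
  · intro h
    exact (qOdd_equiv m c).trans ((h.prod (Equivalent.refl _)).trans (qOdd_equiv m c').symm)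

lemma pt_qUn_iff {c c' : F} (hc : c ≠ 0) (hc' : c' ≠ 0) : PT ((qUn c).prod (qUn c')) ↔ IsSquare (-(c * c')) := by
  constructor
  · rintro ⟨U, hU, hd⟩
    rw [finrank_prod, finrank_self] at hd
    obtain ⟨⟨⟨x, y⟩, hxy⟩, h0⟩ := (finrank_pos_iff_exists_ne_zero (R := F) (M := U)).mp (by omega)
    have h1 := hU _ hxy
    rw [QuadraticMap.prod_apply, qUn_apply, qUn_apply] at h1
    have h1 : c * x ^ 2 + c' * y ^ 2 = 0 := h1
    have hy : y ≠ 0 := by
      rintro rfl
      have hx : x = 0 := by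
        have h2 : c * x ^ 2 = 0 := by linear_combination h1
        rcases mul_eq_zero.mp h2 with h3 | h3
        · exact absurd h3 hc
        · exact pow_eq_zero_iff (two_ne_zero) |>.mp h3
      exact h0 (Subtype.ext (Prod.ext hx rfl))
    refine ⟨c * x / y, ?_⟩
    field_simp
    linear_combination -h1
  · rintro ⟨s, hs⟩
    have hv : ((s, c) : F × F) ≠ 0 := fun h => hc (Prod.ext_iff.mp h).2
    refine ⟨Submodule.span F {(s, c)}, ?_, ?_⟩
    · intro v hv'
      obtain ⟨a, rfl⟩ := Submodule.mem_span_singleton.mp hv'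
      rw [QuadraticMap.map_smul, QuadraticMap.prod_apply, qUn_apply, qUn_apply]
      have : c * s ^ 2 + c' * c ^ 2 = 0 := by linear_combination (-c) * hs
      change (a * a) * (c * s ^ 2 + c' * c ^ 2) = 0
      rw [this, mul_zero]
    · rw [finrank_span_singleton hv, finrank_prod, finrank_self]

theorem pt_odd_prod [Finite F] {m : ℕ} {c c' : F} (hc : c ≠ 0) (hc' : c' ≠ 0) (h2 : (2 : F) ≠ 0) :
    PT ((qOdd m F c).prod (qOdd m F c')) ↔ IsSquare (-(c * c')) := by
  have h1 : ((qOdd m F c).prod (qOdd m F c')).Equivalent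
      (((qUn c).prod (qUn c')).prod ((qPlus m F).prod (qPlus m F))) := by
    refine ((qOdd_equiv m c).prod (qOdd_equiv m c')).trans ?_
    exact ⟨⟨LinearEquiv.prodProdProdComm F _ _ _ _, fun x => by
      obtain ⟨⟨a, b⟩, c1, d⟩ := x
      change (qUn c a + qUn c' c1) + (qPlus m F b + qPlus m F d) = (qUn c a + qPlus m F b) + (qUn c' c1 + qPlus m F d)
      ring⟩⟩
  rw [pt_iff_of_equiv h1, pt_prod_iff (m := 1) (m' := 2 * m) (nd_prod.2 ⟨nd_qUn h2 hc, nd_qUn h2 hc'⟩)
    (nd_prod.2 ⟨nd_qPlus m, nd_qPlus m⟩) (by rw [finrank_prod, finrank_self]) (by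
      rw [finrank_prod, finrank_fintype_fun_eq_card, Fintype.card_sum, Fintype.card_fin]; ring), pt_qUn_iff hc hc']
  have h3 : PT ((qPlus m F).prod (qPlus m F)) := (pt_qPlus m).prod (pt_qPlus m)
  tauto

lemma sq_of_nonsq [Fintype F] (h2 : (2 : F) ≠ 0) {a b : F} (ha : ¬ IsSquare a) (hb : ¬ IsSquare b) : IsSquare (a * b) := by
  classical
  have hF : ringChar F ≠ 2 := by
    intro h
    apply h2
    have := ringChar.Nat.cast_ringChar (R := F)
    rw [h] at this
    exact_mod_cast this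
  have ha0 : a ≠ 0 := by rintro rfl; exact ha (IsSquare.zero)
  have hb0 : b ≠ 0 := by rintro rfl; exact hb (IsSquare.zero)
  rw [FiniteField.isSquare_iff hF (mul_ne_zero ha0 hb0), mul_pow]
  rw [FiniteField.isSquare_iff hF ha0] at ha
  rw [FiniteField.isSquare_iff hF hb0] at hb
  rw [(FiniteField.pow_dichotomy hF ha0).resolve_left ha, (FiniteField.pow_dichotomy hF hb0).resolve_left hb]
  ring

end Abs

variable {ι : Type} [Fintype ι] [DecidableEq ι] {F : Type*} [Field F] {Q : QuadraticForm F (ι → F)}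

/-- halves of odd dimension -/
theorem half_odd [Fintype F] (hQ : IsNondegenerateQuadraticForm (⇑Q)) {W : Submodule F (ι → F)} {m : ℕ}
    (hd : finrank F W = 2 * m + 1) (hc : Fintype.card ι = 2 * (2 * m + 1)) (hW : IsNondegenerateOn (polar (⇑Q)) W) :
    (IsSquare (-1 : F) → (AreIsometricFor (⇑Q) W (orth Q W) ↔ IsPlusTypeOn (⇑Q) ⊤)) ∧
    (¬ IsSquare (-1 : F) → (AreIsometricFor (⇑Q) W (orth Q W) ↔ ¬ IsPlusTypeOn (⇑Q) ⊤)) := by
  have hND := isND hQ
  have hW' := nd_on_iff.mp hW
  have hfr := finrank_orth hND W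
  rw [finrank_fintype_fun_eq_card] at hfr
  obtain ⟨h2, c, hc0, h1⟩ := classify_odd m W (Q.restrict W) hW' hd
  obtain ⟨-, c', hc0', h1'⟩ := classify_odd m (orth Q W) (Q.restrict (orth Q W)) (nd_orth hND hW') (by omega)
  have hiso : AreIsometricFor (⇑Q) W (orth Q W) ↔ IsSquare (c * c') := by
    rw [← qOdd_equiv_iff (m := m) hc0 hc0' h2]
    constructor
    · rintro ⟨e, he⟩
      exact h1.symm.trans (Equivalent.trans ⟨⟨e, fun x => he x⟩⟩ h1')
    · intro h
      obtain ⟨e⟩ := h1.trans (h.trans h1'.symm)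
      exact ⟨e.toLinearEquiv, fun w => e.map_app w⟩
  have hplus : IsPlusTypeOn (⇑Q) ⊤ ↔ IsSquare (-(c * c')) := by
    rw [plus_iff, pt_top, ← pt_odd_prod (m := m) hc0 hc0' h2]
    obtain ⟨e, he, heQ⟩ := ortho_split hW'
    have h3 : ((Q.restrict W).prod (Q.restrict (orth Q W))).Equivalent Q := ⟨⟨e, heQ⟩⟩
    exact pt_iff_of_equiv (h3.symm.trans (h1.prod h1'))
  rw [hiso, hplus]
  have hcc : c * c' ≠ 0 := mul_ne_zero hc0 hc0'
  have e1 : -(c * c') = (-1) * (c * c') := by ring
  constructor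
  · intro hs
    constructor
    · intro h; rw [e1]; exact hs.mul h
    · intro h
      have : c * c' = (-1) * (-(c * c')) := by ring
      rw [this]; exact hs.mul h
  · intro hs
    constructor
    · intro h h'
      apply hs
      have : (-1 : F) = (-(c * c')) * (c * c')⁻¹ := by field_simp
      rw [this]
      exact h'.mul h.inv
    · intro h
      have : c * c' = (-1) * (-(c * c')) := by ring
      rw [this]
      exact sq_of_nonsq h2 hs h

end H96.OePair
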