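import Mathlib
import Cfsg.Agent.Lib.H96.OePair

set_option autoImplicit false
set_option linter.unusedSectionVars false

/-!
Extension fields acting on quadratic spaces.
-/

namespace H96.OeFld

open Module QuadraticMap H48.QuadSplit H48.QuadStd H95.OGeo H96.OeType H96.OeTyp2 H96.OeTyp3 H96.OeOmega H96.OeRed H96.OeMain
open H96.OeSmall H96.OeBlk H96.OeBlk2 H96.OeSum Cfsg Cfsg.Geo Matrix

variable {ι : Type} [Fintype ι] [DecidableEq ι] {F : Type*} [Field F] {Q : QuadraticForm F (ι → F)}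

/-- the map `k ↦ k v` -/
def kmap (K : Subalgebra F (Matrix ι ι F)) (v : ι → F) : K →ₗ[F] (ι → F) where
  toFun k := (k : Matrix ι ι F) *ᵥ v
  map_add' a b := by rw [AddMemClass.coe_add, Matrix.add_mulVec]
  map_smul' c a := by
    change (c • (a : Matrix ι ι F)) *ᵥ v = _
    rw [Matrix.smul_mulVec]; rfl

/-- the K-line through v -/
def kline (K : Subalgebra F (Matrix ι ι F)) (v : ι → F) : Submodule F (ι → F) := LinearMap.range (kmap K v)

lemma mem_kline {K : Subalgebra F (Matrix ι ι F)} {v x : ι → F} : x ∈ kline K v ↔ ∃ k ∈ K, k *ᵥ v = x := by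
  constructor
  · rintro ⟨k, rfl⟩
    exact ⟨k, k.2, rfl⟩
  · rintro ⟨k, hk, rfl⟩
    exact ⟨⟨k, hk⟩, rfl⟩

lemma self_mem (K : Subalgebra F (Matrix ι ι F)) (v : ι → F) : v ∈ kline K v :=
  mem_kline.mpr ⟨1, K.one_mem, Matrix.one_mulVec v⟩

lemma smul_mem {K : Subalgebra F (Matrix ι ι F)} {v x : ι → F} {k : Matrix ι ι F} (hk : k ∈ K) (hx : x ∈ kline K v) :
    k *ᵥ x ∈ kline K v := by
  obtain ⟨l, hl, rfl⟩ := mem_kline.mp hx
  exact mem_kline.mpr ⟨k * l, K.mul_mem hk hl, by rw [Matrix.mulVec_mulVec]⟩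

lemma kline_le {K : Subalgebra F (Matrix ι ι F)} {v : ι → F} {W : Submodule F (ι → F)} (hW : ∀ k ∈ K, ∀ w ∈ W, k *ᵥ w ∈ W)
    (hv : v ∈ W) : kline K v ≤ W := by
  intro x hx
  obtain ⟨l, hl, rfl⟩ := mem_kline.mp hx
  exact hW l hl v hv

variable {r : ℕ} {K : Subalgebra F (Matrix ι ι F)}

lemma exists_inv (hK : IsFieldSubalgebra r K) {k : Matrix ι ι F} (hk : k ∈ K) (h0 : k ≠ 0) :
    ∃ y ∈ K, k * y = 1 ∧ y * k = 1 := by
  obtain ⟨y, hy, h⟩ := hK.inv k hk h0
  exact ⟨y, hy, h, by rw [hK.comm y hy k hk, h]⟩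

lemma kmap_injective (hK : IsFieldSubalgebra r K) {v : ι → F} (hv : v ≠ 0) : Function.Injective (kmap K v) := by
  rw [injective_iff_map_eq_zero]
  intro k hk
  by_contra h0
  obtain ⟨y, hy, -, hyk⟩ := exists_inv hK k.2 (fun h => h0 (Subtype.ext h))
  apply hv
  have h1 : (k : Matrix ι ι F) *ᵥ v = 0 := hk
  rw [← Matrix.one_mulVec v, ← hyk, ← Matrix.mulVec_mulVec, h1, Matrix.mulVec_zero]

lemma finrank_kline (hK : IsFieldSubalgebra r K) {v : ι → F} (hv : v ≠ 0) : finrank F (kline K v) = r := by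
  rw [kline, LinearMap.finrank_range_of_inj (kmap_injective hK hv), hK.finrank_eq]

lemma ne_of_pos (hQ : ND Q) {W : Submodule F (ι → F)} (hW : ND (Q.restrict W)) (hpos : 0 < finrank F W) :
    ∃ v ∈ W, Q v ≠ 0 := by
  by_contra hcon
  push Not at hcon
  obtain ⟨x, hx⟩ := (finrank_pos_iff_exists_ne_zero (R := F) (M := W)).mp hpos
  apply hx
  apply hW
  intro y
  change Q ((x : ι → F) + (y : ι → F)) - Q x - Q y = 0
  rw [hcon _ (W.add_mem x.2 y.2), hcon _ x.2, hcon _ y.2]; ring

/-- the type of a quadratic space with a unitary structure -/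
theorem type_unitary [Fintype F] (hQ : IsNondegenerateQuadraticForm (⇑Q)) {m : ℕ} (hc : Fintype.card ι = 2 * m)
    (hK : IsFieldSubalgebra 2 K) (hadj : IsAdjointClosedFor (polar (⇑Q)) K) (hns : ¬ IsSelfAdjointFor (polar (⇑Q)) K)
    (hsim : ∀ k ∈ K, ∃ c : F, ∀ v, Q (k *ᵥ v) = c * Q v) : IsPlusTypeOn (⇑Q) ⊤ ↔ Even m := by
  classical
  have hND := isND hQ
  -- an element giving a nonzero multiple
  obtain ⟨k₀, hk₀, t, ht0, ht⟩ : ∃ k₀ ∈ K, ∃ t : F, t ≠ 0 ∧ ∀ v, polar (⇑Q) v (k₀ *ᵥ v) = t * Q v := by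
    by_contra hcon
    push Not at hcon
    have hz : ∀ k ∈ K, ∀ v, polar (⇑Q) v (k *ᵥ v) = 0 := by
      intro k hk
      obtain ⟨c, hc⟩ := hsim k hk
      obtain ⟨c', hc'⟩ := hsim (1 + k) (K.add_mem K.one_mem hk)
      have h1 : ∀ v, polar (⇑Q) v (k *ᵥ v) = (c' - 1 - c) * Q v := by
        intro v
        have h2 := hc' v
        rw [Matrix.add_mulVec, Matrix.one_mulVec] at h2
        rw [QuadraticMap.polar, h2, hc]; ring
      by_cases h3 : c' - 1 - c = 0
      · intro v; rw [h1, h3, zero_mul]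
      · exfalso
        obtain ⟨v, hv⟩ := hcon k hk _ h3
        exact hv (h1 v)
    have hz2 : ∀ k ∈ K, ∀ u v, polar (⇑Q) u (k *ᵥ v) = - polar (⇑Q) (k *ᵥ u) v := by
      intro k hk u v
      have h1 := hz k hk (u + v)
      rw [Matrix.mulVec_add, p_add, p_add', p_add', hz k hk, hz k hk] at h1
      rw [p_comm _ (k *ᵥ u) v]
      linear_combination h1
    apply hns
    have h20 : ∀ u v, polar (⇑Q) u v = - polar (⇑Q) u v := by
      intro u v
      have := hz2 1 K.one_mem u v
      rwa [Matrix.one_mulVec, Matrix.one_mulVec] at this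
    intro k hk u v
    rw [hz2 k hk u v]
    exact h20 _ _
  have hsing : ∀ v, Q v ≠ 0 → ∀ x ∈ kline K v, x ≠ 0 → Q x ≠ 0 := by
    intro v hv x hx hx0 hQx
    obtain ⟨k, hk, rfl⟩ := mem_kline.mp hx
    have hk0 : k ≠ 0 := by rintro rfl; exact hx0 (Matrix.zero_mulVec v)
    obtain ⟨y, hy, -, hyk⟩ := exists_inv hK hk hk0
    obtain ⟨c, hc⟩ := hsim y hy
    apply hv
    have h1 := hc (k *ᵥ v)
    rw [Matrix.mulVec_mulVec, hyk, Matrix.one_mulVec, hQx, mul_zero] at h1
    exact h1
  have hP : ∀ v, Q v ≠ 0 → ND (Q.restrict (kline K v)) ∧ ¬ PT (Q.restrict (kline K v)) := by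
    intro v hv
    have hv0 : v ≠ 0 := by rintro rfl; exact hv (QuadraticMap.map_zero Q)
    constructor
    · rintro ⟨x, hx⟩ hxy
      by_contra h0
      have hx0 : x ≠ 0 := fun h => h0 (Subtype.ext h)
      have h1 : polar (⇑Q) x (k₀ *ᵥ x) = 0 := hxy ⟨k₀ *ᵥ x, smul_mem hk₀ hx⟩
      rw [ht] at h1
      exact mul_ne_zero ht0 (hsing v hv x hx hx0) h1
    · rintro ⟨U, hU, hUd⟩
      rw [finrank_kline hK hv0] at hUd
      obtain ⟨⟨⟨y, hyE⟩, hyU⟩, hy0⟩ := (finrank_pos_iff_exists_ne_zero (R := F) (M := U)).mp (by omega)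
      have h3 : Q y = 0 := hU _ hyU
      exact hsing v hv y hyE (by rintro rfl; exact hy0 (Subtype.ext (Subtype.ext rfl))) h3
  have key : ∀ j, j ≤ m → ∃ W : Submodule F (ι → F), (∀ k ∈ K, ∀ w ∈ W, k *ᵥ w ∈ W) ∧ ND (Q.restrict W) ∧
      finrank F W = 2 * j ∧ (PT (Q.restrict W) ↔ Even j) := by
    intro j
    induction j with
    | zero =>
      intro _
      refine ⟨⊥, ?_, nd_bot, by rw [finrank_bot], ?_⟩
      · intro k _ w hw
        rw [(Submodule.mem_bot F).mp hw, Matrix.mulVec_zero]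
        exact Submodule.zero_mem _
      · exact ⟨fun _ => by simp, fun _ => pt_bot⟩
    | succ j ih =>
      intro hj
      obtain ⟨W, hWK, hWnd, hWd, hWt⟩ := ih (by omega)
      have hfo := finrank_orth hND W
      rw [finrank_fintype_fun_eq_card, hc] at hfo
      have hond := nd_orth hND hWnd
      obtain ⟨v, hvW, hv⟩ := ne_of_pos hND hond (by omega)
      have hv0 : v ≠ 0 := by rintro rfl; exact hv (QuadraticMap.map_zero Q)
      have hoK : ∀ k ∈ K, ∀ w ∈ orth Q W, k *ᵥ w ∈ orth Q W := by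
        intro k hk w hw
        rw [mem_orth]
        intro u hu
        obtain ⟨k', hk', hkk⟩ := hadj k hk
        rw [p_comm, hkk, p_comm]
        exact mem_orth.mp hw _ (hWK k' hk' u hu)
      have hle := kline_le hoK hvW
      have horth : ∀ x ∈ W, ∀ y ∈ kline K v, polar (⇑Q) x y = 0 := fun x hx y hy => mem_orth.mp (hle hy) x hx
      obtain ⟨hPnd, hPt⟩ := hP v hv
      refine ⟨W ⊔ kline K v, ?_, nd_sup hWnd hPnd horth, ?_, ?_⟩
      · intro k hk w hw
        obtain ⟨a, ha, b, hb, rfl⟩ := Submodule.mem_sup.mp hw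
        rw [Matrix.mulVec_add]
        exact Submodule.add_mem_sup (hWK k hk a ha) (smul_mem hk hb)
      · rw [finrank_sup_eq hWnd horth, hWd, finrank_kline hK hv0]; ring
      · rw [pt_sup_iff (m := j) (m' := 1) hWnd hPnd horth hWd (by rw [finrank_kline hK hv0]), hWt, Nat.even_add_one]
        tauto
  obtain ⟨W, -, -, hWd, hWt⟩ := key m le_rfl
  have hWtop : W = ⊤ := by
    apply Submodule.eq_top_of_finrank_eq
    rw [hWd, finrank_fintype_fun_eq_card, hc]
  rw [hWtop] at hWt
  rw [plus_iff, hWt]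

/-- squares in a finite field of characteristic two inside the matrix algebra -/
lemma exists_sqrt [Fintype F] (h2 : (2 : F) = 0) (hK : IsFieldSubalgebra r K) {a : Matrix ι ι F} (ha : a ∈ K) :
    ∃ b ∈ K, b * b = a := by
  classical
  have hfinM : Finite (Matrix ι ι F) := by unfold Matrix; infer_instance
  have hfin : Finite K := Subtype.finite
  have hinj : Function.Injective (fun b : K => b * b) := by
    intro b c hbc
    by_contra hne
    have h1 : (b : Matrix ι ι F) * b = (c : Matrix ι ι F) * c := congrArg Subtype.val hbc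
    have h3 : ((b : Matrix ι ι F) - c) * ((b : Matrix ι ι F) - c) = 0 := by
      have h4 := hK.comm b b.2 c c.2
      have h5 : ((b : Matrix ι ι F) - c) * ((b : Matrix ι ι F) - c) =
          ((b : Matrix ι ι F) * b - c * c) - (2 : F) • ((b : Matrix ι ι F) * c) + (2 : F) • ((c : Matrix ι ι F) * c) := by
        rw [two_smul, two_smul, mul_sub, sub_mul, sub_mul, ← h4]; abel
      rw [h5, h1, h2]; simp
    obtain ⟨y, hy, -, hyk⟩ := exists_inv hK (K.sub_mem b.2 c.2) (fun h => hne (Subtype.ext (sub_eq_zero.mp h)))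
    have h6 : (b : Matrix ι ι F) - c = 0 := by
      calc (b : Matrix ι ι F) - c = y * (((b : Matrix ι ι F) - c) * ((b : Matrix ι ι F) - c)) := by
            rw [← mul_assoc, hyk, one_mul]
        _ = 0 := by rw [h3, mul_zero]
    exact hne (Subtype.ext (sub_eq_zero.mp h6))
  obtain ⟨b, hb⟩ := (Finite.injective_iff_surjective.mp hinj) ⟨a, ha⟩
  exact ⟨b, b.2, congrArg Subtype.val hb⟩

/-- in characteristic two, a self-adjoint field makes the form alternating -/
lemma alt_field [Fintype F] (h2 : (2 : F) = 0) (hK : IsFieldSubalgebra r K) (hsa : IsSelfAdjointFor (polar (⇑Q)) K)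
    {a : Matrix ι ι F} (ha : a ∈ K) (x : ι → F) : polar (⇑Q) (a *ᵥ x) x = 0 := by
  obtain ⟨b, hb, rfl⟩ := exists_sqrt h2 hK ha
  rw [← Matrix.mulVec_mulVec, hsa b hb, p_self, h2, zero_mul]

lemma alt_field' [Fintype F] (h2 : (2 : F) = 0) (hK : IsFieldSubalgebra r K) (hsa : IsSelfAdjointFor (polar (⇑Q)) K)
    {a b : Matrix ι ι F} (ha : a ∈ K) (hb : b ∈ K) (x : ι → F) : polar (⇑Q) (a *ᵥ x) (b *ᵥ x) = 0 := by
  rw [← hsa b hb, Matrix.mulVec_mulVec]
  exact alt_field h2 hK hsa (K.mul_mem hb ha) x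

/-- the degree of a self-adjoint field in characteristic two -/
theorem even_of_alt [Fintype F] (h2 : (2 : F) = 0) (hQ : IsNondegenerateQuadraticForm (⇑Q)) (hr : 0 < r)
    (hK : IsFieldSubalgebra r K) (hsa : IsSelfAdjointFor (polar (⇑Q)) K) : 2 * r ∣ Fintype.card ι := by
  classical
  by_contra hnd
  have hND := isND hQ
  have key : ∀ j, ∃ W : Submodule F (ι → F), (∀ k ∈ K, ∀ w ∈ W, k *ᵥ w ∈ W) ∧ ND (Q.restrict W) ∧
      finrank F W = 2 * r * j := by
    intro j
    induction j with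
    | zero =>
      refine ⟨⊥, ?_, nd_bot, by rw [finrank_bot]; simp⟩
      intro k _ w hw
      rw [(Submodule.mem_bot F).mp hw, Matrix.mulVec_zero]
      exact Submodule.zero_mem _
    | succ j ih =>
      obtain ⟨W, hWK, hWnd, hWd⟩ := ih
      have hfo := finrank_orth hND W
      rw [finrank_fintype_fun_eq_card] at hfo
      have hond := nd_orth hND hWnd
      have hpos : 0 < finrank F (orth Q W) := by
        rcases Nat.eq_zero_or_pos (finrank F (orth Q W)) with h | h
        · exfalso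
          apply hnd
          rw [← hfo, h, hWd, zero_add]
          exact dvd_mul_right _ _
        · exact h
      obtain ⟨⟨v, hvW⟩, hv⟩ := (finrank_pos_iff_exists_ne_zero (R := F) (M := orth Q W)).mp hpos
      have hv0 : v ≠ 0 := fun h => hv (Subtype.ext h)
      obtain ⟨y, hyW, hvy⟩ : ∃ y ∈ orth Q W, polar (⇑Q) v y ≠ 0 := by
        by_contra hcon
        push Not at hcon
        exact hv (hond ⟨v, hvW⟩ (fun y => hcon y y.2))
      have hy0 : y ≠ 0 := by rintro rfl; exact hvy (p_zero' _ _)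
      have hoK : ∀ k ∈ K, ∀ w ∈ orth Q W, k *ᵥ w ∈ orth Q W := by
        intro k hk w hw
        rw [mem_orth]
        intro u hu
        rw [← hsa k hk]
        exact mem_orth.mp hw _ (hWK k hk u hu)
      have hle1 := kline_le hoK hvW
      have hle2 := kline_le hoK hyW
      have hUle : kline K v ⊔ kline K y ≤ orth Q W := sup_le hle1 hle2
      have hUK : ∀ k ∈ K, ∀ w ∈ kline K v ⊔ kline K y, k *ᵥ w ∈ kline K v ⊔ kline K y := by
        intro k hk w hw
        obtain ⟨a, ha, b, hb, rfl⟩ := Submodule.mem_sup.mp hw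
        rw [Matrix.mulVec_add]
        exact Submodule.add_mem_sup (smul_mem hk ha) (smul_mem hk hb)
      have hdis : kline K v ⊓ kline K y = ⊥ := by
        rw [eq_bot_iff]
        rintro x ⟨hx1, hx2⟩
        obtain ⟨k, hk, rfl⟩ := mem_kline.mp hx1
        obtain ⟨l, hl, hlk⟩ := mem_kline.mp hx2
        rw [Submodule.mem_bot]
        by_contra h0
        have hk0 : k ≠ 0 := by rintro rfl; exact h0 (Matrix.zero_mulVec v)
        obtain ⟨z, hz, -, hzk⟩ := exists_inv hK hk hk0
        apply hvy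
        have : v = (z * l) *ᵥ y := by
          rw [← Matrix.mulVec_mulVec, hlk, Matrix.mulVec_mulVec, hzk, Matrix.one_mulVec]
        rw [this]
        exact alt_field h2 hK hsa (K.mul_mem hz hl) y
      have hUd : finrank F ↥(kline K v ⊔ kline K y) = 2 * r := by
        have := Submodule.finrank_sup_add_finrank_inf_eq (kline K v) (kline K y)
        rw [hdis, finrank_bot, finrank_kline hK hv0, finrank_kline hK hy0] at this
        omega
      have hUnd : ND (Q.restrict (kline K v ⊔ kline K y)) := by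
        rintro ⟨x, hx⟩ hxz
        have hxz : ∀ z ∈ kline K v ⊔ kline K y, polar (⇑Q) x z = 0 := fun z hz => hxz ⟨z, hz⟩
        obtain ⟨a, ha, b, hb, rfl⟩ := Submodule.mem_sup.mp hx
        obtain ⟨k, hk, rfl⟩ := mem_kline.mp ha
        obtain ⟨l, hl, rfl⟩ := mem_kline.mp hb
        have hk0 : k = 0 := by
          by_contra hk0
          obtain ⟨z, hz, -, hzk⟩ := exists_inv hK hk hk0
          have h3 := hxz (z *ᵥ y) (Submodule.mem_sup_right (smul_mem hz (self_mem K y)))
          rw [p_add, ← hsa z hz, Matrix.mulVec_mulVec, hzk, Matrix.one_mulVec, alt_field' h2 hK hsa hl hz, add_zero] at h3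
          exact hvy h3
        have hl0 : l = 0 := by
          by_contra hl0
          obtain ⟨z, hz, -, hzl⟩ := exists_inv hK hl hl0
          have h3 := hxz (z *ᵥ v) (Submodule.mem_sup_left (smul_mem hz (self_mem K v)))
          rw [p_add, ← hsa z hz (l *ᵥ y), Matrix.mulVec_mulVec, hzl, Matrix.one_mulVec, alt_field' h2 hK hsa hk hz,
            zero_add, p_comm] at h3
          exact hvy h3
        apply Subtype.ext
        change k *ᵥ v + l *ᵥ y = 0
        rw [hk0, hl0, Matrix.zero_mulVec, Matrix.zero_mulVec, add_zero]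
      have horth : ∀ x ∈ W, ∀ y' ∈ kline K v ⊔ kline K y, polar (⇑Q) x y' = 0 := fun x hx y' hy' => mem_orth.mp (hUle hy') x hx
      refine ⟨W ⊔ (kline K v ⊔ kline K y), ?_, nd_sup hWnd hUnd horth, ?_⟩
      · intro k hk w hw
        obtain ⟨a, ha, b, hb, rfl⟩ := Submodule.mem_sup.mp hw
        rw [Matrix.mulVec_add]
        exact Submodule.add_mem_sup (hWK k hk a ha) (hUK k hk b hb)
      · rw [finrank_sup_eq hWnd horth, hWd, hUd]; ring
  obtain ⟨W, -, -, hWd⟩ := key (Fintype.card ι + 1)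
  have h1 := Submodule.finrank_le W
  rw [hWd, finrank_fintype_fun_eq_card] at h1
  nlinarith

end H96.OeFld
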