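import Mathlib
import Cfsg.Agent.Lib.H96.OeFld

set_option autoImplicit false
set_option linter.unusedSectionVars false

/-!
Self-adjoint extension fields over which the space is two-dimensional.
-/

namespace H96.OeFld2

open Module QuadraticMap H48.QuadSplit H48.QuadStd H95.OGeo H96.OeType H96.OeTyp2 H96.OeTyp3 H96.OeOmega H96.OeRed H96.OeMain
open H96.OeSmall H96.OeBlk H96.OeBlk2 H96.OeSum H96.OeFld Cfsg Cfsg.Geo Matrix
open H97.AschRad H97.AschUnits H97.AschSkolem H97.AschCS H97.AschTensor H97.AschEnv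
open H97.AschGrp H97.AschNonab H97.AschForm H97.AschTwo H97.AschDecomp H97.AschLinear H97.AschSubfield H97.AschIdem
open H97.AschTF H97.AschTP H97.AschPos H97.AschPosE H97.AschPosI H97.AschPosH H97.AschReal H97.AschPow H97.AschWreath
open H96.AschSympType1 H96.AschSympType2 H96.AschSympType3 H96.AschSubForm
open H96.AschAdj H96.AschSympType5 H96.AschComm H96.AschField H96.AschSp2 H96.OeRed H96.AschDescent

variable {ι : Type} [Fintype ι] [DecidableEq ι] {F : Type*} [Field F] {Q : QuadraticForm F (ι → F)}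

lemma ext_mulVec {A B : Matrix ι ι F} (h : ∀ v, A *ᵥ v = B *ᵥ v) : A = B :=
  Matrix.toLin'.injective (LinearMap.ext (fun v => by rw [Matrix.toLin'_apply, Matrix.toLin'_apply, h]))

/-- commutative algebras, first step -/
theorem comm_q' [Fintype F] (hQ : IsNondegenerateQuadraticForm (⇑Q)) (hn : 3 ≤ Fintype.card ι) {H : Subgroup (GL ι F)}
    (hH : H ≤ isometryGroup F (⇑Q)) (hirr : ActsIrreducibly (matrixSet H)) (Z : Subalgebra F (Matrix ι ι F))
    (hcomm : ∀ x ∈ Z, ∀ y ∈ Z, x * y = y * x) (hZ : NormSet H Z) (hadj : ∀ z ∈ Z, (q_hform hQ).adj z ∈ Z) :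
    Imp (⇑Q) H ∨ IsFieldSubalgebra (Module.finrank F Z) Z := by
  classical
  have hnonempty : Nonempty ι := Fintype.card_pos_iff.mp (by omega)
  have h := q_hform hQ
  have hHi : H ≤ isom (polar (⇑Q)) := hH.trans (iso_le (⇑Q))
  rcases comm_case h hHi hirr Z hcomm hZ hadj with ⟨t, k, D, hD, hHD, htr⟩ | ⟨k, D, e, hD, hts, hHD, -, hone, hconj⟩ | hK
  · left; left
    refine ⟨t, k, D, ⟨hD, ?_⟩, hHD⟩
    intro i j
    obtain ⟨g, hg, hgij⟩ := htr i j
    refine ⟨(Submodule.equivMapOfInjective _ (toLin_injective g) (D i)).trans (LinearEquiv.ofEq _ _ hgij), ?_⟩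
    intro w
    rw [LinearEquiv.trans_apply, LinearEquiv.coe_ofEq_apply, Submodule.coe_equivMapOfInjective_apply,
      Matrix.toLin'_apply]
    exact mem_iso.mp (hH hg) _
  · left; right
    refine ⟨k, D, hD, ?_, hHD⟩
    by_cases h2 : (2 : F) = 0
    · obtain ⟨p, h1, h2', h3, h4⟩ := H96.OeOmega.exists_proj hD
      have key : ∀ v, ∑ i, Q (p i v) = 0 := by
        apply semi_invariant h2 hirr (by omega)
        · intro u v
          rw [← Finset.sum_add_distrib]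
          refine Finset.sum_congr rfl (fun i _ => ?_)
          rw [map_add, Qadd (⇑Q), hts i _ (h1 i u) _ (h1 i v), add_zero]
        · intro c v
          rw [Finset.mul_sum]
          refine Finset.sum_congr rfl (fun i _ => ?_)
          rw [map_smul, hQ.smul]
        · intro g hg v hv
          obtain ⟨σ, hσ⟩ := hHD hg
          rw [← hv, ← Equiv.sum_comp σ]
          refine Finset.sum_congr rfl (fun i _ => ?_)
          rw [H96.OeOmega.proj_map h1 h2' h3 h4 hσ, mem_iso.mp (hH hg)]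
      intro i w hw
      have h5 := key w
      rw [Finset.sum_eq_single i] at h5
      · rwa [h4 i w hw] at h5
      · intro j _ hj
        rw [h3 j i hj w hw, Qzero hQ]
      · intro hi; exact absurd (Finset.mem_univ _) hi
    · intro i w hw
      have h1 := hts i w hw w hw
      rw [Qself hQ] at h1
      exact (mul_eq_zero.mp h1).resolve_left h2
  · exact Or.inr hK

/-- degree two outcomes -/
def Two (Q : (ι → F) → F) (H : Subgroup (GL ι F)) : Prop :=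
  (∃ K : Subalgebra F (Matrix ι ι F), IsFieldSubalgebra 2 K ∧ IsSelfAdjointFor (polar Q) K ∧ H ≤ subalgebraNormalizer K) ∨
  (∃ K : Subalgebra F (Matrix ι ι F), IsFieldSubalgebra 2 K ∧ IsAdjointClosedFor (polar Q) K ∧
    ¬ IsSelfAdjointFor (polar Q) K ∧ (∀ k ∈ K, ∃ c : F, ∀ v, Q (k *ᵥ v) = c * Q v) ∧ H ≤ subalgebraNormalizer K)

/-- commutative algebras with non-trivial adjunction -/
theorem comm_two [Fintype F] (hQ : IsNondegenerateQuadraticForm (⇑Q)) (hn : 3 ≤ Fintype.card ι) {H : Subgroup (GL ι F)}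
    (hH : H ≤ isometryGroup F (⇑Q)) (hirr : ActsIrreducibly (matrixSet H)) (Z : Subalgebra F (Matrix ι ι F))
    (hcomm : ∀ x ∈ Z, ∀ y ∈ Z, x * y = y * x) (hZ : NormSet H Z) (hadj : ∀ z ∈ Z, (q_hform hQ).adj z ∈ Z)
    (hne : ∃ z ∈ Z, (q_hform hQ).adj z ≠ z) : Imp (⇑Q) H ∨ Two (⇑Q) H := by
  classical
  have hnonempty : Nonempty ι := Fintype.card_pos_iff.mp (by omega)
  rcases comm_q' hQ hn hH hirr Z hcomm hZ hadj with h | hK
  · exact Or.inl h
  right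
  have h := q_hform hQ
  obtain ⟨c, hcK, hc⟩ := hne
  have h2 := even_degree h hK hadj hcK hc
  have hK2 := fixSub_isField Z hK h2 (by norm_num : 0 < 2)
  have hHK := fixSub_norm Z hK.comm 2 H hZ
  have hadj2 := adj_fixSub h hK.comm hadj 2
  by_cases hsa2 : ∀ k ∈ fixSub Z hK.comm 2, h.adj k = k
  · left
    refine ⟨fixSub Z hK.comm 2, hK2, ?_, le_subalgebraNormalizer _ H hHK⟩
    intro k hk u v
    rw [h.adj_spec, hsa2 k hk]
  · right
    push Not at hsa2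
    obtain ⟨k, hkK, hk⟩ := hsa2
    refine ⟨fixSub Z hK.comm 2, hK2, ?_, ?_, similar_of_unitary hQ (by omega) hH hirr hK2 hHK hadj2 hkK hk,
      le_subalgebraNormalizer _ H hHK⟩
    · intro x hx
      exact ⟨h.adj x, hadj2 x hx, fun u v => h.adj_spec x u v⟩
    · intro hsa
      exact hk (h.adj_eq (hsa k hkK))

variable {r : ℕ} {K : Subalgebra F (Matrix ι ι F)}

/-- the algebra K + K y -/
def adjoin1 (K : Subalgebra F (Matrix ι ι F)) (hcomm : ∀ x ∈ K, ∀ y ∈ K, x * y = y * x) (y : Matrix ι ι F)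
    (hy : ∀ k ∈ K, k * y = y * k) {p q : Matrix ι ι F} (hp : p ∈ K) (hq : q ∈ K) (hyy : y * y = p + q * y) :
    Subalgebra F (Matrix ι ι F) where
  carrier := {x | ∃ a ∈ K, ∃ b ∈ K, x = a + b * y}
  mul_mem' := by
    rintro _ _ ⟨a, ha, b, hb, rfl⟩ ⟨c, hc, d, hd, rfl⟩
    refine ⟨a * c + b * d * p, K.add_mem (K.mul_mem ha hc) (K.mul_mem (K.mul_mem hb hd) hp),
      a * d + b * c + b * d * q, K.add_mem (K.add_mem (K.mul_mem ha hd) (K.mul_mem hb hc)) (K.mul_mem (K.mul_mem hb hd) hq), ?_⟩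
    have e1 : b * y * c = b * c * y := by rw [mul_assoc, ← hy c hc, ← mul_assoc]
    have e2 : b * y * (d * y) = b * d * (p + q * y) := by
      rw [← hyy, mul_assoc b y, ← mul_assoc y d, ← hy d hd]; simp only [mul_assoc]
    rw [add_mul, mul_add, mul_add, e1, e2]
    simp only [mul_add, add_mul, mul_assoc]
    abel
  add_mem' := by
    rintro _ _ ⟨a, ha, b, hb, rfl⟩ ⟨c, hc, d, hd, rfl⟩
    exact ⟨a + c, K.add_mem ha hc, b + d, K.add_mem hb hd, by rw [add_mul]; abel⟩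
  algebraMap_mem' c := ⟨_, K.algebraMap_mem c, 0, K.zero_mem, by rw [zero_mul, add_zero]⟩

lemma mem_adjoin1 {hcomm : ∀ x ∈ K, ∀ y ∈ K, x * y = y * x} {y : Matrix ι ι F}
    {hy : ∀ k ∈ K, k * y = y * k} {p q : Matrix ι ι F} {hp : p ∈ K} {hq : q ∈ K} {hyy : y * y = p + q * y}
    {x : Matrix ι ι F} : x ∈ adjoin1 K hcomm y hy hp hq hyy ↔ ∃ a ∈ K, ∃ b ∈ K, x = a + b * y := Iff.rfl

/-- the generic conclusion: K + K y -/
theorem adjoin_two [Fintype F] (hQ : IsNondegenerateQuadraticForm (⇑Q)) (hn : 3 ≤ Fintype.card ι) {H : Subgroup (GL ι F)}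
    (hH : H ≤ isometryGroup F (⇑Q)) (hirr : ActsIrreducibly (matrixSet H)) (hK : IsFieldSubalgebra r K)
    (hsa : IsSelfAdjointFor (polar (⇑Q)) K) (hHK : NormSet H K) (y : Matrix ι ι F)
    (hy : ∀ k ∈ K, k * y = y * k) {p q : Matrix ι ι F} (hp : p ∈ K) (hq : q ∈ K) (hyy : y * y = p + q * y)
    (hconj : ∀ g ∈ H, ∃ a ∈ K, ∃ b ∈ K, (g : Matrix ι ι F) * y * ((g⁻¹ : GL ι F) : Matrix ι ι F) = a + b * y)
    {a₀ b₀ : Matrix ι ι F} (ha₀ : a₀ ∈ K) (hb₀ : b₀ ∈ K) (hadj : (q_hform hQ).adj y = a₀ + b₀ * y)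
    (hne : (q_hform hQ).adj y ≠ y) : Imp (⇑Q) H ∨ Two (⇑Q) H := by
  have h := q_hform hQ
  have hadjK : ∀ k ∈ K, h.adj k = k := fun k hk => h.adj_eq (hsa k hk)
  apply comm_two hQ hn hH hirr (adjoin1 K hK.comm y hy hp hq hyy)
  · rintro _ ⟨a, ha, b, hb, rfl⟩ _ ⟨c, hc, d, hd, rfl⟩
    have e1 : b * y * c = c * (b * y) := by rw [mul_assoc, ← hy c hc, ← mul_assoc, hK.comm b hb c hc, mul_assoc]
    have e2 : a * (d * y) = d * y * a := by rw [mul_assoc d, ← hy a ha, ← mul_assoc, ← mul_assoc, hK.comm a ha d hd]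
    have e3 : b * y * (d * y) = d * y * (b * y) := by
      rw [mul_assoc b, ← mul_assoc y, ← hy d hd, mul_assoc d y (b * y), ← mul_assoc y b, ← hy b hb]
      simp only [← mul_assoc]
      rw [hK.comm b hb d hd]
    rw [add_mul, mul_add, mul_add, add_mul, mul_add, mul_add, e1, e2, e3, hK.comm a ha c hc]
    abel
  · rintro g hg _ ⟨a, ha, b, hb, rfl⟩
    obtain ⟨a', ha', b', hb', hab⟩ := hconj g hg
    have hgb := hHK g hg b hb
    refine ⟨(g : Matrix ι ι F) * a * ((g⁻¹ : GL ι F) : Matrix ι ι F) +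
      (g : Matrix ι ι F) * b * ((g⁻¹ : GL ι F) : Matrix ι ι F) * a', K.add_mem (hHK g hg a ha) (K.mul_mem hgb ha'),
      (g : Matrix ι ι F) * b * ((g⁻¹ : GL ι F) : Matrix ι ι F) * b', K.mul_mem hgb hb', ?_⟩
    have e1 : (g : Matrix ι ι F) * (b * y) * ((g⁻¹ : GL ι F) : Matrix ι ι F) =
        ((g : Matrix ι ι F) * b * ((g⁻¹ : GL ι F) : Matrix ι ι F)) *
          ((g : Matrix ι ι F) * y * ((g⁻¹ : GL ι F) : Matrix ι ι F)) := by
      have : ((g⁻¹ : GL ι F) : Matrix ι ι F) * (g : Matrix ι ι F) = 1 := Units.inv_mul g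
      calc _ = (g : Matrix ι ι F) * b * (1 * (y * ((g⁻¹ : GL ι F) : Matrix ι ι F))) := by
            rw [one_mul]; simp only [mul_assoc]
        _ = _ := by rw [← this]; simp only [mul_assoc]
    rw [mul_add, add_mul, e1, hab, mul_add]
    simp only [mul_assoc]
    abel
  · rintro _ ⟨a, ha, b, hb, rfl⟩
    refine ⟨a + b * a₀, K.add_mem ha (K.mul_mem hb ha₀), b * b₀, K.mul_mem hb hb₀, ?_⟩
    rw [h.adj_add, h.adj_mul, hadjK a ha, hadjK b hb, hadj, add_mul, hK.comm a₀ ha₀ b hb, mul_assoc b₀ y b, ← hy b hb,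
      ← mul_assoc b₀, hK.comm b₀ hb₀ b hb]
    abel
  · exact ⟨y, ⟨0, K.zero_mem, 1, K.one_mem, by rw [zero_add, one_mul]⟩, hne⟩

/-- prescribing K-linear maps -/
theorem exists_central (hK : IsFieldSubalgebra r K) {v u : ι → F} (hv : v ≠ 0) (hu : u ≠ 0)
    (hdis : kline K v ⊓ kline K u = ⊥) (hc : Fintype.card ι = 2 * r) (w₁ w₂ : ι → F) :
    ∃ x : Matrix ι ι F, (∀ k ∈ K, k * x = x * k) ∧ x *ᵥ v = w₁ ∧ x *ᵥ u = w₂ := by
  classical
  let φ : (K × K) →ₗ[F] (ι → F) := (kmap K v).coprod (kmap K u)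
  have hφ : ∀ p : K × K, φ p = (p.1 : Matrix ι ι F) *ᵥ v + (p.2 : Matrix ι ι F) *ᵥ u := fun p => rfl
  have hinj : Function.Injective φ := by
    rw [injective_iff_map_eq_zero]
    rintro ⟨a, b⟩ h
    rw [hφ] at h
    have h1 : (a : Matrix ι ι F) *ᵥ v ∈ kline K v ⊓ kline K u := by
      refine ⟨mem_kline.mpr ⟨a, a.2, rfl⟩, ?_⟩
      rw [eq_neg_of_add_eq_zero_left h]
      exact Submodule.neg_mem _ (mem_kline.mpr ⟨b, b.2, rfl⟩)
    rw [hdis, Submodule.mem_bot] at h1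
    have h2 : (b : Matrix ι ι F) *ᵥ u = 0 := by
      dsimp only at h
      rwa [h1, zero_add] at h
    have ha : a = 0 := kmap_injective hK hv (by rw [map_zero]; exact h1)
    have hb : b = 0 := kmap_injective hK hu (by rw [map_zero]; exact h2)
    rw [ha, hb]; rfl
  let Φ : (K × K) ≃ₗ[F] (ι → F) := LinearEquiv.ofInjectiveOfFinrankEq φ hinj (by
    rw [finrank_prod, hK.finrank_eq, finrank_fintype_fun_eq_card, hc]; ring)
  have hΦ : ∀ p, Φ p = (p.1 : Matrix ι ι F) *ᵥ v + (p.2 : Matrix ι ι F) *ᵥ u := fun p => rfl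
  let ψ : (K × K) →ₗ[F] (ι → F) := (kmap K w₁).coprod (kmap K w₂)
  have hψ : ∀ p : K × K, ψ p = (p.1 : Matrix ι ι F) *ᵥ w₁ + (p.2 : Matrix ι ι F) *ᵥ w₂ := fun p => rfl
  let X : Matrix ι ι F := LinearMap.toMatrix' (ψ ∘ₗ Φ.symm.toLinearMap)
  have hX : ∀ p, X *ᵥ (Φ p) = ψ p := by
    intro p
    rw [← Matrix.toLin'_apply, Matrix.toLin'_toMatrix', LinearMap.comp_apply]
    change ψ (Φ.symm (Φ p)) = ψ p
    rw [LinearEquiv.symm_apply_apply]
  refine ⟨X, ?_, ?_, ?_⟩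
  · intro k hk
    apply ext_mulVec
    intro y
    obtain ⟨⟨a, b⟩, rfl⟩ := Φ.surjective y
    rw [← Matrix.mulVec_mulVec, ← Matrix.mulVec_mulVec, hX]
    have h1 : k *ᵥ (Φ (a, b)) = Φ (⟨k * a, K.mul_mem hk a.2⟩, ⟨k * b, K.mul_mem hk b.2⟩) := by
      rw [hΦ, hΦ, Matrix.mulVec_add, Matrix.mulVec_mulVec, Matrix.mulVec_mulVec]
    rw [h1, hX, hψ, hψ, Matrix.mulVec_add, Matrix.mulVec_mulVec, Matrix.mulVec_mulVec]
  · have h1 := hX (1, 0)
    rw [hΦ, hψ] at h1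
    simpa using h1
  · have h1 := hX (0, 1)
    rw [hΦ, hψ] at h1
    simpa using h1

lemma sup_top (hK : IsFieldSubalgebra r K) {v u : ι → F} (hv : v ≠ 0) (hu : u ≠ 0)
    (hdis : kline K v ⊓ kline K u = ⊥) (hc : Fintype.card ι = 2 * r) (x : ι → F) :
    ∃ a ∈ K, ∃ b ∈ K, x = a *ᵥ v + b *ᵥ u := by
  have h1 : kline K v ⊔ kline K u = ⊤ := by
    apply Submodule.eq_top_of_finrank_eq
    have := Submodule.finrank_sup_add_finrank_inf_eq (kline K v) (kline K u)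
    rw [hdis, finrank_bot, finrank_kline hK hv, finrank_kline hK hu] at this
    rw [finrank_fintype_fun_eq_card, hc]
    omega
  have h2 : x ∈ kline K v ⊔ kline K u := by rw [h1]; trivial
  obtain ⟨y, hy, z, hz, rfl⟩ := Submodule.mem_sup.mp h2
  obtain ⟨a, ha, rfl⟩ := mem_kline.mp hy
  obtain ⟨b, hb, rfl⟩ := mem_kline.mp hz
  exact ⟨a, ha, b, hb, rfl⟩

lemma central_ext (hK : IsFieldSubalgebra r K) {v u : ι → F} (hv : v ≠ 0) (hu : u ≠ 0)
    (hdis : kline K v ⊓ kline K u = ⊥) (hc : Fintype.card ι = 2 * r) {x y : Matrix ι ι F}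
    (hx : ∀ k ∈ K, k * x = x * k) (hy : ∀ k ∈ K, k * y = y * k) (h1 : x *ᵥ v = y *ᵥ v) (h2 : x *ᵥ u = y *ᵥ u) : x = y := by
  apply ext_mulVec
  intro w
  obtain ⟨a, ha, b, hb, rfl⟩ := sup_top hK hv hu hdis hc w
  rw [Matrix.mulVec_add, Matrix.mulVec_add, Matrix.mulVec_mulVec, Matrix.mulVec_mulVec, Matrix.mulVec_mulVec,
    Matrix.mulVec_mulVec, ← hx a ha, ← hx b hb, ← hy a ha, ← hy b hb, ← Matrix.mulVec_mulVec, ← Matrix.mulVec_mulVec,
    ← Matrix.mulVec_mulVec, ← Matrix.mulVec_mulVec, h1, h2]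

lemma central_conj {H : Subgroup (GL ι F)} (hHK : NormSet H K) {y : Matrix ι ι F} (hy : ∀ k ∈ K, k * y = y * k)
    {g : GL ι F} (hg : g ∈ H) : ∀ k ∈ K, k * ((g : Matrix ι ι F) * y * ((g⁻¹ : GL ι F) : Matrix ι ι F)) =
      (g : Matrix ι ι F) * y * ((g⁻¹ : GL ι F) : Matrix ι ι F) * k := by
  intro k hk
  have h1 := hHK g⁻¹ (H.inv_mem hg) k hk
  rw [inv_inv] at h1
  have h2 := hy _ h1
  have e1 : (g : Matrix ι ι F) * ((g⁻¹ : GL ι F) : Matrix ι ι F) = 1 := Units.mul_inv g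
  calc k * ((g : Matrix ι ι F) * y * ((g⁻¹ : GL ι F) : Matrix ι ι F))
      = (g : Matrix ι ι F) * ((((g⁻¹ : GL ι F) : Matrix ι ι F) * k * (g : Matrix ι ι F)) * y) *
          ((g⁻¹ : GL ι F) : Matrix ι ι F) := by
        calc _ = 1 * k * ((g : Matrix ι ι F) * y * ((g⁻¹ : GL ι F) : Matrix ι ι F)) := by rw [one_mul]
          _ = _ := by rw [← e1]; simp only [mul_assoc]
    _ = (g : Matrix ι ι F) * (y * (((g⁻¹ : GL ι F) : Matrix ι ι F) * k * (g : Matrix ι ι F))) *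
          ((g⁻¹ : GL ι F) : Matrix ι ι F) := by rw [h2]
    _ = (g : Matrix ι ι F) * y * ((g⁻¹ : GL ι F) : Matrix ι ι F) * k := by
        calc _ = (g : Matrix ι ι F) * y * ((g⁻¹ : GL ι F) : Matrix ι ι F) * k *
              ((g : Matrix ι ι F) * ((g⁻¹ : GL ι F) : Matrix ι ι F)) := by simp only [mul_assoc]
          _ = _ := by rw [e1, mul_one]

lemma conj_mulVec (g : GL ι F) (y : Matrix ι ι F) (w : ι → F) :
    ((g : Matrix ι ι F) * y * ((g⁻¹ : GL ι F) : Matrix ι ι F)) *ᵥ w =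
      (g : Matrix ι ι F) *ᵥ (y *ᵥ (((g⁻¹ : GL ι F) : Matrix ι ι F) *ᵥ w)) := by
  rw [← Matrix.mulVec_mulVec, ← Matrix.mulVec_mulVec]

lemma polar_conj {H : Subgroup (GL ι F)} (hH : H ≤ isometryGroup F (⇑Q)) {g : GL ι F} (hg : g ∈ H) (y : Matrix ι ι F)
    (w : ι → F) : polar (⇑Q) (((g : Matrix ι ι F) * y * ((g⁻¹ : GL ι F) : Matrix ι ι F)) *ᵥ w) w =
      polar (⇑Q) (y *ᵥ (((g⁻¹ : GL ι F) : Matrix ι ι F) *ᵥ w)) (((g⁻¹ : GL ι F) : Matrix ι ι F) *ᵥ w) := by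
  rw [conj_mulVec]
  have h1 : (g : Matrix ι ι F) *ᵥ (((g⁻¹ : GL ι F) : Matrix ι ι F) *ᵥ w) = w := by
    rw [Matrix.mulVec_mulVec, ← Units.val_mul, mul_inv_cancel, Units.val_one, Matrix.one_mulVec]
  have h2 : polar (⇑Q) ((g : Matrix ι ι F) *ᵥ (y *ᵥ (((g⁻¹ : GL ι F) : Matrix ι ι F) *ᵥ w)))
      ((g : Matrix ι ι F) *ᵥ (((g⁻¹ : GL ι F) : Matrix ι ι F) *ᵥ w)) =
      polar (⇑Q) (y *ᵥ (((g⁻¹ : GL ι F) : Matrix ι ι F) *ᵥ w)) (((g⁻¹ : GL ι F) : Matrix ι ι F) *ᵥ w) :=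
    iso_le (⇑Q) (hH hg) _ _
  rw [h1] at h2
  exact h2

/-- odd characteristic -/
theorem two_dim_odd [Fintype F] (h2 : (2 : F) ≠ 0) (hQ : IsNondegenerateQuadraticForm (⇑Q)) (hn : 3 ≤ Fintype.card ι)
    {H : Subgroup (GL ι F)} (hH : H ≤ isometryGroup F (⇑Q)) (hirr : ActsIrreducibly (matrixSet H))
    (hK : IsFieldSubalgebra r K) (hc : Fintype.card ι = 2 * r) (hsa : IsSelfAdjointFor (polar (⇑Q)) K)
    (hHK : NormSet H K) : Imp (⇑Q) H ∨ Two (⇑Q) H := by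
  classical
  have hND := isND hQ
  obtain ⟨v, -, hv⟩ := ne_of_pos hND (W := ⊤) (fun x hx => Subtype.ext (hND x (fun y => hx ⟨y, trivial⟩)))
    (by rw [finrank_top, finrank_fintype_fun_eq_card]; omega)
  have hv0 : v ≠ 0 := by rintro rfl; exact hv (QuadraticMap.map_zero Q)
  have hvv : polar (⇑Q) v v ≠ 0 := by rw [p_self]; exact mul_ne_zero h2 hv
  have hndv : ND (Q.restrict (kline K v)) := by
    rintro ⟨x, hx⟩ hxy
    by_contra h0
    obtain ⟨k, hk, rfl⟩ := mem_kline.mp hx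
    have hk0 : k ≠ 0 := by rintro rfl; exact h0 (Subtype.ext (Matrix.zero_mulVec v))
    obtain ⟨z, hz, -, hzk⟩ := exists_inv hK hk hk0
    have h1 : polar (⇑Q) (k *ᵥ v) (z *ᵥ v) = 0 := hxy ⟨z *ᵥ v, mem_kline.mpr ⟨z, hz, rfl⟩⟩
    rw [← hsa z hz, Matrix.mulVec_mulVec, hzk, Matrix.one_mulVec] at h1
    exact hvv h1
  have hfo := finrank_orth hND (kline K v)
  rw [finrank_fintype_fun_eq_card, hc, finrank_kline hK hv0] at hfo
  obtain ⟨⟨u, huo⟩, hu⟩ := (finrank_pos_iff_exists_ne_zero (R := F) (M := orth Q (kline K v))).mp (by omega)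
  have hu0 : u ≠ 0 := fun h => hu (Subtype.ext h)
  have hoK : ∀ k ∈ K, ∀ w ∈ orth Q (kline K v), k *ᵥ w ∈ orth Q (kline K v) := by
    intro k hk w hw
    rw [mem_orth]
    intro x hx
    rw [← hsa k hk]
    exact mem_orth.mp hw _ (smul_mem hk hx)
  have hkl : kline K u = orth Q (kline K v) := by
    apply Submodule.eq_of_le_of_finrank_eq (kline_le hoK huo)
    rw [finrank_kline hK hu0]; omega
  have hdis : kline K v ⊓ kline K u = ⊥ := by
    rw [hkl]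
    exact (isCompl_orth hndv).inf_eq_bot
  have hvu : ∀ a ∈ K, ∀ b ∈ K, polar (⇑Q) (a *ᵥ v) (b *ᵥ u) = 0 := by
    intro a ha b hb
    have h1 : b *ᵥ u ∈ orth Q (kline K v) := hoK b hb u huo
    exact mem_orth.mp h1 _ (mem_kline.mpr ⟨a, ha, rfl⟩)
  -- the coefficient
  obtain ⟨c, hcK, hcc⟩ : ∃ c ∈ K, ∀ m ∈ K, polar (⇑Q) ((m * c) *ᵥ v) v = - polar (⇑Q) (m *ᵥ u) u := by
    let B : K →ₗ[F] K →ₗ[F] F := LinearMap.mk₂ F (fun c m => polar (⇑Q) (((m : Matrix ι ι F) * (c : Matrix ι ι F)) *ᵥ v) v)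
      (fun a b m => by rw [AddMemClass.coe_add, mul_add, Matrix.add_mulVec, p_add])
      (fun s a m => by
        change polar (⇑Q) (((m : Matrix ι ι F) * (s • (a : Matrix ι ι F))) *ᵥ v) v = _
        rw [mul_smul_comm, Matrix.smul_mulVec, p_smul]; rfl)
      (fun a m m' => by rw [AddMemClass.coe_add, add_mul, Matrix.add_mulVec, p_add])
      (fun s a m => by
        change polar (⇑Q) (((s • (m : Matrix ι ι F)) * (a : Matrix ι ι F)) *ᵥ v) v = _
        rw [smul_mul_assoc, Matrix.smul_mulVec, p_smul]; rfl)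
    have hBinj : Function.Injective B := by
      rw [injective_iff_map_eq_zero]
      intro c hcB
      by_contra h0
      obtain ⟨z, hz, -, hzk⟩ := exists_inv hK c.2 (fun h => h0 (Subtype.ext h))
      have h1 : B c ⟨z, hz⟩ = 0 := by rw [hcB]; rfl
      change polar (⇑Q) ((z * (c : Matrix ι ι F)) *ᵥ v) v = 0 at h1
      rw [hzk, Matrix.one_mulVec] at h1
      exact hvv h1
    have hBsurj : Function.Surjective B :=
      (LinearMap.injective_iff_surjective_of_finrank_eq_finrank (by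
        rw [Module.finrank_linearMap, finrank_self, mul_one])).mp hBinj
    let L : K →ₗ[F] F :=
      { toFun := fun m => - polar (⇑Q) ((m : Matrix ι ι F) *ᵥ u) u
        map_add' := fun a b => by rw [AddMemClass.coe_add, Matrix.add_mulVec, p_add]; ring
        map_smul' := fun s a => by
          change - polar (⇑Q) ((s • (a : Matrix ι ι F)) *ᵥ u) u = _
          rw [Matrix.smul_mulVec, p_smul]
          change _ = s * (- _)
          ring }
    obtain ⟨c, hcL⟩ := hBsurj L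
    exact ⟨c, c.2, fun m hm => congrArg (fun f => f ⟨m, hm⟩) hcL⟩
  obtain ⟨J, hJK, hJv, hJu⟩ := exists_central hK hv0 hu0 hdis hc u (c *ᵥ v)
  have hJlin : ∀ k ∈ K, ∀ w, J *ᵥ (k *ᵥ w) = k *ᵥ (J *ᵥ w) := by
    intro k hk w
    rw [Matrix.mulVec_mulVec, ← hJK k hk, ← Matrix.mulVec_mulVec]
  have hJ0 : ∀ w, polar (⇑Q) (J *ᵥ w) w = 0 := by
    intro w
    obtain ⟨a, ha, b, hb, rfl⟩ := sup_top hK hv0 hu0 hdis hc w
    rw [Matrix.mulVec_add, hJlin a ha, hJlin b hb, hJv, hJu, p_add, p_add', p_add', p_comm _ (a *ᵥ u) (a *ᵥ v), hvu a ha a ha,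
      Matrix.mulVec_mulVec, hvu _ (K.mul_mem hb hcK) b hb, zero_add, add_zero, ← hsa b hb, ← hsa a ha, Matrix.mulVec_mulVec,
      Matrix.mulVec_mulVec, ← mul_assoc, hcc _ (K.mul_mem ha hb), hK.comm b hb a ha]
    ring
  -- skew elements
  have hskew : ∀ x : Matrix ι ι F, (∀ w, polar (⇑Q) (x *ᵥ w) w = 0) → ∀ a b, polar (⇑Q) (x *ᵥ a) b = - polar (⇑Q) a (x *ᵥ b) := by
    intro x hx a b
    have h1 := hx (a + b)
    rw [Matrix.mulVec_add, p_add, p_add', p_add', hx, hx, p_comm _ (x *ᵥ b) a] at h1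
    linear_combination h1
  have hskewK : ∀ x : Matrix ι ι F, (∀ k ∈ K, k * x = x * k) → (∀ w, polar (⇑Q) (x *ᵥ w) w = 0) →
      ∀ k ∈ K, ∀ w, polar (⇑Q) (x *ᵥ w) (k *ᵥ w) = 0 := by
    intro x hxK hx k hk w
    have h1 := hskew x hx w (k *ᵥ w)
    rw [Matrix.mulVec_mulVec, ← hxK k hk, ← Matrix.mulVec_mulVec, ← hsa k hk, p_comm _ w] at h1
    rw [← hsa k hk]
    have h3 : (2 : F) * polar (⇑Q) (k *ᵥ x *ᵥ w) w = 0 := by linear_combination h1
    exact (mul_eq_zero.mp h3).resolve_left h2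
  have hJJ : J * J = c := by
    apply central_ext hK hv0 hu0 hdis hc
    · intro k hk; rw [← mul_assoc, hJK k hk, mul_assoc, hJK k hk, mul_assoc]
    · intro k hk; exact hK.comm k hk c hcK
    · rw [← Matrix.mulVec_mulVec, hJv, hJu]
    · rw [← Matrix.mulVec_mulVec, hJu, hJlin c hcK, hJv]
  have hS : ∀ x : Matrix ι ι F, (∀ k ∈ K, k * x = x * k) → (∀ w, polar (⇑Q) (x *ᵥ w) w = 0) → ∃ b ∈ K, x = b * J := by
    intro x hxK hx
    have h1 : x *ᵥ v ∈ kline K u := by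
      rw [hkl, mem_orth]
      intro y hy
      obtain ⟨k, hk, rfl⟩ := mem_kline.mp hy
      rw [p_comm]
      exact hskewK x hxK hx k hk v
    obtain ⟨b, hb, hbx⟩ := mem_kline.mp h1
    refine ⟨b, hb, ?_⟩
    have hbJ : ∀ w, polar (⇑Q) ((b * J) *ᵥ w) w = 0 := by
      intro w
      rw [← Matrix.mulVec_mulVec, hsa b hb]
      exact hskewK J hJK hJ0 b hb w
    have hD : ∀ w, polar (⇑Q) ((x - b * J) *ᵥ w) w = 0 := by
      intro w
      rw [Matrix.sub_mulVec, p_sub, hx, hbJ, sub_zero]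
    have hDK : ∀ k ∈ K, k * (x - b * J) = (x - b * J) * k := by
      intro k hk
      rw [mul_sub, sub_mul, hxK k hk, ← mul_assoc, hK.comm k hk b hb, mul_assoc, hJK k hk, mul_assoc]
    have hDv : (x - b * J) *ᵥ v = 0 := by
      rw [Matrix.sub_mulVec, ← Matrix.mulVec_mulVec, hJv, hbx, sub_self]
    have hDu : (x - b * J) *ᵥ u = 0 := by
      apply hND
      intro y
      obtain ⟨a, ha, a', ha', rfl⟩ := sup_top hK hv0 hu0 hdis hc y
      rw [p_add', hskewK _ hDK hD a' ha' u, add_zero, hskew _ hD, Matrix.mulVec_mulVec, ← hDK a ha, ← Matrix.mulVec_mulVec,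
        hDv, Matrix.mulVec_zero, p_zero', neg_zero]
    have h3 : x - b * J = 0 := by
      apply central_ext hK hv0 hu0 hdis hc hDK (fun k _ => by rw [mul_zero, zero_mul])
      · rw [hDv, Matrix.zero_mulVec]
      · rw [hDu, Matrix.zero_mulVec]
    exact sub_eq_zero.mp h3
  have hadjJ : (q_hform hQ).adj J = 0 + (-1) * J := by
    apply (q_hform hQ).adj_eq
    intro a b
    rw [zero_add, neg_one_mul, Matrix.neg_mulVec, p_neg']
    exact hskew J hJ0 a b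
  apply adjoin_two hQ hn hH hirr hK hsa hHK J hJK hcK K.zero_mem (by rw [zero_mul, add_zero, hJJ]) ?_ K.zero_mem
    (K.neg_mem K.one_mem) hadjJ
  · rw [hadjJ, zero_add, neg_one_mul]
    intro h3
    apply hu0
    have h4 : -(J *ᵥ v) = J *ᵥ v := by rw [← Matrix.neg_mulVec, h3]
    rw [hJv] at h4
    have h5 : (2 : F) • u = 0 := by rw [two_smul]; nth_rewrite 1 [← h4]; exact neg_add_cancel u
    exact (smul_eq_zero.mp h5).resolve_left h2
  · intro g hg
    obtain ⟨b, hb, hbJ⟩ := hS _ (central_conj hHK hJK hg) (fun w => by rw [polar_conj hH hg, hJ0])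
    exact ⟨0, K.zero_mem, b, hb, by rw [zero_add, hbJ]⟩

end H96.OeFld2
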