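import Mathlib
import Cfsg.Agent.Lib.H96.OeFld2

set_option autoImplicit false
set_option linter.unusedSectionVars false

/-!
Self-adjoint extension fields over which the space is two-dimensional: characteristic two.
-/

namespace H96.OeFld3

open Module QuadraticMap H48.QuadSplit H48.QuadStd H95.OGeo H96.OeType H96.OeTyp2 H96.OeTyp3 H96.OeOmega H96.OeRed H96.OeMain
open H96.OeSmall H96.OeBlk H96.OeBlk2 H96.OeSum H96.OeFld H96.OeFld2 Cfsg Cfsg.Geo Matrix
open H97.AschRad H96.AschAdj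

variable {ι : Type} [Fintype ι] [DecidableEq ι] {F : Type*} [Field F] {Q : QuadraticForm F (ι → F)}
variable {r : ℕ} {K : Subalgebra F (Matrix ι ι F)}

/-- representing the quadratic form on a K-line by the pairing with another K-line -/
theorem exists_coef [Fintype F] (h2 : (2 : F) = 0) (hK : IsFieldSubalgebra r K) (hsa : IsSelfAdjointFor (polar (⇑Q)) K)
    {v u : ι → F} (hvu : ∀ b ∈ K, (∀ m ∈ K, polar (⇑Q) ((m * b) *ᵥ u) v = 0) → b = 0) (w : ι → F) :
    ∃ b ∈ K, ∀ s ∈ K, polar (⇑Q) ((s * s * b) *ᵥ u) v = Q (s *ᵥ w) := by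
  classical
  have hchar : CharP F 2 := CharTwo.of_one_ne_zero_of_two_eq_zero one_ne_zero h2
  let ρ : F ≃+* F := (frobeniusEquiv F 2).symm
  have hρ : ∀ a b : F, ρ (a * a * b) = a * ρ b := by
    intro a b
    rw [map_mul]
    congr 1
    apply (frobeniusEquiv F 2).injective
    change (frobeniusEquiv F 2) ((frobeniusEquiv F 2).symm (a * a)) = _
    rw [RingEquiv.apply_symm_apply, frobeniusEquiv_apply, frobenius_def]
    ring
  have hsum : ∀ a ∈ K, ∀ b ∈ K, (a + b) * (a + b) = a * a + b * b := by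
    intro a ha b hb
    have : (a + b) * (a + b) = a * a + b * b + (2 : F) • (a * b) := by
      rw [two_smul, add_mul, mul_add, mul_add, hK.comm b hb a ha]; abel
    rw [this, h2, zero_smul, add_zero]
  let Λ : K → (K →ₗ[F] F) := fun b =>
    { toFun := fun s => ρ (polar (⇑Q) (((s : Matrix ι ι F) * (s : Matrix ι ι F) * (b : Matrix ι ι F)) *ᵥ u) v)
      map_add' := fun s t => by
        rw [AddMemClass.coe_add, hsum _ s.2 _ t.2, add_mul, Matrix.add_mulVec, p_add, map_add]
      map_smul' := fun a s => by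
        change ρ (polar (⇑Q) (((a • (s : Matrix ι ι F)) * (a • (s : Matrix ι ι F)) * (b : Matrix ι ι F)) *ᵥ u) v) = _
        rw [smul_mul_smul_comm, smul_mul_assoc, Matrix.smul_mulVec, p_smul, hρ]
        rfl }
  let L : K →ₗ[F] F :=
    { toFun := fun s => ρ (Q ((s : Matrix ι ι F) *ᵥ w))
      map_add' := fun s t => by
        rw [AddMemClass.coe_add, Matrix.add_mulVec, Q_add, alt_field' h2 hK hsa s.2 t.2, add_zero, map_add]
      map_smul' := fun a s => by
        change ρ (Q ((a • (s : Matrix ι ι F)) *ᵥ w)) = _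
        rw [Matrix.smul_mulVec, H95.OGeo.Q_smul, hρ]
        rfl }
  have hfinM : Finite (Matrix ι ι F) := by unfold Matrix; infer_instance
  have hfin : Finite K := Subtype.finite
  have hfinD : Finite (K →ₗ[F] F) := by
    have : Module.Finite F (K →ₗ[F] F) := inferInstance
    exact Module.finite_of_finite F
  have hinj : Function.Injective Λ := by
    intro b b' hbb
    have h1 : (b : Matrix ι ι F) - b' = 0 := by
      apply hvu _ (K.sub_mem b.2 b'.2)
      intro m hm
      obtain ⟨s, hs, rfl⟩ := exists_sqrt h2 hK hm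
      have h3 := congrArg (fun f => f ⟨s, hs⟩) hbb
      change ρ (polar (⇑Q) ((s * s * (b : Matrix ι ι F)) *ᵥ u) v) = ρ (polar (⇑Q) ((s * s * (b' : Matrix ι ι F)) *ᵥ u) v) at h3
      have h4 := ρ.injective h3
      rw [mul_sub, Matrix.sub_mulVec, p_sub, h4, sub_self]
    exact Subtype.ext (sub_eq_zero.mp h1)
  have hcard : Nat.card K = Nat.card (K →ₗ[F] F) := by
    rw [Module.natCard_eq_pow_finrank (K := F) (V := K), Module.natCard_eq_pow_finrank (K := F) (V := K →ₗ[F] F),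
      Module.finrank_linearMap, finrank_self, mul_one]
  have hbij := (Nat.bijective_iff_injective_and_card Λ).mpr ⟨hinj, hcard⟩
  obtain ⟨b, hb⟩ := hbij.2 L
  refine ⟨b, b.2, fun s hs => ?_⟩
  have h3 := congrArg (fun f => f ⟨s, hs⟩) hb
  change ρ (polar (⇑Q) ((s * s * (b : Matrix ι ι F)) *ᵥ u) v) = ρ (Q (s *ᵥ w)) at h3
  exact ρ.injective h3

/-- characteristic two -/
theorem two_dim_even [Fintype F] (h2 : (2 : F) = 0) (hQ : IsNondegenerateQuadraticForm (⇑Q)) (hn : 3 ≤ Fintype.card ι)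
    {H : Subgroup (GL ι F)} (hH : H ≤ isometryGroup F (⇑Q)) (hirr : ActsIrreducibly (matrixSet H))
    (hK : IsFieldSubalgebra r K) (hc : Fintype.card ι = 2 * r) (hsa : IsSelfAdjointFor (polar (⇑Q)) K)
    (hHK : NormSet H K) : Imp (⇑Q) H ∨ Two (⇑Q) H := by
  classical
  have hND := isND hQ
  have hneg : ∀ M : Matrix ι ι F, -M = M := by
    intro M
    have : (2 : F) • M = 0 := by rw [h2, zero_smul]
    rw [two_smul] at this
    exact neg_eq_of_add_eq_zero_left this
  have hnonempty : Nonempty ι := Fintype.card_pos_iff.mp (by omega)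
  obtain ⟨i⟩ := hnonempty
  let v : ι → F := Pi.single i 1
  have hv0 : v ≠ 0 := by
    intro h
    have := congrFun h i
    simp [v] at this
  have hfv := finrank_kline hK hv0
  obtain ⟨u, hu⟩ : ∃ u, u ∉ kline K v := by
    by_contra hcon
    push Not at hcon
    have h1 : kline K v = ⊤ := by rw [eq_top_iff]; intro x _; exact hcon x
    rw [h1, finrank_top, finrank_fintype_fun_eq_card, hc] at hfv
    omega
  have hu0 : u ≠ 0 := by rintro rfl; exact hu (Submodule.zero_mem _)
  have hdis : kline K v ⊓ kline K u = ⊥ := by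
    rw [eq_bot_iff]
    rintro x ⟨hx1, hx2⟩
    obtain ⟨l, hl, rfl⟩ := mem_kline.mp hx2
    rw [Submodule.mem_bot]
    by_contra h0
    have hl0 : l ≠ 0 := by rintro rfl; exact h0 (Matrix.zero_mulVec u)
    obtain ⟨z, hz, -, hzl⟩ := exists_inv hK hl hl0
    apply hu
    have := smul_mem hz hx1
    rwa [Matrix.mulVec_mulVec, hzl, Matrix.one_mulVec] at this
  have hdis' : kline K u ⊓ kline K v = ⊥ := by rw [inf_comm]; exact hdis
  -- non-degeneracy of the pairing between two K-lines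
  have hpair : ∀ {v u : ι → F}, v ≠ 0 → u ≠ 0 → kline K v ⊓ kline K u = ⊥ →
      ∀ b ∈ K, (∀ m ∈ K, polar (⇑Q) ((m * b) *ᵥ u) v = 0) → b = 0 := by
    intro v u hv0 hu0 hdis b hb hm
    by_contra h0
    obtain ⟨z, hz, -, hzb⟩ := exists_inv hK hb h0
    apply hv0
    apply hND
    intro y
    obtain ⟨a, ha, a', ha', rfl⟩ := sup_top hK hv0 hu0 hdis hc y
    rw [p_add', p_comm _ v (a *ᵥ v), alt_field h2 hK hsa ha, zero_add, p_comm]
    have h1 := hm (a' * z) (K.mul_mem ha' hz)
    rwa [mul_assoc, hzb, mul_one] at h1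
  obtain ⟨b, hb, hbv⟩ := exists_coef h2 hK hsa (hpair hv0 hu0 hdis) v
  obtain ⟨c, hcK, hcu⟩ := exists_coef h2 hK hsa (hpair hu0 hv0 hdis') u
  obtain ⟨x, hxK, hxv, hxu⟩ := exists_central hK hv0 hu0 hdis hc (v + b *ᵥ u) (c *ᵥ v)
  have hxlin : ∀ k ∈ K, ∀ w, x *ᵥ (k *ᵥ w) = k *ᵥ (x *ᵥ w) := by
    intro k hk w
    rw [Matrix.mulVec_mulVec, ← hxK k hk, ← Matrix.mulVec_mulVec]
  have hxQ : ∀ w, polar (⇑Q) (x *ᵥ w) w = Q w := by
    intro w
    obtain ⟨k, hk, l, hl, rfl⟩ := sup_top hK hv0 hu0 hdis hc w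
    have e1 : x *ᵥ (k *ᵥ v + l *ᵥ u) = k *ᵥ v + (l * c) *ᵥ v + (k * b) *ᵥ u := by
      rw [Matrix.mulVec_add, hxlin k hk, hxlin l hl, hxv, hxu, Matrix.mulVec_add, Matrix.mulVec_mulVec,
        Matrix.mulVec_mulVec]
      abel
    have e2 : polar (⇑Q) ((l * c) *ᵥ v) (l *ᵥ u) = Q (l *ᵥ u) := by
      rw [← hcu l hl, ← hsa l hl, Matrix.mulVec_mulVec, ← mul_assoc]
    have e3 : polar (⇑Q) ((k * b) *ᵥ u) (k *ᵥ v) = Q (k *ᵥ v) := by
      rw [← hbv k hk, ← hsa k hk, Matrix.mulVec_mulVec, ← mul_assoc]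
    rw [e1, p_add, p_add, p_add', p_add', p_add', e2, e3, alt_field' h2 hK hsa hk hk,
      alt_field' h2 hK hsa (K.mul_mem hl hcK) hk, alt_field' h2 hK hsa (K.mul_mem hk hb) hl, Q_add]
    ring
  have hadj : ∀ a b, polar (⇑Q) (x *ᵥ a) b = polar (⇑Q) a ((1 + x) *ᵥ b) := by
    intro a b
    have h1 := hxQ (a + b)
    rw [Matrix.mulVec_add, p_add, p_add', p_add', hxQ, hxQ, Q_add, p_comm _ (x *ᵥ b) a] at h1
    rw [Matrix.add_mulVec, Matrix.one_mulVec, p_add']
    linear_combination h1 - (polar (⇑Q) a (x *ᵥ b)) * h2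
  have hadjx : (q_hform hQ).adj x = 1 + 1 * x := by
    rw [one_mul]
    exact (q_hform hQ).adj_eq hadj
  -- scalars
  have hL0 : ∀ y : Matrix ι ι F, (∀ k ∈ K, k * y = y * k) → (∀ w, polar (⇑Q) (y *ᵥ w) w = 0) → y ∈ K := by
    intro y hyK hy
    have hyw : ∀ w, w ≠ 0 → y *ᵥ w ∈ kline K w := by
      intro w hw
      have h1 : kline K w ≤ orth Q (kline K w) := by
        intro z hz
        rw [mem_orth]
        intro z' hz'
        obtain ⟨a, ha, rfl⟩ := mem_kline.mp hz
        obtain ⟨a', ha', rfl⟩ := mem_kline.mp hz'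
        exact alt_field' h2 hK hsa ha' ha w
      have hfo := finrank_orth hND (kline K w)
      rw [finrank_fintype_fun_eq_card, hc, finrank_kline hK hw] at hfo
      have h3 : kline K w = orth Q (kline K w) := by
        apply Submodule.eq_of_le_of_finrank_eq h1
        rw [finrank_kline hK hw]; omega
      rw [h3, mem_orth]
      intro z hz
      obtain ⟨k, hk, rfl⟩ := mem_kline.mp hz
      obtain ⟨s, hs, rfl⟩ := exists_sqrt h2 hK hk
      rw [← Matrix.mulVec_mulVec, p_comm, ← hsa s hs, Matrix.mulVec_mulVec, hyK s hs, ← Matrix.mulVec_mulVec]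
      exact hy _
    obtain ⟨a, ha, hav⟩ := mem_kline.mp (hyw v hv0)
    obtain ⟨a', ha', hau⟩ := mem_kline.mp (hyw u hu0)
    have hvu0 : v + u ≠ 0 := by
      intro h
      apply hu
      rw [eq_neg_of_add_eq_zero_right h]
      exact Submodule.neg_mem _ (self_mem K v)
    obtain ⟨a'', ha'', havu⟩ := mem_kline.mp (hyw (v + u) hvu0)
    have h1 : (a'' - a) *ᵥ v = (a' - a'') *ᵥ u := by
      rw [Matrix.mulVec_add, Matrix.mulVec_add, ← hav, ← hau] at havu
      rw [Matrix.sub_mulVec, Matrix.sub_mulVec]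
      rw [sub_eq_sub_iff_add_eq_add, havu]; abel
    have h3 : (a'' - a) *ᵥ v ∈ kline K v ⊓ kline K u :=
      ⟨mem_kline.mpr ⟨_, K.sub_mem ha'' ha, rfl⟩, by rw [h1]; exact mem_kline.mpr ⟨_, K.sub_mem ha' ha'', rfl⟩⟩
    rw [hdis, Submodule.mem_bot] at h3
    rw [h3] at h1
    have h4 : (⟨a'' - a, K.sub_mem ha'' ha⟩ : K) = 0 := kmap_injective hK hv0 (by rw [map_zero]; exact h3)
    have h5 : (⟨a' - a'', K.sub_mem ha' ha''⟩ : K) = 0 := kmap_injective hK hu0 (by rw [map_zero]; exact h1.symm)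
    have h6 : a'' - a = 0 := congrArg Subtype.val h4
    have h7 : a' - a'' = 0 := congrArg Subtype.val h5
    have h8 : a' = a := by rw [sub_eq_zero.mp h7, sub_eq_zero.mp h6]
    have h9 : y = a := by
      apply central_ext hK hv0 hu0 hdis hc hyK (fun k hk => hK.comm k hk a ha)
      · exact hav.symm
      · rw [← hau, h8]
    rw [h9]; exact ha
  -- x (1 + x) is scalar
  have hxx : x * (1 + x) ∈ K := by
    apply hL0
    · intro k hk
      rw [← mul_assoc, hxK k hk, mul_assoc, mul_add, mul_one, hxK k hk, mul_assoc, add_mul, one_mul]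
    · intro w
      rw [← Matrix.mulVec_mulVec, hadj, p_self, h2, zero_mul]
  have hyy : x * x = x * (1 + x) + 1 * x := by
    rw [mul_add, mul_one, one_mul, add_right_comm]
    have : x + x = 0 := by nth_rewrite 1 [← hneg x]; exact neg_add_cancel x
    rw [this, zero_add]
  apply adjoin_two hQ hn hH hirr hK hsa hHK x hxK hxx K.one_mem hyy ?_ K.one_mem K.one_mem hadjx
  · rw [hadjx, one_mul]
    intro h3
    have h4 : (1 : Matrix ι ι F) = 0 := add_eq_right.mp h3
    have h5 := congrFun (congrFun h4 i) i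
    simp at h5
  · intro g hg
    have h3 : (g : Matrix ι ι F) * x * ((g⁻¹ : GL ι F) : Matrix ι ι F) - x ∈ K := by
      apply hL0
      · intro k hk
        rw [mul_sub, sub_mul, central_conj hHK hxK hg k hk, hxK k hk]
      · intro w
        rw [Matrix.sub_mulVec, p_sub, polar_conj hH hg, hxQ, hxQ, mem_iso.mp (hH (H.inv_mem hg)), sub_self]
    exact ⟨_, h3, 1, K.one_mem, by rw [one_mul, sub_add_cancel]⟩

/-- the two-dimensional case -/
theorem two_dim_field [Fintype F] (hQ : IsNondegenerateQuadraticForm (⇑Q)) (hn : 3 ≤ Fintype.card ι)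
    {H : Subgroup (GL ι F)} (hH : H ≤ isometryGroup F (⇑Q)) (hirr : ActsIrreducibly (matrixSet H))
    (hK : IsFieldSubalgebra r K) (hc : Fintype.card ι = 2 * r) (hsa : IsSelfAdjointFor (polar (⇑Q)) K)
    (hHK : NormSet H K) : Imp (⇑Q) H ∨ Two (⇑Q) H := by
  by_cases h2 : (2 : F) = 0
  · exact two_dim_even h2 hQ hn hH hirr hK hc hsa hHK
  · exact two_dim_odd h2 hQ hn hH hirr hK hc hsa hHK

end H96.OeFld3
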