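import Mathlib
import Cfsg.Agent.Lib.H96.OeFld3
import Cfsg.Agent.Lib.H97.AschLinear

set_option autoImplicit false
set_option linter.unusedSectionVars false

/-!
Frames of lines and the type of the quadratic form; small auxiliary facts for the rows.
-/

namespace H96.OeLin

open Module QuadraticMap H48.QuadSplit H48.QuadStd H95.OGeo H96.OeType H96.OeTyp2 H96.OeTyp3 H96.OeOmega H96.OeRed H96.OeMain
open H96.OeSmall H96.OeBlk H96.OeBlk2 H96.OeSum H96.OePair H96.OeBlk3 Cfsg Cfsg.Geo Matrix H97.AschTF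

variable {ι : Type} [Fintype ι] [DecidableEq ι] {F : Type*} [Field F] {Q : QuadraticForm F (ι → F)}

lemma symplectic_fog {k : ℕ} {G : Matrix (Fin k) (Fin k) F} (hu : IsUnit G)
    (h : ∀ x, formOfGram (RingEquiv.refl F) G x x = 0) : IsSymplecticForm (formOfGram (RingEquiv.refl F) G) where
  bilinear := (fog_sesq (RingEquiv.refl F) G).to_bilinear
  skew := fun v w => by
    have hs := fog_sesq (RingEquiv.refl F) G
    have h1 := h (v + w)
    rw [hs.add_left, hs.add_right, hs.add_right, h, h] at h1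
    linear_combination h1
  alternating := h
  nondegenerate := fog_nondeg (RingEquiv.refl F) hu

lemma alt_even {k : ℕ} {G : Matrix (Fin k) (Fin k) F} (hu : IsUnit G)
    (h : ∀ x, formOfGram (RingEquiv.refl F) G x x = 0) : Even k := by
  have := H97.AschLinear.even_of_symplectic (symplectic_fog hu h)
  rwa [Fintype.card_fin] at this

lemma card_ne_six [Fintype F] : Fintype.card F ≠ 6 := by
  intro h
  obtain ⟨p, hp⟩ := CharP.exists F
  obtain ⟨n, hpp, hn⟩ := FiniteField.card F p
  rw [h] at hn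
  have h2 : 2 ∣ p ^ (n : ℕ) := by rw [← hn]; norm_num
  have h3 : 3 ∣ p ^ (n : ℕ) := by rw [← hn]; norm_num
  have e2 := (Nat.prime_dvd_prime_iff_eq Nat.prime_two hpp).mp (Nat.prime_two.dvd_of_dvd_pow h2)
  have e3 := (Nat.prime_dvd_prime_iff_eq Nat.prime_three hpp).mp (Nat.prime_three.dvd_of_dvd_pow h3)
  omega

lemma sq_iff [Fintype F] (hodd : Odd (Fintype.card F)) : (IsSquare (-1 : F) → Fintype.card F % 4 = 1) ∧
    (¬ IsSquare (-1 : F) → Fintype.card F % 4 = 3) := by
  rw [FiniteField.isSquare_neg_one_iff]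
  obtain ⟨k, hk⟩ := hodd
  omega

/-- a vector in each line, of constant norm -/
theorem lines_vec {t : ℕ} {D : Fin t → Submodule F (ι → F)} (hD : IsOrthogonalMDecomposition (⇑Q) 1 D) :
    ∃ (v : Fin t → ι → F) (c : F), c ≠ 0 ∧ (2 : F) ≠ 0 ∧ (∀ i, Q (v i) = c) ∧ (∀ i, v i ∈ D i) ∧
      (∀ i j, i ≠ j → polar (⇑Q) (v i) (v j) = 0) := by
  let i0 : Fin t := ⟨0, by have := hD.decomp.decomp.two_le; omega⟩
  have hd1 : ∀ i, Module.finrank F (D i) = 1 := hD.decomp.decomp.finrank_eq
  obtain ⟨v0, hv0⟩ := finrank_eq_one_iff'.mp (hd1 i0)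
  have hv00 : v0 ≠ 0 := hv0.1
  choose e he using fun i => hD.isometric i0 i
  let v : Fin t → (ι → F) := fun i => (e i v0 : D i)
  have hvD : ∀ i, v i ∈ D i := fun i => (e i v0).2
  have hv0' : ∀ i, v i ≠ 0 := by
    intro i h0
    have h3 : e i v0 = 0 := Subtype.ext h0
    exact hv00 ((e i).map_eq_zero_iff.mp h3)
  have hQv : ∀ i, Q (v i) = Q (v0 : ι → F) := fun i => he i v0
  have hspan : ∀ w ∈ D i0, ∃ a : F, w = a • v i0 := by
    intro w hw
    obtain ⟨a, ha⟩ := (finrank_eq_one_iff_of_nonzero' (e i0 v0)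
      (fun h0 => hv0' i0 (congrArg Subtype.val h0))).mp (hd1 i0) ⟨w, hw⟩
    exact ⟨a, (congrArg Subtype.val ha).symm⟩
  obtain ⟨x, hx, hx0⟩ := (hD.decomp.nondegenerate i0 (v i0) (hvD i0) (hv0' i0)).1
  obtain ⟨a, rfl⟩ := hspan x hx
  rw [p_smul, p_self, hQv] at hx0
  have h1 := right_ne_zero_of_mul hx0
  exact ⟨v, Q (v0 : ι → F), right_ne_zero_of_mul h1, left_ne_zero_of_mul h1, hQv, hvD,
    fun i j hij => hD.decomp.orthogonal i j hij _ (hvD i) _ (hvD j)⟩

/-- the type of a sum of 2(2m+1) isometric lines -/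
theorem lines_type [Fintype F] (hQ : IsNondegenerateQuadraticForm (⇑Q)) {t m : ℕ} (ht : t = 2 * (2 * m + 1))
    {D : Fin t → Submodule F (ι → F)} (hD : IsOrthogonalMDecomposition (⇑Q) 1 D) :
    IsPlusTypeOn (⇑Q) ⊤ ↔ IsSquare (-1 : F) := by
  classical
  obtain ⟨v, c, hc, h2, hQv, hvD, horth⟩ := lines_vec hD
  have hcard : Fintype.card ι = 2 * (2 * m + 1) := by
    rw [card_eq_mul hD.decomp.decomp, mul_one, ht]
  let e : Fin (2 * m + 1) ⊕ Fin (2 * m + 1) ≃ Fin t := Fintype.equivOfCardEq (by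
    rw [Fintype.card_sum, Fintype.card_fin, Fintype.card_fin, ht]; ring)
  let ψ : (Fin (2 * m + 1) → Fin t) → ((Fin (2 * m + 1) → F) →ₗ[F] (ι → F)) := fun α =>
    { toFun := fun x => ∑ i, x i • v (α i)
      map_add' := fun x y => by
        rw [← Finset.sum_add_distrib]
        exact Finset.sum_congr rfl (fun i _ => by rw [Pi.add_apply, add_smul])
      map_smul' := fun s x => by
        rw [RingHom.id_apply, Finset.smul_sum]
        exact Finset.sum_congr rfl (fun i _ => by rw [Pi.smul_apply, smul_eq_mul, mul_smul]) }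
  have hψ : ∀ α x, ψ α x = ∑ i, x i • v (α i) := fun α x => rfl
  have hpol : ∀ (α : Fin (2 * m + 1) → Fin t) (x : Fin (2 * m + 1) → F) (y : ι → F),
      polar (⇑Q) (ψ α x) y = ∑ i, x i * polar (⇑Q) (v (α i)) y := by
    intro α x y
    rw [hψ]
    have h3 : polarBilin Q (∑ i, x i • v (α i)) y = ∑ i, x i * polar (⇑Q) (v (α i)) y := by
      rw [map_sum, LinearMap.sum_apply]
      exact Finset.sum_congr rfl (fun i _ => by rw [map_smul, LinearMap.smul_apply, polarBilin_apply_apply]; rfl)
    exact h3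
  have hpv : ∀ (α : Fin (2 * m + 1) → Fin t), Function.Injective α → ∀ x j, polar (⇑Q) (ψ α x) (v (α j)) = 2 * c * x j := by
    intro α hα x j
    rw [hpol, Finset.sum_eq_single j]
    · rw [p_self, hQv]; ring
    · intro i _ hij
      rw [horth _ _ (fun h => hij (hα h)), mul_zero]
    · intro h; exact absurd (Finset.mem_univ _) h
  have h2c : 2 * c ≠ 0 := mul_ne_zero h2 hc
  have hinj : ∀ (α : Fin (2 * m + 1) → Fin t), Function.Injective α → Function.Injective (ψ α) := by
    intro α hα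
    rw [injective_iff_map_eq_zero]
    intro x hx
    funext j
    have h3 := hpv α hα x j
    rw [hx, p_zero] at h3
    exact (mul_eq_zero.mp h3.symm).resolve_left h2c
  have hQψ : ∀ (α : Fin (2 * m + 1) → Fin t), Function.Injective α → ∀ x, Q (ψ α x) = ∑ i, x i * x i * c := by
    intro α hα x
    rw [hψ, Q_sum _ _ (fun i j hij => by rw [p_smul, p_smul', horth _ _ (fun h => hij (hα h)), mul_zero, mul_zero])]
    exact Finset.sum_congr rfl (fun i _ => by rw [H95.OGeo.Q_smul, hQv])
  let α : Fin (2 * m + 1) → Fin t := fun i => e (Sum.inl i)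
  let β : Fin (2 * m + 1) → Fin t := fun i => e (Sum.inr i)
  have hα : Function.Injective α := fun i j h => Sum.inl.inj (e.injective h)
  have hβ : Function.Injective β := fun i j h => Sum.inr.inj (e.injective h)
  have hαβ : ∀ i j, α i ≠ β j := fun i j h => by
    have := e.injective h
    simp at this
  have hfW : finrank F (LinearMap.range (ψ α)) = 2 * m + 1 := by
    rw [LinearMap.finrank_range_of_inj (hinj α hα), finrank_fintype_fun_eq_card, Fintype.card_fin]
  have hfW' : finrank F (LinearMap.range (ψ β)) = 2 * m + 1 := by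
    rw [LinearMap.finrank_range_of_inj (hinj β hβ), finrank_fintype_fun_eq_card, Fintype.card_fin]
  have hle : LinearMap.range (ψ β) ≤ orth Q (LinearMap.range (ψ α)) := by
    rintro _ ⟨y, rfl⟩
    rw [mem_orth]
    rintro _ ⟨x, rfl⟩
    rw [hpol]
    apply Finset.sum_eq_zero
    intro i _
    rw [p_comm, hpol, Finset.sum_eq_zero, mul_zero]
    intro j _
    rw [horth _ _ (fun h => hαβ i j h.symm), mul_zero]
  have hfo := finrank_orth (isND hQ) (LinearMap.range (ψ α))
  rw [finrank_fintype_fun_eq_card, hcard, hfW] at hfo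
  have heq : LinearMap.range (ψ β) = orth Q (LinearMap.range (ψ α)) :=
    Submodule.eq_of_le_of_finrank_eq hle (by omega)
  have hnd : IsNondegenerateOn (polar (⇑Q)) (LinearMap.range (ψ α)) := by
    rw [nd_on_iff]
    rintro ⟨_, ⟨x, rfl⟩⟩ hx
    apply Subtype.ext
    change ψ α x = 0
    have h3 : x = 0 := by
      funext j
      have h4 : polar (⇑Q) (ψ α x) (v (α j)) = 0 := hx ⟨v (α j), ⟨Pi.single j 1, by
        rw [hψ, Finset.sum_eq_single j]
        · rw [Pi.single_eq_same, one_smul]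
        · intro i _ hi; rw [Pi.single_eq_of_ne hi, zero_smul]
        · intro h; exact absurd (Finset.mem_univ _) h⟩⟩
      rw [hpv α hα] at h4
      exact (mul_eq_zero.mp h4).resolve_left h2c
    rw [h3, map_zero]
  have hiso : AreIsometricFor (⇑Q) (LinearMap.range (ψ α)) (orth Q (LinearMap.range (ψ α))) := by
    rw [← heq]
    refine ⟨(LinearEquiv.ofInjective _ (hinj α hα)).symm.trans (LinearEquiv.ofInjective _ (hinj β hβ)), fun w => ?_⟩
    obtain ⟨x, hx⟩ := (LinearEquiv.ofInjective _ (hinj α hα)).surjective w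
    rw [← hx, LinearEquiv.trans_apply, LinearEquiv.symm_apply_apply, LinearEquiv.ofInjective_apply,
      LinearEquiv.ofInjective_apply, hQψ β hβ, hQψ α hα]
  obtain ⟨h3, h4⟩ := half_odd hQ hfW hcard hnd
  constructor
  · intro hp
    by_contra hs
    exact (h4 hs).mp hiso hp
  · intro hs
    exact (h3 hs).mp hiso

/-- the type of a sum of two isometric spaces of odd dimension -/
theorem pair_type [Fintype F] (hQ : IsNondegenerateQuadraticForm (⇑Q)) {m : ℕ}
    {D : Fin 2 → Submodule F (ι → F)} (hD : IsOrthogonalMDecomposition (⇑Q) (2 * m + 1) D) :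
    IsPlusTypeOn (⇑Q) ⊤ ↔ IsSquare (-1 : F) := by
  have hcard := card_eq_mul hD.decomp.decomp
  have hfr := hD.decomp.decomp.finrank_eq
  have hfo := finrank_orth (isND hQ) (D 0)
  rw [finrank_fintype_fun_eq_card, hcard, hfr 0] at hfo
  have heq : D 1 = orth Q (D 0) := by
    apply Submodule.eq_of_le_of_finrank_eq
    · intro x hx
      rw [mem_orth]
      intro y hy
      exact hD.decomp.orthogonal 0 1 (by decide) y hy x hx
    · rw [hfr 1]; omega
  have hiso := hD.isometric 0 1
  rw [heq] at hiso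
  obtain ⟨h3, h4⟩ := half_odd hQ (hfr 0) hcard (hD.decomp.nondegenerate 0)
  constructor
  · intro hp
    by_contra hs
    exact (h4 hs).mp hiso hp
  · intro hs
    exact (h3 hs).mp hiso

end H96.OeLin
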