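import Mathlib
import Cfsg.Agent.Lib.H96.OePar
import Cfsg.Agent.Lib.H96.OeSum
import Cfsg.Agent.Lib.H96.OeLin
import Cfsg.Agent.Lib.H48.Gram

set_option autoImplicit false
set_option linter.unusedSectionVars false

/-!
Regrouping a tensor product of symmetric forms of dimensions three and four.
-/

namespace H96.OeReg

open Module QuadraticMap H48.QuadSplit H48.QuadStd H95.OGeo H96.OeType H96.OeTyp2 H96.OeTyp3 H96.OeOmega H96.OeRed H96.OeMain
open H96.OeSmall H96.OeTen H96.OePar Cfsg Cfsg.Geo Matrix H97.AschPosE H97.AschPos H97.AschPosH H97.AschTF H97.AschForm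
open H97.AschUnits H97.AschLinear H97.AschDecomp H96.AschSympType5 H96.OeLin H97.AschSL2 H48.OmegaPlus H97.AschTwo H97.AschTensor
open scoped Kronecker

section Det
variable {F : Type*} [Field F]

/-- the determinant form on two by two matrices -/
def qd (F : Type*) [Field F] : QuadraticForm F (Fin 2 × Fin 2 → F) :=
  QuadraticMap.proj (0, 0) (1, 1) - QuadraticMap.proj (0, 1) (1, 0)

lemma qd_apply (x : Fin 2 × Fin 2 → F) : qd F x = x (0, 0) * x (1, 1) - x (0, 1) * x (1, 0) := rfl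

lemma polar_qd (x y : Fin 2 × Fin 2 → F) : polar (qd F) x y =
    x (0, 0) * y (1, 1) + x (1, 1) * y (0, 0) - x (0, 1) * y (1, 0) - x (1, 0) * y (0, 1) := by
  rw [polar, qd_apply, qd_apply, qd_apply]
  simp only [Pi.add_apply]
  ring

lemma nd_qd : ND (qd F) := by
  intro x hx
  have h1 := hx (Pi.single (1, 1) 1)
  have h2 := hx (Pi.single (0, 0) 1)
  have h3 := hx (Pi.single (1, 0) 1)
  have h4 := hx (Pi.single (0, 1) 1)
  rw [polar_qd] at h1 h2 h3 h4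
  simp [Prod.ext_iff] at h1 h2 h3 h4
  funext ⟨i, k⟩
  fin_cases i <;> fin_cases k <;> simp [h1, h2, h3, h4]

/-- the left and right factors of a product of two reflections -/
def lf (v w : Fin 2 × Fin 2 → F) : Matrix (Fin 2) (Fin 2) F :=
  !![v (0, 0) * w (1, 1) - v (0, 1) * w (1, 0), - v (0, 0) * w (0, 1) + v (0, 1) * w (0, 0);
     v (1, 0) * w (1, 1) - v (1, 1) * w (1, 0), - v (1, 0) * w (0, 1) + v (1, 1) * w (0, 0)]

def rf (v w : Fin 2 × Fin 2 → F) : Matrix (Fin 2) (Fin 2) F :=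
  !![w (1, 1) * v (0, 0) - w (0, 1) * v (1, 0), - w (1, 0) * v (0, 0) + w (0, 0) * v (1, 0);
     w (1, 1) * v (0, 1) - w (0, 1) * v (1, 1), - w (1, 0) * v (0, 1) + w (0, 0) * v (1, 1)]

lemma refl_refl {v w : Fin 2 × Fin 2 → F} (hv : qd F v ≠ 0) (hw : qd F w ≠ 0) :
    reflectionMatrix (⇑(qd F)) v * reflectionMatrix (⇑(qd F)) w = ((qd F v * qd F w)⁻¹ • lf v w) ⊗ₖ rf v w := by
  apply Matrix.toLin'.injective
  apply LinearMap.ext
  intro x
  rw [Matrix.toLin'_apply, Matrix.toLin'_apply, ← Matrix.mulVec_mulVec, H17.OrthMat.reflectionMatrix_mulVec,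
    H17.OrthMat.reflectionMatrix_mulVec, Matrix.smul_kronecker, Matrix.smul_mulVec, polar_qd, polar_qd]
  rw [qd_apply] at hv hw
  funext ⟨i, k⟩
  simp only [Matrix.mulVec, dotProduct, Fintype.sum_prod_type, Fin.sum_univ_two, Matrix.kroneckerMap_apply, Pi.sub_apply,
    Pi.smul_apply, smul_eq_mul, qd_apply]
  fin_cases i <;> fin_cases k <;> simp [lf, rf] <;> field_simp <;> ring

lemma even_kron : ∀ (n : ℕ) (vs : List (Fin 2 × Fin 2 → F)), vs.length = 2 * n → (∀ v ∈ vs, qd F v ≠ 0) →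
    ∃ A B : Matrix (Fin 2) (Fin 2) F, rprod (qd F) vs = A ⊗ₖ B := by
  intro n
  induction n with
  | zero =>
    intro vs h _
    have : vs = [] := List.length_eq_zero_iff.mp (by omega)
    subst this
    exact ⟨1, 1, by rw [Matrix.one_kronecker_one]; simp [rprod]⟩
  | succ n ih =>
    intro vs h hv
    match vs, h, hv with
    | [], h, _ => simp at h
    | [v], h, _ => simp at h; omega
    | v :: w :: ws, h, hv =>
      obtain ⟨A, B, hAB⟩ := ih ws (by simp at h; omega) (fun u hu => hv u (List.mem_cons_of_mem _ (List.mem_cons_of_mem _ hu)))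
      refine ⟨((qd F v * qd F w)⁻¹ • lf v w) * A, rf v w * B, ?_⟩
      rw [rprod_cons, rprod_cons, hAB, ← mul_assoc, refl_refl (hv v List.mem_cons_self)
        (hv w (List.mem_cons_of_mem _ List.mem_cons_self)), ← Matrix.mul_kronecker_mul]

lemma det_rprod {κ : Type} [Fintype κ] [DecidableEq κ] (Q : QuadraticForm F (κ → F)) : ∀ (vs : List (κ → F)),
    (∀ v ∈ vs, Q v ≠ 0) → (rprod Q vs).det = (-1) ^ vs.length := by
  intro vs
  induction vs with
  | nil => intro _; simp [rprod]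
  | cons v vs ih =>
    intro h
    rw [rprod_cons, Matrix.det_mul, ih (fun w hw => h w (List.mem_cons_of_mem _ hw)), List.length_cons, pow_succ]
    have := H17.OrthSO.det_refl Q v (h v List.mem_cons_self)
    have h2 : (reflectionMatrix (⇑Q) v).det = -1 := this
    rw [h2]; ring

/-- special isometries of the determinant form are tensor products -/
theorem so_kron [Fintype F] (h2 : (2 : F) ≠ 0) (g : GL (Fin 2 × Fin 2) F) (hg : ∀ x, qd F ((g : Matrix _ _ F) *ᵥ x) = qd F x)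
    (hdet : (g : Matrix (Fin 2 × Fin 2) (Fin 2 × Fin 2) F).det = 1) :
    ∃ A B : Matrix (Fin 2) (Fin 2) F, (g : Matrix (Fin 2 × Fin 2) (Fin 2 × Fin 2) F) = A ⊗ₖ B := by
  have hF : Fintype.card F ≠ 2 := by
    intro h
    apply h2
    have := FiniteField.cast_card_eq_zero F
    rw [h] at this
    exact_mod_cast this
  have hmem : g ∈ isometryGroup F (⇑(qd F)) := mem_iso.mpr hg
  obtain ⟨vs, h1, h3⟩ := H48.MaxSing.exists_rprod_all nd_qd (Or.inl hF) ⟨g, hmem⟩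
  change (g : Matrix (Fin 2 × Fin 2) (Fin 2 × Fin 2) F) = _ at h3
  have h4 := det_rprod (qd F) vs h1
  rw [← h3, hdet] at h4
  rcases Nat.even_or_odd' vs.length with ⟨n, hn | hn⟩
  · obtain ⟨A, B, hAB⟩ := even_kron n vs hn h1
    exact ⟨A, B, by rw [h3, hAB]⟩
  · exfalso
    rw [hn, pow_add, pow_mul, neg_one_sq, one_pow, one_mul, pow_one] at h4
    apply h2
    linear_combination h4

lemma fog_qd (x y : Fin 2 × Fin 2 → F) : formOfGram (RingEquiv.refl F) (J2 F ⊗ₖ J2 F) x y = polar (qd F) x y := by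
  rw [polar_qd]
  simp [formOfGram, Fintype.sum_prod_type, Fin.sum_univ_two, J2, Matrix.kroneckerMap_apply]
  ring

lemma iso_of_gram (h2 : (2 : F) ≠ 0) (g : Matrix (Fin 2 × Fin 2) (Fin 2 × Fin 2) F)
    (hg : gᵀ * (J2 F ⊗ₖ J2 F) * g = J2 F ⊗ₖ J2 F) (x : Fin 2 × Fin 2 → F) : qd F (g *ᵥ x) = qd F x := by
  have h1 : polar (qd F) (g *ᵥ x) (g *ᵥ x) = polar (qd F) x x := by
    rw [← fog_qd, ← fog_qd, fog_mul]
    congr 1
  rw [p_self, p_self] at h1
  exact mul_left_cancel₀ h2 h1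

end Det

section Reg
variable {ι : Type} [Fintype ι] [DecidableEq ι] {F : Type*} [Field F] {Q : QuadraticForm F (ι → F)}

lemma fog_submatrix {κ κ' : Type} [Fintype κ] [Fintype κ'] (E : κ ≃ κ') (σ : F ≃+* F) (G : Matrix κ' κ' F) (x y : κ → F) :
    formOfGram σ (G.submatrix E E) x y = formOfGram σ G (x ∘ E.symm) (y ∘ E.symm) := by
  rw [formOfGram, formOfGram]
  refine Fintype.sum_equiv E _ _ (fun a => Fintype.sum_equiv E _ _ (fun b => ?_))
  simp

lemma cr_trans {κ κ' : Type} [Fintype κ] [DecidableEq κ] [Fintype κ'] [DecidableEq κ'] (e : ι ≃ κ) (E : κ ≃ κ') (P : GL ι F)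
    (X : Matrix κ' κ' F) : cr (e.trans E) P X = cr e P (X.submatrix E E) := by
  rw [cr_apply, cr_apply]
  rfl

/-- the regrouping bijection -/
def regE (φ : Fin 4 ≃ Fin 2 × Fin 2) (ψ : Fin 3 × Fin 2 ≃ Fin 6) : Fin 3 × Fin 4 ≃ Fin 2 × Fin 6 where
  toFun p := ((φ p.2).1, ψ (p.1, (φ p.2).2))
  invFun p := ((ψ.symm p.2).1, φ.symm (p.1, (ψ.symm p.2).2))
  left_inv p := by simp
  right_inv p := by simp

lemma kron_reg (φ : Fin 4 ≃ Fin 2 × Fin 2) (ψ : Fin 3 × Fin 2 ≃ Fin 6) (a : Matrix (Fin 3) (Fin 3) F)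
    (A B : Matrix (Fin 2) (Fin 2) F) :
    a ⊗ₖ ((A ⊗ₖ B).submatrix φ φ) =
      (A ⊗ₖ ((a ⊗ₖ B).submatrix ψ.symm ψ.symm)).submatrix (regE φ ψ) (regE φ ψ) := by
  ext ⟨i, l⟩ ⟨i', l'⟩
  simp only [Matrix.kroneckerMap_apply, Matrix.submatrix_apply, regE, Equiv.coe_fn_mk, Equiv.symm_apply_apply]
  ring

/-- the coordinate map -/
def Lc {κ : Type} (e : ι ≃ κ) (P : GL ι F) : (κ → F) ≃ₗ[F] (ι → F) where
  toFun x := (P : Matrix ι ι F) *ᵥ (x ∘ e)
  invFun v := (((P⁻¹ : GL ι F) : Matrix ι ι F) *ᵥ v) ∘ e.symm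
  map_add' x y := by rw [← Matrix.mulVec_add]; rfl
  map_smul' c x := by rw [RingHom.id_apply, ← Matrix.mulVec_smul]; rfl
  left_inv x := by
    simp only [Matrix.mulVec_mulVec]
    rw [← Units.val_mul, inv_mul_cancel, Units.val_one, Matrix.one_mulVec]
    ext i; simp
  right_inv v := by
    have : ((((P⁻¹ : GL ι F) : Matrix ι ι F) *ᵥ v) ∘ e.symm) ∘ e = ((P⁻¹ : GL ι F) : Matrix ι ι F) *ᵥ v := by
      ext i; simp
    change (P : Matrix ι ι F) *ᵥ (((((P⁻¹ : GL ι F) : Matrix ι ι F) *ᵥ v) ∘ e.symm) ∘ e) = v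
    rw [this, Matrix.mulVec_mulVec, ← Units.val_mul, mul_inv_cancel, Units.val_one, Matrix.one_mulVec]

/-- in a space of plus type the four-dimensional factor has square discriminant -/
theorem det_square [Fintype F] (hQ : IsNondegenerateQuadraticForm (⇑Q)) (hp : IsPlusTypeOn (⇑Q) ⊤)
    {H : Subgroup (GL ι F)} {e : ι ≃ Fin 3 × Fin 4} {P : GL ι F} {G₁ : Matrix (Fin 3) (Fin 3) F}
    {G₂ : Matrix (Fin 4) (Fin 4) F} (h : TPos (RingEquiv.refl F) (polar (⇑Q)) H e P G₁ G₂) : IsSquare G₂.det := by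
  classical
  have hND := H96.OeBlk2.isND hQ
  have hc : Fintype.card ι = 12 := by rw [Fintype.card_congr e]; rfl
  let Q' : QuadraticForm F (Fin 3 × Fin 4 → F) := Q.comp (Lc e P).toLinearMap
  have hQ' : Q'.Equivalent Q := ⟨⟨Lc e P, fun x => rfl⟩⟩
  have h1 : Q.Equivalent (qPlus 6 F) :=
    equiv_of_pt hND (by rw [finrank_fintype_fun_eq_card, hc]) (H96.OeSum.pt_top.mp (plus_iff.mp hp))
  obtain ⟨d, hd, h3⟩ := H48.Gram.gdet_equivalent (hQ'.trans h1) (Pi.basisFun F (Fin 3 × Fin 4)) (Pi.basisFun F (Fin 6 ⊕ Fin 6))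
  obtain ⟨d', hd', h4⟩ := H48.Gram.gdet_qPlus 6 (Pi.basisFun F (Fin 6 ⊕ Fin 6))
  have h5 : H48.Gram.gdet Q' (Pi.basisFun F (Fin 3 × Fin 4)) = (G₁ ⊗ₖ G₂).det := by
    rw [H48.Gram.gdet]
    congr 1
    ext p p'
    rw [Matrix.of_apply, Pi.basisFun_apply, Pi.basisFun_apply]
    have h6 : polar (⇑Q') (Pi.single p 1) (Pi.single p' 1) = coF e P (polar (⇑Q)) (Pi.single p 1) (Pi.single p' 1) := by
      change Q (Lc e P (Pi.single p 1 + Pi.single p' 1)) - Q (Lc e P (Pi.single p 1)) - Q (Lc e P (Pi.single p' 1)) =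
        Q (Lc e P (Pi.single p 1) + Lc e P (Pi.single p' 1)) - _ - _
      rw [map_add]
      rfl
    rw [h6, h.form, fog_single]
  rw [h5, h4, Matrix.det_kronecker, Fintype.card_fin, Fintype.card_fin] at h3
  have hg1 : G₁.det ≠ 0 := ((Matrix.isUnit_iff_isUnit_det _).mp h.u1).ne_zero
  have hg2 : G₂.det ≠ 0 := ((Matrix.isUnit_iff_isUnit_det _).mp h.u2).ne_zero
  refine ⟨d * d' / (G₁.det ^ 2 * G₂.det), ?_⟩
  field_simp
  linear_combination h3

lemma det_omega [Fintype F] (hQ : ND Q) (h : Fintype.card F ≠ 2 ∨ Fintype.card ι ≠ 4) {g : GL ι F}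
    (hg : g ∈ omegaGL (⇑Q)) : (g : Matrix ι ι F).det = 1 := by
  obtain ⟨vs, h1, h2, h3⟩ := even_rprod hQ h hg
  rw [h3, det_rprod Q vs h1, h2.neg_one_pow]

lemma alt_of_skew {κ : Type} [Fintype κ] (h2 : (2 : F) ≠ 0) {G : Matrix κ κ F} (hG : Gᵀ = -G) (x : κ → F) :
    formOfGram (RingEquiv.refl F) G x x = 0 := by
  have h1 : formOfGram (RingEquiv.refl F) G x x = formOfGram (RingEquiv.refl F) Gᵀ x x := by
    rw [formOfGram, formOfGram, Finset.sum_comm]
    refine Finset.sum_congr rfl (fun a _ => Finset.sum_congr rfl (fun b _ => ?_))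
    rw [Matrix.transpose_apply]
    change x b * G b a * x a = x a * G b a * x b
    ring
  rw [hG] at h1
  have h3 : formOfGram (RingEquiv.refl F) (-G) x x = - formOfGram (RingEquiv.refl F) G x x := by
    rw [fog_eq_bf, fog_eq_bf, Matrix.neg_mulVec, dotProduct_neg]
  rw [h3] at h1
  have h4 : (2 : F) * formOfGram (RingEquiv.refl F) G x x = 0 := by linear_combination h1
  exact (mul_eq_zero.mp h4).resolve_left h2

lemma det_cr {κ : Type} [Fintype κ] [DecidableEq κ] (e : ι ≃ κ) (P : GL ι F) (X : Matrix κ κ F) :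
    (cr e P X).det = X.det := by
  rw [cr_apply, Matrix.det_mul, Matrix.det_mul, Matrix.det_submatrix_equiv_self, mul_comm, ← mul_assoc, ← Matrix.det_mul,
    ← Units.val_mul, inv_mul_cancel, Units.val_one, Matrix.det_one, one_mul]

lemma det_J2 : (J2 F).det = 1 := by
  rw [Matrix.det_fin_two]; simp [J2]

lemma J2_skew : (J2 F)ᵀ = - J2 F := by
  ext i j
  fin_cases i <;> fin_cases j <;> simp [J2]

/-- the factorisation of the four-dimensional factor -/
theorem factor_four [Fintype F] (h2 : (2 : F) ≠ 0) (φ : Fin 4 ≃ Fin 2 × Fin 2) {b : Matrix (Fin 4) (Fin 4) F} {s : F}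
    (hb : bᵀ * (J2 F ⊗ₖ J2 F).submatrix φ φ * b = (s ^ 2)⁻¹ • (J2 F ⊗ₖ J2 F).submatrix φ φ) (hs : s ≠ 0)
    (hdet : s ^ 4 * b.det = 1) : ∃ A B : GL (Fin 2) F, b = ((A : Matrix (Fin 2) (Fin 2) F) ⊗ₖ (B : Matrix (Fin 2) (Fin 2) F)).submatrix φ φ := by
  classical
  let c : Matrix (Fin 2 × Fin 2) (Fin 2 × Fin 2) F := (s • b).submatrix φ.symm φ.symm
  have hcdet : c.det = 1 := by
    change ((s • b).submatrix φ.symm φ.symm).det = 1
    rw [Matrix.det_submatrix_equiv_self, Matrix.det_smul, Fintype.card_fin, hdet]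
  have hcg : cᵀ * (J2 F ⊗ₖ J2 F) * c = J2 F ⊗ₖ J2 F := by
    have h1 : cᵀ * (J2 F ⊗ₖ J2 F) * c = ((s • b)ᵀ * (J2 F ⊗ₖ J2 F).submatrix φ φ * (s • b)).submatrix φ.symm φ.symm := by
      rw [← Matrix.submatrix_mul_equiv _ _ _ φ.symm, ← Matrix.submatrix_mul_equiv _ _ _ φ.symm]
      congr 2
      ext i j; simp
    rw [h1, Matrix.transpose_smul, Matrix.smul_mul, Matrix.smul_mul, Matrix.mul_smul, hb, smul_smul, smul_smul]
    have h3 : s * s * (s ^ 2)⁻¹ = 1 := by field_simp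
    rw [h3, one_smul]
    ext i j; simp
  have hunit : IsUnit c := (Matrix.isUnit_iff_isUnit_det _).mpr (by rw [hcdet]; exact isUnit_one)
  obtain ⟨g, hg⟩ := hunit
  obtain ⟨A, B, hAB⟩ := so_kron h2 g (by rw [hg]; exact iso_of_gram h2 c hcg) (by rw [hg]; exact hcdet)
  rw [hg] at hAB
  have hd : A.det ^ 2 * B.det ^ 2 = 1 := by
    have := congrArg Matrix.det hAB
    rw [hcdet, Matrix.det_kronecker, Fintype.card_fin] at this
    exact this.symm
  have hA : A.det ≠ 0 := by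
    rintro h; rw [h] at hd; simp at hd
  have hB : B.det ≠ 0 := by
    rintro h; rw [h] at hd; simp at hd
  have hA' : (s⁻¹ • A).det ≠ 0 := by
    rw [Matrix.det_smul]
    exact mul_ne_zero (pow_ne_zero _ (inv_ne_zero hs)) hA
  refine ⟨Matrix.GeneralLinearGroup.mkOfDetNeZero _ hA', Matrix.GeneralLinearGroup.mkOfDetNeZero _ hB, ?_⟩
  change b = ((s⁻¹ • A) ⊗ₖ B).submatrix φ φ
  rw [Matrix.smul_kronecker, ← hAB]
  ext i j
  simp only [c, Matrix.submatrix_apply, Matrix.smul_apply, Equiv.symm_apply_apply, smul_eq_mul]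
  field_simp

/-- regrouping -/
theorem regroup [Fintype F] (h2 : (2 : F) ≠ 0) (hQ : IsNondegenerateQuadraticForm (⇑Q)) (hp : IsPlusTypeOn (⇑Q) ⊤)
    {H : Subgroup (GL ι F)} (hH : H ≤ omegaGL (⇑Q)) {e : ι ≃ Fin 3 × Fin 4} {P : GL ι F} {G₁ : Matrix (Fin 3) (Fin 3) F}
    {G₂ : Matrix (Fin 4) (Fin 4) F} (h : TPos (RingEquiv.refl F) (polar (⇑Q)) H e P G₁ G₂) (hs1 : G₁ᵀ = G₁) (hs2 : G₂ᵀ = G₂) :
    ∃ (e' : ι ≃ Fin 2 × Fin 6) (P' : GL ι F) (G₁' : Matrix (Fin 2) (Fin 2) F) (G₂' : Matrix (Fin 6) (Fin 6) F),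
      TPos (RingEquiv.refl F) (polar (⇑Q)) H e' P' G₁' G₂' ∧ (∀ x, formOfGram (RingEquiv.refl F) G₁' x x = 0) ∧
      (∀ x, formOfGram (RingEquiv.refl F) G₂' x x = 0) ∧ ∀ x y, Q ((P' : Matrix ι ι F) *ᵥ (pv x y ∘ e')) = 0 := by
  classical
  have hND := H96.OeBlk2.isND hQ
  have hc : Fintype.card ι = 12 := by rw [Fintype.card_congr e]; rfl
  let φ : Fin 4 ≃ Fin 2 × Fin 2 := (finProdFinEquiv : Fin 2 × Fin 2 ≃ Fin 4).symm
  let ψ : Fin 3 × Fin 2 ≃ Fin 6 := finProdFinEquiv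
  let JJ : Matrix (Fin 4) (Fin 4) F := (J2 F ⊗ₖ J2 F).submatrix φ φ
  have hJJ : JJ = (J2 F ⊗ₖ J2 F).submatrix φ φ := rfl
  have hJJd : JJ.det = 1 := by
    rw [hJJ, Matrix.det_submatrix_equiv_self, Matrix.det_kronecker, det_J2]; simp
  have hJJu : IsUnit JJ := (Matrix.isUnit_iff_isUnit_det _).mpr (by rw [hJJd]; exact isUnit_one)
  have hJJs : JJᵀ = JJ := by
    have h3 : (J2 F ⊗ₖ J2 F)ᵀ = J2 F ⊗ₖ J2 F := by
      have : (J2 F ⊗ₖ J2 F)ᵀ = (J2 F)ᵀ ⊗ₖ (J2 F)ᵀ := rfl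
      rw [this, J2_skew]
      ext p p'
      simp [Matrix.kroneckerMap_apply]
    rw [hJJ, Matrix.transpose_submatrix, h3]
  obtain ⟨A₀, hA₀⟩ := symm_congr h2 G₂ JJ h.u2 hJJu hs2 hJJs (by rw [hJJd, mul_one]; exact det_square hQ hp h)
  have h' := TPos.change h 1 A₀
  have e1 : ((1 : GL (Fin 3) F) : Matrix (Fin 3) (Fin 3) F)ᵀ * G₁ * ((1 : GL (Fin 3) F) : Matrix (Fin 3) (Fin 3) F).map (RingEquiv.refl F) = G₁ := by
    change (1 : Matrix (Fin 3) (Fin 3) F)ᵀ * G₁ * (1 : Matrix (Fin 3) (Fin 3) F) = G₁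
    rw [Matrix.transpose_one, one_mul, mul_one]
  have e2 : (A₀ : Matrix (Fin 4) (Fin 4) F)ᵀ * G₂ * (A₀ : Matrix (Fin 4) (Fin 4) F).map (RingEquiv.refl F) = JJ := hA₀
  rw [e1, e2] at h'
  obtain ⟨P', hP'⟩ : ∃ P', P' = P * glReindex e.symm (kGL 1 A₀) := ⟨_, rfl⟩
  rw [← hP'] at h'
  clear h hP' hA₀ e1 e2
  -- the new decomposition
  let E := regE φ ψ
  let G₂' : Matrix (Fin 6) (Fin 6) F := (G₁ ⊗ₖ J2 F).submatrix ψ.symm ψ.symm
  have hg1 : G₁.det ≠ 0 := ((Matrix.isUnit_iff_isUnit_det _).mp h'.u1).ne_zero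
  have halt1 : ∀ x, formOfGram (RingEquiv.refl F) (J2 F) x x = 0 := alt_of_skew h2 J2_skew
  have halt2 : ∀ x, formOfGram (RingEquiv.refl F) G₂' x x = 0 := by
    apply alt_of_skew h2
    ext i j
    have h3 : ∀ a b, G₁ b a = G₁ a b := fun a b => congrFun (congrFun hs1 a) b
    have h4 : ∀ a b, J2 F b a = - J2 F a b := fun a b => congrFun (congrFun J2_skew a) b
    change G₁ _ _ * J2 F _ _ = - (G₁ _ _ * J2 F _ _)
    rw [h3, h4]; ring
  have hform : ∀ x y, coF (e.trans E) P' (polar (⇑Q)) x y = formOfGram (RingEquiv.refl F) (J2 F ⊗ₖ G₂') x y := by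
    intro x y
    have h3 : coF (e.trans E) P' (polar (⇑Q)) x y = coF e P' (polar (⇑Q)) (x ∘ E) (y ∘ E) := rfl
    rw [h3, h'.form, hJJ, kron_reg φ ψ, fog_submatrix]
    have h4 : ∀ z : Fin 2 × Fin 6 → F, (z ∘ E) ∘ E.symm = z := by
      intro z; ext p; simp
    change formOfGram (RingEquiv.refl F) (J2 F ⊗ₖ G₂') ((x ∘ E) ∘ E.symm) ((y ∘ E) ∘ E.symm) = _
    rw [h4, h4]
  refine ⟨e.trans E, P', J2 F, G₂', ⟨?_, ?_, ?_, hform⟩, halt1, halt2, ?_⟩
  · intro g hg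
    have hgd : (g : Matrix ι ι F).det = 1 := det_omega hND (Or.inr (by rw [hc]; norm_num)) (hH hg)
    obtain ⟨a, b, c, hc0, hab, ha, hb⟩ := h'.mult (by norm_num) (by norm_num) hg
      (iso_le (⇑Q) (mem_iso.mpr (omegaGL_Q Q (hH hg))))
    have ha' : (a : Matrix (Fin 3) (Fin 3) F)ᵀ * G₁ * (a : Matrix (Fin 3) (Fin 3) F) = c • G₁ := ha
    have hb' : (b : Matrix (Fin 4) (Fin 4) F)ᵀ * JJ * (b : Matrix (Fin 4) (Fin 4) F) = c⁻¹ • JJ := hb
    have hda := congrArg Matrix.det ha'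
    have hdb := congrArg Matrix.det hb'
    rw [Matrix.det_mul, Matrix.det_mul, Matrix.det_transpose, Matrix.det_smul, Fintype.card_fin] at hda hdb
    rw [hJJd, mul_one, mul_one] at hdb
    have hda' : (a : Matrix (Fin 3) (Fin 3) F).det ^ 2 = c ^ 3 := by
      apply mul_right_cancel₀ hg1
      linear_combination hda
    rw [hab, det_cr, Matrix.det_kronecker, Fintype.card_fin, Fintype.card_fin] at hgd
    obtain ⟨α, hα⟩ : ∃ α, α = (a : Matrix (Fin 3) (Fin 3) F).det := ⟨_, rfl⟩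
    obtain ⟨β, hβ⟩ : ∃ β, β = (b : Matrix (Fin 4) (Fin 4) F).det := ⟨_, rfl⟩
    rw [← hα] at hda' hgd
    rw [← hβ] at hdb hgd
    have hα0 : α ≠ 0 := by
      rintro rfl
      exact hc0 (pow_eq_zero_iff (three_ne_zero) |>.mp (by rw [← hda']; ring))
    have hdb' : c ^ 4 * β ^ 2 = 1 := by
      rw [inv_pow] at hdb
      field_simp at hdb
      linear_combination hdb
    have hβc : c ^ 2 * β = 1 := by
      have h5 : α ^ 4 = c ^ 6 := by linear_combination (α ^ 2 + c ^ 3) * hda'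
      rw [h5] at hgd
      linear_combination hgd - (c ^ 2 * β) * hdb'
    obtain ⟨A, B, hAB⟩ := factor_four h2 φ (b := (b : Matrix (Fin 4) (Fin 4) F)) (s := α / c) (by
        rw [← hJJ, hb']
        congr 1
        rw [div_pow, hda']
        field_simp) (div_ne_zero hα0 hc0) (by
        rw [← hβ, div_pow]
        have h5 : α ^ 4 = c ^ 6 := by linear_combination (α ^ 2 + c ^ 3) * hda'
        rw [h5]
        field_simp
        linear_combination hβc)
    have hu : IsUnit (((a : Matrix (Fin 3) (Fin 3) F) ⊗ₖ (B : Matrix (Fin 2) (Fin 2) F)).submatrix ψ.symm ψ.symm) := by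
      rw [Matrix.isUnit_iff_isUnit_det, Matrix.det_submatrix_equiv_self, Matrix.det_kronecker]
      exact ((((Matrix.isUnit_iff_isUnit_det _).mp a.isUnit)).pow _).mul ((((Matrix.isUnit_iff_isUnit_det _).mp B.isUnit)).pow _)
    obtain ⟨U, hU⟩ := hu
    refine (mem_tensorProductSubgroup_iff _ P' g).mpr ⟨A, U, ?_⟩
    rw [hab, hAB, kron_reg φ ψ, cr_trans, hU]
  · exact (Matrix.isUnit_iff_isUnit_det _).mpr (by rw [det_J2]; exact isUnit_one)
  · rw [Matrix.isUnit_iff_isUnit_det, Matrix.det_submatrix_equiv_self, Matrix.det_kronecker, det_J2, one_pow, mul_one]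
    exact (IsUnit.mk0 _ hg1).pow _
  · intro x y
    have h3 : polar (⇑Q) ((P' : Matrix ι ι F) *ᵥ (pv x y ∘ (e.trans E))) ((P' : Matrix ι ι F) *ᵥ (pv x y ∘ (e.trans E))) = 0 := by
      change coF (e.trans E) P' (polar (⇑Q)) (pv x y) (pv x y) = 0
      rw [hform, fog_pv, halt1, zero_mul]
    rw [p_self] at h3
    exact (mul_eq_zero.mp h3).resolve_left h2

end Reg

end H96.OeReg
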