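import Mathlib
import Cfsg.Agent.Lib.H96.OeLin

set_option autoImplicit false
set_option linter.unusedSectionVars false

/-!
The maximal subgroups of Ω_10^-(q).
-/

namespace H96.OeRow10m

open Module QuadraticMap H48.QuadSplit H48.QuadStd H95.OGeo H96.OeType H96.OeTyp2 H96.OeTyp3 H96.OeOmega H96.OeRed H96.OeMain
open H96.OeSmall H96.OeTen Cfsg Cfsg.Geo Matrix H97.AschPosE H97.AschCases H97.AschPos H97.AschTF
open H96.OePar H96.OeBlk H96.OeBlk2 H96.OeBlk3 H96.OeBlk4 H96.OeSum H96.OePair H96.OeFld H96.OeFld2 H96.OeFld3 H96.OeLin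

lemma mul_ten {a b : ℕ} (h : a * b = 10) : a = 1 ∨ a = 2 ∨ a = 5 ∨ a = 10 := by
  have h1 : a ∣ 10 := ⟨b, h.symm⟩
  have h2 : a ≤ 10 := Nat.le_of_dvd (by norm_num) h1
  interval_cases a <;> omega

lemma not_two_pow {k : ℕ} (h : 10 = 2 ^ k) : False := by
  have h1 : 5 ∣ 2 ^ k := by rw [← h]; norm_num
  have h2 := Nat.prime_five.dvd_of_dvd_pow h1
  norm_num at h2

lemma not_pow {t d : ℕ} (ht : 2 ≤ t) (h : 10 = d ^ t) : False := by
  have hd : d ≤ 3 := by
    by_contra hcon
    have h1 : 4 ^ 2 ≤ d ^ t := (Nat.pow_le_pow_left (by omega) 2).trans (Nat.pow_le_pow_right (by omega) ht)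
    omega
  have ht2 : t ≤ 3 := by
    by_contra hcon
    interval_cases d
    · rw [zero_pow (by omega)] at h; omega
    · rw [one_pow] at h; omega
    · have : 2 ^ 4 ≤ 2 ^ t := Nat.pow_le_pow_right (by omega) (by omega)
      omega
    · have : 3 ^ 4 ≤ 3 ^ t := Nat.pow_le_pow_right (by omega) (by omega)
      omega
  interval_cases t <;> interval_cases d <;> omega

lemma subfield_ne_top {F : Type*} [Field F] [Fintype F] {F₀ : Subfield F} {r : ℕ} (hr : r.Prime)
    (hcard : Fintype.card F = Nat.card F₀ ^ r) : F₀ ≠ ⊤ := by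
  rintro rfl
  have h2 : Nat.card (⊤ : Subfield F) = Fintype.card F := by
    rw [← Nat.card_eq_fintype_card]
    exact Nat.card_congr (Equiv.Set.univ F)
  rw [h2] at hcard
  have h3 : 1 < Fintype.card F := Fintype.one_lt_card
  have h4 : Fintype.card F ^ 1 < Fintype.card F ^ r := Nat.pow_lt_pow_right h3 hr.one_lt
  rw [pow_one] at h4
  omega

lemma normSet_of_le {ι : Type} [Fintype ι] [DecidableEq ι] {F : Type*} [Field F] {K : Subalgebra F (Matrix ι ι F)}
    {H : Subgroup (GL ι F)} (h : H ≤ subalgebraNormalizer K) : H97.AschRad.NormSet H K :=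
  fun g hg x hx => (h hg x).mp hx

theorem main {F : Type*} [Field F] [Fintype F] (Q : (Fin 10 → F) → F) (hQ : Cfsg.Geo.IsNondegenerateQuadraticForm Q) (hminus : ¬ Cfsg.Geo.IsPlusTypeOn Q ⊤) (H : Subgroup (Matrix.GeneralLinearGroup (Fin 10) F)) (hH : Cfsg.Geo.IsMaximalIn (Cfsg.Geo.omegaGL Q) H) :
    (∃ W : Submodule F (Fin 10 → F), W ≠ ⊥ ∧ Cfsg.Geo.IsTotallySingularQuad Q W ∧ H = Cfsg.Geo.subspaceStabilizer W ⊓ Cfsg.Geo.omegaGL Q) ∨
    (Odd (Fintype.card F) ∧ ∃ W : Submodule F (Fin 10 → F), W ≠ ⊥ ∧ W ≠ ⊤ ∧ Odd (Module.finrank F W) ∧ 2 * Module.finrank F W ≠ 10 ∧ Cfsg.Geo.IsNondegenerateOn (QuadraticMap.polar Q) W ∧ H = Cfsg.Geo.subspaceStabilizer W ⊓ Cfsg.Geo.omegaGL Q) ∨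
    (∃ W : Submodule F (Fin 10 → F), Module.finrank F W = 2 ∧ Cfsg.Geo.IsNondegenerateOn (QuadraticMap.polar Q) W ∧ ¬ Cfsg.Geo.IsPlusTypeOn Q W ∧ H = Cfsg.Geo.subspaceStabilizer W ⊓ Cfsg.Geo.omegaGL Q) ∨
    (4 ≤ Fintype.card F ∧ ∃ W : Submodule F (Fin 10 → F), Module.finrank F W = 2 ∧ Cfsg.Geo.IsNondegenerateOn (QuadraticMap.polar Q) W ∧ Cfsg.Geo.IsPlusTypeOn Q W ∧ H = Cfsg.Geo.subspaceStabilizer W ⊓ Cfsg.Geo.omegaGL Q) ∨
    (∃ W : Submodule F (Fin 10 → F), Module.finrank F W = 4 ∧ Cfsg.Geo.IsNondegenerateOn (QuadraticMap.polar Q) W ∧ H = Cfsg.Geo.subspaceStabilizer W ⊓ Cfsg.Geo.omegaGL Q) ∨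
    (¬ Odd (Fintype.card F) ∧ ∃ v : (Fin 10 → F), Q v ≠ 0 ∧ H = Cfsg.Geo.subspaceStabilizer (Submodule.span F {v}) ⊓ Cfsg.Geo.omegaGL Q) ∨
    ((∃ p : ℕ, p.Prime ∧ Fintype.card F = p ∧ (p % 4 = 3)) ∧ ∃ D : Fin 10 → Submodule F (Fin 10 → F), Cfsg.Geo.IsOrthogonalMDecomposition Q 1 D ∧ H = Cfsg.Geo.decompositionStabilizer D ⊓ Cfsg.Geo.omegaGL Q) ∨
    (Fintype.card F ≠ 3 ∧ ∃ D : Fin 5 → Submodule F (Fin 10 → F), Cfsg.Geo.IsOrthogonalMDecomposition Q 2 D ∧ H = Cfsg.Geo.decompositionStabilizer D ⊓ Cfsg.Geo.omegaGL Q) ∨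
    (Fintype.card F % 4 = 3 ∧ ∃ D : Fin 2 → Submodule F (Fin 10 → F), Cfsg.Geo.IsOrthogonalMDecomposition Q 5 D ∧ H = Cfsg.Geo.decompositionStabilizer D ⊓ Cfsg.Geo.omegaGL Q) ∨
    (Fintype.card F % 4 = 1 ∧ ∃ D : Fin 2 → Submodule F (Fin 10 → F), Cfsg.Geo.IsNondegenerateMDecomposition (QuadraticMap.polar Q) 5 D ∧ ¬ Cfsg.Geo.AreIsometricFor Q (D 0) (D 1) ∧ H = Cfsg.Geo.decompositionStabilizer D ⊓ Cfsg.Geo.omegaGL Q) ∨
    (Odd (Fintype.card F) ∧ ∃ K : Subalgebra F (Matrix (Fin 10) (Fin 10) F), Cfsg.Geo.IsFieldSubalgebra 2 K ∧ Cfsg.Geo.IsSelfAdjointFor (QuadraticMap.polar Q) K ∧ H = Cfsg.Geo.subalgebraNormalizer K ⊓ Cfsg.Geo.omegaGL Q) ∨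
    (∃ K : Subalgebra F (Matrix (Fin 10) (Fin 10) F), Cfsg.Geo.IsFieldSubalgebra 2 K ∧ Cfsg.Geo.IsAdjointClosedFor (QuadraticMap.polar Q) K ∧ ¬ Cfsg.Geo.IsSelfAdjointFor (QuadraticMap.polar Q) K ∧ (∀ k ∈ K, ∃ c : F, ∀ v : (Fin 10 → F), Q (Matrix.mulVec k v) = c * Q v) ∧ H = Cfsg.Geo.subalgebraNormalizer K ⊓ Cfsg.Geo.omegaGL Q) ∨
    (∃ (F₀ : Subfield F) (r : ℕ) (P : Matrix.GeneralLinearGroup (Fin 10) F) (ζ : F), r.Prime ∧ Odd r ∧ Fintype.card F = Nat.card F₀ ^ r ∧ ζ ≠ 0 ∧ Cfsg.Geo.IsQuadFormRationalStructure (fun v : Fin 10 → F => ζ * Q v) F₀ P ∧ H = Cfsg.Geo.subfieldSubgroup F₀ P ⊓ Cfsg.Geo.omegaGL Q) ∨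
    Cfsg.Geo.InOrthogonalResidualClass H := by
  classical
  by_contra hcon
  obtain ⟨Q, rfl, hND⟩ := H95.OBridge.exists_quad hQ
  have hc : Fintype.card (Fin 10) = 10 := Fintype.card_fin 10
  have hΩ : omegaGL (⇑Q) ≤ isometryGroup F (⇑Q) := fun g hg => mem_iso.mpr (omegaGL_Q Q hg)
  have hHi : H ≤ isometryGroup F (⇑Q) := hH.1.le.trans hΩ
  have fin : ∀ M, H ≤ M → ¬ omegaGL (⇑Q) ≤ M → H = M ⊓ omegaGL (⇑Q) := fun M h1 h2 => eq_of_max hH h1 h2
  have hline : ∀ v, Q v ≠ 0 → H ≤ subspaceStabilizer (Submodule.span F {v}) →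
      H = subspaceStabilizer (Submodule.span F {v}) ⊓ omegaGL (⇑Q) := by
    intro v hv hle
    have h1 := finrank_span hv
    apply fin _ hle
    apply not_le_subspace hND (by omega)
    · intro h; rw [h, finrank_bot] at h1; omega
    · intro h; rw [h, finrank_top, finrank_fintype_fun_eq_card] at h1; omega
  have hSub : Sub (⇑Q) H → False := by
    rintro ⟨F₀, r, P, ζ, hr, hcard, hζ, hrat, hle⟩
    rcases hr.eq_two_or_odd' with rfl | hodd
    · exact absurd (plus_of_subfield hND (m := 5) (by rw [hc]) hcard hζ hrat) hminus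
    · apply hcon
      iterate 12 right
      left
      exact ⟨F₀, r, P, ζ, hr, hodd, hcard, hζ, hrat, fin _ hle (not_le_subfield hND (by omega) (subfield_ne_top hr hcard) P)⟩
  have hLines : ∀ D : Fin 10 → Submodule F (Fin 10 → F), IsOrthogonalMDecomposition (⇑Q) 1 D →
      H ≤ decompositionStabilizer D → False := by
    intro D hD hle
    have hodd := odd_of_nd (hD.decomp.nondegenerate 0) (by rw [hD.decomp.decomp.finrank_eq]; exact odd_one)
    by_cases hp : (Fintype.card F).Prime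
    · apply hcon
      iterate 6 right
      left
      refine ⟨⟨_, hp, rfl, (sq_iff hodd).2 (fun hs => hminus ((lines_type hQ (m := 2) (by norm_num) hD).mpr hs))⟩, D, hD, ?_⟩
      exact fin _ hle (not_le_decomp hND (by omega) hD.decomp.decomp hD.decomp.orthogonal)
    · exact hSub (lines_sub hodd hp hD hHi hle)
  have hImp : Imp (⇑Q) H → False := by
    rintro (⟨t, k, D, hD, hle⟩ | ⟨k, D, hD, hts, hle⟩)
    · have h1 := card_eq_mul hD.decomp.decomp
      have ht := hD.decomp.decomp.two_le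
      rw [hc] at h1
      rcases mul_ten h1.symm with rfl | rfl | rfl | rfl
      · omega
      · have hk : k = 5 := by omega
        subst hk
        have hodd := odd_of_nd (hD.decomp.nondegenerate 0) (by rw [hD.decomp.decomp.finrank_eq]; decide)
        apply hcon
        iterate 8 right
        left
        refine ⟨(sq_iff hodd).2 (fun hs => hminus ((pair_type hQ (m := 2) hD).mpr hs)), D, hD, ?_⟩
        exact fin _ hle (not_le_decomp hND (by omega) hD.decomp.decomp hD.decomp.orthogonal)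
      · have hk : k = 2 := by omega
        subst hk
        by_cases hF : Fintype.card F = 3
        · have hnp : ¬ IsPlusTypeOn (⇑Q) (D 0) := fun hp => by
            have hall : ∀ i, IsPlusTypeOn (⇑Q) (D i) := by
              intro i
              rw [plus_iff] at hp ⊢
              obtain ⟨e, he⟩ := hD.isometric 0 i
              exact (pt_iff_of_equiv ⟨⟨e, fun x => he x⟩⟩).mp hp
            exact hminus (plus_of_plus hD (hall 0))
          obtain ⟨D', hD', hst⟩ := lines_three hF hQ hD 0 hnp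
          exact hLines D' hD' (fun g hg => hst g (hle hg) (hHi hg))
        · apply hcon
          iterate 7 right
          left
          exact ⟨hF, D, hD, fin _ hle (not_le_decomp hND (by omega) hD.decomp.decomp hD.decomp.orthogonal)⟩
      · have hk : k = 1 := by omega
        subst hk
        exact hLines D hD hle
    · have h1 := card_eq_mul hD
      rw [hc] at h1
      exact hminus (plus_top (hts 0) (by rw [hD.finrank_eq, hc, h1]))
  have hSelf : ∀ K : Subalgebra F (Matrix (Fin 10) (Fin 10) F), IsFieldSubalgebra 2 K → IsSelfAdjointFor (polar (⇑Q)) K →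
      H ≤ subalgebraNormalizer K → False := by
    intro K hK hsa hle
    by_cases hodd : Odd (Fintype.card F)
    · apply hcon
      iterate 10 right
      left
      exact ⟨hodd, K, hK, hsa, fin _ hle (not_le_field hND (by omega) hK le_rfl)⟩
    · have h3 := even_of_alt (H96.AschSp.two_eq_zero_of_even hodd) hQ (by norm_num) hK hsa
      rw [hc] at h3
      omega
  have hUni : ∀ K : Subalgebra F (Matrix (Fin 10) (Fin 10) F), IsFieldSubalgebra 2 K → IsAdjointClosedFor (polar (⇑Q)) K →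
      ¬ IsSelfAdjointFor (polar (⇑Q)) K → (∀ k ∈ K, ∃ c : F, ∀ v, Q (k *ᵥ v) = c * Q v) →
      H ≤ subalgebraNormalizer K → False := by
    intro K hK hadj hns hsim hle
    apply hcon
    iterate 11 right
    left
    exact ⟨K, hK, hadj, hns, hsim, fin _ hle (not_le_field hND (by omega) hK le_rfl)⟩
  rcases oe_main hQ (by omega) hHi with (⟨W, hW0, hW, hle⟩ | ⟨W, hW0, hW1, hW, hle⟩ | ⟨h2, v, hv, hle⟩) |
    ⟨hirr, himp | (⟨r, K, hr, hK, hsa, hle⟩ | ⟨K, hK, hadj, hns, hsim, hle⟩) |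
      (⟨d, k, e, P, G₁, G₂, hd, hk, hpos, ha1, ha2, h0⟩ | ⟨h2, d, k, e, P, G₁, G₂, hd, hk, hpos, hs1, hs2⟩) |
      hsub | hres | ⟨⟨k, hk⟩, -⟩ |
      ⟨t, d, e, P, N₀, G, C, ht, hd, hpow⟩⟩
  · apply hcon
    left
    exact ⟨W, hW0, hW, fin _ hle (not_le_subspace hND (by omega) hW0 (ts_ne_top hND hW))⟩
  · obtain ⟨W, hW0, hW1, hW, hle, hhalf⟩ := nd_half hND hHi hW0 hW1 hW hle
    have hfin := fin _ hle (not_le_subspace hND (by omega) hW0 hW1)
    have hpos : 0 < finrank F W := Module.finrank_pos_iff.mpr ((Submodule.nontrivial_iff_ne_bot).mpr hW0)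
    rcases Nat.even_or_odd (finrank F W) with hev | hodd
    · obtain ⟨m, hm⟩ := hev
      have hm2 : finrank F W = 2 ∨ finrank F W = 4 := by omega
      rcases hm2 with h2 | h4
      · by_cases hp : IsPlusTypeOn (⇑Q) W
        · by_cases hq : 4 ≤ Fintype.card F
          · apply hcon
            right; right; right; left
            exact ⟨hq, W, h2, hW, hp, hfin⟩
          · obtain ⟨v, hv, hle'⟩ := plane_small (by omega) hHi h2 hW hp hle
            by_cases hodd : Odd (Fintype.card F)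
            · apply hcon
              right; left
              have h1 := finrank_span hv
              refine ⟨hodd, Submodule.span F {v}, ?_, ?_, ?_, ?_, nd_span (H96.AschSp.two_ne_zero_of_odd hodd) hv, hline v hv hle'⟩
              · intro h; rw [h, finrank_bot] at h1; omega
              · intro h; rw [h, finrank_top, finrank_fintype_fun_eq_card] at h1; omega
              · rw [h1]; exact odd_one
              · rw [h1]; norm_num
            · apply hcon
              iterate 5 right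
              left
              exact ⟨hodd, v, hv, hline v hv hle'⟩
        · apply hcon
          right; right; left
          exact ⟨W, h2, hW, hp, hfin⟩
      · apply hcon
        iterate 4 right
        left
        exact ⟨W, h4, hW, hfin⟩
    · have hqodd := odd_of_nd hW hodd
      by_cases h5 : finrank F W = 5
      · obtain ⟨hnd2, hst⟩ := half_pair hQ (by norm_num) h5 (by rw [hc]) hW hHi hle
        have hfin2 := fin _ hst (not_le_decomp hND (by omega) hnd2.decomp hnd2.orthogonal)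
        obtain ⟨e1, e2⟩ := half_odd hQ (m := 2) h5 (by rw [hc]) hW
        by_cases hiso : AreIsometricFor (⇑Q) W (orth Q W)
        · apply hcon
          iterate 8 right
          left
          exact ⟨(sq_iff hqodd).2 (fun hs => hminus ((e1 hs).mp hiso)), _, iso_decomp hnd2 hiso, hfin2⟩
        · apply hcon
          iterate 9 right
          left
          refine ⟨(sq_iff hqodd).1 ?_, _, hnd2, hiso, hfin2⟩
          by_contra hs
          exact hiso ((e2 hs).mpr hminus)
      · apply hcon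
        right; left
        refine ⟨hqodd, W, hW0, hW1, hodd, ?_, hW, hfin⟩
        omega
  · apply hcon
    iterate 5 right
    left
    exact ⟨fun h => H96.AschSp.two_ne_zero_of_odd h h2, v, hv, hline v hv hle⟩
  · exact hImp himp
  · have h1 := dvd_of_field hK
    rw [hc] at h1
    have hr2 : r = 2 ∨ r = 5 := by
      have h2 : r ≤ 10 := Nat.le_of_dvd (by norm_num) h1
      interval_cases r <;> first | omega | (exfalso; revert hr; decide)
    rcases hr2 with rfl | rfl
    · exact hSelf K hK hsa hle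
    · rcases two_dim_field hQ (by omega) hHi hirr hK (by rw [hc]) hsa (normSet_of_le hle) with h | ⟨K', h1, h2, h3⟩ |
        ⟨K', h1, h2, h3, h4, h5⟩
      · exact hImp h
      · exact hSelf K' h1 h2 h3
      · exact hUni K' h1 h2 h3 h4 h5
  · exact hUni K hK hadj hns hsim hle
  · have h1 := Fintype.card_congr e
    rw [hc, Fintype.card_prod, Fintype.card_fin, Fintype.card_fin] at h1
    have h3 := alt_even hpos.u1 ha1
    have h4 := alt_even hpos.u2 ha2
    rcases mul_ten h1.symm with rfl | rfl | rfl | rfl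
    · omega
    · have hk5 : k = 5 := by omega
      subst hk5
      exact absurd h4 (by decide)
    · exact absurd h3 (by decide)
    · omega
  · have h1 := Fintype.card_congr e
    rw [hc, Fintype.card_prod, Fintype.card_fin, Fintype.card_fin] at h1
    rcases mul_ten h1.symm with rfl | rfl | rfl | rfl <;> omega
  · exact hSub hsub
  · apply hcon
    iterate 13 right
    exact hres
  · exact not_two_pow (by rw [← hc, hk])
  · have h1 := Fintype.card_congr e
    rw [hc, Fintype.card_fun, Fintype.card_fin, Fintype.card_fin] at h1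
    exact not_pow ht h1

end H96.OeRow10m
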