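import Mathlib
import Cfsg.Agent.Lib.H96.OeRow10m

set_option autoImplicit false
set_option linter.unusedSectionVars false

/-!
The maximal subgroups of Ω_10^+(q).
-/

namespace H96.OeRow10p

open Module QuadraticMap H48.QuadSplit H48.QuadStd H95.OGeo H96.OeType H96.OeTyp2 H96.OeTyp3 H96.OeOmega H96.OeRed H96.OeMain
open H96.OeSmall H96.OeTen Cfsg Cfsg.Geo Matrix H97.AschPosE H97.AschCases H97.AschPos H97.AschTF
open H96.OePar H96.OeBlk H96.OeBlk2 H96.OeBlk3 H96.OeBlk4 H96.OeSum H96.OePair H96.OeFld H96.OeFld2 H96.OeFld3 H96.OeLin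
open H96.OeRow10m

lemma not_irr_of_stab {ι : Type} [Fintype ι] [DecidableEq ι] {F : Type*} [Field F] {H : Subgroup (GL ι F)}
    {W : Submodule F (ι → F)} (h0 : W ≠ ⊥) (h1 : W ≠ ⊤) (hle : H ≤ subspaceStabilizer W) :
    ¬ ActsIrreducibly (matrixSet H) := by
  intro hirr
  rcases hirr W (by
    rintro _ ⟨g, hg, rfl⟩
    rintro _ ⟨w, hw, rfl⟩
    rw [Matrix.toLin'_apply]
    exact stab_apply (hle hg) hw) with h | h
  · exact h0 h
  · exact h1 h

theorem main {F : Type*} [Field F] [Fintype F] (Q : (Fin 10 → F) → F) (hQ : Cfsg.Geo.IsNondegenerateQuadraticForm Q) (hplus : Cfsg.Geo.IsPlusTypeOn Q ⊤) (H : Subgroup (Matrix.GeneralLinearGroup (Fin 10) F)) (hH : Cfsg.Geo.IsMaximalIn (Cfsg.Geo.omegaGL Q) H) :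
    (∃ W : Submodule F (Fin 10 → F), W ≠ ⊥ ∧ Cfsg.Geo.IsTotallySingularQuad Q W ∧ Module.finrank F W ≠ 4 ∧ H = Cfsg.Geo.subspaceStabilizer W ⊓ Cfsg.Geo.omegaGL Q) ∨
    (Odd (Fintype.card F) ∧ ∃ W : Submodule F (Fin 10 → F), W ≠ ⊥ ∧ W ≠ ⊤ ∧ Odd (Module.finrank F W) ∧ 2 * Module.finrank F W ≠ 10 ∧ Cfsg.Geo.IsNondegenerateOn (QuadraticMap.polar Q) W ∧ H = Cfsg.Geo.subspaceStabilizer W ⊓ Cfsg.Geo.omegaGL Q) ∨
    (∃ W : Submodule F (Fin 10 → F), Module.finrank F W = 2 ∧ Cfsg.Geo.IsNondegenerateOn (QuadraticMap.polar Q) W ∧ ¬ Cfsg.Geo.IsPlusTypeOn Q W ∧ H = Cfsg.Geo.subspaceStabilizer W ⊓ Cfsg.Geo.omegaGL Q) ∨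
    (4 ≤ Fintype.card F ∧ ∃ W : Submodule F (Fin 10 → F), Module.finrank F W = 2 ∧ Cfsg.Geo.IsNondegenerateOn (QuadraticMap.polar Q) W ∧ Cfsg.Geo.IsPlusTypeOn Q W ∧ H = Cfsg.Geo.subspaceStabilizer W ⊓ Cfsg.Geo.omegaGL Q) ∨
    (∃ W : Submodule F (Fin 10 → F), Module.finrank F W = 4 ∧ Cfsg.Geo.IsNondegenerateOn (QuadraticMap.polar Q) W ∧ H = Cfsg.Geo.subspaceStabilizer W ⊓ Cfsg.Geo.omegaGL Q) ∨
    (¬ Odd (Fintype.card F) ∧ ∃ v : (Fin 10 → F), Q v ≠ 0 ∧ H = Cfsg.Geo.subspaceStabilizer (Submodule.span F {v}) ⊓ Cfsg.Geo.omegaGL Q) ∨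
    ((∃ p : ℕ, p.Prime ∧ Fintype.card F = p ∧ (p % 4 = 1)) ∧ ∃ D : Fin 10 → Submodule F (Fin 10 → F), Cfsg.Geo.IsOrthogonalMDecomposition Q 1 D ∧ H = Cfsg.Geo.decompositionStabilizer D ⊓ Cfsg.Geo.omegaGL Q) ∨
    (7 ≤ Fintype.card F ∧ ∃ D : Fin 5 → Submodule F (Fin 10 → F), Cfsg.Geo.IsOrthogonalMDecomposition Q 2 D ∧ H = Cfsg.Geo.decompositionStabilizer D ⊓ Cfsg.Geo.omegaGL Q) ∨
    (Fintype.card F % 4 = 1 ∧ ∃ D : Fin 2 → Submodule F (Fin 10 → F), Cfsg.Geo.IsOrthogonalMDecomposition Q 5 D ∧ H = Cfsg.Geo.decompositionStabilizer D ⊓ Cfsg.Geo.omegaGL Q) ∨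
    (Fintype.card F % 4 = 3 ∧ ∃ D : Fin 2 → Submodule F (Fin 10 → F), Cfsg.Geo.IsNondegenerateMDecomposition (QuadraticMap.polar Q) 5 D ∧ ¬ Cfsg.Geo.AreIsometricFor Q (D 0) (D 1) ∧ H = Cfsg.Geo.decompositionStabilizer D ⊓ Cfsg.Geo.omegaGL Q) ∨
    (Odd (Fintype.card F) ∧ ∃ K : Subalgebra F (Matrix (Fin 10) (Fin 10) F), Cfsg.Geo.IsFieldSubalgebra 2 K ∧ Cfsg.Geo.IsSelfAdjointFor (QuadraticMap.polar Q) K ∧ H = Cfsg.Geo.subalgebraNormalizer K ⊓ Cfsg.Geo.omegaGL Q) ∨
    (∃ (F₀ : Subfield F) (r : ℕ) (P : Matrix.GeneralLinearGroup (Fin 10) F) (ζ : F), r.Prime ∧ Fintype.card F = Nat.card F₀ ^ r ∧ ζ ≠ 0 ∧ Cfsg.Geo.IsQuadFormRationalStructure (fun v : Fin 10 → F => ζ * Q v) F₀ P ∧ H = Cfsg.Geo.subfieldSubgroup F₀ P ⊓ Cfsg.Geo.omegaGL Q) ∨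
    Cfsg.Geo.InOrthogonalResidualClass H := by
  classical
  by_contra hcon
  obtain ⟨Q, rfl, hND⟩ := H95.OBridge.exists_quad hQ
  have hc : Fintype.card (Fin 10) = 10 := Fintype.card_fin 10
  have hΩ : omegaGL (⇑Q) ≤ isometryGroup F (⇑Q) := fun g hg => mem_iso.mpr (omegaGL_Q Q hg)
  have hHΩ : H ≤ omegaGL (⇑Q) := hH.1.le
  have hHi : H ≤ isometryGroup F (⇑Q) := hH.1.le.trans hΩ
  have fin : ∀ M, H ≤ M → ¬ omegaGL (⇑Q) ≤ M → H = M ⊓ omegaGL (⇑Q) := fun M h1 h2 => eq_of_max hH h1 h2
  have hline : ∀ v, Q v ≠ 0 → H ≤ subspaceStabilizer (Submodule.span F {v}) →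
      H = subspaceStabilizer (Submodule.span F {v}) ⊓ omegaGL (⇑Q) := by
    intro v hv hle
    have h1 := finrank_span hv
    apply fin _ hle
    apply not_le_subspace hND (by omega)
    · intro h; rw [h, finrank_bot] at h1; omega
    · intro h; rw [h, finrank_top, finrank_fintype_fun_eq_card] at h1; omega
  have hTS : ∀ W : Submodule F (Fin 10 → F), W ≠ ⊥ → IsTotallySingularQuad (⇑Q) W → finrank F W ≠ 4 →
      H ≤ subspaceStabilizer W → False := by
    intro W hW0 hW h4 hle
    apply hcon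
    left
    exact ⟨W, hW0, hW, h4, fin _ hle (not_le_subspace hND (by omega) hW0 (ts_ne_top hND hW))⟩
  have hSub : Sub (⇑Q) H → False := by
    rintro ⟨F₀, r, P, ζ, hr, hcard, hζ, hrat, hle⟩
    apply hcon
    iterate 11 right
    left
    exact ⟨F₀, r, P, ζ, hr, hcard, hζ, hrat, fin _ hle (not_le_subfield hND (by omega) (subfield_ne_top hr hcard) P)⟩
  have hLines : ∀ D : Fin 10 → Submodule F (Fin 10 → F), IsOrthogonalMDecomposition (⇑Q) 1 D →
      H ≤ decompositionStabilizer D → False := by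
    intro D hD hle
    have hodd := odd_of_nd (hD.decomp.nondegenerate 0) (by rw [hD.decomp.decomp.finrank_eq]; exact odd_one)
    by_cases hp : (Fintype.card F).Prime
    · apply hcon
      iterate 6 right
      left
      refine ⟨⟨_, hp, rfl, (sq_iff hodd).1 ((lines_type hQ (m := 2) (by norm_num) hD).mp hplus)⟩, D, hD, ?_⟩
      exact fin _ hle (not_le_decomp hND (by omega) hD.decomp.decomp hD.decomp.orthogonal)
    · exact hSub (lines_sub hodd hp hD hHi hle)
  have hImp : ActsIrreducibly (matrixSet H) → Imp (⇑Q) H → False := by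
    rintro hirr (⟨t, k, D, hD, hle⟩ | ⟨k, D, hD, hts, hle⟩)
    · have h1 := card_eq_mul hD.decomp.decomp
      have ht := hD.decomp.decomp.two_le
      rw [hc] at h1
      rcases mul_ten h1.symm with rfl | rfl | rfl | rfl
      · omega
      · have hk : k = 5 := by omega
        subst hk
        have hodd := odd_of_nd (hD.decomp.nondegenerate 0) (by rw [hD.decomp.decomp.finrank_eq]; decide)
        apply hcon
        iterate 8 right
        left
        refine ⟨(sq_iff hodd).1 ((pair_type hQ (m := 2) hD).mp hplus), D, hD, ?_⟩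
        exact fin _ hle (not_le_decomp hND (by omega) hD.decomp.decomp hD.decomp.orthogonal)
      · have hk : k = 2 := by omega
        subst hk
        have hall : ∀ i, IsPlusTypeOn (⇑Q) (D i) := fun i => (type_odd (m' := 1) (by norm_num) (by decide) hD i).mp hplus
        have h6 := card_ne_six (F := F)
        have h7 : 1 < Fintype.card F := Fintype.one_lt_card
        have hcases : Fintype.card F ≤ 3 ∨ Fintype.card F = 4 ∨ Fintype.card F = 5 ∨ 7 ≤ Fintype.card F := by omega
        rcases hcases with hF | hF | hF | hF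
        · exact not_irr_small hF hQ hD hall hHi hle hirr
        · exact hSub (sub_four hF hQ hD hall hHi hle)
        · obtain ⟨D', hD', hst⟩ := lines_five hF hQ hD 0 (hall 0)
          exact hLines D' hD' (fun g hg => hst g (hle hg) (hHi hg))
        · apply hcon
          iterate 7 right
          left
          exact ⟨hF, D, hD, fin _ hle (not_le_decomp hND (by omega) hD.decomp.decomp hD.decomp.orthogonal)⟩
      · have hk : k = 1 := by omega
        subst hk
        exact hLines D hD hle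
    · have h1 := card_eq_mul hD
      rw [hc] at h1
      have hk : k = 5 := by omega
      subst hk
      have hst := stab_of_pair hND (Or.inr (by rw [hc]; norm_num)) (m := 5) (by rw [hc]) (by decide) hD hts hHΩ hle
      refine not_irr_of_stab ?_ (ts_ne_top hND (hts 0)) hst hirr
      intro h0
      have := hD.finrank_eq 0
      rw [h0, finrank_bot] at this
      omega
  have hSelf : ∀ K : Subalgebra F (Matrix (Fin 10) (Fin 10) F), IsFieldSubalgebra 2 K → IsSelfAdjointFor (polar (⇑Q)) K →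
      H ≤ subalgebraNormalizer K → False := by
    intro K hK hsa hle
    by_cases hodd : Odd (Fintype.card F)
    · apply hcon
      iterate 10 right
      left
      exact ⟨hodd, K, hK, hsa, fin _ hle (not_le_field hND (by omega) hK le_rfl)⟩
    · have h3 := even_of_alt (H96.AschSp.two_eq_zero_of_even hodd) hQ (by norm_num) hK hsa
      rw [hc] at h3
      omega
  have hUni : ∀ K : Subalgebra F (Matrix (Fin 10) (Fin 10) F), IsFieldSubalgebra 2 K → IsAdjointClosedFor (polar (⇑Q)) K →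
      ¬ IsSelfAdjointFor (polar (⇑Q)) K → (∀ k ∈ K, ∃ c : F, ∀ v, Q (k *ᵥ v) = c * Q v) → False := by
    intro K hK hadj hns hsim
    have := (type_unitary hQ (m := 5) (by rw [hc]) hK hadj hns hsim).mp hplus
    exact absurd this (by decide)
  rcases oe_main hQ (by omega) hHi with (⟨W, hW0, hW, hle⟩ | ⟨W, hW0, hW1, hW, hle⟩ | ⟨h2, v, hv, hle⟩) |
    ⟨hirr, himp | (⟨r, K, hr, hK, hsa, hle⟩ | ⟨K, hK, hadj, hns, hsim, hle⟩) |
      (⟨d, k, e, P, G₁, G₂, hd, hk, hpos, ha1, ha2, h0⟩ | ⟨h2, d, k, e, P, G₁, G₂, hd, hk, hpos, hs1, hs2⟩) |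
      hsub | hres | ⟨⟨k, hk⟩, -⟩ |
      ⟨t, d, e, P, N₀, G, C, ht, hd, hpow⟩⟩
  · by_cases h4 : finrank F W = 4
    · obtain ⟨U, hU, hle'⟩ := stab_of_hyper hND (Or.inr (by rw [hc]; norm_num)) (m := 5) (by rw [hc]) hplus hW
        (by rw [h4]) hHΩ hle
      refine hTS U ?_ hU.q (by rw [hU.d]; norm_num) hle'
      intro h0
      have := hU.d
      rw [h0, finrank_bot] at this
      omega
    · exact hTS W hW0 hW h4 hle
  · obtain ⟨W, hW0, hW1, hW, hle, hhalf⟩ := nd_half hND hHi hW0 hW1 hW hle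
    have hfin := fin _ hle (not_le_subspace hND (by omega) hW0 hW1)
    have hpos : 0 < finrank F W := Module.finrank_pos_iff.mpr ((Submodule.nontrivial_iff_ne_bot).mpr hW0)
    rcases Nat.even_or_odd (finrank F W) with hev | hodd
    · obtain ⟨m, hm⟩ := hev
      have hm2 : finrank F W = 2 ∨ finrank F W = 4 := by omega
      rcases hm2 with h2 | h4
      · by_cases hp : IsPlusTypeOn (⇑Q) W
        · by_cases hq : 4 ≤ Fintype.card F
          · apply hcon
            right; right; right; left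
            exact ⟨hq, W, h2, hW, hp, hfin⟩
          · obtain ⟨v, hv, hle'⟩ := plane_small (by omega) hHi h2 hW hp hle
            by_cases hodd : Odd (Fintype.card F)
            · apply hcon
              right; left
              have h1 := finrank_span hv
              refine ⟨hodd, Submodule.span F {v}, ?_, ?_, ?_, ?_, nd_span (H96.AschSp.two_ne_zero_of_odd hodd) hv, hline v hv hle'⟩
              · intro h; rw [h, finrank_bot] at h1; omega
              · intro h; rw [h, finrank_top, finrank_fintype_fun_eq_card] at h1; omega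
              · rw [h1]; exact odd_one
              · rw [h1]; norm_num
            · apply hcon
              iterate 5 right
              left
              exact ⟨hodd, v, hv, hline v hv hle'⟩
        · apply hcon
          right; right; left
          exact ⟨W, h2, hW, hp, hfin⟩
      · apply hcon
        iterate 4 right
        left
        exact ⟨W, h4, hW, hfin⟩
    · have hqodd := odd_of_nd hW hodd
      by_cases h5 : finrank F W = 5
      · obtain ⟨hnd2, hst⟩ := half_pair hQ (by norm_num) h5 (by rw [hc]) hW hHi hle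
        have hfin2 := fin _ hst (not_le_decomp hND (by omega) hnd2.decomp hnd2.orthogonal)
        obtain ⟨e1, e2⟩ := half_odd hQ (m := 2) h5 (by rw [hc]) hW
        by_cases hiso : AreIsometricFor (⇑Q) W (orth Q W)
        · apply hcon
          iterate 8 right
          left
          refine ⟨(sq_iff hqodd).1 ?_, _, iso_decomp hnd2 hiso, hfin2⟩
          by_contra hs
          exact (e2 hs).mp hiso hplus
        · apply hcon
          iterate 9 right
          left
          exact ⟨(sq_iff hqodd).2 (fun hs => hiso ((e1 hs).mpr hplus)), _, hnd2, hiso, hfin2⟩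
      · apply hcon
        right; left
        refine ⟨hqodd, W, hW0, hW1, hodd, ?_, hW, hfin⟩
        omega
  · apply hcon
    iterate 5 right
    left
    exact ⟨fun h => H96.AschSp.two_ne_zero_of_odd h h2, v, hv, hline v hv hle⟩
  · exact hImp hirr himp
  · have h1 := dvd_of_field hK
    rw [hc] at h1
    have hr2 : r = 2 ∨ r = 5 := by
      have h2 : r ≤ 10 := Nat.le_of_dvd (by norm_num) h1
      interval_cases r <;> first | omega | (exfalso; revert hr; decide)
    rcases hr2 with rfl | rfl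
    · exact hSelf K hK hsa hle
    · rcases two_dim_field hQ (by omega) hHi hirr hK (by rw [hc]) hsa (normSet_of_le hle) with h | ⟨K', h1, h2, h3⟩ |
        ⟨K', h1, h2, h3, h4, -⟩
      · exact hImp hirr h
      · exact hSelf K' h1 h2 h3
      · exact hUni K' h1 h2 h3 h4
  · exact hUni K hK hadj hns hsim
  · have h1 := Fintype.card_congr e
    rw [hc, Fintype.card_prod, Fintype.card_fin, Fintype.card_fin] at h1
    have h3 := alt_even hpos.u1 ha1
    have h4 := alt_even hpos.u2 ha2
    rcases mul_ten h1.symm with rfl | rfl | rfl | rfl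
    · omega
    · have hk5 : k = 5 := by omega
      subst hk5
      exact absurd h4 (by decide)
    · exact absurd h3 (by decide)
    · omega
  · have h1 := Fintype.card_congr e
    rw [hc, Fintype.card_prod, Fintype.card_fin, Fintype.card_fin] at h1
    rcases mul_ten h1.symm with rfl | rfl | rfl | rfl <;> omega
  · exact hSub hsub
  · apply hcon
    iterate 12 right
    exact hres
  · exact not_two_pow (by rw [← hc, hk])
  · have h1 := Fintype.card_congr e
    rw [hc, Fintype.card_fun, Fintype.card_fin, Fintype.card_fin] at h1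
    exact not_pow ht h1

end H96.OeRow10p
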