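import Mathlib
import Cfsg.Agent.Lib.H96.OeTen

set_option autoImplicit false
set_option linter.unusedSectionVars false

/-!
The maximal subgroups of Ω_12^-(q).
-/

namespace H96.OeRow12m

open Module QuadraticMap H48.QuadSplit H48.QuadStd H95.OGeo H96.OeType H96.OeTyp2 H96.OeTyp3 H96.OeOmega H96.OeRed H96.OeMain
open H96.OeSmall H96.OeTen Cfsg Cfsg.Geo Matrix H97.AschPosE H97.AschCases H97.AschPos H97.AschTF

lemma mul_twelve {a b : ℕ} (h : a * b = 12) : a = 1 ∨ a = 2 ∨ a = 3 ∨ a = 4 ∨ a = 6 ∨ a = 12 := by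
  have h1 : a ∣ 12 := ⟨b, h.symm⟩
  have h2 : a ≤ 12 := Nat.le_of_dvd (by norm_num) h1
  interval_cases a <;> omega

lemma not_two_pow {k : ℕ} (h : 12 = 2 ^ k) : False := by
  have h1 : 3 ∣ 2 ^ k := by rw [← h]; norm_num
  have h2 := Nat.prime_three.dvd_of_dvd_pow h1
  norm_num at h2

lemma not_pow {t d : ℕ} (ht : 2 ≤ t) (h : 12 = d ^ t) : False := by
  have hd : d ≤ 3 := by
    by_contra hcon
    have h1 : 4 ^ 2 ≤ d ^ t := (Nat.pow_le_pow_left (by omega) 2).trans (Nat.pow_le_pow_right (by omega) ht)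
    omega
  have ht2 : t ≤ 3 := by
    by_contra hcon
    interval_cases d
    · rw [zero_pow (by omega)] at h; omega
    · rw [one_pow] at h; omega
    · have : 2 ^ 4 ≤ 2 ^ t := Nat.pow_le_pow_right (by omega) (by omega)
      omega
    · have : 3 ^ 4 ≤ 3 ^ t := Nat.pow_le_pow_right (by omega) (by omega)
      omega
  interval_cases t <;> interval_cases d <;> omega

theorem main {F : Type*} [Field F] [Fintype F] (Q : (Fin 12 → F) → F) (hQ : Cfsg.Geo.IsNondegenerateQuadraticForm Q) (hminus : ¬ Cfsg.Geo.IsPlusTypeOn Q ⊤) (H : Subgroup (Matrix.GeneralLinearGroup (Fin 12) F)) (hH : Cfsg.Geo.IsMaximalIn (Cfsg.Geo.omegaGL Q) H) :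
    (∃ W : Submodule F (Fin 12 → F), W ≠ ⊥ ∧ Cfsg.Geo.IsTotallySingularQuad Q W ∧ H = Cfsg.Geo.subspaceStabilizer W ⊓ Cfsg.Geo.omegaGL Q) ∨
    (Odd (Fintype.card F) ∧ ∃ W : Submodule F (Fin 12 → F), W ≠ ⊥ ∧ W ≠ ⊤ ∧ Odd (Module.finrank F W) ∧ 2 * Module.finrank F W ≠ 12 ∧ Cfsg.Geo.IsNondegenerateOn (QuadraticMap.polar Q) W ∧ H = Cfsg.Geo.subspaceStabilizer W ⊓ Cfsg.Geo.omegaGL Q) ∨
    (∃ W : Submodule F (Fin 12 → F), Module.finrank F W = 2 ∧ Cfsg.Geo.IsNondegenerateOn (QuadraticMap.polar Q) W ∧ ¬ Cfsg.Geo.IsPlusTypeOn Q W ∧ H = Cfsg.Geo.subspaceStabilizer W ⊓ Cfsg.Geo.omegaGL Q) ∨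
    (4 ≤ Fintype.card F ∧ ∃ W : Submodule F (Fin 12 → F), Module.finrank F W = 2 ∧ Cfsg.Geo.IsNondegenerateOn (QuadraticMap.polar Q) W ∧ Cfsg.Geo.IsPlusTypeOn Q W ∧ H = Cfsg.Geo.subspaceStabilizer W ⊓ Cfsg.Geo.omegaGL Q) ∨
    (∃ W : Submodule F (Fin 12 → F), Module.finrank F W = 4 ∧ Cfsg.Geo.IsNondegenerateOn (QuadraticMap.polar Q) W ∧ H = Cfsg.Geo.subspaceStabilizer W ⊓ Cfsg.Geo.omegaGL Q) ∨
    (∃ W : Submodule F (Fin 12 → F), Module.finrank F W = 6 ∧ Cfsg.Geo.IsNondegenerateOn (QuadraticMap.polar Q) W ∧ H = Cfsg.Geo.subspaceStabilizer W ⊓ Cfsg.Geo.omegaGL Q) ∨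
    (¬ Odd (Fintype.card F) ∧ ∃ v : (Fin 12 → F), Q v ≠ 0 ∧ H = Cfsg.Geo.subspaceStabilizer (Submodule.span F {v}) ⊓ Cfsg.Geo.omegaGL Q) ∨
    (∃ D : Fin 3 → Submodule F (Fin 12 → F), Cfsg.Geo.IsOrthogonalMDecomposition Q 4 D ∧ (∀ i, ¬ Cfsg.Geo.IsPlusTypeOn Q (D i)) ∧ H = Cfsg.Geo.decompositionStabilizer D ⊓ Cfsg.Geo.omegaGL Q) ∨
    (∃ K : Subalgebra F (Matrix (Fin 12) (Fin 12) F), Cfsg.Geo.IsFieldSubalgebra 2 K ∧ H = Cfsg.Geo.subalgebraNormalizer K ⊓ Cfsg.Geo.omegaGL Q) ∨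
    (∃ K : Subalgebra F (Matrix (Fin 12) (Fin 12) F), Cfsg.Geo.IsFieldSubalgebra 3 K ∧ H = Cfsg.Geo.subalgebraNormalizer K ⊓ Cfsg.Geo.omegaGL Q) ∨
    (Odd (Fintype.card F) ∧ 5 ≤ Fintype.card F ∧ ∃ (e : Fin 12 ≃ Fin 3 × Fin 4) (P : Matrix.GeneralLinearGroup (Fin 12) F) (f₁ : (Fin 3 → F) → (Fin 3 → F) → F) (f₂ : (Fin 4 → F) → (Fin 4 → F) → F), Cfsg.Geo.IsSymmetricForm f₁ ∧ Cfsg.Geo.IsSymmetricForm f₂ ∧ ¬ Cfsg.Geo.IsPlusTypeOn (fun v : Fin 4 → F => f₂ v v) ⊤ ∧ Cfsg.Geo.IsTensorFormStructure id (QuadraticMap.polar Q) f₁ f₂ e P ∧ H = Cfsg.Geo.tensorProductSubgroup 3 4 e P ⊓ Cfsg.Geo.omegaGL Q) ∨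
    (∃ (F₀ : Subfield F) (r : ℕ) (P : Matrix.GeneralLinearGroup (Fin 12) F) (ζ : F), r.Prime ∧ Odd r ∧ Fintype.card F = Nat.card F₀ ^ r ∧ ζ ≠ 0 ∧ Cfsg.Geo.IsQuadFormRationalStructure (fun v : Fin 12 → F => ζ * Q v) F₀ P ∧ H = Cfsg.Geo.subfieldSubgroup F₀ P ⊓ Cfsg.Geo.omegaGL Q) ∨
    Cfsg.Geo.InOrthogonalResidualClass H := by
  classical
  obtain ⟨Q, rfl, hND⟩ := H95.OBridge.exists_quad hQ
  have hc : Fintype.card (Fin 12) = 12 := Fintype.card_fin 12
  have hΩ : omegaGL (⇑Q) ≤ isometryGroup F (⇑Q) := fun g hg => mem_iso.mpr (omegaGL_Q Q hg)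
  have hHi : H ≤ isometryGroup F (⇑Q) := hH.1.le.trans hΩ
  have fin : ∀ M, H ≤ M → ¬ omegaGL (⇑Q) ≤ M → H = M ⊓ omegaGL (⇑Q) := fun M h1 h2 => eq_of_max hH h1 h2
  have hline : ∀ v, Q v ≠ 0 → H ≤ subspaceStabilizer (Submodule.span F {v}) →
      H = subspaceStabilizer (Submodule.span F {v}) ⊓ omegaGL (⇑Q) := by
    intro v hv hle
    have h1 := finrank_span hv
    apply fin _ hle
    apply not_le_subspace hND (by omega)
    · intro h; rw [h, finrank_bot] at h1; omega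
    · intro h; rw [h, finrank_top, finrank_fintype_fun_eq_card] at h1; omega
  have hdec : ∀ D : Fin 3 → Submodule F (Fin 12 → F), IsOrthogonalMDecomposition (⇑Q) 4 D → H ≤ decompositionStabilizer D →
      (∀ i, ¬ IsPlusTypeOn (⇑Q) (D i)) ∧ H = decompositionStabilizer D ⊓ omegaGL (⇑Q) := by
    intro D hD hle
    exact ⟨fun i hi => hminus (plus_of_plus hD hi), fin _ hle (not_le_decomp hND (by omega) hD.decomp.decomp hD.decomp.orthogonal)⟩
  have hsym : ∀ (e : Fin 12 ≃ Fin 3 × Fin 4) (P : GL (Fin 12) F) (G₁ : Matrix (Fin 3) (Fin 3) F) (G₂ : Matrix (Fin 4) (Fin 4) F),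
      (2 : F) ≠ 0 → ActsIrreducibly (matrixSet H) → TPos (RingEquiv.refl F) (polar (⇑Q)) H e P G₁ G₂ → G₁ᵀ = G₁ → G₂ᵀ = G₂ →
      (∃ D : Fin 3 → Submodule F (Fin 12 → F), Cfsg.Geo.IsOrthogonalMDecomposition (⇑Q) 4 D ∧ (∀ i, ¬ Cfsg.Geo.IsPlusTypeOn (⇑Q) (D i)) ∧ H = Cfsg.Geo.decompositionStabilizer D ⊓ Cfsg.Geo.omegaGL (⇑Q)) ∨
      (Odd (Fintype.card F) ∧ 5 ≤ Fintype.card F ∧ ∃ (e : Fin 12 ≃ Fin 3 × Fin 4) (P : Matrix.GeneralLinearGroup (Fin 12) F) (f₁ : (Fin 3 → F) → (Fin 3 → F) → F) (f₂ : (Fin 4 → F) → (Fin 4 → F) → F), Cfsg.Geo.IsSymmetricForm f₁ ∧ Cfsg.Geo.IsSymmetricForm f₂ ∧ ¬ Cfsg.Geo.IsPlusTypeOn (fun v : Fin 4 → F => f₂ v v) ⊤ ∧ Cfsg.Geo.IsTensorFormStructure id (QuadraticMap.polar (⇑Q)) f₁ f₂ e P ∧ H = Cfsg.Geo.tensorProductSubgroup 3 4 e P ⊓ Cfsg.Geo.omegaGL (⇑Q)) := by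
    intro e P G₁ G₂ h2 hirr hpos hs1 hs2
    have hodd : Odd (Fintype.card F) := by
      by_contra h
      exact h2 (H96.AschSp.two_eq_zero_of_even h)
    by_cases hq : 5 ≤ Fintype.card F
    · right
      refine ⟨hodd, hq, e, P, formOfGram (RingEquiv.refl F) G₁, formOfGram (RingEquiv.refl F) G₂, symmForm hpos.u1 hs1,
        symmForm hpos.u2 hs2, ?_, hpos.struct, fin _ hpos.le (H61.AschNCO.not_le_tensor hND (by omega) e P (by norm_num) (by norm_num))⟩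
      intro hp
      exact hminus (plus_of_factor h2 hpos hs2 hp)
    · left
      have h3 : Fintype.card F = 3 := by
        have := Fintype.one_lt_card (α := F)
        obtain ⟨r, hr⟩ := hodd
        omega
      obtain ⟨D, hD, hle⟩ := frame_three h3 hQ (by norm_num) hHi hirr hpos hs1
      exact ⟨D, hD, hdec D hD hle⟩
  rcases oe_main hQ (by omega) hHi with (⟨W, hW0, hW, hle⟩ | ⟨W, hW0, hW1, hW, hle⟩ | ⟨h2, v, hv, hle⟩) |
    ⟨hirr, (⟨t, k, D, hD, hle⟩ | ⟨k, D, hD, hts, hle⟩) | (⟨r, K, hr, hK, -, hle⟩ | ⟨K, hK, -, -, -, hle⟩) |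
      (⟨d, k, e, P, G₁, G₂, hd, hk, hpos, ha1, ha2, h0⟩ | ⟨h2, d, k, e, P, G₁, G₂, hd, hk, hpos, hs1, hs2⟩) |
      ⟨F₀, r, P, ζ, hr, hcard, hζ, hrat, hle⟩ | hres | ⟨⟨k, hk⟩, -⟩ |
      ⟨t, d, e, P, N₀, G, C, ht, hd, hpow⟩⟩
  · left
    exact ⟨W, hW0, hW, fin _ hle (not_le_subspace hND (by omega) hW0 (ts_ne_top hND hW))⟩
  · obtain ⟨W, hW0, hW1, hW, hle, hhalf⟩ := nd_half hND hHi hW0 hW1 hW hle
    have hfin := fin _ hle (not_le_subspace hND (by omega) hW0 hW1)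
    have hpos : 0 < finrank F W := Module.finrank_pos_iff.mpr ((Submodule.nontrivial_iff_ne_bot).mpr hW0)
    rcases Nat.even_or_odd (finrank F W) with hev | hodd
    · obtain ⟨m, hm⟩ := hev
      have hm2 : finrank F W = 2 ∨ finrank F W = 4 ∨ finrank F W = 6 := by omega
      rcases hm2 with h2 | h4 | h6
      · by_cases hp : IsPlusTypeOn (⇑Q) W
        · by_cases hq : 4 ≤ Fintype.card F
          · right; right; right; left
            exact ⟨hq, W, h2, hW, hp, hfin⟩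
          · obtain ⟨v, hv, hle'⟩ := plane_small (by omega) hHi h2 hW hp hle
            by_cases hodd : Odd (Fintype.card F)
            · right; left
              have h1 := finrank_span hv
              refine ⟨hodd, Submodule.span F {v}, ?_, ?_, ?_, ?_, nd_span (H96.AschSp.two_ne_zero_of_odd hodd) hv, hline v hv hle'⟩
              · intro h; rw [h, finrank_bot] at h1; omega
              · intro h; rw [h, finrank_top, finrank_fintype_fun_eq_card] at h1; omega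
              · rw [h1]; exact odd_one
              · rw [h1]; norm_num
            · iterate 6 right
              left
              exact ⟨hodd, v, hv, hline v hv hle'⟩
        · right; right; left
          exact ⟨W, h2, hW, hp, hfin⟩
      · iterate 4 right
        left
        exact ⟨W, h4, hW, hfin⟩
      · iterate 5 right
        left
        exact ⟨W, h6, hW, hfin⟩
    · right; left
      refine ⟨odd_of_nd hW hodd, W, hW0, hW1, hodd, ?_, hW, hfin⟩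
      obtain ⟨r, hr⟩ := hodd
      omega
  · iterate 6 right
    left
    exact ⟨fun h => H96.AschSp.two_ne_zero_of_odd h h2, v, hv, hline v hv hle⟩
  · have h1 := card_eq_mul hD.decomp.decomp
    have ht := hD.decomp.decomp.two_le
    rw [hc] at h1
    rcases mul_twelve h1.symm with rfl | rfl | rfl | rfl | rfl | rfl
    · omega
    · exact absurd (plus_of_two hD (k := 1) (m' := 3) (by norm_num) (by omega)) hminus
    · have hk : k = 4 := by omega
      subst hk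
      iterate 7 right
      left
      exact ⟨D, hD, hdec D hD hle⟩
    · exact absurd (plus_of_four hD (k := 1) (by norm_num)) hminus
    · exact absurd (plus_of_two hD (k := 3) (m' := 1) (by norm_num) (by omega)) hminus
    · exact absurd (plus_of_four hD (k := 3) (by norm_num)) hminus
  · exfalso
    have h1 := card_eq_mul hD
    rw [hc] at h1
    exact hminus (plus_top (hts 0) (by rw [hD.finrank_eq, hc, h1]))
  · have h1 := dvd_of_field hK
    rw [hc] at h1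
    have hr2 : r = 2 ∨ r = 3 := by
      have h2 : r ≤ 12 := Nat.le_of_dvd (by norm_num) h1
      interval_cases r <;> first | omega | (exfalso; revert hr; decide)
    rcases hr2 with rfl | rfl
    · iterate 8 right
      left
      exact ⟨K, hK, fin _ hle (not_le_field hND (by omega) hK le_rfl)⟩
    · iterate 9 right
      left
      exact ⟨K, hK, fin _ hle (not_le_field hND (by omega) hK (by norm_num))⟩
  · iterate 8 right
    left
    exact ⟨K, hK, fin _ hle (not_le_field hND (by omega) hK le_rfl)⟩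
  · exfalso
    have h1 := Fintype.card_congr e
    rw [hc, Fintype.card_prod, Fintype.card_fin, Fintype.card_fin] at h1
    have h2 : d = 2 ∨ d = 3 ∨ k = 3 ∨ k = 2 := by
      rcases mul_twelve h1.symm with rfl | rfl | rfl | rfl | rfl | rfl <;> omega
    rcases h2 with rfl | rfl | rfl | rfl
    · exact hminus (plus_of_tensor h0)
    · exact alt_three hpos.u1 ha1
    · exact alt_three hpos.u2 ha2
    · exact hminus (plus_of_tensor (pure_swap h0))
  · have h1 := Fintype.card_congr e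
    rw [hc, Fintype.card_prod, Fintype.card_fin, Fintype.card_fin] at h1
    have h3 : (d = 3 ∧ k = 4) ∨ (d = 4 ∧ k = 3) := by
      rcases mul_twelve h1.symm with rfl | rfl | rfl | rfl | rfl | rfl <;> omega
    have h4 : (∃ D : Fin 3 → Submodule F (Fin 12 → F), Cfsg.Geo.IsOrthogonalMDecomposition (⇑Q) 4 D ∧ (∀ i, ¬ Cfsg.Geo.IsPlusTypeOn (⇑Q) (D i)) ∧ H = Cfsg.Geo.decompositionStabilizer D ⊓ Cfsg.Geo.omegaGL (⇑Q)) ∨
      (Odd (Fintype.card F) ∧ 5 ≤ Fintype.card F ∧ ∃ (e : Fin 12 ≃ Fin 3 × Fin 4) (P : Matrix.GeneralLinearGroup (Fin 12) F) (f₁ : (Fin 3 → F) → (Fin 3 → F) → F) (f₂ : (Fin 4 → F) → (Fin 4 → F) → F), Cfsg.Geo.IsSymmetricForm f₁ ∧ Cfsg.Geo.IsSymmetricForm f₂ ∧ ¬ Cfsg.Geo.IsPlusTypeOn (fun v : Fin 4 → F => f₂ v v) ⊤ ∧ Cfsg.Geo.IsTensorFormStructure id (QuadraticMap.polar (⇑Q)) f₁ f₂ e P ∧ H = Cfsg.Geo.tensorProductSubgroup 3 4 e P ⊓ Cfsg.Geo.omegaGL (⇑Q)) := by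
      rcases h3 with ⟨rfl, rfl⟩ | ⟨rfl, rfl⟩
      · exact hsym e P G₁ G₂ h2 hirr hpos hs1 hs2
      · exact hsym _ P G₂ G₁ h2 hirr hpos.swap hs2 hs1
    rcases h4 with h4 | h4
    · iterate 7 right
      left
      exact h4
    · iterate 10 right
      left
      exact h4
  · rcases hr.eq_two_or_odd' with rfl | hodd
    · exact absurd (plus_of_subfield hND (m := 6) (by rw [hc]) hcard hζ hrat) hminus
    · iterate 11 right
      left
      have hF₀ : F₀ ≠ ⊤ := by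
        rintro rfl
        have h2 : Nat.card (⊤ : Subfield F) = Fintype.card F := by
          rw [← Nat.card_eq_fintype_card]
          exact Nat.card_congr (Equiv.Set.univ F)
        rw [h2] at hcard
        have h3 : 1 < Fintype.card F := Fintype.one_lt_card
        have h4 : Fintype.card F ^ 1 < Fintype.card F ^ r := Nat.pow_lt_pow_right h3 hr.one_lt
        rw [pow_one] at h4
        omega
      exact ⟨F₀, r, P, ζ, hr, hodd, hcard, hζ, hrat, fin _ hle (not_le_subfield hND (by omega) hF₀ P)⟩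
  · iterate 12 right
    exact hres
  · exact (not_two_pow (by rw [← hc, hk])).elim
  · have h1 := Fintype.card_congr e
    rw [hc, Fintype.card_fun, Fintype.card_fin, Fintype.card_fin] at h1
    exact (not_pow ht h1).elim

end H96.OeRow12m
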