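import Mathlib
import Cfsg.Agent.Lib.H96.OeFld2
import Cfsg.Agent.Lib.H96.OeLin
import Cfsg.Agent.Lib.H96.OeTen

set_option autoImplicit false
set_option linter.unusedSectionVars false

/-!
Two-dimensional tensor factors over the field with two elements.
-/

namespace H96.OeTen2

open Module QuadraticMap H48.QuadSplit H48.QuadStd H95.OGeo H96.OeType H96.OeTyp2 H96.OeTyp3 H96.OeOmega H96.OeRed H96.OeMain
open H96.OeSmall H96.OeTen Cfsg Cfsg.Geo Matrix H97.AschPosE H97.AschPos H97.AschPosH H97.AschTF H97.AschForm H97.AschFrame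
open H97.AschUnits H97.AschLinear H97.AschDecomp H96.AschSympType5 H96.OeFld2 H96.OeLin H97.AschSL2 H97.AschRad H97.AschTwo
open H96.AschAdj H96.AschSp2 H97.AschTensor
open scoped Kronecker

variable {ι : Type} [Fintype ι] [DecidableEq ι] {F : Type*} [Field F] {Q : QuadraticForm F (ι → F)}

lemma el_two [Fintype F] (hF : Fintype.card F = 2) (x : F) : x = 0 ∨ x = 1 := by
  by_cases h : x = 0
  · exact Or.inl h
  · right
    have := FiniteField.pow_card_sub_one_eq_one x h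
    rwa [hF, show 2 - 1 = 1 from rfl, pow_one] at this

/-- an element of order three -/
def om (F : Type*) [Field F] : Matrix (Fin 2) (Fin 2) F := !![0, 1; 1, 1]

lemma om_of [Fintype F] (hF : Fintype.card F = 2) (X : Matrix (Fin 2) (Fin 2) F) (ht : X.trace = 1) (hd : X.det = 1) :
    X = om F ∨ X = 1 + om F := by
  have h2 : (1 : F) + 1 = 0 := by
    rcases el_two hF ((1 : F) + 1) with h | h
    · exact h
    · exact absurd (add_eq_left.mp h) one_ne_zero
  rw [Matrix.trace_fin_two] at ht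
  rw [Matrix.det_fin_two] at hd
  have key : ∀ a b c d : F, X 0 0 = a → X 0 1 = b → X 1 0 = c → X 1 1 = d →
      (a = 0 ∧ b = 1 ∧ c = 1 ∧ d = 1) ∨ (a = 1 ∧ b = 1 ∧ c = 1 ∧ d = 0) := by
    intro a b c d h1 h2' h3 h4
    rw [h1, h4] at ht
    rw [h1, h2', h3, h4] at hd
    rcases el_two hF a with rfl | rfl <;> rcases el_two hF b with rfl | rfl <;> rcases el_two hF c with rfl | rfl <;>
      rcases el_two hF d with rfl | rfl <;> simp [h2] at ht hd ⊢
  rcases key _ _ _ _ rfl rfl rfl rfl with ⟨h1, h2', h3, h4⟩ | ⟨h1, h2', h3, h4⟩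
  · left
    ext i j
    fin_cases i <;> fin_cases j <;> simp [om, h1, h2', h3, h4]
  · right
    ext i j
    fin_cases i <;> fin_cases j <;> simp [om, h1, h2', h3, h4, h2]

lemma om_sq [Fintype F] (hF : Fintype.card F = 2) : om F * om F = 1 + om F := by
  have h2 : (1 : F) + 1 = 0 := by
    rcases el_two hF ((1 : F) + 1) with h | h
    · exact h
    · exact absurd (add_eq_left.mp h) one_ne_zero
  ext i j
  fin_cases i <;> fin_cases j <;> simp [om, Matrix.mul_apply, Fin.sum_univ_two, h2]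

lemma om_conj [Fintype F] (hF : Fintype.card F = 2) (a : GL (Fin 2) F) :
    (a : Matrix (Fin 2) (Fin 2) F) * om F * ((a⁻¹ : GL (Fin 2) F) : Matrix (Fin 2) (Fin 2) F) = om F ∨
    (a : Matrix (Fin 2) (Fin 2) F) * om F * ((a⁻¹ : GL (Fin 2) F) : Matrix (Fin 2) (Fin 2) F) = 1 + om F := by
  have h2 : (1 : F) + 1 = 0 := by
    rcases el_two hF ((1 : F) + 1) with h | h
    · exact h
    · exact absurd (add_eq_left.mp h) one_ne_zero
  apply om_of hF
  · rw [Matrix.trace_mul_comm, ← mul_assoc, ← Units.val_mul, inv_mul_cancel, Units.val_one, one_mul, Matrix.trace_fin_two]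
    simp [om]
  · rw [Matrix.det_mul, Matrix.det_mul, mul_comm, ← mul_assoc, ← Matrix.det_mul, ← Units.val_mul, inv_mul_cancel,
      Units.val_one, Matrix.det_one, one_mul, Matrix.det_fin_two]
    simp [om]
    exact (neg_eq_of_add_eq_zero_left h2)

lemma bot_field [Nonempty ι] : IsFieldSubalgebra 1 (⊥ : Subalgebra F (Matrix ι ι F)) := by
  refine ⟨?_, ?_, ?_⟩
  · rintro x hx y -
    obtain ⟨c, rfl⟩ := Algebra.mem_bot.mp hx
    exact Algebra.commutes c y
  · rintro x hx h0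
    obtain ⟨c, rfl⟩ := Algebra.mem_bot.mp hx
    have hc : c ≠ 0 := by rintro rfl; exact h0 (map_zero _)
    exact ⟨algebraMap F _ c⁻¹, Algebra.mem_bot.mpr ⟨_, rfl⟩, by rw [← map_mul, mul_inv_cancel₀ hc, map_one]⟩
  · exact Subalgebra.finrank_bot

/-- over the field with two elements an alternating factor of dimension two gives a decomposition or a field extension -/
theorem two_factor [Fintype F] (hF : Fintype.card F = 2) (hQ : IsNondegenerateQuadraticForm (⇑Q)) (hn : 3 ≤ Fintype.card ι)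
    {H : Subgroup (GL ι F)} (hH : H ≤ isometryGroup F (⇑Q)) (hirr : ActsIrreducibly (matrixSet H)) {m : ℕ} (hm : 0 < m)
    {e : ι ≃ Fin 2 × Fin m} {P : GL ι F} {G₁ : Matrix (Fin 2) (Fin 2) F} {G₂ : Matrix (Fin m) (Fin m) F}
    (h : TPos (RingEquiv.refl F) (polar (⇑Q)) H e P G₁ G₂)
    (ha : ∀ x, formOfGram (RingEquiv.refl F) G₁ x x = 0) : Imp (⇑Q) H ∨ Two (⇑Q) H := by
  classical
  have hnonempty : Nonempty ι := Fintype.card_pos_iff.mp (by omega)
  have hne2 : Nonempty (Fin m) := ⟨⟨0, hm⟩⟩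
  have h2 : (1 : F) + 1 = 0 := by
    rcases el_two hF ((1 : F) + 1) with h | h
    · exact h
    · exact absurd (add_eq_left.mp h) one_ne_zero
  have hneg : ∀ x : F, -x = x := by
    intro x
    rcases el_two hF x with rfl | rfl
    · rw [neg_zero]
    · exact neg_eq_of_add_eq_zero_left h2
  have hHi : H ≤ isom (polar (⇑Q)) := hH.trans (iso_le _)
  let X : Matrix ι ι F := cr e P (om F ⊗ₖ (1 : Matrix (Fin m) (Fin m) F))
  have hX1 : (1 : Matrix ι ι F) + X = cr e P ((1 + om F) ⊗ₖ (1 : Matrix (Fin m) (Fin m) F)) := by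
    rw [Matrix.add_kronecker, map_add, Matrix.one_kronecker_one, map_one]
  -- the Gram matrix
  have hG : G₁ = !![0, 1; 1, 0] := by
    have hs := fog_sesq (RingEquiv.refl F) G₁
    have hd : ∀ i, G₁ i i = 0 := by
      intro i
      rw [← fog_single (RingEquiv.refl F) G₁ i i, ha]
    have hsk : G₁ 1 0 = G₁ 0 1 := by
      have h1 := ha (Pi.single 0 1 + Pi.single 1 1)
      rw [hs.add_left, hs.add_right, hs.add_right, ha, ha, fog_single, fog_single] at h1
      rw [← hneg (G₁ 0 1)]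
      linear_combination h1
    have hdet : G₁.det ≠ 0 := ((Matrix.isUnit_iff_isUnit_det _).mp h.u1).ne_zero
    rw [Matrix.det_fin_two, hd, hsk] at hdet
    have h01 : G₁ 0 1 = 1 := by
      rcases el_two hF (G₁ 0 1) with h0 | h0
      · exfalso; apply hdet; rw [h0]; ring
      · exact h0
    ext i j
    fin_cases i <;> fin_cases j <;> simp [hd, hsk, h01]
  have hadj : ∀ u v, polar (⇑Q) (X *ᵥ u) v = polar (⇑Q) u ((1 + X) *ᵥ v) := by
    have hPinv : ∀ w : ι → F, ∃ x : Fin 2 × Fin m → F, w = (P : Matrix ι ι F) *ᵥ (x ∘ e) := by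
      intro w
      refine ⟨(((P⁻¹ : GL ι F) : Matrix ι ι F) *ᵥ w) ∘ e.symm, ?_⟩
      have : ((((P⁻¹ : GL ι F) : Matrix ι ι F) *ᵥ w) ∘ e.symm) ∘ e = ((P⁻¹ : GL ι F) : Matrix ι ι F) *ᵥ w := by
        ext i; simp
      rw [this, Matrix.mulVec_mulVec, ← Units.val_mul, mul_inv_cancel, Units.val_one, Matrix.one_mulVec]
    intro u v
    obtain ⟨x, rfl⟩ := hPinv u
    obtain ⟨y, rfl⟩ := hPinv v
    rw [hX1, cr_mulVec', cr_mulVec']
    change coF e P (polar (⇑Q)) _ _ = coF e P (polar (⇑Q)) _ _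
    rw [h.form, h.form, fog_eq_bf, fog_eq_bf]
    change ((om F ⊗ₖ (1 : Matrix (Fin m) (Fin m) F)) *ᵥ x) ⬝ᵥ ((G₁ ⊗ₖ G₂) *ᵥ y) =
      x ⬝ᵥ ((G₁ ⊗ₖ G₂) *ᵥ (((1 + om F) ⊗ₖ (1 : Matrix (Fin m) (Fin m) F)) *ᵥ y))
    have h3 : (om F ⊗ₖ (1 : Matrix (Fin m) (Fin m) F))ᵀ * (G₁ ⊗ₖ G₂) =
        (G₁ ⊗ₖ G₂) * ((1 + om F) ⊗ₖ (1 : Matrix (Fin m) (Fin m) F)) := by
      have h4 : (om F ⊗ₖ (1 : Matrix (Fin m) (Fin m) F))ᵀ = (om F)ᵀ ⊗ₖ (1 : Matrix (Fin m) (Fin m) F) := by
        have : (om F ⊗ₖ (1 : Matrix (Fin m) (Fin m) F))ᵀ = (om F)ᵀ ⊗ₖ (1 : Matrix (Fin m) (Fin m) F)ᵀ := rfl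
        rw [this, Matrix.transpose_one]
      rw [h4, ← Matrix.mul_kronecker_mul, ← Matrix.mul_kronecker_mul, one_mul, mul_one]
      have h5 : (om F)ᵀ * G₁ = G₁ * (1 + om F) := by
        rw [hG]
        ext i j
        fin_cases i <;> fin_cases j <;> simp [om, Matrix.mul_apply, Fin.sum_univ_two, h2]
      rw [h5]
    rw [Matrix.mulVec_mulVec, ← h3, ← Matrix.mulVec_mulVec, Matrix.dotProduct_mulVec x _ᵀ, Matrix.vecMul_transpose]
  have hadjX : (q_hform hQ).adj X = 1 + 1 * X := by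
    apply (q_hform hQ).adj_eq
    rw [one_mul]
    exact hadj
  have hK : IsFieldSubalgebra 1 (⊥ : Subalgebra F (Matrix ι ι F)) := bot_field
  apply adjoin_two hQ hn hH hirr hK (K := ⊥) (y := X) (p := 1) (q := 1) (a₀ := 1) (b₀ := 1) ?_ ?_ ?_ (Subalgebra.one_mem _)
    (Subalgebra.one_mem _) ?_ ?_ (Subalgebra.one_mem _) (Subalgebra.one_mem _) hadjX ?_
  · rintro k hk u v
    obtain ⟨c, rfl⟩ := Algebra.mem_bot.mp hk
    rw [Algebra.algebraMap_eq_smul_one, Matrix.smul_mulVec, Matrix.one_mulVec, Matrix.smul_mulVec, Matrix.one_mulVec,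
      p_smul, p_smul']
  · rintro g hg x hx
    obtain ⟨c, rfl⟩ := Algebra.mem_bot.mp hx
    rw [← Algebra.commutes, mul_assoc, ← Units.val_mul, mul_inv_cancel, Units.val_one, mul_one]
    exact Subalgebra.algebraMap_mem ⊥ _
  · rintro k hk
    obtain ⟨c, rfl⟩ := Algebra.mem_bot.mp hk
    exact Algebra.commutes c X
  · rw [one_mul, hX1]
    change cr e P _ * cr e P _ = _
    rw [← map_mul, ← Matrix.mul_kronecker_mul, om_sq hF, one_mul]
  · intro g hg
    obtain ⟨a, b, hab⟩ := (mem_tensorProductSubgroup_iff e P g).mp (h.le hg)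
    have hgi := inv_of_kron hab
    have hc : (g : Matrix ι ι F) * X * ((g⁻¹ : GL ι F) : Matrix ι ι F) =
        cr e P (((a : Matrix (Fin 2) (Fin 2) F) * om F * ((a⁻¹ : GL (Fin 2) F) : Matrix (Fin 2) (Fin 2) F)) ⊗ₖ
          (1 : Matrix (Fin m) (Fin m) F)) := by
      change (g : Matrix ι ι F) * cr e P _ * _ = _
      rw [hab, hgi, ← map_mul, ← map_mul, ← Matrix.mul_kronecker_mul, ← Matrix.mul_kronecker_mul, mul_one,
        ← Units.val_mul b, mul_inv_cancel, Units.val_one]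
    rcases om_conj hF a with h3 | h3
    · refine ⟨0, Subalgebra.zero_mem _, 1, Subalgebra.one_mem _, ?_⟩
      rw [hc, h3, zero_add, one_mul]
    · refine ⟨1, Subalgebra.one_mem _, 1, Subalgebra.one_mem _, ?_⟩
      rw [hc, h3, ← hX1, one_mul]
  · rw [hadjX, one_mul]
    intro h3
    exact one_ne_zero (add_eq_right.mp h3)

end H96.OeTen2
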