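import Mathlib
import Cfsg.Agent.Lib.H96.OeRow10p
import Cfsg.Agent.Lib.H96.OeRow12m
import Cfsg.Agent.Lib.H96.OeTen2
import Cfsg.Agent.Lib.H96.OeReg

set_option autoImplicit false
set_option linter.unusedSectionVars false

/-!
The maximal subgroups of Ω_12^+(q).
-/

namespace H96.OeRow12p

open Module QuadraticMap H48.QuadSplit H48.QuadStd H95.OGeo H96.OeType H96.OeTyp2 H96.OeTyp3 H96.OeOmega H96.OeRed H96.OeMain
open H96.OeSmall H96.OeTen Cfsg Cfsg.Geo Matrix H97.AschPosE H97.AschCases H97.AschPos H97.AschTF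
open H96.OePar H96.OeBlk H96.OeBlk2 H96.OeBlk3 H96.OeBlk4 H96.OeSum H96.OePair H96.OeFld H96.OeFld2 H96.OeFld3 H96.OeLin
open H96.OeRow10m H96.OeRow10p H96.OeRow12m H96.OeTen2 H96.OeReg

theorem main {F : Type*} [Field F] [Fintype F] (Q : (Fin 12 → F) → F) (hQ : Cfsg.Geo.IsNondegenerateQuadraticForm Q) (hplus : Cfsg.Geo.IsPlusTypeOn Q ⊤) (H : Subgroup (Matrix.GeneralLinearGroup (Fin 12) F)) (hH : Cfsg.Geo.IsMaximalIn (Cfsg.Geo.omegaGL Q) H) :
    (∃ W : Submodule F (Fin 12 → F), W ≠ ⊥ ∧ Cfsg.Geo.IsTotallySingularQuad Q W ∧ Module.finrank F W ≠ 5 ∧ H = Cfsg.Geo.subspaceStabilizer W ⊓ Cfsg.Geo.omegaGL Q) ∨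
    (Odd (Fintype.card F) ∧ ∃ W : Submodule F (Fin 12 → F), W ≠ ⊥ ∧ W ≠ ⊤ ∧ Odd (Module.finrank F W) ∧ 2 * Module.finrank F W ≠ 12 ∧ Cfsg.Geo.IsNondegenerateOn (QuadraticMap.polar Q) W ∧ H = Cfsg.Geo.subspaceStabilizer W ⊓ Cfsg.Geo.omegaGL Q) ∨
    (∃ W : Submodule F (Fin 12 → F), Module.finrank F W = 2 ∧ Cfsg.Geo.IsNondegenerateOn (QuadraticMap.polar Q) W ∧ ¬ Cfsg.Geo.IsPlusTypeOn Q W ∧ H = Cfsg.Geo.subspaceStabilizer W ⊓ Cfsg.Geo.omegaGL Q) ∨
    (4 ≤ Fintype.card F ∧ ∃ W : Submodule F (Fin 12 → F), Module.finrank F W = 2 ∧ Cfsg.Geo.IsNondegenerateOn (QuadraticMap.polar Q) W ∧ Cfsg.Geo.IsPlusTypeOn Q W ∧ H = Cfsg.Geo.subspaceStabilizer W ⊓ Cfsg.Geo.omegaGL Q) ∨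
    (∃ W : Submodule F (Fin 12 → F), Module.finrank F W = 4 ∧ Cfsg.Geo.IsNondegenerateOn (QuadraticMap.polar Q) W ∧ H = Cfsg.Geo.subspaceStabilizer W ⊓ Cfsg.Geo.omegaGL Q) ∨
    (¬ Odd (Fintype.card F) ∧ ∃ v : (Fin 12 → F), Q v ≠ 0 ∧ H = Cfsg.Geo.subspaceStabilizer (Submodule.span F {v}) ⊓ Cfsg.Geo.omegaGL Q) ∨
    ((∃ p : ℕ, p.Prime ∧ Odd p ∧ Fintype.card F = p) ∧ ∃ D : Fin 12 → Submodule F (Fin 12 → F), Cfsg.Geo.IsOrthogonalMDecomposition Q 1 D ∧ H = Cfsg.Geo.decompositionStabilizer D ⊓ Cfsg.Geo.omegaGL Q) ∨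
    (7 ≤ Fintype.card F ∧ ∃ D : Fin 6 → Submodule F (Fin 12 → F), Cfsg.Geo.IsOrthogonalMDecomposition Q 2 D ∧ (∀ i, Cfsg.Geo.IsPlusTypeOn Q (D i)) ∧ H = Cfsg.Geo.decompositionStabilizer D ⊓ Cfsg.Geo.omegaGL Q) ∨
    (Fintype.card F ≠ 3 ∧ ∃ D : Fin 6 → Submodule F (Fin 12 → F), Cfsg.Geo.IsOrthogonalMDecomposition Q 2 D ∧ (∀ i, ¬ Cfsg.Geo.IsPlusTypeOn Q (D i)) ∧ H = Cfsg.Geo.decompositionStabilizer D ⊓ Cfsg.Geo.omegaGL Q) ∨
    (Odd (Fintype.card F) ∧ 5 ≤ Fintype.card F ∧ ∃ D : Fin 4 → Submodule F (Fin 12 → F), Cfsg.Geo.IsOrthogonalMDecomposition Q 3 D ∧ H = Cfsg.Geo.decompositionStabilizer D ⊓ Cfsg.Geo.omegaGL Q) ∨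
    (3 ≤ Fintype.card F ∧ ∃ D : Fin 3 → Submodule F (Fin 12 → F), Cfsg.Geo.IsOrthogonalMDecomposition Q 4 D ∧ H = Cfsg.Geo.decompositionStabilizer D ⊓ Cfsg.Geo.omegaGL Q) ∨
    (∃ D : Fin 2 → Submodule F (Fin 12 → F), Cfsg.Geo.IsOrthogonalMDecomposition Q 6 D ∧ H = Cfsg.Geo.decompositionStabilizer D ⊓ Cfsg.Geo.omegaGL Q) ∨
    (∃ D : Fin 2 → Submodule F (Fin 12 → F), Cfsg.Geo.IsMDecomposition 6 D ∧ (∀ i, Cfsg.Geo.IsTotallySingularQuad Q (D i)) ∧ H = Cfsg.Geo.decompositionStabilizer D ⊓ Cfsg.Geo.omegaGL Q) ∨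
    (∃ K : Subalgebra F (Matrix (Fin 12) (Fin 12) F), Cfsg.Geo.IsFieldSubalgebra 2 K ∧ H = Cfsg.Geo.subalgebraNormalizer K ⊓ Cfsg.Geo.omegaGL Q) ∨
    (∃ K : Subalgebra F (Matrix (Fin 12) (Fin 12) F), Cfsg.Geo.IsFieldSubalgebra 3 K ∧ H = Cfsg.Geo.subalgebraNormalizer K ⊓ Cfsg.Geo.omegaGL Q) ∨
    (∃ K : Subalgebra F (Matrix (Fin 12) (Fin 12) F), Cfsg.Geo.IsFieldSubalgebra 2 K ∧ Cfsg.Geo.IsAdjointClosedFor (QuadraticMap.polar Q) K ∧ ¬ Cfsg.Geo.IsSelfAdjointFor (QuadraticMap.polar Q) K ∧ (∀ k ∈ K, ∃ c : F, ∀ v : (Fin 12 → F), Q (Matrix.mulVec k v) = c * Q v) ∧ H = Cfsg.Geo.subalgebraNormalizer K ⊓ Cfsg.Geo.omegaGL Q) ∨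
    (3 ≤ Fintype.card F ∧ ∃ (e : Fin 12 ≃ Fin 2 × Fin 6) (P : Matrix.GeneralLinearGroup (Fin 12) F) (f₁ : (Fin 2 → F) → (Fin 2 → F) → F) (f₂ : (Fin 6 → F) → (Fin 6 → F) → F), Cfsg.Geo.IsSymplecticForm f₁ ∧ Cfsg.Geo.IsSymplecticForm f₂ ∧ Cfsg.Geo.IsTensorFormStructure id (QuadraticMap.polar Q) f₁ f₂ e P ∧ (∀ (x₁ : Fin 2 → F) (x₂ : Fin 6 → F), Q (Matrix.mulVec (P : Matrix (Fin 12) (Fin 12) F) ((fun a : Fin 2 × Fin 6 => x₁ a.1 * x₂ a.2) ∘ e)) = 0) ∧ H = Cfsg.Geo.tensorProductSubgroup 2 6 e P ⊓ Cfsg.Geo.omegaGL Q) ∨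
    (∃ (F₀ : Subfield F) (r : ℕ) (P : Matrix.GeneralLinearGroup (Fin 12) F) (ζ : F), r.Prime ∧ Fintype.card F = Nat.card F₀ ^ r ∧ ζ ≠ 0 ∧ Cfsg.Geo.IsQuadFormRationalStructure (fun v : Fin 12 → F => ζ * Q v) F₀ P ∧ H = Cfsg.Geo.subfieldSubgroup F₀ P ⊓ Cfsg.Geo.omegaGL Q) ∨
    Cfsg.Geo.InOrthogonalResidualClass H := by
  classical
  by_contra hcon
  obtain ⟨Q, rfl, hND⟩ := H95.OBridge.exists_quad hQ
  have hc : Fintype.card (Fin 12) = 12 := Fintype.card_fin 12
  have hΩ : omegaGL (⇑Q) ≤ isometryGroup F (⇑Q) := fun g hg => mem_iso.mpr (omegaGL_Q Q hg)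
  have hHΩ : H ≤ omegaGL (⇑Q) := hH.1.le
  have hHi : H ≤ isometryGroup F (⇑Q) := hH.1.le.trans hΩ
  have fin : ∀ M, H ≤ M → ¬ omegaGL (⇑Q) ≤ M → H = M ⊓ omegaGL (⇑Q) := fun M h1 h2 => eq_of_max hH h1 h2
  have hline : ∀ v, Q v ≠ 0 → H ≤ subspaceStabilizer (Submodule.span F {v}) →
      H = subspaceStabilizer (Submodule.span F {v}) ⊓ omegaGL (⇑Q) := by
    intro v hv hle
    have h1 := finrank_span hv
    apply fin _ hle
    apply not_le_subspace hND (by omega)
    · intro h; rw [h, finrank_bot] at h1; omega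
    · intro h; rw [h, finrank_top, finrank_fintype_fun_eq_card] at h1; omega
  have hTS : ∀ W : Submodule F (Fin 12 → F), W ≠ ⊥ → IsTotallySingularQuad (⇑Q) W → finrank F W ≠ 5 →
      H ≤ subspaceStabilizer W → False := by
    intro W hW0 hW h4 hle
    apply hcon
    left
    exact ⟨W, hW0, hW, h4, fin _ hle (not_le_subspace hND (by omega) hW0 (ts_ne_top hND hW))⟩
  have hSub : Sub (⇑Q) H → False := by
    rintro ⟨F₀, r, P, ζ, hr, hcard, hζ, hrat, hle⟩
    apply hcon
    iterate 17 right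
    left
    exact ⟨F₀, r, P, ζ, hr, hcard, hζ, hrat, fin _ hle (not_le_subfield hND (by omega) (subfield_ne_top hr hcard) P)⟩
  have hLines : ∀ D : Fin 12 → Submodule F (Fin 12 → F), IsOrthogonalMDecomposition (⇑Q) 1 D →
      H ≤ decompositionStabilizer D → False := by
    intro D hD hle
    have hodd := odd_of_nd (hD.decomp.nondegenerate 0) (by rw [hD.decomp.decomp.finrank_eq]; exact odd_one)
    by_cases hp : (Fintype.card F).Prime
    · apply hcon
      iterate 6 right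
      left
      refine ⟨⟨_, hp, hodd, rfl⟩, D, hD, ?_⟩
      exact fin _ hle (not_le_decomp hND (by omega) hD.decomp.decomp hD.decomp.orthogonal)
    · exact hSub (lines_sub hodd hp hD hHi hle)
  have htype : ∀ {t k : ℕ} {D : Fin t → Submodule F (Fin 12 → F)}, IsOrthogonalMDecomposition (⇑Q) k D →
      ∀ i j, IsPlusTypeOn (⇑Q) (D i) → IsPlusTypeOn (⇑Q) (D j) := by
    intro t k D hD i j hp
    rw [plus_iff] at hp ⊢
    obtain ⟨e, he⟩ := hD.isometric i j
    exact (pt_iff_of_equiv ⟨⟨e, fun x => he x⟩⟩).mp hp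
  have hMinus : ∀ D : Fin 6 → Submodule F (Fin 12 → F), IsOrthogonalMDecomposition (⇑Q) 2 D →
      (∀ i, ¬ IsPlusTypeOn (⇑Q) (D i)) → H ≤ decompositionStabilizer D → False := by
    intro D hD hall hle
    by_cases hF : Fintype.card F = 3
    · obtain ⟨D', hD', hst⟩ := lines_three hF hQ hD 0 (hall 0)
      exact hLines D' hD' (fun g hg => hst g (hle hg) (hHi hg))
    · apply hcon
      iterate 8 right
      left
      exact ⟨hF, D, hD, hall, fin _ hle (not_le_decomp hND (by omega) hD.decomp.decomp hD.decomp.orthogonal)⟩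
  have hPair : ∀ D : Fin 2 → Submodule F (Fin 12 → F), IsOrthogonalMDecomposition (⇑Q) 6 D →
      H ≤ decompositionStabilizer D → False := by
    intro D hD hle
    apply hcon
    iterate 11 right
    left
    exact ⟨D, hD, fin _ hle (not_le_decomp hND (by omega) hD.decomp.decomp hD.decomp.orthogonal)⟩
  have hImp : ActsIrreducibly (matrixSet H) → Imp (⇑Q) H → False := by
    rintro hirr (⟨t, k, D, hD, hle⟩ | ⟨k, D, hD, hts, hle⟩)
    · have h1 := card_eq_mul hD.decomp.decomp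
      have ht := hD.decomp.decomp.two_le
      rw [hc] at h1
      rcases mul_twelve h1.symm with rfl | rfl | rfl | rfl | rfl | rfl
      · omega
      · have hk : k = 6 := by omega
        subst hk
        exact hPair D hD hle
      · have hk : k = 4 := by omega
        subst hk
        by_cases hF : Fintype.card F = 2
        · obtain ⟨D', hD', hall, hst⟩ := planes_two hF hQ hD 0 ((type_odd (m' := 2) (by norm_num) (by decide) hD 0).mp hplus)
          exact hMinus D' hD' hall (fun g hg => hst g (hle hg) (hHi hg))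
        · apply hcon
          iterate 10 right
          left
          have h7 : 1 < Fintype.card F := Fintype.one_lt_card
          exact ⟨by omega, D, hD, fin _ hle (not_le_decomp hND (by omega) hD.decomp.decomp hD.decomp.orthogonal)⟩
      · have hk : k = 3 := by omega
        subst hk
        have hodd := odd_of_nd (hD.decomp.nondegenerate 0) (by rw [hD.decomp.decomp.finrank_eq]; decide)
        by_cases hF : Fintype.card F = 3
        · obtain ⟨D', hD', hst⟩ := H61.AschNCO.blocks_three hF hD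
          exact hLines D' hD' (fun g hg => hst ⟨hle hg, hHi hg⟩)
        · apply hcon
          iterate 9 right
          left
          have h7 : 1 < Fintype.card F := Fintype.one_lt_card
          obtain ⟨r, hr⟩ := hodd
          exact ⟨⟨r, hr⟩, by omega, D, hD, fin _ hle (not_le_decomp hND (by omega) hD.decomp.decomp hD.decomp.orthogonal)⟩
      · have hk : k = 2 := by omega
        subst hk
        by_cases hp : IsPlusTypeOn (⇑Q) (D 0)
        · have hall : ∀ i, IsPlusTypeOn (⇑Q) (D i) := fun i => htype hD 0 i hp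
          have h6 := card_ne_six (F := F)
          have h7 : 1 < Fintype.card F := Fintype.one_lt_card
          have hcases : Fintype.card F ≤ 3 ∨ Fintype.card F = 4 ∨ Fintype.card F = 5 ∨ 7 ≤ Fintype.card F := by omega
          rcases hcases with hF | hF | hF | hF
          · exact not_irr_small hF hQ hD hall hHi hle hirr
          · exact hSub (sub_four hF hQ hD hall hHi hle)
          · obtain ⟨D', hD', hst⟩ := lines_five hF hQ hD 0 (hall 0)
            exact hLines D' hD' (fun g hg => hst g (hle hg) (hHi hg))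
          · apply hcon
            iterate 7 right
            left
            exact ⟨hF, D, hD, hall, fin _ hle (not_le_decomp hND (by omega) hD.decomp.decomp hD.decomp.orthogonal)⟩
        · exact hMinus D hD (fun i hi => hp (htype hD i 0 hi)) hle
      · have hk : k = 1 := by omega
        subst hk
        exact hLines D hD hle
    · have h1 := card_eq_mul hD
      rw [hc] at h1
      have hk : k = 6 := by omega
      subst hk
      apply hcon
      iterate 12 right
      left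
      exact ⟨D, hD, hts, fin _ hle (not_le_pair hND (by omega) hD hts)⟩
  have hFld2 : ∀ K : Subalgebra F (Matrix (Fin 12) (Fin 12) F), IsFieldSubalgebra 2 K → H ≤ subalgebraNormalizer K → False := by
    intro K hK hle
    apply hcon
    iterate 13 right
    left
    exact ⟨K, hK, fin _ hle (not_le_field hND (by omega) hK le_rfl)⟩
  have hT : ActsIrreducibly (matrixSet H) → ∀ (e : Fin 12 ≃ Fin 2 × Fin 6) (P : GL (Fin 12) F) (G₁ : Matrix (Fin 2) (Fin 2) F)
      (G₂ : Matrix (Fin 6) (Fin 6) F), TPos (RingEquiv.refl F) (polar (⇑Q)) H e P G₁ G₂ →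
      (∀ x, formOfGram (RingEquiv.refl F) G₁ x x = 0) → (∀ x, formOfGram (RingEquiv.refl F) G₂ x x = 0) →
      (∀ x y, Q ((P : Matrix (Fin 12) (Fin 12) F) *ᵥ (pv x y ∘ e)) = 0) → False := by
    intro hirr e P G₁ G₂ hpos ha1 ha2 h0
    by_cases hF : Fintype.card F = 2
    · rcases two_factor hF hQ (by omega) hHi hirr (by norm_num) hpos ha1 with h | ⟨K', h1, -, h3⟩ | ⟨K', h1, -, -, -, h3⟩
      · exact hImp hirr h
      · exact hFld2 K' h1 h3
      · exact hFld2 K' h1 h3
    · apply hcon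
      iterate 16 right
      left
      have h7 : 1 < Fintype.card F := Fintype.one_lt_card
      exact ⟨by omega, e, P, formOfGram (RingEquiv.refl F) G₁, formOfGram (RingEquiv.refl F) G₂, symplectic_fog hpos.u1 ha1,
        symplectic_fog hpos.u2 ha2, hpos.struct, h0, fin _ hpos.le
          (H61.AschNCO.not_le_tensor hND (by omega) e P (by norm_num) (by norm_num))⟩
  rcases oe_main hQ (by omega) hHi with (⟨W, hW0, hW, hle⟩ | ⟨W, hW0, hW1, hW, hle⟩ | ⟨h2, v, hv, hle⟩) |
    ⟨hirr, himp | (⟨r, K, hr, hK, hsa, hle⟩ | ⟨K, hK, hadj, hns, hsim, hle⟩) |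
      (⟨d, k, e, P, G₁, G₂, hd, hk, hpos, ha1, ha2, h0⟩ | ⟨h2, d, k, e, P, G₁, G₂, hd, hk, hpos, hs1, hs2⟩) |
      hsub | hres | ⟨⟨k, hk⟩, -⟩ |
      ⟨t, d, e, P, N₀, G, C, ht, hd, hpow⟩⟩
  · by_cases h4 : finrank F W = 5
    · obtain ⟨U, hU, hle'⟩ := stab_of_hyper hND (Or.inr (by rw [hc]; norm_num)) (m := 6) (by rw [hc]) hplus hW
        (by rw [h4]) hHΩ hle
      refine hTS U ?_ hU.q (by rw [hU.d]; norm_num) hle'
      intro h0
      have := hU.d
      rw [h0, finrank_bot] at this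
      omega
    · exact hTS W hW0 hW h4 hle
  · obtain ⟨W, hW0, hW1, hW, hle, hhalf⟩ := nd_half hND hHi hW0 hW1 hW hle
    have hfin := fin _ hle (not_le_subspace hND (by omega) hW0 hW1)
    have hpos : 0 < finrank F W := Module.finrank_pos_iff.mpr ((Submodule.nontrivial_iff_ne_bot).mpr hW0)
    rcases Nat.even_or_odd (finrank F W) with hev | hodd
    · obtain ⟨m, hm⟩ := hev
      have hm2 : finrank F W = 2 ∨ finrank F W = 4 ∨ finrank F W = 6 := by omega
      rcases hm2 with h2 | h4 | h6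
      · by_cases hp : IsPlusTypeOn (⇑Q) W
        · by_cases hq : 4 ≤ Fintype.card F
          · apply hcon
            right; right; right; left
            exact ⟨hq, W, h2, hW, hp, hfin⟩
          · obtain ⟨v, hv, hle'⟩ := plane_small (by omega) hHi h2 hW hp hle
            by_cases hodd : Odd (Fintype.card F)
            · apply hcon
              right; left
              have h1 := finrank_span hv
              refine ⟨hodd, Submodule.span F {v}, ?_, ?_, ?_, ?_, nd_span (H96.AschSp.two_ne_zero_of_odd hodd) hv, hline v hv hle'⟩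
              · intro h; rw [h, finrank_bot] at h1; omega
              · intro h; rw [h, finrank_top, finrank_fintype_fun_eq_card] at h1; omega
              · rw [h1]; exact odd_one
              · rw [h1]; norm_num
            · apply hcon
              iterate 5 right
              left
              exact ⟨hodd, v, hv, hline v hv hle'⟩
        · apply hcon
          right; right; left
          exact ⟨W, h2, hW, hp, hfin⟩
      · apply hcon
        iterate 4 right
        left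
        exact ⟨W, h4, hW, hfin⟩
      · obtain ⟨hnd2, hst⟩ := half_pair hQ (by norm_num) h6 (by rw [hc]) hW hHi hle
        exact hPair _ (iso_decomp hnd2 (half_iso hQ (m := 3) h6 (by rw [hc]) hW hplus)) hst
    · have hqodd := odd_of_nd hW hodd
      apply hcon
      right; left
      refine ⟨hqodd, W, hW0, hW1, hodd, ?_, hW, hfin⟩
      obtain ⟨r, hr⟩ := hodd
      omega
  · apply hcon
    iterate 5 right
    left
    exact ⟨fun h => H96.AschSp.two_ne_zero_of_odd h h2, v, hv, hline v hv hle⟩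
  · exact hImp hirr himp
  · have h1 := dvd_of_field hK
    rw [hc] at h1
    have hr2 : r = 2 ∨ r = 3 := by
      have h2 : r ≤ 12 := Nat.le_of_dvd (by norm_num) h1
      interval_cases r <;> first | omega | (exfalso; revert hr; decide)
    rcases hr2 with rfl | rfl
    · exact hFld2 K hK hle
    · apply hcon
      iterate 14 right
      left
      exact ⟨K, hK, fin _ hle (not_le_field hND (by omega) hK (by norm_num))⟩
  · exact hFld2 K hK hle
  · have h1 := Fintype.card_congr e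
    rw [hc, Fintype.card_prod, Fintype.card_fin, Fintype.card_fin] at h1
    have h3 := alt_even hpos.u1 ha1
    have h4 := alt_even hpos.u2 ha2
    rcases mul_twelve h1.symm with rfl | rfl | rfl | rfl | rfl | rfl
    · omega
    · have hk6 : k = 6 := by omega
      subst hk6
      exact hT hirr e P G₁ G₂ hpos ha1 ha2 h0
    · exact absurd h3 (by decide)
    · have hk3 : k = 3 := by omega
      subst hk3
      exact absurd h4 (by decide)
    · have hk2 : k = 2 := by omega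
      subst hk2
      exact hT hirr _ P G₂ G₁ hpos.swap ha2 ha1 (pure_swap h0)
    · omega
  · have h1 := Fintype.card_congr e
    rw [hc, Fintype.card_prod, Fintype.card_fin, Fintype.card_fin] at h1
    have h3 : (d = 3 ∧ k = 4) ∨ (d = 4 ∧ k = 3) := by
      rcases mul_twelve h1.symm with rfl | rfl | rfl | rfl | rfl | rfl <;> omega
    rcases h3 with ⟨rfl, rfl⟩ | ⟨rfl, rfl⟩
    · obtain ⟨e', P', G₁', G₂', hpos', ha1, ha2, h0⟩ := regroup h2 hQ hplus hHΩ hpos hs1 hs2
      exact hT hirr e' P' G₁' G₂' hpos' ha1 ha2 h0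
    · obtain ⟨e', P', G₁', G₂', hpos', ha1, ha2, h0⟩ := regroup h2 hQ hplus hHΩ hpos.swap hs2 hs1
      exact hT hirr e' P' G₁' G₂' hpos' ha1 ha2 h0
  · exact hSub hsub
  · apply hcon
    iterate 18 right
    exact hres
  · exact H96.OeRow12m.not_two_pow (by rw [← hc, hk])
  · have h1 := Fintype.card_congr e
    rw [hc, Fintype.card_fun, Fintype.card_fin, Fintype.card_fin] at h1
    exact H96.OeRow12m.not_pow ht h1

end H96.OeRow12p
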