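import Mathlib
import Cfsg.Agent.Lib.H96.OeSmall

set_option autoImplicit false
set_option linter.unusedSectionVars false

/-!
The maximal subgroups of Ω_8^-(q).
-/

namespace H96.OeRow8

open Module QuadraticMap H48.QuadSplit H48.QuadStd H95.OGeo H96.OeType H96.OeTyp2 H96.OeTyp3 H96.OeOmega H96.OeRed H96.OeMain
open H96.OeSmall Cfsg Cfsg.Geo Matrix H97.AschPosE H97.AschCases

lemma mul_eight {a b : ℕ} (h : a * b = 8) : a = 1 ∨ a = 2 ∨ a = 4 ∨ a = 8 := by
  have h1 : a ∣ 8 := ⟨b, h.symm⟩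
  have h2 : a ≤ 8 := Nat.le_of_dvd (by norm_num) h1
  interval_cases a <;> omega

theorem main {F : Type*} [Field F] [Fintype F] (Q : (Fin 8 → F) → F) (hQ : Cfsg.Geo.IsNondegenerateQuadraticForm Q) (hminus : ¬ Cfsg.Geo.IsPlusTypeOn Q ⊤) (H : Subgroup (Matrix.GeneralLinearGroup (Fin 8) F)) (hH : Cfsg.Geo.IsMaximalIn (Cfsg.Geo.omegaGL Q) H) :
    (∃ W : Submodule F (Fin 8 → F), W ≠ ⊥ ∧ Cfsg.Geo.IsTotallySingularQuad Q W ∧ H = Cfsg.Geo.subspaceStabilizer W ⊓ Cfsg.Geo.omegaGL Q) ∨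
    (Odd (Fintype.card F) ∧ ∃ W : Submodule F (Fin 8 → F), W ≠ ⊥ ∧ W ≠ ⊤ ∧ Odd (Module.finrank F W) ∧ Cfsg.Geo.IsNondegenerateOn (QuadraticMap.polar Q) W ∧ H = Cfsg.Geo.subspaceStabilizer W ⊓ Cfsg.Geo.omegaGL Q) ∨
    (∃ W : Submodule F (Fin 8 → F), Module.finrank F W = 2 ∧ Cfsg.Geo.IsNondegenerateOn (QuadraticMap.polar Q) W ∧ ¬ Cfsg.Geo.IsPlusTypeOn Q W ∧ H = Cfsg.Geo.subspaceStabilizer W ⊓ Cfsg.Geo.omegaGL Q) ∨
    (4 ≤ Fintype.card F ∧ ∃ W : Submodule F (Fin 8 → F), Module.finrank F W = 2 ∧ Cfsg.Geo.IsNondegenerateOn (QuadraticMap.polar Q) W ∧ Cfsg.Geo.IsPlusTypeOn Q W ∧ H = Cfsg.Geo.subspaceStabilizer W ⊓ Cfsg.Geo.omegaGL Q) ∨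
    (∃ W : Submodule F (Fin 8 → F), Module.finrank F W = 4 ∧ Cfsg.Geo.IsNondegenerateOn (QuadraticMap.polar Q) W ∧ H = Cfsg.Geo.subspaceStabilizer W ⊓ Cfsg.Geo.omegaGL Q) ∨
    (¬ Odd (Fintype.card F) ∧ ∃ v : (Fin 8 → F), Q v ≠ 0 ∧ H = Cfsg.Geo.subspaceStabilizer (Submodule.span F {v}) ⊓ Cfsg.Geo.omegaGL Q) ∨
    (∃ K : Subalgebra F (Matrix (Fin 8) (Fin 8) F), Cfsg.Geo.IsFieldSubalgebra 2 K ∧ H = Cfsg.Geo.subalgebraNormalizer K ⊓ Cfsg.Geo.omegaGL Q) ∨
    (∃ (F₀ : Subfield F) (r : ℕ) (P : Matrix.GeneralLinearGroup (Fin 8) F) (ζ : F), r.Prime ∧ Odd r ∧ Fintype.card F = Nat.card F₀ ^ r ∧ ζ ≠ 0 ∧ Cfsg.Geo.IsQuadFormRationalStructure (fun v : Fin 8 → F => ζ * Q v) F₀ P ∧ H = Cfsg.Geo.subfieldSubgroup F₀ P ⊓ Cfsg.Geo.omegaGL Q) ∨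
    Cfsg.Geo.InOrthogonalResidualClass H := by
  classical
  obtain ⟨Q, rfl, hND⟩ := H95.OBridge.exists_quad hQ
  have hc : Fintype.card (Fin 8) = 8 := Fintype.card_fin 8
  have hΩ : omegaGL (⇑Q) ≤ isometryGroup F (⇑Q) := fun g hg => mem_iso.mpr (omegaGL_Q Q hg)
  have hHi : H ≤ isometryGroup F (⇑Q) := hH.1.le.trans hΩ
  have fin : ∀ M, H ≤ M → ¬ omegaGL (⇑Q) ≤ M → H = M ⊓ omegaGL (⇑Q) := fun M h1 h2 => eq_of_max hH h1 h2
  have hline : ∀ v, Q v ≠ 0 → H ≤ subspaceStabilizer (Submodule.span F {v}) →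
      H = subspaceStabilizer (Submodule.span F {v}) ⊓ omegaGL (⇑Q) := by
    intro v hv hle
    have h1 := finrank_span hv
    apply fin _ hle
    apply not_le_subspace hND (by omega)
    · intro h; rw [h, finrank_bot] at h1; omega
    · intro h; rw [h, finrank_top, finrank_fintype_fun_eq_card] at h1; omega
  rcases oe_main hQ (by omega) hHi with (⟨W, hW0, hW, hle⟩ | ⟨W, hW0, hW1, hW, hle⟩ | ⟨h2, v, hv, hle⟩) |
    ⟨hirr, (⟨t, k, D, hD, hle⟩ | ⟨k, D, hD, hts, hle⟩) | (⟨r, K, hr, hK, -, hle⟩ | ⟨K, hK, -, -, -, hle⟩) |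
      (⟨d, k, e, P, G₁, G₂, hd, hk, hpos, -, -, h0⟩ | ⟨-, d, k, e, P, G₁, G₂, hd, hk, -⟩) |
      ⟨F₀, r, P, ζ, hr, hcard, hζ, hrat, hle⟩ | hres | ⟨-, N, hNH, -, hfull, hnil⟩ |
      ⟨t, d, e, P, N₀, G, C, ht, hd, hpow⟩⟩
  · left
    exact ⟨W, hW0, hW, fin _ hle (not_le_subspace hND (by omega) hW0 (ts_ne_top hND hW))⟩
  · obtain ⟨W, hW0, hW1, hW, hle, hhalf⟩ := nd_half hND hHi hW0 hW1 hW hle
    have hfin := fin _ hle (not_le_subspace hND (by omega) hW0 hW1)
    have hpos : 0 < finrank F W := Module.finrank_pos_iff.mpr ((Submodule.nontrivial_iff_ne_bot).mpr hW0)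
    rcases Nat.even_or_odd (finrank F W) with hev | hodd
    · obtain ⟨m, hm⟩ := hev
      have hm2 : finrank F W = 2 ∨ finrank F W = 4 := by omega
      rcases hm2 with h2 | h4
      · by_cases hp : IsPlusTypeOn (⇑Q) W
        · by_cases hq : 4 ≤ Fintype.card F
          · right; right; right; left
            exact ⟨hq, W, h2, hW, hp, hfin⟩
          · obtain ⟨v, hv, hle'⟩ := plane_small (by omega) hHi h2 hW hp hle
            by_cases hodd : Odd (Fintype.card F)
            · right; left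
              have h1 := finrank_span hv
              refine ⟨hodd, Submodule.span F {v}, ?_, ?_, ?_, nd_span (H96.AschSp.two_ne_zero_of_odd hodd) hv, hline v hv hle'⟩
              · intro h; rw [h, finrank_bot] at h1; omega
              · intro h; rw [h, finrank_top, finrank_fintype_fun_eq_card] at h1; omega
              · rw [h1]; exact odd_one
            · iterate 5 right
              left
              exact ⟨hodd, v, hv, hline v hv hle'⟩
        · right; right; left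
          exact ⟨W, h2, hW, hp, hfin⟩
      · iterate 4 right
        left
        exact ⟨W, h4, hW, hfin⟩
    · right; left
      exact ⟨odd_of_nd hW hodd, W, hW0, hW1, hodd, hW, hfin⟩
  · iterate 5 right
    left
    exact ⟨fun h => H96.AschSp.two_ne_zero_of_odd h h2, v, hv, hline v hv hle⟩
  · exfalso
    have h1 := card_eq_mul hD.decomp.decomp
    have ht := hD.decomp.decomp.two_le
    rw [hc] at h1
    rcases mul_eight h1.symm with rfl | rfl | rfl | rfl
    · omega
    · exact hminus (plus_of_two hD (k := 1) (m' := 2) (by norm_num) (by omega))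
    · exact hminus (plus_of_four hD (k := 1) (by norm_num))
    · exact hminus (plus_of_four hD (k := 2) (by norm_num))
  · exfalso
    have h1 := card_eq_mul hD
    rw [hc] at h1
    exact hminus (plus_top (hts 0) (by rw [hD.finrank_eq, hc, h1]))
  · have h1 := dvd_of_field hK
    rw [hc] at h1
    have hr2 : r = 2 := by
      have h2 : r ∣ 2 ^ 3 := by norm_num; exact h1
      exact (Nat.prime_dvd_prime_iff_eq hr Nat.prime_two).mp (hr.dvd_of_dvd_pow h2)
    subst hr2
    iterate 6 right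
    left
    exact ⟨K, hK, fin _ hle (not_le_field hND (by omega) hK le_rfl)⟩
  · iterate 6 right
    left
    exact ⟨K, hK, fin _ hle (not_le_field hND (by omega) hK le_rfl)⟩
  · exfalso
    have h1 := Fintype.card_congr e
    rw [hc, Fintype.card_prod, Fintype.card_fin, Fintype.card_fin] at h1
    have h2 : d = 2 ∨ k = 2 := by
      rcases mul_eight h1.symm with rfl | rfl | rfl | rfl <;> omega
    rcases h2 with rfl | rfl
    · exact hminus (plus_of_tensor h0)
    · exact hminus (plus_of_tensor (pure_swap h0))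
  · exfalso
    have h1 := Fintype.card_congr e
    rw [hc, Fintype.card_prod, Fintype.card_fin, Fintype.card_fin] at h1
    nlinarith
  · rcases hr.eq_two_or_odd' with rfl | hodd
    · exact absurd (plus_of_subfield hND (m := 4) (by rw [hc]) hcard hζ hrat) hminus
    · iterate 7 right
      left
      have hF₀ : F₀ ≠ ⊤ := by
        rintro rfl
        have h2 : Nat.card (⊤ : Subfield F) = Fintype.card F := by
          rw [← Nat.card_eq_fintype_card]
          exact Nat.card_congr (Equiv.Set.univ F)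
        rw [h2] at hcard
        have h3 : 1 < Fintype.card F := Fintype.one_lt_card
        have h4 : Fintype.card F ^ 1 < Fintype.card F ^ r := Nat.pow_lt_pow_right h3 hr.one_lt
        rw [pow_one] at h4
        omega
      exact ⟨F₀, r, P, ζ, hr, hodd, hcard, hζ, hrat, fin _ hle (not_le_subfield hND (by omega) hF₀ P)⟩
  · iterate 8 right
    exact hres
  · exact absurd (plus_of_nil hND (m := 2) (by rw [hc]) le_rfl (hNH.trans hHi) hfull hnil) hminus
  · exfalso
    have h1 := Fintype.card_congr e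
    rw [hc, Fintype.card_fun, Fintype.card_fin, Fintype.card_fin] at h1
    have ht3 : t ≤ 3 := by
      by_contra hcon
      have h2 : 2 ^ 4 ≤ d ^ t := (Nat.pow_le_pow_left hd 4).trans (Nat.pow_le_pow_right (by omega) (by omega))
      omega
    have ht' : t = 2 ∨ t = 3 := by omega
    rcases ht' with rfl | rfl
    · have h3 : d ≤ 2 := by
        by_contra hcon
        have : 3 ^ 2 ≤ d ^ 2 := Nat.pow_le_pow_left (by omega) 2
        omega
      have : d = 2 := by omega
      subst this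
      omega
    · have h3 : d ≤ 2 := by
        by_contra hcon
        have : 3 ^ 3 ≤ d ^ 3 := Nat.pow_le_pow_left (by omega) 3
        omega
      have : d = 2 := by omega
      subst this
      exact hminus (plus_of_pow hQ (by omega) hirr hHi hpow)

end H96.OeRow8
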