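import Mathlib
import Cfsg.Agent.Lib.H95.SpBasic

set_option autoImplicit false
set_option linter.unusedSectionVars false
set_option linter.unusedVariables false
set_option linter.unusedSimpArgs false

/-!
Tensor products of two spaces with symmetric or alternating forms: contractions, elements of the tensor product group.
-/

namespace H96.TeBase

open Module H95.SpBasic

variable {F M U W V : Type*} [Field F] [AddCommGroup M] [Module F M] [AddCommGroup U] [Module F U] [AddCommGroup W] [Module F W] [AddCommGroup V]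
  [Module F V]

/-- `s`-symmetric and non-degenerate -/
structure EF (B : LinearMap.BilinForm F M) (s : F) : Prop where
  flip : ∀ x y, B x y = s * B y x
  ss : s * s = 1
  nd : ∀ x, (∀ y, B x y = 0) → x = 0

section

variable {B : LinearMap.BilinForm F M} {s : F}

lemma EF.s0 (hB : EF B s) : s ≠ 0 := by
  rintro rfl
  have := hB.ss
  rw [mul_zero] at this
  exact zero_ne_one this

lemma EF.zero_flip (hB : EF B s) {x y : M} (h : B x y = 0) : B y x = 0 := by rw [hB.flip, h, mul_zero]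

lemma EF.repr (hB : EF B s) [FiniteDimensional F M] (f : M →ₗ[F] F) : ∃ v, ∀ x, B x v = f x := by
  have hinj : Function.Injective (LinearMap.flip B : M →ₗ[F] (M →ₗ[F] F)) := by
    rw [injective_iff_map_eq_zero]
    intro v hv
    apply hB.nd
    intro y
    rw [hB.flip]
    have := LinearMap.congr_fun hv y
    rw [LinearMap.flip_apply, LinearMap.zero_apply] at this
    rw [this, mul_zero]
  have hsurj := (LinearMap.injective_iff_surjective_of_finrank_eq_finrank
    (f := (LinearMap.flip B : M →ₗ[F] (M →ₗ[F] F))) (Subspace.dual_finrank_eq (K := F) (V := M)).symm).mp hinj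
  obtain ⟨v, hv⟩ := hsurj f
  exact ⟨v, fun x => by rw [← hv]; rfl⟩

/-- separation -/
lemma EF.sep (hB : EF B s) [FiniteDimensional F M] (S : Submodule F M) {y : M} (hy : y ∉ S) :
    ∃ v, (∀ x ∈ S, B x v = 0) ∧ B y v = 1 := by
  obtain ⟨f, hf1, hf2⟩ := Submodule.exists_le_ker_of_notMem hy
  obtain ⟨v, hv⟩ := hB.repr f
  refine ⟨(f y)⁻¹ • v, fun x hx => ?_, ?_⟩
  · rw [map_smul, hv, show f x = 0 from hf2 hx, smul_zero]
  · rw [map_smul, hv, smul_eq_mul, inv_mul_cancel₀ hf1]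

lemma EF.sep1 (hB : EF B s) [FiniteDimensional F M] {u y : M} (hy : y ∉ Submodule.span F {u}) :
    ∃ v, B u v = 0 ∧ B y v = 1 := by
  obtain ⟨v, h1, h2⟩ := hB.sep _ hy
  exact ⟨v, h1 u (Submodule.mem_span_singleton_self _), h2⟩

lemma EF.one (hB : EF B s) {w : M} (hw : w ≠ 0) : ∃ z, B w z = 1 := by
  by_contra hcon
  push Not at hcon
  apply hw
  apply hB.nd
  intro y
  by_contra hy
  apply hcon ((B w y)⁻¹ • y)
  rw [map_smul, smul_eq_mul, inv_mul_cancel₀ hy]

lemma EF.inj (hB : EF B s) : Function.Injective (B : M →ₗ[F] (M →ₗ[F] F)) := by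
  rw [injective_iff_map_eq_zero]
  intro v hv
  apply hB.nd
  intro y
  rw [hv, LinearMap.zero_apply]

lemma EF.ext (hB : EF B s) {x y : M} (h : ∀ z, B x z = B y z) : x = y := hB.inj (LinearMap.ext h)

lemma EF.ext' (hB : EF B s) {x y : M} (h : ∀ z, B z x = B z y) : x = y := hB.ext fun z => by
  rw [hB.flip x, hB.flip y, h]

/-- the form as an isomorphism -/
noncomputable def EF.e [FiniteDimensional F M] (hB : EF B s) : M ≃ₗ[F] (M →ₗ[F] F) :=
  LinearEquiv.ofInjectiveOfFinrankEq (B : M →ₗ[F] (M →ₗ[F] F)) hB.inj (Subspace.dual_finrank_eq (K := F) (V := M)).symm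

lemma EF.e_symm [FiniteDimensional F M] (hB : EF B s) (f : M →ₗ[F] F) (x : M) : B (hB.e.symm f) x = f x := by
  have h1 : hB.e (hB.e.symm f) = f := LinearEquiv.apply_symm_apply _ _
  have h2 : hB.e (hB.e.symm f) = B (hB.e.symm f) := rfl
  rw [← h2, h1]

/-- adjoints -/
noncomputable def EF.adj [FiniteDimensional F M] (hB : EF B s) (n : Module.End F M) : Module.End F M where
  toFun y := hB.e.symm (B y ∘ₗ n)
  map_add' x y := by rw [map_add, LinearMap.add_comp, map_add]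
  map_smul' c x := by rw [map_smul, LinearMap.smul_comp, map_smul, RingHom.id_apply]

lemma EF.adj_left [FiniteDimensional F M] (hB : EF B s) (n : Module.End F M) (x y : M) : B (hB.adj n y) x = B y (n x) :=
  hB.e_symm _ _

lemma EF.adj_right [FiniteDimensional F M] (hB : EF B s) (n : Module.End F M) (x y : M) : B x (hB.adj n y) = B (n x) y := by
  rw [hB.flip, hB.adj_left, ← hB.flip]

lemma EF.adj_eq [FiniteDimensional F M] (hB : EF B s) {n n' : Module.End F M} (h : ∀ x y, B (n' y) x = B y (n x)) :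
    hB.adj n = n' := by
  ext y
  exact hB.ext fun x => by rw [hB.adj_left, h]

lemma EF.adj_adj [FiniteDimensional F M] (hB : EF B s) (n : Module.End F M) : hB.adj (hB.adj n) = n :=
  hB.adj_eq fun x y => by rw [hB.adj_right]

/-- isotropic partner -/
lemma EF.partner (hB : EF B s) (h2 : (2 : F) ≠ 0) {e : M} (he : e ≠ 0) (hee : B e e = 0) :
    ∃ f, B e f = 1 ∧ B f e = s ∧ B f f = 0 := by
  obtain ⟨f, hf⟩ := hB.one he
  have hfe : B f e = s := by rw [hB.flip, hf, mul_one]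
  refine ⟨f - (B f f / 2) • e, ?_, ?_, ?_⟩
  · rw [map_sub, map_smul, hee, hf]; simp
  · rw [map_sub, map_smul, LinearMap.sub_apply, LinearMap.smul_apply, hee, hfe]; simp
  · have h1 : (1 - s) * B f f = 0 := by
      have := hB.flip f f
      linear_combination this
    simp only [map_sub, map_smul, LinearMap.sub_apply, LinearMap.smul_apply, smul_eq_mul, hee, hf, hfe]
    field_simp
    linear_combination 2 * h1

end

/-- tensor product of spaces with forms -/
structure TE (B₁ : LinearMap.BilinForm F U) (B₂ : LinearMap.BilinForm F W) (B : LinearMap.BilinForm F V)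
    (τ : U →ₗ[F] W →ₗ[F] V) (s₁ s₂ : F) : Prop where
  f₁ : EF B₁ s₁
  f₂ : EF B₂ s₂
  f : EF B (s₁ * s₂)
  span : ∀ S : Submodule F V, (∀ u w, τ u w ∈ S) → S = ⊤
  bp : ∀ u w u' w', B (τ u w) (τ u' w') = B₁ u u' * B₂ w w'

variable {B₁ : LinearMap.BilinForm F U} {B₂ : LinearMap.BilinForm F W} {B : LinearMap.BilinForm F V}
  {τ : U →ₗ[F] W →ₗ[F] V} {s₁ s₂ : F}

lemma TE.symm (h : TE B₁ B₂ B τ s₁ s₂) : TE B₂ B₁ B τ.flip s₂ s₁ where
  f₁ := h.f₂
  f₂ := h.f₁
  f := by rw [mul_comm]; exact h.f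
  span := fun S hS => h.span S fun u w => hS w u
  bp := fun u w u' w' => by
    rw [LinearMap.flip_apply, LinearMap.flip_apply, h.bp, mul_comm]

lemma TE.ext (h : TE B₁ B₂ B τ s₁ s₂) {M : Type*} [AddCommGroup M] [Module F M] {f g : V →ₗ[F] M}
    (hfg : ∀ u w, f (τ u w) = g (τ u w)) : f = g := by
  have h1 := h.span (LinearMap.eqLocus f g) hfg
  rwa [LinearMap.eqLocus_eq_top] at h1

lemma TE.ext2 (h : TE B₁ B₂ B τ s₁ s₂) {f g : LinearMap.BilinForm F V}
    (hfg : ∀ u w u' w', f (τ u w) (τ u' w') = g (τ u w) (τ u' w')) : f = g :=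
  h.ext fun u w => h.ext fun u' w' => hfg u w u' w'

lemma TE.isom_of_pure (h : TE B₁ B₂ B τ s₁ s₂) {g : V ≃ₗ[F] V}
    (hg : ∀ u w u' w', B (g (τ u w)) (g (τ u' w')) = B₁ u u' * B₂ w w') : g ∈ isom B := by
  have h1 : B.compl₁₂ g.toLinearMap g.toLinearMap = B := h.ext2 fun u w u' w' => by
    rw [LinearMap.compl₁₂_apply, h.bp]
    exact hg u w u' w'
  intro x y
  have := LinearMap.congr_fun₂ h1 x y
  rwa [LinearMap.compl₁₂_apply] at this

section

variable [FiniteDimensional F U] [FiniteDimensional F W]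

/-- contraction -/
noncomputable def kap (h : TE B₁ B₂ B τ s₁ s₂) : W →ₗ[F] V →ₗ[F] U :=
  LinearMap.mk₂ F (fun z v => h.f₁.e.symm (B v ∘ₗ τ.flip z))
    (fun z z' v => by rw [map_add, LinearMap.comp_add, map_add])
    (fun c z v => by rw [map_smul, LinearMap.comp_smul, map_smul])
    (fun z v v' => by rw [map_add, LinearMap.add_comp, map_add])
    (fun c z v => by rw [map_smul, LinearMap.smul_comp, map_smul])

lemma kap_left (h : TE B₁ B₂ B τ s₁ s₂) (z : W) (v : V) (u : U) : B₁ (kap h z v) u = B v (τ u z) :=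
  h.f₁.e_symm _ _

@[simp] lemma kap_pure (h : TE B₁ B₂ B τ s₁ s₂) (z : W) (u : U) (y : W) : kap h z (τ u y) = B₂ y z • u :=
  h.f₁.ext fun u' => by
    rw [kap_left, h.bp, map_smul, LinearMap.smul_apply, smul_eq_mul, mul_comm]

@[simp] lemma kap_pure' (h : TE B₁ B₂ B τ s₁ s₂) (z : U) (u : U) (y : W) : kap h.symm z (τ u y) = B₁ u z • y := by
  have := kap_pure h.symm z y u
  rwa [LinearMap.flip_apply] at this

lemma kap_swap (h : TE B₁ B₂ B τ s₁ s₂) (z : W) (x : U) (v : V) : B₁ (kap h z v) x = B₂ (kap h.symm x v) z := by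
  rw [kap_left, kap_left, LinearMap.flip_apply]

lemma kap_zero (h : TE B₁ B₂ B τ s₁ s₂) {v : V} (hv : ∀ z, kap h z v = 0) : v = 0 := by
  apply h.f.nd
  intro y
  have h3 : B v = 0 := by
    apply h.ext
    intro u z
    rw [← kap_left h, hv, map_zero, LinearMap.zero_apply, LinearMap.zero_apply]
  rw [h3, LinearMap.zero_apply]

/-- elementary endomorphisms -/
noncomputable def K (h : TE B₁ B₂ B τ s₁ s₂) (n : Module.End F U) (y z : W) : Module.End F V :=
  τ.flip y ∘ₗ n ∘ₗ kap h z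

lemma K_apply (h : TE B₁ B₂ B τ s₁ s₂) (n : Module.End F U) (y z : W) (v : V) : K h n y z v = τ (n (kap h z v)) y := rfl

lemma pure_eq_zero (h : TE B₁ B₂ B τ s₁ s₂) {w : W} (hw : w ≠ 0) {u : U} (hu : τ u w = 0) : u = 0 := by
  obtain ⟨z, hz⟩ := h.f₂.one hw
  have h1 := kap_pure h z u w
  rw [hu, map_zero, hz, one_smul] at h1
  exact h1.symm

lemma pure_eq_zero' (h : TE B₁ B₂ B τ s₁ s₂) {w : W} {u : U} (hu0 : u ≠ 0) (hu : τ u w = 0) : w = 0 :=
  pure_eq_zero h.symm hu0 (u := w) hu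

lemma pure_inj (h : TE B₁ B₂ B τ s₁ s₂) {w : W} (hw : w ≠ 0) {u u' : U} (hu : τ u w = τ u' w) : u = u' := by
  rw [← sub_eq_zero]
  apply pure_eq_zero h hw
  rw [map_sub, LinearMap.sub_apply, hu, sub_self]

lemma pure_inj' (h : TE B₁ B₂ B τ s₁ s₂) {w w' : W} {u : U} (hu0 : u ≠ 0) (hu : τ u w = τ u w') : w = w' := by
  rw [← sub_eq_zero]
  apply pure_eq_zero' h hu0
  rw [map_sub, hu, sub_self]

/-- the tensor product of two endomorphisms -/
lemma exists_tmap (h : TE B₁ B₂ B τ s₁ s₂) (a : Module.End F U) (b : Module.End F W) :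
    ∃ T : Module.End F V, ∀ u w, T (τ u w) = τ (a u) (b w) := by
  classical
  let bs := Module.finBasis F W
  choose z hz using fun j => h.f₂.repr (bs.coord j)
  refine ⟨∑ j, τ.flip (b (bs j)) ∘ₗ a ∘ₗ kap h (z j), fun u w => ?_⟩
  rw [LinearMap.sum_apply]
  have h1 : ∀ j, (τ.flip (b (bs j)) ∘ₗ a ∘ₗ kap h (z j)) (τ u w) = τ (a u) (bs.repr w j • b (bs j)) := by
    intro j
    rw [LinearMap.comp_apply, LinearMap.comp_apply, kap_pure, hz, Basis.coord_apply, map_smul, map_smul,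
      LinearMap.flip_apply, map_smul]
  rw [Finset.sum_congr rfl fun j _ => h1 j, ← map_sum]
  congr 1
  conv_rhs => rw [← bs.sum_repr w, map_sum]
  exact Finset.sum_congr rfl fun j _ => by rw [map_smul]

/-- the tensor product of two automorphisms -/
lemma exists_teq (h : TE B₁ B₂ B τ s₁ s₂) (a : U ≃ₗ[F] U) (b : W ≃ₗ[F] W) :
    ∃ T : V ≃ₗ[F] V, ∀ u w, T (τ u w) = τ (a u) (b w) := by
  obtain ⟨T, hT⟩ := exists_tmap h a.toLinearMap b.toLinearMap
  obtain ⟨T', hT'⟩ := exists_tmap h a.symm.toLinearMap b.symm.toLinearMap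
  refine ⟨LinearEquiv.ofLinearMap T T' ?_ ?_, fun u w => hT u w⟩
  · apply h.ext
    intro u w
    rw [LinearMap.comp_apply, hT', hT]
    simp
  · apply h.ext
    intro u w
    rw [LinearMap.comp_apply, hT, hT']
    simp

/-- tensor products of automorphisms -/
def Kr (τ : U →ₗ[F] W →ₗ[F] V) (x : V ≃ₗ[F] V) : Prop :=
  ∃ (a : U ≃ₗ[F] U) (b : W ≃ₗ[F] W), ∀ u f, x (τ u f) = τ (a u) (b f)

lemma Kr.symm {x : V ≃ₗ[F] V} (hx : Kr τ x) : Kr τ.flip x := by
  obtain ⟨a, b, hab⟩ := hx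
  exact ⟨b, a, fun u f => hab f u⟩

lemma Kr.symm' {x : V ≃ₗ[F] V} (hx : Kr τ.flip x) : Kr τ x := by
  obtain ⟨a, b, hab⟩ := hx
  exact ⟨b, a, fun u f => hab f u⟩

/-- the group of the tensor products -/
def KrG (τ : U →ₗ[F] W →ₗ[F] V) : Subgroup (V ≃ₗ[F] V) where
  carrier := {x | Kr τ x}
  mul_mem' := by
    rintro x y ⟨a, b, hab⟩ ⟨c, d, hcd⟩
    exact ⟨a * c, b * d, fun u f => by rw [LinearEquiv.mul_apply, hcd, hab]; rfl⟩
  one_mem' := ⟨1, 1, fun u f => rfl⟩
  inv_mem' := by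
    rintro x ⟨a, b, hab⟩
    refine ⟨a⁻¹, b⁻¹, fun u f => ?_⟩
    have h1 := hab (a⁻¹ u) (b⁻¹ f)
    have e1 : a (a⁻¹ u) = u := a.apply_symm_apply u
    have e2 : b (b⁻¹ f) = f := b.apply_symm_apply f
    rw [e1, e2] at h1
    rw [← h1]
    exact x.symm_apply_apply _

lemma mem_KrG {x : V ≃ₗ[F] V} : x ∈ KrG τ ↔ Kr τ x := Iff.rfl

/-- vectors killed by the contractions with `w^⊥` -/
lemma mem_D (h : TE B₁ B₂ B τ s₁ s₂) {w z₀ : W} (hz₀ : B₂ w z₀ = 1) {v : V} (hv : ∀ z, B₂ w z = 0 → kap h z v = 0) :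
    v = τ (kap h z₀ v) w := by
  rw [← sub_eq_zero]
  apply kap_zero h
  intro z
  rw [map_sub, kap_pure]
  have h2 := hv (z - B₂ w z • z₀) (by rw [map_sub, map_smul, hz₀, smul_eq_mul, mul_one, sub_self])
  rw [map_sub, map_smul, LinearMap.sub_apply, LinearMap.smul_apply] at h2
  exact h2

lemma scalar_of_span {n : Module.End F U} (hn : ∀ u, n u ∈ Submodule.span F {u}) : ∃ c : F, ∀ u, n u = c • u := by
  obtain ⟨a, ha⟩ := LinearMap.exists_eq_smul_id_of_forall_notLinearIndependent (f := n) (fun v hv => by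
    obtain ⟨c, hc⟩ := Submodule.mem_span_singleton.mp (hn v)
    rw [LinearIndependent.pair_iff] at hv
    have := hv c (-1) (by rw [hc]; simp)
    exact one_ne_zero (neg_eq_zero.mp this.2))
  exact ⟨a, fun u => by rw [ha]; rfl⟩

lemma inv_form {x : V ≃ₗ[F] V} (hx : x ∈ isom B) (v y : V) : B (x⁻¹ v) y = B v (x y) := by
  rw [← hx (x⁻¹ v)]
  congr 2
  exact x.apply_symm_apply v

end

end H96.TeBase
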