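import Mathlib
import Cfsg.Agent.Lib.H96.TeBase

set_option autoImplicit false
set_option linter.unusedSectionVars false
set_option linter.unusedVariables false
set_option linter.unusedSimpArgs false

/-!
Overgroups of tensor product groups: normalisers of the subspaces U ⊗ e, e isotropic.
-/

namespace H96.TeNorm

open Module H95.SpBasic H96.TeBase

variable {F U W V : Type*} [Field F] [AddCommGroup U] [Module F U] [AddCommGroup W] [Module F W] [AddCommGroup V]
  [Module F V] [FiniteDimensional F U] [FiniteDimensional F W]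
variable {B₁ : LinearMap.BilinForm F U} {B₂ : LinearMap.BilinForm F W} {B : LinearMap.BilinForm F V}
  {τ : U →ₗ[F] W →ₗ[F] V} {s₁ s₂ : F}

/-- groups of isometries containing the tensor product group -/
structure HX (B : LinearMap.BilinForm F V) (τ : U →ₗ[F] W →ₗ[F] V) (X : Subgroup (V ≃ₗ[F] V)) : Prop where
  le : X ≤ isom B
  ge : ∀ x : V ≃ₗ[F] V, Kr τ x → x ∈ isom B → x ∈ X

lemma HX.symm {X : Subgroup (V ≃ₗ[F] V)} (hX : HX B τ X) : HX B τ.flip X where
  le := hX.le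
  ge := fun x hx hx' => hX.ge x hx.symm' hx'

/-- Siegel transformation -/
noncomputable def sg (B : LinearMap.BilinForm F W) (s : F) (y e : W) : Module.End F W :=
  1 + (B.flip e).smulRight y - s • (B.flip y).smulRight e - (s / 2 * B y y) • (B.flip e).smulRight e

lemma sg_apply (B : LinearMap.BilinForm F W) (s : F) (y e w : W) :
    sg B s y e w = w + B w e • y - (s * B w y) • e - (s / 2 * B y y * B w e) • e := by
  simp only [sg, LinearMap.sub_apply, LinearMap.add_apply, Module.End.one_apply, LinearMap.smulRight_apply,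
    LinearMap.BilinForm.flip_apply, LinearMap.flip_apply, LinearMap.smul_apply, smul_smul]

lemma sg_inv {B : LinearMap.BilinForm F W} {s : F} (hB : EF B s) (h2 : (2 : F) ≠ 0) {y e : W} (he : B e e = 0) (hy : B y e = 0)
    (w : W) : sg B s (-y) e (sg B s y e w) = w := by
  have hy' := hB.zero_flip hy
  simp only [sg_apply, map_add, map_sub, map_smul, map_neg, LinearMap.add_apply, LinearMap.sub_apply,
    LinearMap.smul_apply, LinearMap.neg_apply, he, hy, hy', smul_eq_mul, mul_zero, sub_zero, add_zero]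
  have h3 : s * B y y = 2 * (s / 2 * B y y) := by field_simp
  match_scalars
  · ring
  · ring
  · linear_combination (B w e) * h3

lemma sg_isom {B : LinearMap.BilinForm F W} {s : F} (hB : EF B s) (h2 : (2 : F) ≠ 0) {y e : W} (he : B e e = 0) (hy : B y e = 0)
    (w w' : W) : B (sg B s y e w) (sg B s y e w') = B w w' := by
  have hy' := hB.zero_flip hy
  have h1 : (1 - s) * B y y = 0 := by
    have := hB.flip y y
    linear_combination this
  simp only [sg_apply, map_add, map_sub, map_smul, LinearMap.add_apply, LinearMap.sub_apply,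
    LinearMap.smul_apply, he, hy, hy', smul_eq_mul, mul_zero, sub_zero, add_zero]
  rw [hB.flip y w', hB.flip e w']
  field_simp
  linear_combination (B w e * B w' e) * h1 - (2 * B w y * B w' e + B w e * B w' e * B y y) * hB.ss

lemma sg_fix {B : LinearMap.BilinForm F W} {s : F} (hB : EF B s) {y e : W} (he : B e e = 0) (hy : B y e = 0) :
    sg B s y e e = e := by
  rw [sg_apply, he, hB.zero_flip hy]
  simp

/-- Siegel transformation as an automorphism -/
noncomputable def sgE {B : LinearMap.BilinForm F W} {s : F} (hB : EF B s) (h2 : (2 : F) ≠ 0) {y e : W} (he : B e e = 0)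
    (hy : B y e = 0) : W ≃ₗ[F] W :=
  LinearEquiv.ofLinearMap (sg B s y e) (sg B s (-y) e)
    (by
      ext w
      have h3 := sg_inv hB h2 (y := -y) he (by rw [map_neg, LinearMap.neg_apply, hy, neg_zero]) w
      rw [neg_neg] at h3
      exact h3)
    (by
      ext w
      exact sg_inv hB h2 he hy w)

lemma sgE_apply {B : LinearMap.BilinForm F W} {s : F} (hB : EF B s) (h2 : (2 : F) ≠ 0) {y e : W} (he : B e e = 0)
    (hy : B y e = 0) (w : W) : sgE hB h2 he hy w = sg B s y e w := rfl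

variable {X : Subgroup (V ≃ₗ[F] V)}

lemma exists_mem (h : TE B₁ B₂ B τ s₁ s₂) (hX : HX B τ X) (a : U ≃ₗ[F] U) (b : W ≃ₗ[F] W)
    (hab : ∀ u w u' w', B₁ (a u) (a u') * B₂ (b w) (b w') = B₁ u u' * B₂ w w') :
    ∃ g ∈ X, ∀ u w, g (τ u w) = τ (a u) (b w) := by
  obtain ⟨g, hg⟩ := exists_teq h a b
  refine ⟨g, hX.ge g ⟨a, b, hg⟩ (h.isom_of_pure fun u w u' w' => ?_), hg⟩
  rw [hg, hg, h.bp, hab]

lemma exists_sieg (h : TE B₁ B₂ B τ s₁ s₂) (h2 : (2 : F) ≠ 0) (hX : HX B τ X) {y e : W} (he : B₂ e e = 0)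
    (hy : B₂ y e = 0) : ∃ g ∈ X, (∀ u w, g (τ u w) = τ u (sg B₂ s₂ y e w)) ∧
      ∀ v, g v = v + τ (kap h e v) y - s₂ • τ (kap h y v) e - (s₂ / 2 * B₂ y y) • τ (kap h e v) e := by
  obtain ⟨g, hg, hgg⟩ := exists_mem h hX 1 (sgE h.f₂ h2 he hy) (fun u w u' w' => by
    rw [sgE_apply, sgE_apply, sg_isom h.f₂ h2 he hy]; rfl)
  refine ⟨g, hg, fun u w => hgg u w, fun v => ?_⟩
  let L : V →ₗ[F] V := LinearMap.id + τ.flip y ∘ₗ kap h e - s₂ • (τ.flip e ∘ₗ kap h y) -
    (s₂ / 2 * B₂ y y) • (τ.flip e ∘ₗ kap h e)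
  have h1 : g.toLinearMap = L := by
    apply h.ext
    intro u w
    rw [LinearEquiv.coe_coe, hgg, sgE_apply, sg_apply]
    simp only [L, LinearMap.sub_apply, LinearMap.add_apply, LinearMap.id_apply, LinearMap.comp_apply, LinearMap.smul_apply,
      kap_pure, LinearMap.flip_apply, map_smul, map_sub, map_add, smul_smul]
    rfl
  exact LinearMap.congr_fun h1 v

/-- the unipotent radical of the stabiliser of `U ⊗ e` meets `X` in the tensor product group -/
def RH (h : TE B₁ B₂ B τ s₁ s₂) (X : Subgroup (V ≃ₗ[F] V)) (e : W) : Prop :=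
  ∀ x ∈ X, (∀ u, x (τ u e) = τ u e) → (∀ v, kap h e v = 0 → ∃ u, x v = v + τ u e) → Kr τ x

lemma exists_inv {α : Module.End F U} (hα : Function.Injective α) : ∃ γ : Module.End F U, (∀ u, α (γ u) = u) ∧
    (∀ u, γ (α u) = u) := by
  let e := LinearEquiv.ofInjectiveEndo α hα
  refine ⟨e.symm, fun u => ?_, fun u => ?_⟩
  · exact e.apply_symm_apply u
  · exact e.symm_apply_apply u

lemma inj_of (h : TE B₁ B₂ B τ s₁ s₂) {x : V ≃ₗ[F] V} {f f' : W} (hf : f ≠ 0) {α : Module.End F U}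
    (hα : ∀ u, x (τ u f) = τ (α u) f') : Function.Injective α := by
  rw [injective_iff_map_eq_zero]
  intro u hu
  have h1 := hα u
  rw [hu, map_zero, LinearMap.zero_apply] at h1
  exact pure_eq_zero h hf ((map_eq_zero_iff x x.injective).mp h1)

lemma kap_map_zero (h : TE B₁ B₂ B τ s₁ s₂) {x : V ≃ₗ[F] V} (hx : x ∈ isom B) {e e' : W} {α γ : Module.End F U}
    (hα : ∀ u, x (τ u e) = τ (α u) e') (hαγ : ∀ u, α (γ u) = u) {v : V} (hv : kap h e v = 0) : kap h e' (x v) = 0 := by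
  refine h.f₁.ext fun u => ?_
  rw [← hαγ u, kap_left, ← hα, hx, ← kap_left h, hv, map_zero]
  simp

/-- step A -/
lemma norm_A (h : TE B₁ B₂ B τ s₁ s₂) (h2 : (2 : F) ≠ 0) (hX : HX B τ X) (hU : ∃ u : U, u ≠ 0) {e e' : W} (he : e ≠ 0)
    (hee' : B₂ e' e' = 0) (hRe : RH h X e) {x : V ≃ₗ[F] V} (hx : x ∈ X) {α γ : Module.End F U}
    (hα : ∀ u, x (τ u e) = τ (α u) e') (hαγ : ∀ u, α (γ u) = u) (hγα : ∀ u, γ (α u) = u) {w y : W} (hw : B₂ w e = 0)
    (hy : B₂ y e' = 0) : ∃ c : F, ∀ u, kap h y (x (τ u w)) = c • α u := by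
  obtain ⟨R, hR, hR1, hR2⟩ := exists_sieg h h2 hX hee' hy
  have hxx : ∀ v, x (x⁻¹ v) = v := fun v => x.apply_symm_apply v
  have hxx' : ∀ v, x⁻¹ (x v) = v := fun v => x.symm_apply_apply v
  have hγ : ∀ u, x⁻¹ (τ u e') = τ (γ u) e := by
    intro u
    have h1 := hα (γ u)
    rw [hαγ] at h1
    rw [← h1, hxx']
  have hg1 : ∀ v, kap h e v = 0 → (x⁻¹ * R * x) v = v - s₂ • τ (γ (kap h y (x v))) e := by
    intro v hv
    have h1 := kap_map_zero h (hX.le hx) hα hαγ hv
    rw [LinearEquiv.mul_apply, LinearEquiv.mul_apply, hR2, h1]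
    simp only [map_zero, LinearMap.zero_apply, smul_zero, add_zero, sub_zero, map_sub, map_smul, hxx', hγ]
  obtain ⟨a, b, hab⟩ := hRe (x⁻¹ * R * x) (X.mul_mem (X.mul_mem (X.inv_mem hx) hR) hx) (fun u => by
    rw [LinearEquiv.mul_apply, LinearEquiv.mul_apply, hα, hR1, sg_fix h.f₂ hee' hy, hγ, hγα]) (fun v hv =>
    ⟨- s₂ • γ (kap h y (x v)), by rw [hg1 v hv, map_smul, LinearMap.smul_apply, neg_smul, sub_eq_add_neg]⟩)
  have he0 : ∀ u, τ (a u) (b e) = τ u e := by
    intro u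
    rw [← hab, LinearEquiv.mul_apply, LinearEquiv.mul_apply, hα, hR1, sg_fix h.f₂ hee' hy, hγ, hγα]
  obtain ⟨z, hz⟩ := h.f₂.one he
  have ha : ∀ u, B₂ (b e) z • a u = u := by
    intro u
    have h1 := congrArg (kap h z) (he0 u)
    rwa [kap_pure, kap_pure, hz, one_smul] at h1
  obtain ⟨u₂, hu₂⟩ := hU
  obtain ⟨c, hc⟩ : ∃ c, c = B₂ (b e) z := ⟨_, rfl⟩
  rw [← hc] at ha
  have hc0 : c ≠ 0 := by
    rintro rfl
    have := ha u₂
    rw [zero_smul] at this
    exact hu₂ this.symm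
  have ha' : ∀ u, a u = c⁻¹ • u := by
    intro u
    have h1 := ha u
    conv_rhs => rw [← h1]
    rw [smul_smul, inv_mul_cancel₀ hc0, one_smul]
  have hk : ∀ u, kap h e (τ u w) = 0 := fun u => by rw [kap_pure, hw, zero_smul]
  have key : ∀ u, τ u (w - c⁻¹ • b w) = s₂ • τ (γ (kap h y (x (τ u w)))) e := by
    intro u
    have h1 := hab u w
    rw [hg1 _ (hk u), ha', map_smul, LinearMap.smul_apply] at h1
    rw [map_sub, map_smul, ← h1]; abel
  by_cases hs : w - c⁻¹ • b w ∈ Submodule.span F {e}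
  · obtain ⟨c₁, hc₁⟩ := Submodule.mem_span_singleton.mp hs
    refine ⟨s₂ * c₁, fun u => ?_⟩
    have h1 := key u
    rw [← hc₁, map_smul, ← LinearMap.smul_apply, ← map_smul, ← LinearMap.smul_apply, ← map_smul] at h1
    have h3 := pure_inj h he h1
    have h4 := congrArg α h3
    rw [map_smul, map_smul, hαγ] at h4
    rw [mul_smul, h4, smul_smul, h.f₂.ss, one_smul]
  · exfalso
    obtain ⟨z, hz1, hz2⟩ := h.f₂.sep1 hs
    have h1 := congrArg (kap h z) (key u₂)
    rw [map_smul, kap_pure, kap_pure, hz1, hz2, zero_smul, smul_zero, one_smul] at h1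
    exact hu₂ h1

/-- elements of `X` mapping `U ⊗ e` to `U ⊗ e'` -/
theorem norm_of (h : TE B₁ B₂ B τ s₁ s₂) (h2 : (2 : F) ≠ 0) (hX : HX B τ X) (hU : ∃ u : U, u ≠ 0) {e e' : W} (he : e ≠ 0)
    (he' : e' ≠ 0) (hee : B₂ e e = 0) (hee' : B₂ e' e' = 0) (hW : ∃ w w' : W, B₂ w e = 0 ∧ B₂ w' e = 0 ∧ B₂ w w' ≠ 0)
    (hRe : RH h X e) {x : V ≃ₗ[F] V} (hx : x ∈ X) {α : Module.End F U} (hα : ∀ u, x (τ u e) = τ (α u) e') : Kr τ x := by
  have hαinj := inj_of h he hα
  obtain ⟨γ, hαγ, hγα⟩ := exists_inv hαinj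
  have hxx : ∀ v, x (x⁻¹ v) = v := fun v => x.apply_symm_apply v
  have hxx' : ∀ v, x⁻¹ (x v) = v := fun v => x.symm_apply_apply v
  obtain ⟨u₀, hu₀⟩ := hU
  have hαu₀ : α u₀ ≠ 0 := fun h0 => hu₀ (hαinj (by rw [h0, map_zero]))
  obtain ⟨u₁, hu₁⟩ := h.f₁.one hαu₀
  obtain ⟨f', hef', hfe', hff'⟩ := h.f₂.partner h2 he' hee'
  obtain ⟨f, hef, hfe, hff⟩ := h.f₂.partner h2 he hee
  let b₀ : Module.End F W := kap h.symm u₁ ∘ₗ x.toLinearMap ∘ₗ τ u₀
  have hb₀ : ∀ w, b₀ w = kap h.symm u₁ (x (τ u₀ w)) := fun w => rfl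
  have hswap : ∀ w z, B₂ (b₀ w) z = B₁ (kap h z (x (τ u₀ w))) u₁ := fun w z => by rw [hb₀, ← kap_swap h]
  -- steps B and C
  have hB : ∀ w y, B₂ w e = 0 → B₂ y e' = 0 → ∀ u, kap h y (x (τ u w)) = B₂ (b₀ w) y • α u := by
    intro w y hw hy u
    obtain ⟨c, hc⟩ := norm_A h h2 hX ⟨u₀, hu₀⟩ he hee' hRe hx hα hαγ hγα hw hy
    rw [hc, hswap, hc, map_smul, LinearMap.smul_apply, hu₁, smul_eq_mul, mul_one]
  have hk : ∀ u w, B₂ w e = 0 → kap h e (τ u w) = 0 := fun u w hw => by rw [kap_pure, hw, zero_smul]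
  have hC : ∀ w, B₂ w e = 0 → B₂ (b₀ w) e' = 0 := by
    intro w hw
    rw [hswap, kap_map_zero h (hX.le hx) hα hαγ (hk u₀ w hw), map_zero, LinearMap.zero_apply]
  -- step D
  have hD : ∀ w, B₂ w e = 0 → ∀ u, ∃ δ, x (τ u w) = τ (α u) (b₀ w) + τ δ e' := by
    intro w hw u
    have h1 := mem_D h hef' (v := x (τ u w) - τ (α u) (b₀ w)) (by
      intro z hz
      rw [map_sub, kap_pure, hB w z hw (h.f₂.zero_flip hz), sub_self])
    exact ⟨_, by rw [← h1]; abel⟩
  -- step E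
  have hE : ∀ w w', B₂ w e = 0 → B₂ w' e = 0 → ∀ u u', B₁ (α u) (α u') * B₂ (b₀ w) (b₀ w') = B₁ u u' * B₂ w w' := by
    intro w w' hw hw' u u'
    obtain ⟨δ, hδ⟩ := hD w hw u
    obtain ⟨δ', hδ'⟩ := hD w' hw' u'
    have h1 := hX.le hx (τ u w) (τ u' w')
    rw [hδ, hδ', h.bp] at h1
    simp only [map_add, LinearMap.add_apply, h.bp, hC w hw, h.f₂.zero_flip (hC w' hw'), hee', mul_zero, add_zero] at h1
    exact h1
  -- step F
  obtain ⟨w₁, w₂, hw₁, hw₂, hww⟩ := hW
  obtain ⟨u₀', hu₀'⟩ := h.f₁.one hu₀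
  have hne : B₂ (b₀ w₁) (b₀ w₂) ≠ 0 := by
    intro h0
    have h1 := hE w₁ w₂ hw₁ hw₂ u₀ u₀'
    rw [h0, mul_zero, hu₀', one_mul] at h1
    exact hww h1.symm
  obtain ⟨μ, hμ⟩ : ∃ μ, μ = B₂ w₁ w₂ / B₂ (b₀ w₁) (b₀ w₂) := ⟨_, rfl⟩
  have hμ0 : μ ≠ 0 := by rw [hμ]; exact div_ne_zero hww hne
  have hF1 : ∀ u u', B₁ (α u) (α u') = μ * B₁ u u' := by
    intro u u'
    have h1 := hE w₁ w₂ hw₁ hw₂ u u'
    rw [hμ]
    field_simp
    linear_combination h1
  have hF2 : ∀ w w', B₂ w e = 0 → B₂ w' e = 0 → B₂ (b₀ w) (b₀ w') = μ⁻¹ * B₂ w w' := by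
    intro w w' hw hw'
    have h1 := hE w w' hw hw' u₀ u₀'
    rw [hF1, hu₀'] at h1
    field_simp
    linear_combination h1
  -- step G
  have hb₀e : b₀ e = e' := by
    rw [hb₀, hα, kap_pure' h, hu₁, one_smul]
  let P : Module.End F W := 1 - ((LinearMap.flip B₂ f).smulRight e) - s₂ • ((LinearMap.flip B₂ e).smulRight f)
  have hP : ∀ w, P w = w - B₂ w f • e - (s₂ * B₂ w e) • f := by
    intro w
    simp only [P, LinearMap.sub_apply, Module.End.one_apply, LinearMap.smulRight_apply, LinearMap.smul_apply,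
      LinearMap.flip_apply, smul_smul]
  have hPe : ∀ w, B₂ (P w) e = 0 := by
    intro w
    rw [hP]
    simp only [map_sub, map_smul, LinearMap.sub_apply, LinearMap.smul_apply, smul_eq_mul, hee, hfe]
    linear_combination - B₂ w e * h.f₂.ss
  have hPf : ∀ w, B₂ (P w) f = 0 := by
    intro w
    rw [hP]
    simp only [map_sub, map_smul, LinearMap.sub_apply, LinearMap.smul_apply, smul_eq_mul, hef, hff]
    ring
  let b : Module.End F W := (LinearMap.flip B₂ f).smulRight e' + (μ⁻¹ * s₂) • ((LinearMap.flip B₂ e).smulRight f') +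
    (b₀ ∘ₗ P - (LinearMap.flip B₂ f').smulRight e' ∘ₗ b₀ ∘ₗ P)
  have hb : ∀ w, b w = B₂ w f • e' + (μ⁻¹ * s₂ * B₂ w e) • f' + (b₀ (P w) - B₂ (b₀ (P w)) f' • e') := by
    intro w
    simp only [b, LinearMap.sub_apply, LinearMap.add_apply, LinearMap.comp_apply, LinearMap.smulRight_apply,
      LinearMap.smul_apply, LinearMap.flip_apply, smul_smul]
  have hdec : ∀ w, w = B₂ w f • e + (s₂ * B₂ w e) • f + P w := fun w => by rw [hP]; abel
  have hG : ∀ w w', B₂ (b w) (b w') = μ⁻¹ * B₂ w w' := by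
    intro w w'
    have h1 : B₂ w w' = s₂ * B₂ w f * B₂ w' e + B₂ w e * B₂ w' f + B₂ (P w) (P w') := by
      conv_lhs => rw [hdec w, hdec w']
      simp only [map_add, map_smul, LinearMap.add_apply, LinearMap.smul_apply, smul_eq_mul, hee, hef, hfe, hff,
        h.f₂.zero_flip (hPe w'), h.f₂.zero_flip (hPf w'), hPe, hPf]
      linear_combination (B₂ w e * B₂ w' f) * h.f₂.ss
    have h3 := hF2 (P w) (P w') (hPe w) (hPe w')
    have h4 := hC (P w) (hPe w)
    have h5 := hC (P w') (hPe w')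
    rw [hb, hb]
    simp only [map_add, map_sub, map_smul, LinearMap.add_apply, LinearMap.sub_apply, LinearMap.smul_apply, smul_eq_mul,
      hee', hef', hfe', hff', h3, h4, h.f₂.zero_flip h5, h.f₂.flip f' (b₀ (P w'))]
    rw [h1]
    ring_nf
    linear_combination (μ⁻¹ * B₂ w e * B₂ w' f + 0) * h.f₂.ss
  have hbinj : Function.Injective b := by
    rw [injective_iff_map_eq_zero]
    intro w hw
    apply h.f₂.nd
    intro y
    have h1 := hG w y
    rw [hw, map_zero, LinearMap.zero_apply] at h1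
    have h3 := h1.symm
    exact (mul_eq_zero.mp h3).resolve_left (inv_ne_zero hμ0)
  -- step H
  obtain ⟨g, hg, hgg⟩ := exists_mem h hX (LinearEquiv.ofInjectiveEndo α hαinj) (LinearEquiv.ofInjectiveEndo b hbinj)
    (fun u w u' w' => by
      rw [LinearEquiv.coe_ofInjectiveEndo, LinearEquiv.coe_ofInjectiveEndo, hF1, hG]
      field_simp)
  have hgg' : ∀ u w, g (τ u w) = τ (α u) (b w) := fun u w => hgg u w
  have hgi : ∀ v, g⁻¹ (g v) = v := fun v => g.symm_apply_apply v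
  have hbe : b e = e' := by
    rw [hb, hP, hef, hee]
    simp
  have hkey : ∀ u w, B₂ w e = 0 → ∃ δ, (g⁻¹ * x) (τ u w) = τ u w + τ δ e := by
    intro u w hw
    obtain ⟨δ, hδ⟩ := hD w hw u
    have h1 : b₀ w = b w + B₂ (b₀ (P w)) f' • e' := by
      have h3 : b₀ w = B₂ w f • e' + b₀ (P w) := by
        conv_lhs => rw [hdec w, hw]
        rw [mul_zero, zero_smul, add_zero, map_add, map_smul, hb₀e]
      rw [h3, hb, hw, mul_zero, zero_smul]; abel
    have h4 : x (τ u w) = g (τ u w + τ (B₂ (b₀ (P w)) f' • u + γ δ) e) := by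
      have h5 : g (τ u w + τ (B₂ (b₀ (P w)) f' • u + γ δ) e) = τ (α u) (b w) + τ (B₂ (b₀ (P w)) f' • α u + δ) e' := by
        rw [map_add g, hgg', hgg', hbe, map_add α, map_smul, hαγ]
      rw [h5, hδ, h1]
      simp only [map_smul, map_add, LinearMap.add_apply, LinearMap.smul_apply]
      abel
    exact ⟨_, by rw [LinearEquiv.mul_apply, h4, hgi]⟩
  have hkr := hRe (g⁻¹ * x) (X.mul_mem (X.inv_mem hg) hx) (fun u => by
    rw [LinearEquiv.mul_apply, hα, ← hbe, ← hgg', hgi]) (by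
    intro v hv
    let D : Submodule F V := LinearMap.range (τ.flip e)
    have hmem : ∀ v, v - τ (s₂ • kap h e v) f ∈ (D.comap ((g⁻¹ * x : V ≃ₗ[F] V).toLinearMap - LinearMap.id)) := by
      let L : V →ₗ[F] V := LinearMap.id - s₂ • (τ.flip f ∘ₗ kap h e)
      have hL : ∀ v, L v = v - τ (s₂ • kap h e v) f := fun v => by
        simp only [L, LinearMap.sub_apply, LinearMap.id_apply, LinearMap.smul_apply, LinearMap.comp_apply,
          LinearMap.flip_apply, map_smul]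
      have h1 : (D.comap ((g⁻¹ * x : V ≃ₗ[F] V).toLinearMap - LinearMap.id)).comap L = ⊤ := by
        apply h.span
        intro u w
        rw [Submodule.mem_comap, hL, kap_pure]
        have h3 : τ u w - τ (s₂ • B₂ w e • u) f = τ u (w - (s₂ * B₂ w e) • f) := by
          rw [map_sub, smul_smul, map_smul, map_smul, LinearMap.smul_apply]
        have h4 : B₂ (w - (s₂ * B₂ w e) • f) e = 0 := by
          rw [map_sub, map_smul, LinearMap.sub_apply, LinearMap.smul_apply, hfe, smul_eq_mul]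
          linear_combination - B₂ w e * h.f₂.ss
        obtain ⟨δ, hδ⟩ := hkey u _ h4
        rw [h3, Submodule.mem_comap, LinearMap.sub_apply, LinearEquiv.coe_coe, hδ, LinearMap.id_apply]
        exact ⟨δ, by rw [LinearMap.flip_apply]; abel⟩
      intro v
      rw [← hL, ← Submodule.mem_comap, h1]
      trivial
    have h5 := hmem v
    rw [hv, smul_zero, map_zero, LinearMap.zero_apply, sub_zero, Submodule.mem_comap, LinearMap.sub_apply,
      LinearEquiv.coe_coe, LinearMap.id_apply] at h5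
    obtain ⟨δ, hδ⟩ := h5
    rw [LinearMap.flip_apply] at hδ
    exact ⟨δ, by rw [hδ]; abel⟩)
  have hkg : Kr τ g := ⟨_, _, hgg⟩
  have h6 := (KrG τ).mul_mem (show g ∈ KrG τ from hkg) (show g⁻¹ * x ∈ KrG τ from hkr)
  rwa [mul_inv_cancel_left] at h6

end H96.TeNorm
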