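import Mathlib

set_option autoImplicit false
set_option linter.unusedSectionVars false
set_option linter.unusedVariables false
set_option linter.unusedSimpArgs false

/-!
Subalgebras of the endomorphism algebra of a symplectic space that are normalised by the transvections.
-/

namespace H96.StAlg

open Module

variable {F U : Type*} [Field F] [AddCommGroup U] [Module F U]

/-- rank one endomorphisms -/
def rho (B : LinearMap.BilinForm F U) (a b : U) : Module.End F U := (B.flip b).smulRight a

lemma rho_apply (B : LinearMap.BilinForm F U) (a b x : U) : rho B a b x = B x b • a := rfl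

lemma exists_avoid {M : Type*} [AddCommGroup M] [Module F M] {P A B : Submodule F M} (hA : ¬ P ≤ A) (hB : ¬ P ≤ B) :
    ∃ z ∈ P, z ∉ A ∧ z ∉ B := by
  rw [SetLike.not_le_iff_exists] at hA hB
  obtain ⟨x, hx, hxA⟩ := hA
  obtain ⟨y, hy, hyB⟩ := hB
  by_cases hxB : x ∈ B
  · by_cases hyA : y ∈ A
    · refine ⟨x + y, P.add_mem hx hy, ?_, ?_⟩
      · intro h
        exact hxA ((Submodule.add_mem_iff_left A hyA).mp h)
      · intro h
        exact hyB ((Submodule.add_mem_iff_right B hxB).mp h)
    · exact ⟨y, hy, hyA, hyB⟩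
  · exact ⟨x, hx, hxA, hxB⟩

/-- alternating and non-degenerate -/
structure Sp (B : LinearMap.BilinForm F U) : Prop where
  alt : ∀ x, B x x = 0
  nd : ∀ x, (∀ y, B x y = 0) → x = 0

variable {B : LinearMap.BilinForm F U}

lemma Sp.flip (hB : Sp B) (x y : U) : B x y = - B y x := by
  have h := hB.alt (x + y)
  simp only [map_add, LinearMap.add_apply, hB.alt, zero_add, add_zero] at h
  linear_combination h

lemma Sp.repr (hB : Sp B) [FiniteDimensional F U] (f : U →ₗ[F] F) : ∃ v, ∀ x, B x v = f x := by
  have hinj : Function.Injective (LinearMap.flip B : U →ₗ[F] (U →ₗ[F] F)) := by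
    rw [injective_iff_map_eq_zero]
    intro v hv
    apply hB.nd
    intro y
    rw [hB.flip]
    have := LinearMap.congr_fun hv y
    rw [LinearMap.flip_apply, LinearMap.zero_apply] at this
    rw [this, neg_zero]
  have hsurj := (LinearMap.injective_iff_surjective_of_finrank_eq_finrank
    (f := (LinearMap.flip B : U →ₗ[F] (U →ₗ[F] F))) (Subspace.dual_finrank_eq (K := F) (V := U)).symm).mp hinj
  obtain ⟨v, hv⟩ := hsurj f
  exact ⟨v, fun x => by rw [← hv]; rfl⟩

/-- separation -/
lemma Sp.sep (hB : Sp B) [FiniteDimensional F U] (S : Submodule F U) {y : U} (hy : y ∉ S) :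
    ∃ v, (∀ s ∈ S, B s v = 0) ∧ B y v ≠ 0 := by
  obtain ⟨f, hf1, hf2⟩ := Submodule.exists_le_ker_of_notMem hy
  obtain ⟨v, hv⟩ := hB.repr f
  refine ⟨v, fun s hs => ?_, ?_⟩
  · rw [hv]; exact hf2 hs
  · rw [hv]; exact hf1

lemma Sp.sep1 (hB : Sp B) [FiniteDimensional F U] {u y : U} (hy : y ∉ Submodule.span F {u}) :
    ∃ v, B u v = 0 ∧ B y v ≠ 0 := by
  obtain ⟨v, h1, h2⟩ := hB.sep _ hy
  exact ⟨v, h1 u (Submodule.mem_span_singleton_self _), h2⟩

variable {N : Subalgebra F (Module.End F U)}

/-- normalised by the transvections -/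
def Inv (B : LinearMap.BilinForm F U) (N : Subalgebra F (Module.End F U)) : Prop :=
  ∀ (u : U) (c : F), ∀ n ∈ N, (1 + c • rho B u u) * n * (1 - c • rho B u u) ∈ N

lemma rho_sandwich (u : U) (n : Module.End F U) : rho B u u * n * rho B u u = B (n u) u • rho B u u := by
  ext x
  simp only [Module.End.mul_apply, rho_apply, LinearMap.smul_apply, map_smul, LinearMap.map_smul₂, smul_smul,
    smul_eq_mul]
  rw [mul_comm]

/-- the difference of a conjugate and the original -/
lemma diff_mem (hI : Inv B N) {n : Module.End F U} (hn : n ∈ N) (u : U) (c : F) :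
    c • (rho B u u * n - n * rho B u u) - (c * c * B (n u) u) • rho B u u ∈ N := by
  have h1 := N.sub_mem (hI u c n hn) hn
  have h2 : (1 + c • rho B u u) * n * (1 - c • rho B u u) - n =
      c • (rho B u u * n - n * rho B u u) - (c * c) • (rho B u u * n * rho B u u) := by
    simp only [mul_sub, add_mul, one_mul, mul_one, smul_mul_assoc, mul_smul_comm, smul_add, smul_smul]
    module
  rw [h2, rho_sandwich, smul_smul] at h1
  exact h1

/-- the self-adjoint case -/
lemma scalar_of_self (hB : Sp B) [FiniteDimensional F U] (hI : Inv B N) (hself : ∀ n ∈ N, ∀ u, B (n u) u = 0)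
    {n : Module.End F U} (hn : n ∈ N) (u : U) : n u ∈ Submodule.span F {u} := by
  by_contra hcon
  obtain ⟨v, hv1, hv2⟩ := hB.sep1 hcon
  have hadj : ∀ n ∈ N, ∀ x y, B (n x) y = B x (n y) := by
    intro n hn x y
    have h := hself n hn (x + y)
    simp only [map_add, LinearMap.add_apply, hself n hn, zero_add, add_zero] at h
    rw [hB.flip x (n y)]
    linear_combination h
  have hcomm : ∀ n ∈ N, ∀ n' ∈ N, n * n' = n' * n := by
    intro n hn n' hn'
    ext x
    have h1 : ∀ y, B ((n * n') x - (n' * n) x) y = 0 := by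
      intro y
      rw [map_sub, LinearMap.sub_apply, hadj _ (N.mul_mem hn hn'), Module.End.mul_apply, Module.End.mul_apply,
        hadj _ hn', hadj _ hn, sub_self]
    exact sub_eq_zero.mp (hB.nd _ h1)
  have hm : ∀ w, rho B w w * n - n * rho B w w ∈ N := by
    intro w
    have h := diff_mem hI hn w 1
    rwa [hself n hn, mul_zero, zero_smul, sub_zero, one_smul] at h
  have h1 := congrArg (fun k : Module.End F U => k u) (hcomm _ (hm u) _ (hm v))
  simp only [Module.End.mul_apply, LinearMap.sub_apply, rho_apply, map_sub, map_smul, hv1, hself n hn, hB.alt,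
    LinearMap.smul_apply, zero_smul, sub_zero, smul_zero, map_zero, LinearMap.map_smul₂, smul_eq_mul, mul_zero,
    sub_self, zero_sub, LinearMap.map_zero] at h1
  have h2 : B (n v) u = - B (n u) v := by
    have h := hself n hn (u + v)
    simp only [map_add, LinearMap.add_apply, hself n hn, zero_add, add_zero] at h
    linear_combination h
  have h3 : B v u = 0 := by rw [hB.flip, hv1, neg_zero]
  have hu : u ≠ 0 := by
    rintro rfl
    rw [map_zero, map_zero, LinearMap.zero_apply] at hv2
    exact hv2 rfl
  rw [h2, h3] at h1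
  simp [smul_smul, hu, hv2] at h1

/-- more than two scalars: a rank one element -/
lemma rho_mem_of_large (hB : Sp B) (hI : Inv B N) {c : F} (hc0 : c ≠ 0) (hc1 : c ≠ 1) {n : Module.End F U} (hn : n ∈ N)
    {u : U} (hu : B (n u) u ≠ 0) : rho B u u ∈ N := by
  have h1 := diff_mem hI hn u 1
  have h2 := diff_mem hI hn u c
  have h3 := N.sub_mem (N.smul_mem h1 c) h2
  have h4 : c • ((1 : F) • (rho B u u * n - n * rho B u u) - (1 * 1 * B (n u) u) • rho B u u) -
      (c • (rho B u u * n - n * rho B u u) - (c * c * B (n u) u) • rho B u u) = (c * (c - 1) * B (n u) u) • rho B u u := by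
    module
  rw [h4] at h3
  have h5 : c * (c - 1) * B (n u) u ≠ 0 := mul_ne_zero (mul_ne_zero hc0 (sub_ne_zero.mpr hc1)) hu
  have h6 := N.smul_mem h3 (c * (c - 1) * B (n u) u)⁻¹
  rwa [smul_smul, inv_mul_cancel₀ h5, one_smul] at h6

/-- dimension at least three: a rank one element -/
lemma rho_mem_of_dim (hB : Sp B) [FiniteDimensional F U] (hI : Inv B N) (hd : 3 ≤ finrank F U) {n : Module.End F U}
    (hn : n ∈ N) {u : U} (hu : B (n u) u ≠ 0) : ∃ a b, a ≠ 0 ∧ b ≠ 0 ∧ rho B a b ∈ N := by
  have hu0 : u ≠ 0 := by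
    rintro rfl
    simp at hu
  obtain ⟨p, hp⟩ : ∃ p, p = rho B u u * n - n * rho B u u - B (n u) u • rho B u u := ⟨_, rfl⟩
  have hpN : p ∈ N := by
    have h := diff_mem hI hn u 1
    rwa [one_smul, mul_one, one_mul, ← hp] at h
  have hpx : ∀ x, p x = B (n x) u • u - B x u • n u - (B (n u) u * B x u) • u := by
    intro x
    rw [hp]
    simp only [LinearMap.sub_apply, Module.End.mul_apply, rho_apply, LinearMap.smul_apply, map_smul, smul_smul]
  have hun : B u (n u) = - B (n u) u := hB.flip _ _
  by_cases h1 : ∃ v, B v u = 0 ∧ B (n v) u = 0 ∧ B v (n u) ≠ 0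
  · obtain ⟨v, hv1, hv2, hv3⟩ := h1
    have hpv : p v = 0 := by rw [hpx, hv1, hv2]; simp
    have h2 := N.mul_mem (N.sub_mem (hI v 1 p hpN) hpN) (N.one_mem)
    rw [one_smul, mul_one] at h2
    have h3 : (1 + rho B v v) * p * (1 - rho B v v) - p = (B (n u) v) • - rho B v u := by
      ext x
      simp only [Module.End.mul_apply, LinearMap.sub_apply, LinearMap.add_apply, Module.End.one_apply, rho_apply,
        LinearMap.smul_apply, LinearMap.neg_apply, map_sub, map_smul, hpv, smul_zero, sub_zero]
      rw [hpx]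
      simp only [map_sub, map_smul, LinearMap.sub_apply, LinearMap.smul_apply, smul_eq_mul]
      have e1 : B u v = 0 := by rw [hB.flip, hv1, neg_zero]
      rw [e1]
      simp only [map_zero, LinearMap.zero_apply]
      module
    rw [h3] at h2
    have h4 : B (n u) v ≠ 0 := by rw [hB.flip]; exact neg_ne_zero.mpr hv3
    have h5 := N.neg_mem (N.smul_mem h2 (B (n u) v)⁻¹)
    rw [smul_smul, inv_mul_cancel₀ h4, one_smul, neg_neg] at h5
    have hv0 : v ≠ 0 := by
      rintro rfl
      rw [map_zero, LinearMap.zero_apply] at hv3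
      exact hv3 rfl
    exact ⟨v, u, hv0, hu0, h5⟩
  · push Not at h1
    obtain ⟨v, hv0, hv1, hv2⟩ : ∃ v, v ≠ 0 ∧ B v u = 0 ∧ B v (n u) = 0 := by
      let L : U →ₗ[F] (F × F) := (B.flip u).prod (B.flip (n u))
      have h2 : LinearMap.ker L ≠ ⊥ := by
        intro h
        have h3 := L.finrank_range_add_finrank_ker
        rw [h, finrank_bot, add_zero] at h3
        have h4 := Submodule.finrank_le (LinearMap.range L)
        rw [finrank_prod, finrank_self] at h4
        omega
      obtain ⟨v, hv, hv0⟩ := Submodule.exists_mem_ne_zero_of_ne_bot h2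
      rw [LinearMap.mem_ker] at hv
      exact ⟨v, hv0, congrArg Prod.fst hv, congrArg Prod.snd hv⟩
    have hnv : B (n v) u = 0 := by
      obtain ⟨c, hc⟩ : ∃ c, c = - (B (n v) u) * (B (n u) u)⁻¹ := ⟨_, rfl⟩
      have e1 : B (v + c • u) u = 0 := by
        simp only [map_add, map_smul, LinearMap.add_apply, LinearMap.smul_apply, hv1, hB.alt, smul_zero, add_zero]
      have e2 : B (n (v + c • u)) u = 0 := by
        simp only [map_add, map_smul, LinearMap.add_apply, LinearMap.smul_apply, smul_eq_mul]
        rw [hc, mul_assoc, inv_mul_cancel₀ hu]; ring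
      have e3 := h1 _ e1 e2
      simp only [map_add, map_smul, LinearMap.add_apply, LinearMap.smul_apply, smul_eq_mul, hv2, zero_add, hun] at e3
      have e4 : c = 0 := (mul_eq_zero.mp e3).resolve_right (neg_ne_zero.mpr hu)
      rw [e4] at hc
      have e5 := (mul_eq_zero.mp hc.symm).resolve_right (inv_ne_zero hu)
      exact neg_eq_zero.mp e5
    have hpv : p v = 0 := by rw [hpx, hv1, hnv]; simp
    have huv : B u v = 0 := by rw [hB.flip, hv1, neg_zero]
    have hnuv : B (n u) v = 0 := by rw [hB.flip, hv2, neg_zero]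
    have h2 := N.mul_mem (N.sub_mem (hI (u + v) 1 p hpN) (hI u 1 p hpN)) hpN
    have hbp : ∀ x, B (p x) u = - (B (n u) u * B x u) := by
      intro x
      rw [hpx]
      simp only [map_sub, map_smul, LinearMap.sub_apply, LinearMap.smul_apply, smul_eq_mul, hB.alt]
      ring
    have hbv : ∀ x, B (p x) v = 0 := by
      intro x
      rw [hpx]
      simp only [map_sub, map_smul, LinearMap.sub_apply, LinearMap.smul_apply, smul_eq_mul, huv, hnuv]
      ring
    have h3 : ((1 + (1 : F) • rho B (u + v) (u + v)) * p * (1 - (1 : F) • rho B (u + v) (u + v)) -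
        (1 + (1 : F) • rho B u u) * p * (1 - (1 : F) • rho B u u)) * p = (B (n u) u * B (n u) u) • rho B v u := by
      ext x
      simp only [Module.End.mul_apply, LinearMap.sub_apply, LinearMap.add_apply, Module.End.one_apply, rho_apply,
        LinearMap.smul_apply, LinearMap.neg_apply, map_sub, map_smul, map_add, hpv, smul_zero, sub_zero, one_smul,
        hbv, hbp, smul_eq_mul, hB.alt, add_zero, mul_zero, neg_zero, neg_neg, map_zero, LinearMap.zero_apply]
      module
    rw [h3] at h2
    have h4 : B (n u) u * B (n u) u ≠ 0 := mul_ne_zero hu hu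
    have h5 := N.smul_mem h2 (B (n u) u * B (n u) u)⁻¹
    rw [smul_smul, inv_mul_cancel₀ h4, one_smul] at h5
    exact ⟨v, u, hv0, hu0, h5⟩

lemma rho_add_right (a b b' : U) : rho B a (b + b') = rho B a b + rho B a b' := by
  ext x; simp only [rho_apply, LinearMap.add_apply, map_add, add_smul]

lemma rho_smul_right (a b : U) (c : F) : rho B a (c • b) = c • rho B a b := by
  ext x; simp only [rho_apply, LinearMap.smul_apply, map_smul, smul_eq_mul, smul_smul]

lemma rho_add_left (a a' b : U) : rho B (a + a') b = rho B a b + rho B a' b := by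
  ext x; simp only [rho_apply, LinearMap.add_apply, smul_add]

lemma rho_smul_left (a b : U) (c : F) : rho B (c • a) b = c • rho B a b := by
  ext x; simp only [rho_apply, LinearMap.smul_apply]; rw [smul_comm]

lemma rho_mul (a b c e : U) : rho B a b * rho B c e = B c b • rho B a e := by
  ext x
  simp only [Module.End.mul_apply, rho_apply, LinearMap.smul_apply, map_smul, smul_smul, smul_eq_mul]
  rw [mul_comm]

lemma rho_conj (hB : Sp B) (hI : Inv B N) {a b : U} (h : rho B a b ∈ N) (v : U) (c : F) :
    rho B (a + (c * B a v) • v) (b + (c * B b v) • v) ∈ N := by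
  have h1 := hI v c _ h
  have h2 : (1 + c • rho B v v) * rho B a b * (1 - c • rho B v v) =
      rho B (a + (c * B a v) • v) (b + (c * B b v) • v) := by
    ext x
    simp only [Module.End.mul_apply, LinearMap.sub_apply, LinearMap.add_apply, Module.End.one_apply, rho_apply,
      LinearMap.smul_apply, map_sub, map_smul, map_add, smul_eq_mul]
    rw [hB.flip v b]
    module
  rwa [h2] at h1

/-- vectors not orthogonal to a given one span -/
lemma span_nonorth (hB : Sp B) {a : U} (ha : a ≠ 0) (S : Submodule F U) (hS : ∀ v, B a v ≠ 0 → v ∈ S) : S = ⊤ := by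
  obtain ⟨z, hz⟩ : ∃ z, B a z ≠ 0 := by
    by_contra hcon
    push Not at hcon
    exact ha (hB.nd a hcon)
  rw [eq_top_iff]
  intro x _
  by_cases hx : B a x = 0
  · have h1 : x + z ∈ S := hS _ (by rw [map_add, hx, zero_add]; exact hz)
    exact (Submodule.add_mem_iff_left S (hS z hz)).mp h1
  · exact hS x hx

/-- one rank one element gives all of them -/
theorem all_rho (hB : Sp B) [FiniteDimensional F U] (hI : Inv B N) {a b : U} (ha : a ≠ 0) (hb : b ≠ 0)
    (h : rho B a b ∈ N) (a' b' : U) : rho B a' b' ∈ N := by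
  -- a symmetric one
  have h0 : rho B a a ∈ N := by
    by_cases hab : b ∈ Submodule.span F {a}
    · obtain ⟨c, rfl⟩ := Submodule.mem_span_singleton.mp hab
      have hc : c ≠ 0 := by rintro rfl; exact hb (zero_smul _ _)
      rw [rho_smul_right] at h
      have h1 := N.smul_mem h c⁻¹
      rwa [smul_smul, inv_mul_cancel₀ hc, one_smul] at h1
    · have key : ∀ v, B a v = 0 → B b v ≠ 0 → rho B a v ∈ N := by
        intro v h1 h2
        have h3 := rho_conj hB hI h v 1
        rw [h1, mul_zero, zero_smul, add_zero, one_mul, rho_add_right, rho_smul_right] at h3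
        have h4 := N.sub_mem h3 h
        rw [add_sub_cancel_left] at h4
        have h5 := N.smul_mem h4 (B b v)⁻¹
        rwa [smul_smul, inv_mul_cancel₀ h2, one_smul] at h5
      by_cases hba : B b a = 0
      · obtain ⟨v, hv1, hv2⟩ := hB.sep1 hab
        have h3 := key v hv1 hv2
        have h4 := key (v + a) (by rw [map_add, hv1, hB.alt, add_zero]) (by rw [map_add, hba, add_zero]; exact hv2)
        have h5 := N.sub_mem h4 h3
        rwa [rho_add_right, add_sub_cancel_left] at h5
      · exact key a (hB.alt a) hba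
  -- the first vector fixed
  have hmul : ∀ a b c e, rho B a b ∈ N → rho B c e ∈ N → B c b ≠ 0 → rho B a e ∈ N := by
    intro a b c e h1 h2 h3
    have h4 := N.mul_mem h1 h2
    rw [rho_mul] at h4
    have h5 := N.smul_mem h4 (B c b)⁻¹
    rwa [smul_smul, inv_mul_cancel₀ h3, one_smul] at h5
  have hmove : ∀ v, B a v ≠ 0 → rho B (a + v) (a + v) ∈ N := by
    intro v hv
    have h1 := rho_conj hB hI h0 v (B a v)⁻¹
    rwa [inv_mul_cancel₀ hv, one_smul] at h1
  let S₁ : Submodule F U :=
    { carrier := {e | rho B a e ∈ N}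
      add_mem' := by
        intro x y hx hy
        change rho B a (x + y) ∈ N
        rw [rho_add_right]; exact N.add_mem hx hy
      zero_mem' := by
        change rho B a 0 ∈ N
        have : rho B a (0 : U) = 0 := by ext x; rw [rho_apply, map_zero, zero_smul]; rfl
        rw [this]; exact N.zero_mem
      smul_mem' := by
        intro c x hx
        change rho B a (c • x) ∈ N
        rw [rho_smul_right]; exact N.smul_mem hx c }
  have hS₁ : S₁ = ⊤ := by
    apply span_nonorth hB ha
    intro v hv
    have h1 : rho B a (a + v) ∈ N := by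
      refine hmul a a (a + v) (a + v) h0 (hmove v hv) ?_
      rw [map_add, LinearMap.add_apply, hB.alt, zero_add, hB.flip]
      exact neg_ne_zero.mpr hv
    rw [rho_add_right] at h1
    have h2 := N.sub_mem h1 h0
    rwa [add_sub_cancel_left] at h2
  have h1 : ∀ e, rho B a e ∈ N := fun e => by
    have : e ∈ S₁ := by rw [hS₁]; trivial
    exact this
  let S₂ : Submodule F U :=
    { carrier := {x | ∀ e, rho B x e ∈ N}
      add_mem' := by
        intro x y hx hy e
        rw [rho_add_left]; exact N.add_mem (hx e) (hy e)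
      zero_mem' := by
        intro e
        have : rho B (0 : U) e = 0 := by ext x; rw [rho_apply, smul_zero]; rfl
        rw [this]; exact N.zero_mem
      smul_mem' := by
        intro c x hx e
        rw [rho_smul_left]; exact N.smul_mem (hx e) c }
  have hS₂ : S₂ = ⊤ := by
    apply span_nonorth hB ha
    intro v hv e
    have h2 : rho B (a + v) e ∈ N := by
      refine hmul (a + v) (a + v) a e (hmove v hv) (h1 e) ?_
      rw [map_add, hB.alt, zero_add]
      exact hv
    rw [rho_add_left] at h2
    have h3 := N.sub_mem h2 (h1 e)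
    rwa [add_sub_cancel_left] at h3
  have h2 : a' ∈ S₂ := by rw [hS₂]; trivial
  exact h2 b'

/-- a non-scalar element gives all rank one elements -/
theorem all_of_nonscalar (hB : Sp B) [FiniteDimensional F U] (hI : Inv B N)
    (hex : (∃ c : F, c ≠ 0 ∧ c ≠ 1) ∨ 3 ≤ finrank F U) {n : Module.End F U} (hn : n ∈ N) {u : U}
    (hu : n u ∉ Submodule.span F {u}) (a b : U) : rho B a b ∈ N := by
  by_cases hself : ∀ n ∈ N, ∀ u, B (n u) u = 0
  · exact absurd (scalar_of_self hB hI hself hn u) hu
  · push Not at hself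
    obtain ⟨n', hn', u', hu'⟩ := hself
    have hu0 : u' ≠ 0 := by
      rintro rfl
      simp at hu'
    rcases hex with ⟨c, hc0, hc1⟩ | hd
    · exact all_rho hB hI hu0 hu0 (rho_mem_of_large hB hI hc0 hc1 hn' hu') a b
    · obtain ⟨x, y, hx, hy, h⟩ := rho_mem_of_dim hB hI hd hn' hu'
      exact all_rho hB hI hx hy h a b


lemma Sp.inj (hB : Sp B) : Function.Injective (B : U →ₗ[F] (U →ₗ[F] F)) := by
  rw [injective_iff_map_eq_zero]
  intro v hv
  apply hB.nd
  intro y
  rw [hv, LinearMap.zero_apply]

lemma Sp.ext (hB : Sp B) {x y : U} (h : ∀ z, B x z = B y z) : x = y :=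
  hB.inj (LinearMap.ext h)

/-- the identification with the dual space -/
noncomputable def Sp.e [FiniteDimensional F U] (hB : Sp B) : U ≃ₗ[F] (U →ₗ[F] F) :=
  LinearEquiv.ofInjectiveOfFinrankEq (B : U →ₗ[F] (U →ₗ[F] F)) hB.inj (Subspace.dual_finrank_eq (K := F) (V := U)).symm

lemma Sp.e_symm [FiniteDimensional F U] (hB : Sp B) (f : U →ₗ[F] F) (x : U) : B (hB.e.symm f) x = f x := by
  have h1 : hB.e (hB.e.symm f) = f := LinearEquiv.apply_symm_apply _ _
  have h2 : hB.e (hB.e.symm f) = B (hB.e.symm f) := rfl
  rw [← h2, h1]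

/-- adjoints -/
noncomputable def Sp.adj [FiniteDimensional F U] (hB : Sp B) (n : Module.End F U) : Module.End F U where
  toFun y := hB.e.symm (B y ∘ₗ n)
  map_add' x y := by rw [map_add, LinearMap.add_comp, map_add]
  map_smul' c x := by rw [map_smul, LinearMap.smul_comp, map_smul, RingHom.id_apply]

lemma Sp.adj_left [FiniteDimensional F U] (hB : Sp B) (n : Module.End F U) (x y : U) : B (hB.adj n y) x = B y (n x) :=
  hB.e_symm _ _

lemma Sp.adj_right [FiniteDimensional F U] (hB : Sp B) (n : Module.End F U) (x y : U) : B x (hB.adj n y) = B (n x) y := by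
  rw [hB.flip, hB.adj_left, ← hB.flip]

lemma Sp.adj_eq [FiniteDimensional F U] (hB : Sp B) {n n' : Module.End F U} (h : ∀ x y, B (n' y) x = B y (n x)) :
    hB.adj n = n' := by
  ext y
  exact hB.ext fun x => by rw [hB.adj_left, h]

lemma Sp.adj_adj [FiniteDimensional F U] (hB : Sp B) (n : Module.End F U) : hB.adj (hB.adj n) = n :=
  hB.adj_eq fun x y => by rw [hB.adj_right]

lemma Sp.adj_mul [FiniteDimensional F U] (hB : Sp B) (n n' : Module.End F U) : hB.adj (n * n') = hB.adj n' * hB.adj n :=
  hB.adj_eq fun x y => by rw [Module.End.mul_apply, Module.End.mul_apply, hB.adj_left, hB.adj_left]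

lemma Sp.adj_add [FiniteDimensional F U] (hB : Sp B) (n n' : Module.End F U) : hB.adj (n + n') = hB.adj n + hB.adj n' :=
  hB.adj_eq fun x y => by
    rw [LinearMap.add_apply, LinearMap.add_apply, map_add, LinearMap.add_apply, hB.adj_left, hB.adj_left, map_add]

lemma Sp.adj_smul [FiniteDimensional F U] (hB : Sp B) (c : F) (n : Module.End F U) : hB.adj (c • n) = c • hB.adj n :=
  hB.adj_eq fun x y => by
    rw [LinearMap.smul_apply, LinearMap.smul_apply, map_smul, LinearMap.smul_apply, hB.adj_left, map_smul]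

lemma Sp.adj_one [FiniteDimensional F U] (hB : Sp B) : hB.adj 1 = 1 := hB.adj_eq fun _ _ => rfl

lemma Sp.adj_rho [FiniteDimensional F U] (hB : Sp B) (a b : U) : hB.adj (rho B a b) = - rho B b a :=
  hB.adj_eq fun x y => by
    simp only [rho_apply, LinearMap.neg_apply, map_neg, map_smul, LinearMap.smul_apply, smul_eq_mul]
    rw [hB.flip b x]; ring

end H96.StAlg
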