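import Mathlib
import Cfsg.Agent.Lib.H96.StAlg
import Cfsg.Agent.Lib.H95.OSie

set_option autoImplicit false
set_option linter.unusedSectionVars false
set_option linter.unusedVariables false
set_option linter.unusedSimpArgs false

/-!
Tensor products of two symplectic spaces: contractions, unipotent elements.
-/

namespace H96.StBase

open Module QuadraticMap H17.OrthAbs H95.OGeo H95.OSie H96.StAlg

variable {F U W V : Type*} [Field F] [AddCommGroup U] [Module F U] [AddCommGroup W] [Module F W] [AddCommGroup V]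
  [Module F V]

/-- tensor products of symplectic spaces with their quadratic form -/
structure TS (B₁ : LinearMap.BilinForm F U) (B₂ : LinearMap.BilinForm F W) (τ : U →ₗ[F] W →ₗ[F] V)
    (Q : QuadraticForm F V) : Prop where
  s₁ : Sp B₁
  s₂ : Sp B₂
  span : ∀ S : Submodule F V, (∀ u w, τ u w ∈ S) → S = ⊤
  q0 : ∀ u w, Q (τ u w) = 0
  qp : ∀ u w u' w', polar Q (τ u w) (τ u' w') = B₁ u u' * B₂ w w'

variable {B₁ : LinearMap.BilinForm F U} {B₂ : LinearMap.BilinForm F W} {τ : U →ₗ[F] W →ₗ[F] V} {Q : QuadraticForm F V}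

lemma TS.symm (h : TS B₁ B₂ τ Q) : TS B₂ B₁ τ.flip Q where
  s₁ := h.s₂
  s₂ := h.s₁
  span := fun S hS => h.span S fun u w => hS w u
  q0 := fun u w => h.q0 w u
  qp := fun u w u' w' => by
    rw [LinearMap.flip_apply, LinearMap.flip_apply, h.qp, mul_comm]

lemma TS.ext (h : TS B₁ B₂ τ Q) {M : Type*} [AddCommGroup M] [Module F M] {f g : V →ₗ[F] M}
    (hfg : ∀ u w, f (τ u w) = g (τ u w)) : f = g := by
  have h1 := h.span (LinearMap.eqLocus f g) hfg
  rwa [LinearMap.eqLocus_eq_top] at h1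

section

variable [FiniteDimensional F U] [FiniteDimensional F W]

/-- contraction -/
noncomputable def kap (h : TS B₁ B₂ τ Q) : W →ₗ[F] V →ₗ[F] U :=
  LinearMap.mk₂ F (fun z v => h.s₁.e.symm (polarBilin Q v ∘ₗ τ.flip z))
    (fun z z' v => by rw [map_add, LinearMap.comp_add, map_add])
    (fun c z v => by rw [map_smul, LinearMap.comp_smul, map_smul])
    (fun z v v' => by rw [map_add, LinearMap.add_comp, map_add])
    (fun c z v => by rw [map_smul, LinearMap.smul_comp, map_smul])

lemma kap_left (h : TS B₁ B₂ τ Q) (z : W) (v : V) (u : U) : B₁ (kap h z v) u = polar Q v (τ u z) :=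
  h.s₁.e_symm _ _

@[simp] lemma kap_pure (h : TS B₁ B₂ τ Q) (z : W) (u : U) (y : W) : kap h z (τ u y) = B₂ y z • u :=
  h.s₁.ext fun u' => by
    rw [kap_left, h.qp, map_smul, LinearMap.smul_apply, smul_eq_mul, mul_comm]

/-- elementary endomorphisms -/
noncomputable def K (h : TS B₁ B₂ τ Q) (n : Module.End F U) (y z : W) : Module.End F V :=
  τ.flip y ∘ₗ n ∘ₗ kap h z

lemma K_apply (h : TS B₁ B₂ τ Q) (n : Module.End F U) (y z : W) (v : V) : K h n y z v = τ (n (kap h z v)) y := rfl

lemma K_add (h : TS B₁ B₂ τ Q) (n n' : Module.End F U) (y z : W) : K h (n + n') y z = K h n y z + K h n' y z := by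
  ext v
  simp only [K_apply, LinearMap.add_apply, map_add]

lemma K_smul (h : TS B₁ B₂ τ Q) (c : F) (n : Module.End F U) (y z : W) : K h (c • n) y z = c • K h n y z := by
  ext v
  simp only [K_apply, LinearMap.smul_apply, map_smul]

lemma K_add_left (h : TS B₁ B₂ τ Q) (n : Module.End F U) (y y' z : W) : K h n (y + y') z = K h n y z + K h n y' z := by
  ext v
  simp only [K_apply, LinearMap.add_apply, map_add]

lemma K_add_right (h : TS B₁ B₂ τ Q) (n : Module.End F U) (y z z' : W) : K h n y (z + z') = K h n y z + K h n y z' := by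
  ext v
  simp only [K_apply, LinearMap.add_apply, map_add]

lemma K_smul_left (h : TS B₁ B₂ τ Q) (c : F) (n : Module.End F U) (y z : W) : K h n (c • y) z = c • K h n y z := by
  ext v
  simp only [K_apply, LinearMap.smul_apply, map_smul]

lemma K_smul_right (h : TS B₁ B₂ τ Q) (c : F) (n : Module.End F U) (y z : W) : K h n y (c • z) = c • K h n y z := by
  ext v
  simp only [K_apply, LinearMap.smul_apply, map_smul]

end

/-! ### unipotent elements in a group -/

/-- `1 + N` belongs to the group -/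
def In (X : Subgroup (V ≃ₗ[F] V)) (N : Module.End F V) : Prop := ∃ g ∈ X, ∀ v, g v = v + N v

variable {X : Subgroup (V ≃ₗ[F] V)}

lemma In.mul {N N' : Module.End F V} (h : In X N) (h' : In X N') (hz : ∀ v, N (N' v) = 0) : In X (N + N') := by
  obtain ⟨g, hg, e⟩ := h
  obtain ⟨g', hg', e'⟩ := h'
  refine ⟨g * g', X.mul_mem hg hg', fun v => ?_⟩
  rw [LinearEquiv.mul_apply, e', e, map_add, hz, add_zero, LinearMap.add_apply]
  abel

lemma In.zero : In X (0 : Module.End F V) := ⟨1, X.one_mem, fun v => by simp⟩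

lemma inv_of {N : Module.End F V} {g : V ≃ₗ[F] V} (e : ∀ v, g v = v + N v) (hz : ∀ v, N (N v) = 0) (v : V) :
    g⁻¹ v = v - N v := by
  have h1 : g (v - N v) = v := by
    rw [e, map_sub, hz]; abel
  have h2 : g⁻¹ (g (v - N v)) = v - N v := g.symm_apply_apply _
  rw [← h2, h1]

lemma In.neg {N : Module.End F V} (h : In X N) (hz : ∀ v, N (N v) = 0) : In X (-N) := by
  obtain ⟨g, hg, e⟩ := h
  refine ⟨g⁻¹, X.inv_mem hg, fun v => ?_⟩
  rw [inv_of e hz, LinearMap.neg_apply]
  abel

lemma In.sub {N N' : Module.End F V} (h : In X N) (h' : In X N') (hz : ∀ v, N (N' v) = 0) (hz' : ∀ v, N' (N' v) = 0) :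
    In X (N - N') := by
  rw [sub_eq_add_neg]
  exact h.mul (h'.neg hz') fun v => by rw [LinearMap.neg_apply, map_neg, hz, neg_zero]

lemma In.conj {N N' : Module.End F V} (h : In X N) {g : V ≃ₗ[F] V} (hg : g ∈ X)
    (hN : ∀ v, g (N (g⁻¹ v)) = N' v) : In X N' := by
  obtain ⟨k, hk, e⟩ := h
  refine ⟨g * k * g⁻¹, X.mul_mem (X.mul_mem hg hk) (X.inv_mem hg), fun v => ?_⟩
  rw [LinearEquiv.mul_apply, LinearEquiv.mul_apply, e, map_add, hN]
  congr 1
  exact g.apply_symm_apply v

lemma In.comm {N N' : Module.End F V} (h : In X N) (h' : In X N') (h1 : ∀ v, N (N v) = 0) (h2 : ∀ v, N' (N' v) = 0)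
    (h3 : ∀ v, N (N' (N v)) = 0) (h4 : ∀ v, N' (N (N' v)) = 0) : In X (N * N' - N' * N) := by
  obtain ⟨g, hg, e⟩ := h
  obtain ⟨g', hg', e'⟩ := h'
  refine ⟨g * g' * g⁻¹ * g'⁻¹, X.mul_mem (X.mul_mem (X.mul_mem hg hg') (X.inv_mem hg)) (X.inv_mem hg'), fun v => ?_⟩
  simp only [LinearEquiv.mul_apply, inv_of e h1, inv_of e' h2, e, e', map_sub, map_add, h1, h2, h3, h4,
    LinearMap.sub_apply, Module.End.mul_apply, map_zero]
  abel

end H96.StBase
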