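import Mathlib
import Cfsg.Agent.Lib.H96.TeNorm
import Cfsg.Agent.Lib.H96.StBase

set_option autoImplicit false
set_option linter.unusedSectionVars false
set_option linter.unusedVariables false
set_option linter.unusedSimpArgs false

/-!
Overgroups of the tensor product of a symplectic and an orthogonal group without transvections:
the unipotent radicals of the stabilisers of U ⊗ e.
-/

namespace H96.TeC

open Module H95.SpBasic H96.TeBase H96.TeNorm
open H96.StBase (In)

variable {F U W V : Type*} [Field F] [AddCommGroup U] [Module F U] [AddCommGroup W] [Module F W] [AddCommGroup V]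
  [Module F V] [FiniteDimensional F U] [FiniteDimensional F W]
variable {B₁ : LinearMap.BilinForm F U} {B₂ : LinearMap.BilinForm F W} {B : LinearMap.BilinForm F V}
  {τ : U →ₗ[F] W →ₗ[F] V} {s₁ s₂ : F} {X : Subgroup (V ≃ₗ[F] V)}

/-! ### general signs -/

lemma kap_left_act (h : TE B₁ B₂ B τ s₁ s₂) {T : V ≃ₗ[F] V} {a : Module.End F U} (hT : ∀ u w, T (τ u w) = τ (a u) w)
    (z : W) (v : V) : kap h z (T v) = a (kap h z v) := by
  have h1 : kap h z ∘ₗ T.toLinearMap = a ∘ₗ kap h z := by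
    apply h.ext
    intro u w
    rw [LinearMap.comp_apply, LinearMap.comp_apply, LinearEquiv.coe_coe, hT, kap_pure, kap_pure, map_smul]
  exact LinearMap.congr_fun h1 v

lemma kap_right_act (h : TE B₁ B₂ B τ s₁ s₂) {T : V ≃ₗ[F] V} {b b' : Module.End F W} (hT : ∀ u w, T (τ u w) = τ u (b w))
    (hb : ∀ w z, B₂ (b w) z = B₂ w (b' z)) (z : W) (v : V) : kap h z (T v) = kap h (b' z) v := by
  have h1 : kap h z ∘ₗ T.toLinearMap = kap h (b' z) := by
    apply h.ext
    intro u w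
    rw [LinearMap.comp_apply, LinearEquiv.coe_coe, hT, kap_pure, kap_pure, hb]
  exact LinearMap.congr_fun h1 v

/-- any vector is the sum of one in `U ⊗ e^⊥` and one in `U ⊗ f` -/
lemma perp_ext (h : TE B₁ B₂ B τ s₁ s₂) {e f : W} (hfe : B₂ f e = s₂) {M : Type*} [AddCommGroup M] [Module F M]
    {g : V →ₗ[F] M} (hg : ∀ u w, B₂ w e = 0 → g (τ u w) = 0) (v : V) : g v = g (τ (s₂ • kap h e v) f) := by
  have h1 : g = g ∘ₗ (τ.flip f ∘ₗ (s₂ • kap h e)) := by
    apply h.ext
    intro u w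
    simp only [LinearMap.comp_apply, LinearMap.smul_apply, kap_pure, LinearMap.flip_apply, smul_smul]
    have h3 : g (τ u (w - (s₂ * B₂ w e) • f)) = 0 := hg u _ (by
      rw [map_sub, map_smul, LinearMap.sub_apply, LinearMap.smul_apply, hfe, smul_eq_mul]
      linear_combination - B₂ w e * h.f₂.ss)
    rw [map_sub, map_sub, sub_eq_zero] at h3
    rw [h3]
    simp only [map_smul, LinearMap.smul_apply]
  exact LinearMap.congr_fun h1 v

/-- an isometry trivial on `U ⊗ e^⊥` -/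
lemma triv_form (h : TE B₁ B₂ B τ s₁ s₂) {g : V ≃ₗ[F] V} (hg : g ∈ isom B) {e f : W} (hef : B₂ e f = 1) (hfe : B₂ f e = s₂)
    (hgt : ∀ u w, B₂ w e = 0 → g (τ u w) = τ u w) : ∃ σ : Module.End F U, ∀ v, g v = v + τ (σ (kap h e v)) e := by
  let G : V →ₗ[F] V := g.toLinearMap - LinearMap.id
  have hG : ∀ v, G v = g v - v := fun v => rfl
  have h1 : ∀ v, G v = τ (kap h f (G v)) e := by
    intro v
    apply mem_D h hef
    intro z hz
    refine h.f₁.ext fun u => ?_
    rw [hG, map_sub, map_sub, LinearMap.sub_apply, kap_left, kap_left, ← hgt u z (h.f₂.zero_flip hz), hg, hgt u z (h.f₂.zero_flip hz),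
      sub_self, map_zero, LinearMap.zero_apply]
  refine ⟨s₂ • (kap h f ∘ₗ G ∘ₗ τ.flip f), fun v => ?_⟩
  have h3 := perp_ext h hfe (g := G) (fun u w hw => by rw [hG, hgt u w hw, sub_self]) v
  have h4 : (s₂ • (kap h f ∘ₗ G ∘ₗ τ.flip f)) (kap h e v) = kap h f (G (τ (s₂ • kap h e v) f)) := by
    simp only [LinearMap.smul_apply, LinearMap.comp_apply, LinearMap.flip_apply, map_smul]
  rw [h4, ← h3, ← h1, hG]
  abel

lemma kap_e_fix (h : TE B₁ B₂ B τ s₁ s₂) {x : V ≃ₗ[F] V} (hx : x ∈ isom B) {e : W} (hxe : ∀ u, x (τ u e) = τ u e) (v : V) :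
    kap h e (x v) = kap h e v := by
  refine h.f₁.ext fun u => ?_
  rw [kap_left, kap_left, ← hxe u, hx, hxe]

/-! ### symplectic tensor orthogonal -/

lemma alt_of {B : LinearMap.BilinForm F U} (hB : EF B (-1)) (h2 : (2 : F) ≠ 0) (x : U) : B x x = 0 := by
  have h1 := hB.flip x x
  have h3 : 2 * B x x = 0 := by linear_combination h1
  exact (mul_eq_zero.mp h3).resolve_left h2

/-- `X` contains no transvection with centre `u ⊗ e`, `e` isotropic -/
def NT (B₂ : LinearMap.BilinForm F W) (B : LinearMap.BilinForm F V) (τ : U →ₗ[F] W →ₗ[F] V) (X : Subgroup (V ≃ₗ[F] V)) : Prop :=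
  ∀ (u : U) (e : W) (c : F), u ≠ 0 → e ≠ 0 → B₂ e e = 0 → c ≠ 0 → ¬ ∃ g ∈ X, ∀ v, g v = v + (c * B v (τ u e)) • τ u e

lemma exists_tr (h : TE B₁ B₂ B τ (-1) s₂) (h2 : (2 : F) ≠ 0) (hX : HX B τ X) (u : U) (c : F) :
    ∃ T ∈ X, (∀ x w, T (τ x w) = τ (x + (c * B₁ x u) • u) w) ∧ (∀ x w, T⁻¹ (τ x w) = τ (x - (c * B₁ x u) • u) w) ∧
      ∀ v, T v = v + c • τ u (kap h.symm u v) := by
  have halt : B₁.IsAlt := fun x => alt_of h.f₁ h2 x
  obtain ⟨T, hT, hTT⟩ := exists_mem h hX (tr B₁ halt u c) 1 (fun x w x' w' => by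
    rw [tr_mem_isom]; rfl)
  refine ⟨T, hT, fun x w => hTT x w, fun x w => ?_, fun v => ?_⟩
  · have h1 : T (τ (x - (c * B₁ x u) • u) w) = τ x w := by
      rw [hTT]
      have h3 : tr B₁ halt u c (x - (c * B₁ x u) • u) = x := (tr B₁ halt u c).apply_symm_apply x
      rw [h3]
      rfl
    rw [← h1]
    exact T.symm_apply_apply _
  · have h1 : T.toLinearMap = LinearMap.id + c • (τ u ∘ₗ kap h.symm u) := by
      apply h.ext
      intro x w
      rw [LinearEquiv.coe_coe, hTT]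
      simp only [LinearMap.add_apply, LinearMap.id_apply, LinearMap.smul_apply, LinearMap.comp_apply, kap_pure' h,
        tr_apply, map_add, map_smul, smul_smul]
      rfl
    exact LinearMap.congr_fun h1 v

/-- Lemma B -/
lemma central_zero (h : TE B₁ B₂ B τ (-1) 1) (h2 : (2 : F) ≠ 0) (hX : HX B τ X) (hNT : NT B₂ B τ X) {e : W} (he : e ≠ 0)
    (hee : B₂ e e = 0) {σ : Module.End F U} {g : V ≃ₗ[F] V} (hg : g ∈ X) (hgv : ∀ v, g v = v + τ (σ (kap h e v)) e) :
    σ = 0 := by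
  have halt := fun x => alt_of h.f₁ h2 x
  obtain ⟨f, hef, hfe, -⟩ := h.f₂.partner h2 he hee
  have hsym : ∀ a a', B₁ (σ a) a' = B₁ (σ a') a := by
    intro a a'
    have h1 := hX.le hg (τ a f) (τ a' f)
    rw [hgv, hgv, kap_pure, kap_pure, hfe, one_smul, one_smul] at h1
    simp only [map_add, LinearMap.add_apply, h.bp, hee, hef, hfe, mul_one, mul_zero, add_zero] at h1
    rw [h.f₁.flip (σ a') a]
    linear_combination h1
  by_contra hσ
  obtain ⟨u, hu⟩ : ∃ u, B₁ (σ u) u ≠ 0 := by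
    by_contra hcon
    push Not at hcon
    apply hσ
    ext a
    rw [LinearMap.zero_apply]
    apply h.f₁.nd
    intro a'
    have h1 := hcon (a + a')
    simp only [map_add, LinearMap.add_apply, hcon, zero_add, add_zero] at h1
    rw [hsym a' a] at h1
    have h3 : 2 * B₁ (σ a) a' = 0 := by linear_combination h1
    exact (mul_eq_zero.mp h3).resolve_left h2
  have hu0 : u ≠ 0 := by
    rintro rfl
    simp at hu
  have hIn : In X (K h σ e e) := ⟨g, hg, hgv⟩
  have hz : ∀ (n n' : Module.End F U) v, K h n e e (K h n' e e v) = 0 := by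
    intro n n' v
    rw [K_apply, K_apply, kap_pure, hee, zero_smul, map_zero, map_zero, LinearMap.zero_apply]
  have hconj : ∀ c : F, In X (K h (σ + c • ((LinearMap.flip B₁ u).smulRight u ∘ₗ σ) - c • (σ ∘ₗ (LinearMap.flip B₁ u).smulRight u) -
      (c * c * B₁ (σ u) u) • (LinearMap.flip B₁ u).smulRight u) e e) := by
    intro c
    obtain ⟨T, hT, hT1, hT2, -⟩ := exists_tr h h2 hX u c
    refine hIn.conj hT fun v => ?_
    have h3 : kap h e (T⁻¹ v) = kap h e v - (c * B₁ (kap h e v) u) • u := by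
      have := kap_left_act h (T := T⁻¹) (a := 1 - c • (LinearMap.flip B₁ u).smulRight u) (fun u' w => by
        rw [hT2]
        simp only [LinearMap.sub_apply, Module.End.one_apply, LinearMap.smul_apply, LinearMap.smulRight_apply,
          LinearMap.flip_apply, smul_smul]) e v
      rw [this]
      simp only [LinearMap.sub_apply, Module.End.one_apply, LinearMap.smul_apply, LinearMap.smulRight_apply,
          LinearMap.flip_apply, smul_smul]
    rw [K_apply, hT1, h3, K_apply]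
    simp only [LinearMap.sub_apply, LinearMap.add_apply, LinearMap.smul_apply, LinearMap.comp_apply, LinearMap.smulRight_apply,
      LinearMap.flip_apply, map_sub, map_add, map_smul, smul_smul, smul_eq_mul]
    module
  have h3 := (((hconj 1).mul (hconj (-1)) (hz _ _)).sub hIn (fun v => by
    rw [LinearMap.add_apply, hz, hz, add_zero]) (hz _ _)).sub hIn (fun v => by
    rw [LinearMap.sub_apply, LinearMap.add_apply, hz, hz, hz]; simp) (hz _ _)
  obtain ⟨g', hg', hgg'⟩ := h3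
  refine hNT u e (-2 * B₁ (σ u) u) hu0 he hee (mul_ne_zero (neg_ne_zero.mpr h2) hu) ⟨g', hg', fun v => ?_⟩
  rw [hgg']
  simp only [LinearMap.sub_apply, LinearMap.add_apply, LinearMap.smul_apply, LinearMap.comp_apply, LinearMap.smulRight_apply,
      LinearMap.flip_apply, K_apply, map_sub, map_add, map_smul, smul_smul, smul_eq_mul, ← kap_left h]
  module

/-- elements with the same action up to the centre are equal -/
lemma eq_of_mul (h : TE B₁ B₂ B τ (-1) 1) (h2 : (2 : F) ≠ 0) (hX : HX B τ X) (hNT : NT B₂ B τ X) {e : W} (he : e ≠ 0)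
    (hee : B₂ e e = 0) {σ : Module.End F U} {g k : V ≃ₗ[F] V} (hg : g ∈ X) (hk : k ∈ X) (hke : ∀ u, k (τ u e) = τ u e)
    (hgk : ∀ v, g v = k v + τ (σ (kap h e v)) e) : σ = 0 := by
  refine central_zero h h2 hX hNT he hee (g := g * k⁻¹) (X.mul_mem hg (X.inv_mem hk)) (fun v => ?_)
  have hkk : k (k⁻¹ v) = v := k.apply_symm_apply v
  have hke' : ∀ u, k⁻¹ (τ u e) = τ u e := by
    intro u
    conv_lhs => rw [← hke u]
    exact k.symm_apply_apply _
  rw [LinearEquiv.mul_apply, hgk, hkk, kap_e_fix h (isom B |>.inv_mem (hX.le hk)) hke']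

/-- the coefficient of an element of the radical -/
structure Rad (h : TE B₁ B₂ B τ (-1) 1) (e : W) (x : V ≃ₗ[F] V) (n : W →ₗ[F] Module.End F U) : Prop where
  fix : ∀ u, x (τ u e) = τ u e
  act : ∀ w, B₂ w e = 0 → ∀ u, x (τ u w) = τ u w + τ (n w u) e

lemma Rad.kap (h : TE B₁ B₂ B τ (-1) 1) {e : W} {x : V ≃ₗ[F] V} (hxi : x ∈ isom B) {n : W →ₗ[F] Module.End F U} (hr : Rad h e x n) {y : W}
    (hy : B₂ y e = 0) (v : V) : kap h y (x v) = kap h y v - h.f₁.adj (n y) (kap h e v) := by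
  refine h.f₁.ext fun u => ?_
  rw [kap_left, map_sub, LinearMap.sub_apply, h.f₁.adj_left, kap_left, kap_left]
  have h1 := hxi v (τ u y)
  rw [hr.act y hy, map_add] at h1
  have h3 : B (x v) (τ (n y u) e) = B v (τ (n y u) e) := by
    conv_lhs => rw [← hr.fix]
    rw [hxi]
  rw [h3] at h1
  linear_combination h1

/-- C1: the coefficients are self-adjoint -/
lemma Rad.self (h : TE B₁ B₂ B τ (-1) 1) (h2 : (2 : F) ≠ 0) (hX : HX B τ X) (hNT : NT B₂ B τ X) {e : W} (he : e ≠ 0)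
    (hee : B₂ e e = 0) {x : V ≃ₗ[F] V} (hx : x ∈ X) {n : W →ₗ[F] Module.End F U} (hr : Rad h e x n) {y : W}
    (hy : B₂ y e = 0) : h.f₁.adj (n y) = n y := by
  obtain ⟨R, hR, hR1, hR2⟩ := exists_sieg h h2 hX hee hy
  have hRe : ∀ u, R (τ u e) = τ u e := fun u => by rw [hR1, sg_fix h.f₂ hee hy]
  have h1 : n y - h.f₁.adj (n y) = 0 := by
    refine eq_of_mul h h2 hX hNT he hee (g := x * R) (k := R * x) (X.mul_mem hx hR) (X.mul_mem hR hx) (fun u => by
      rw [LinearEquiv.mul_apply, hr.fix, hRe]) (fun v => ?_)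
    rw [LinearEquiv.mul_apply, LinearEquiv.mul_apply, hR2 v, hR2 (x v), hr.kap h (hX.le hx) hy, kap_e_fix h (hX.le hx) hr.fix]
    simp only [map_add, map_sub, map_smul, hr.act y hy, hr.fix, LinearMap.sub_apply, one_smul]
    module
  exact (sub_eq_zero.mp h1).symm

/-- C2: elements with coefficient concentrated in one vector -/
structure Qn (h : TE B₁ B₂ B τ (-1) 1) (X : Subgroup (V ≃ₗ[F] V)) (e y : W) (n : Module.End F U) (x : V ≃ₗ[F] V) : Prop where
  mem : x ∈ X
  fix : ∀ u, x (τ u e) = τ u e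
  act : ∀ w, B₂ w e = 0 → ∀ u, x (τ u w) = τ u w + τ (B₂ w y • n u) e

lemma Qn.rad {h : TE B₁ B₂ B τ (-1) 1} {e y : W} {n : Module.End F U} {x : V ≃ₗ[F] V} (hq : Qn h X e y n x) :
    Rad h e x ((LinearMap.flip B₂ y).smulRight n) where
  fix := hq.fix
  act := fun w hw u => by
    rw [hq.act w hw u]
    simp only [LinearMap.smulRight_apply, LinearMap.flip_apply, LinearMap.smul_apply]

lemma Qn.self {h : TE B₁ B₂ B τ (-1) 1} (h2 : (2 : F) ≠ 0) (hX : HX B τ X) (hNT : NT B₂ B τ X) {e y : W} (he : e ≠ 0)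
    (hee : B₂ e e = 0) (hy : B₂ y e = 0) (hyy : B₂ y y ≠ 0) {n : Module.End F U} {x : V ≃ₗ[F] V} (hq : Qn h X e y n x) :
    ∀ u u', B₁ (n u) u' = B₁ u (n u') := by
  have h1 := hq.rad.self h h2 hX hNT he hee hq.mem hy
  intro u u'
  have h3 := h.f₁.adj_left (((LinearMap.flip B₂ y).smulRight n) y) u' u
  rw [h1] at h3
  simp only [LinearMap.smulRight_apply, LinearMap.flip_apply, LinearMap.smul_apply, map_smul, smul_eq_mul] at h3
  exact mul_left_cancel₀ hyy h3

lemma Qn.form {h : TE B₁ B₂ B τ (-1) 1} (h2 : (2 : F) ≠ 0) (hX : HX B τ X) (hNT : NT B₂ B τ X) {e y : W} (he : e ≠ 0)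
    (hee : B₂ e e = 0) (hy : B₂ y e = 0) (hyy : B₂ y y ≠ 0) {n : Module.End F U} {x : V ≃ₗ[F] V} (hq : Qn h X e y n x) :
    ∃ t : Module.End F U, ∀ v, x v = v - τ (n (kap h e v)) y + τ (n (kap h y v)) e + τ (t (kap h e v)) e := by
  obtain ⟨f, hef, hfe, -⟩ := h.f₂.partner h2 he hee
  have hself := hq.self h2 hX hNT he hee hy hyy
  have hey := h.f₂.zero_flip hy
  have hadj : h.f₁.adj n = n := h.f₁.adj_eq fun a b => by rw [hself]
  let G : V →ₗ[F] V := x.toLinearMap - LinearMap.id + τ.flip y ∘ₗ n ∘ₗ kap h e - τ.flip e ∘ₗ n ∘ₗ kap h y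
  have hG : ∀ v, G v = x v - v + τ (n (kap h e v)) y - τ (n (kap h y v)) e := fun v => rfl
  have h1 : ∀ v, G v = τ (kap h f (G v)) e := by
    intro v
    apply mem_D h hef
    intro z hz
    have hz' := h.f₂.zero_flip hz
    have h3 := hq.rad.kap h (hX.le hq.mem) hz' v
    have h4 : h.f₁.adj (((LinearMap.flip B₂ y).smulRight n) z) = B₂ z y • n := by
      apply h.f₁.adj_eq
      intro a b
      simp only [LinearMap.smulRight_apply, LinearMap.flip_apply, LinearMap.smul_apply, map_smul, smul_eq_mul, hself]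
    rw [h4] at h3
    rw [hG, map_sub, map_add, map_sub, h3, kap_pure, kap_pure, hz, h.f₂.flip y z]
    simp only [LinearMap.smul_apply]
    module
  refine ⟨kap h f ∘ₗ G ∘ₗ τ.flip f, fun v => ?_⟩
  have h3 := perp_ext h hfe (g := G) (fun u w hw => by
    rw [hG, hq.act w hw, kap_pure, kap_pure, hw]
    simp only [zero_smul, map_zero, LinearMap.zero_apply, map_smul, add_zero]
    abel) v
  rw [one_smul] at h3
  have h4 : (kap h f ∘ₗ G ∘ₗ τ.flip f) (kap h e v) = kap h f (G (τ (kap h e v) f)) := rfl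
  rw [h4, ← h3, ← h1, hG]
  abel

/-- C2: the coefficients commute -/
lemma Qn.comm {h : TE B₁ B₂ B τ (-1) 1} (h2 : (2 : F) ≠ 0) (hX : HX B τ X) (hNT : NT B₂ B τ X) {e y : W} (he : e ≠ 0)
    (hee : B₂ e e = 0) (hy : B₂ y e = 0) (hyy : B₂ y y ≠ 0) {n n' : Module.End F U} {x x' : V ≃ₗ[F] V} (hq : Qn h X e y n x)
    (hq' : Qn h X e y n' x') (u : U) : n (n' u) = n' (n u) := by
  obtain ⟨t, ht⟩ := hq.form h2 hX hNT he hee hy hyy
  obtain ⟨t', ht'⟩ := hq'.form h2 hX hNT he hee hy hyy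
  have hey := h.f₂.zero_flip hy
  have h1 : - B₂ y y • (n ∘ₗ n' - n' ∘ₗ n) = 0 := by
    refine eq_of_mul h h2 hX hNT he hee (g := x * x') (k := x' * x) (X.mul_mem hq.mem hq'.mem) (X.mul_mem hq'.mem hq.mem) (fun u => by
      rw [LinearEquiv.mul_apply, hq.fix, hq'.fix]) (fun v => ?_)
    rw [LinearEquiv.mul_apply, LinearEquiv.mul_apply, ht, ht', ht' (x v), ht v]
    simp only [map_add, map_sub, kap_pure, hee, hy, hey, zero_smul, smul_zero, map_zero, LinearMap.zero_apply, sub_zero, add_zero,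
      zero_sub, map_smul, map_neg, LinearMap.sub_apply, LinearMap.smul_apply, LinearMap.comp_apply, LinearMap.neg_apply,
      LinearMap.add_apply]
    module
  have h3 := LinearMap.congr_fun h1 u
  rw [LinearMap.smul_apply, LinearMap.zero_apply, LinearMap.sub_apply] at h3
  have h4 := (smul_eq_zero.mp h3).resolve_left (neg_ne_zero.mpr hyy)
  exact sub_eq_zero.mp h4

/-- C3: the coefficients are scalars -/
lemma Qn.scalar {h : TE B₁ B₂ B τ (-1) 1} (h2 : (2 : F) ≠ 0) (hX : HX B τ X) (hNT : NT B₂ B τ X) {e y : W} (he : e ≠ 0)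
    (hee : B₂ e e = 0) (hy : B₂ y e = 0) (hyy : B₂ y y ≠ 0) {n : Module.End F U} {x : V ≃ₗ[F] V} (hq : Qn h X e y n x) :
    ∃ c : F, ∀ u, n u = c • u := by
  apply scalar_of_span
  intro u
  by_contra hcon
  have halt := fun x => alt_of h.f₁ h2 x
  have hself := hq.self h2 hX hNT he hee hy hyy
  obtain ⟨v, hv1, hv2⟩ := h.f₁.sep1 hcon
  have hnu : B₁ (n u) u = 0 := by
    have h1 : B₁ (n u) u = - B₁ (n u) u := by
      conv_lhs => rw [hself, h.f₁.flip]
      ring
    have h3 : 2 * B₁ (n u) u = 0 := by linear_combination h1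
    exact (mul_eq_zero.mp h3).resolve_left h2
  obtain ⟨T, hT, hT1, hT2, -⟩ := exists_tr h h2 hX u 1
  have hTe : ∀ w u', T (τ u' w) = τ (u' + B₁ u' u • u) w := fun w u' => by rw [hT1, one_mul]
  have hTe' : ∀ w u', T⁻¹ (τ u' w) = τ (u' - B₁ u' u • u) w := fun w u' => by rw [hT2, one_mul]
  let α : Module.End F U := (LinearMap.flip B₁ u).smulRight u
  have hα : ∀ x, α x = B₁ x u • u := fun x => rfl
  have hq' : Qn h X e y (n + α ∘ₗ n - n ∘ₗ α) (T * x * T⁻¹) := by
    refine ⟨X.mul_mem (X.mul_mem hT hq.mem) (X.inv_mem hT), fun u' => ?_, fun w hw u' => ?_⟩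
    · have h5 : u' - B₁ u' u • u + B₁ (u' - B₁ u' u • u) u • u = u' := by
        simp only [map_sub, map_smul, LinearMap.sub_apply, LinearMap.smul_apply, halt, smul_zero, sub_zero]
        module
      rw [LinearEquiv.mul_apply, LinearEquiv.mul_apply, hTe', hq.fix, hTe, h5]
    · rw [LinearEquiv.mul_apply, LinearEquiv.mul_apply, hTe', hq.act w hw, map_add, hTe, hTe]
      simp only [map_sub, map_add, map_smul, LinearMap.sub_apply, LinearMap.add_apply, LinearMap.smul_apply, halt, hnu,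
        LinearMap.comp_apply, hα, smul_eq_mul, mul_zero, sub_zero, zero_smul, smul_zero]
      module
  have h1 := hq.comm h2 hX hNT he hee hy hyy hq' v
  simp only [LinearMap.sub_apply, LinearMap.add_apply, LinearMap.comp_apply, hα, map_sub, map_add, map_smul] at h1
  have hvu : B₁ v u = 0 := h.f₁.zero_flip hv1
  have h3 : B₁ (n v) u = - 1 := by rw [hself, h.f₁.flip, hv2]; ring
  rw [hvu, h3] at h1
  have h4 : (2 : F) • n u = - B₁ (n (n v)) u • u := by
    linear_combination (norm := module) (-1 : F) • h1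
  apply hcon
  have h5 : n u = (2⁻¹ * - B₁ (n (n v)) u) • u := by
    rw [mul_smul, ← h4, smul_smul, inv_mul_cancel₀ h2, one_smul]
  rw [h5]
  exact Submodule.smul_mem _ _ (Submodule.mem_span_singleton_self _)

lemma Rad.scalar_ns {h : TE B₁ B₂ B τ (-1) 1} (h2 : (2 : F) ≠ 0) (hX : HX B τ X) (hNT : NT B₂ B τ X) {e y : W} (he : e ≠ 0)
    (hee : B₂ e e = 0) (hy : B₂ y e = 0) (hyy : B₂ y y ≠ 0) {x : V ≃ₗ[F] V} (hx : x ∈ X) {n : W →ₗ[F] Module.End F U}
    (hr : Rad h e x n) : ∃ c : F, ∀ u, n y u = c • u := by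
  have hey := h.f₂.zero_flip hy
  -- the reflection
  let ρ : Module.End F W := 1 - (2 / B₂ y y) • (LinearMap.flip B₂ y).smulRight y
  have hρ : ∀ w, ρ w = w - (2 / B₂ y y * B₂ w y) • y := fun w => by
    simp only [ρ, LinearMap.sub_apply, Module.End.one_apply, LinearMap.smul_apply, LinearMap.smulRight_apply,
      LinearMap.flip_apply, smul_smul]
  have hρρ : ∀ w, ρ (ρ w) = w := by
    intro w
    rw [hρ, hρ]
    simp only [map_sub, map_smul, LinearMap.sub_apply, LinearMap.smul_apply, smul_eq_mul]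
    match_scalars
    · ring
    · field_simp
      ring
  have hρi : ∀ w w', B₂ (ρ w) (ρ w') = B₂ w w' := by
    intro w w'
    rw [hρ, hρ]
    simp only [map_sub, map_smul, LinearMap.sub_apply, LinearMap.smul_apply, smul_eq_mul]
    rw [h.f₂.flip y w']
    field_simp
    ring
  have hρe : ρ e = e := by rw [hρ, hey, mul_zero, zero_smul, sub_zero]
  let b : W ≃ₗ[F] W := LinearEquiv.ofLinearMap ρ ρ (by ext w; exact hρρ w) (by ext w; exact hρρ w)
  have hb : ∀ w, b w = ρ w := fun w => rfl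
  obtain ⟨S, hS, hSS⟩ := exists_mem h hX 1 b (fun u w u' w' => by rw [hb, hb, hρi]; rfl)
  have hS1 : ∀ u w, S (τ u w) = τ u (ρ w) := fun u w => hSS u w
  have hS2 : ∀ u w, S⁻¹ (τ u w) = τ u (ρ w) := by
    intro u w
    have h1 : S (τ u (ρ w)) = τ u w := by rw [hS1, hρρ]
    rw [← h1]
    exact S.symm_apply_apply _
  have hxi : ∀ w, B₂ w e = 0 → ∀ u, x⁻¹ (τ u w) = τ u w - τ (n w u) e := by
    intro w hw u
    have h1 : x (τ u w - τ (n w u) e) = τ u w := by
      rw [map_sub, hr.act w hw, hr.fix]; abel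
    conv_lhs => rw [← h1]
    exact x.symm_apply_apply _
  have hxi' : ∀ u, x⁻¹ (τ u e) = τ u e := by
    intro u
    conv_lhs => rw [← hr.fix u]
    exact x.symm_apply_apply _
  have hρw : ∀ w, B₂ w e = 0 → B₂ (ρ w) e = 0 := fun w hw => by rw [← hρe, hρi, hw]
  have hq : Qn h X e y (- (2 / B₂ y y) • n y) (x⁻¹ * (S * x * S⁻¹)) := by
    refine ⟨X.mul_mem (X.inv_mem hx) (X.mul_mem (X.mul_mem hS hx) (X.inv_mem hS)), fun u => ?_, fun w hw u => ?_⟩
    · rw [LinearEquiv.mul_apply, LinearEquiv.mul_apply, LinearEquiv.mul_apply, hS2, hρe, hr.fix, hS1, hρe, hxi']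
    · rw [LinearEquiv.mul_apply, LinearEquiv.mul_apply, LinearEquiv.mul_apply, hS2, hr.act _ (hρw w hw), map_add, hS1, hS1, hρρ, hρe,
        map_add, hxi w hw, hxi', hρ w]
      simp only [map_sub, map_smul, LinearMap.sub_apply, LinearMap.smul_apply, map_neg, LinearMap.neg_apply]
      module
  obtain ⟨c, hc⟩ := hq.scalar h2 hX hNT he hee hy hyy
  refine ⟨- (B₂ y y / 2) * c, fun u => ?_⟩
  rw [mul_smul, ← hc, LinearMap.smul_apply, smul_smul]
  have h3 : -(B₂ y y / 2) * -(2 / B₂ y y) = 1 := by field_simp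
  rw [h3, one_smul]

lemma exists_ns_perp (hB₂ : EF B₂ 1) (h2 : (2 : F) ≠ 0) (hm : 3 ≤ finrank F W) {e : W} (he : e ≠ 0) (hee : B₂ e e = 0) :
    ∃ y, B₂ y e = 0 ∧ B₂ y y ≠ 0 := by
  by_contra hcon
  push Not at hcon
  have h0 : ∀ a b, B₂ a e = 0 → B₂ b e = 0 → B₂ a b = 0 := by
    intro a b ha hb
    have h1 := hcon (a + b) (by rw [map_add, LinearMap.add_apply, ha, hb, add_zero])
    simp only [map_add, LinearMap.add_apply, hcon a ha, hcon b hb, zero_add, add_zero] at h1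
    rw [hB₂.flip b a] at h1
    have h3 : 2 * B₂ a b = 0 := by linear_combination h1
    exact (mul_eq_zero.mp h3).resolve_left h2
  obtain ⟨f, hef, hfe, hff⟩ := hB₂.partner h2 he hee
  -- the perp of e and f is zero
  let L : W →ₗ[F] F × F := (LinearMap.flip B₂ e).prod (LinearMap.flip B₂ f)
  have hker : LinearMap.ker L ≠ ⊥ := by
    intro hk
    have h3 := L.finrank_range_add_finrank_ker
    rw [hk, finrank_bot, add_zero] at h3
    have h4 := Submodule.finrank_le (LinearMap.range L)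
    rw [Module.finrank_prod, finrank_self] at h4
    omega
  obtain ⟨a, ha, ha0⟩ := Submodule.exists_mem_ne_zero_of_ne_bot hker
  have ha' : L a = 0 := ha
  have hae : B₂ a e = 0 := congrArg Prod.fst ha'
  have haf : B₂ a f = 0 := congrArg Prod.snd ha'
  apply ha0
  apply hB₂.nd
  intro z
  have h5 : z = B₂ z e • f + (z - B₂ z e • f) := by abel
  rw [h5, map_add, map_smul, haf, smul_zero, zero_add]
  apply h0 a _ hae
  rw [map_sub, map_smul, LinearMap.sub_apply, LinearMap.smul_apply, hfe, smul_eq_mul, mul_one, sub_self]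

/-- C4: the radicals meet `X` in the tensor product group -/
theorem rad_kr (h : TE B₁ B₂ B τ (-1) 1) (h2 : (2 : F) ≠ 0) (hX : HX B τ X) (hNT : NT B₂ B τ X) (hm : 3 ≤ finrank F W)
    (hU : ∃ u : U, u ≠ 0) {e : W} (he : e ≠ 0) (hee : B₂ e e = 0) : RH h X e := by
  intro x hx hfix hact
  obtain ⟨f, hef, hfe, -⟩ := h.f₂.partner h2 he hee
  obtain ⟨u₀, hu₀⟩ := hU
  obtain ⟨u₁, hu₁⟩ := h.f₁.one hu₀
  -- the coefficients
  let n : W →ₗ[F] Module.End F U := LinearMap.mk₂ F (fun w u => kap h f (x (τ u w) - τ u w))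
    (fun w w' u => by simp only [map_add, map_sub]; abel)
    (fun c w u => by simp only [map_smul, map_sub, smul_sub])
    (fun w u u' => by simp only [map_add, map_sub, LinearMap.add_apply]; abel)
    (fun c w u => by simp only [map_smul, map_sub, LinearMap.smul_apply, smul_sub])
  have hn : ∀ w u, n w u = kap h f (x (τ u w) - τ u w) := fun w u => rfl
  have hr : Rad h e x n := by
    refine ⟨hfix, fun w hw u => ?_⟩
    obtain ⟨u', hu'⟩ := hact (τ u w) (by rw [kap_pure, hw, zero_smul])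
    rw [hn, hu', add_sub_cancel_left, kap_pure, hef, one_smul]
  have hns := fun (y : W) (hy : B₂ y e = 0) (hyy : B₂ y y ≠ 0) => hr.scalar_ns h2 hX hNT he hee hy hyy hx
  have hsc : ∀ w, B₂ w e = 0 → ∃ c : F, ∀ u, n w u = c • u := by
    intro w hw
    by_cases hww : B₂ w w = 0
    · obtain ⟨y, hy, hyy⟩ := exists_ns_perp h.f₂ h2 hm he hee
      obtain ⟨t, ht⟩ : ∃ t : F, B₂ (w + t • y) (w + t • y) ≠ 0 := by
        by_contra hcon
        push Not at hcon
        have h1 := hcon 1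
        have h3 := hcon (-1)
        simp only [map_add, map_smul, LinearMap.add_apply, LinearMap.smul_apply, smul_eq_mul, hww] at h1 h3
        have h4 : 2 * B₂ y y = 0 := by linear_combination h1 + h3
        exact hyy ((mul_eq_zero.mp h4).resolve_left h2)
      obtain ⟨c, hc⟩ := hns (w + t • y) (by rw [map_add, map_smul, LinearMap.add_apply, LinearMap.smul_apply, hw, hy]; simp) ht
      obtain ⟨c', hc'⟩ := hns y hy hyy
      refine ⟨c - t * c', fun u => ?_⟩
      have h1 := hc u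
      rw [map_add, map_smul, LinearMap.add_apply, LinearMap.smul_apply, hc'] at h1
      rw [sub_smul, ← h1, smul_smul]; abel
    · exact hns w hw hww
  obtain ⟨y₀, hy₀⟩ := h.f₂.repr (- ((LinearMap.flip B₁ u₁) ∘ₗ (LinearMap.flip n u₀)))
  have hy₀' : ∀ w, B₂ w e = 0 → ∀ u, n w u = - B₂ w y₀ • u := by
    intro w hw u
    obtain ⟨c, hc⟩ := hsc w hw
    have h1 := hy₀ w
    rw [LinearMap.neg_apply, LinearMap.comp_apply, LinearMap.flip_apply, LinearMap.flip_apply, hc, map_smul, LinearMap.smul_apply,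
      hu₁, smul_eq_mul, mul_one] at h1
    rw [hc, h1, neg_neg]
  have hey₀ : B₂ e y₀ = 0 := by
    have h1 := hy₀' e hee u₀
    rw [hn, hfix, sub_self, map_zero] at h1
    have h3 := (smul_eq_zero.mp h1.symm).resolve_right hu₀
    exact neg_eq_zero.mp h3
  have hy₀e := h.f₂.zero_flip hey₀
  obtain ⟨R, hR, hR1, hR2⟩ := exists_sieg h h2 hX hee hy₀e
  have hRe : ∀ u, R (τ u e) = τ u e := fun u => by rw [hR1, sg_fix h.f₂ hee hy₀e]
  have hRk : Kr τ R := ⟨1, sgE h.f₂ h2 hee hy₀e, fun u w => hR1 u w⟩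
  have hRR : ∀ v, R⁻¹ (R v) = v := fun v => R.symm_apply_apply v
  have hg : ∀ u w, B₂ w e = 0 → (R⁻¹ * x) (τ u w) = τ u w := by
    intro u w hw
    have h1 : x (τ u w) = R (τ u w) := by
      rw [hr.act w hw, hy₀' w hw, hR1, sg_apply, hw]
      simp only [map_sub, map_smul, map_add, LinearMap.smul_apply, one_mul, zero_smul, mul_zero, add_zero, sub_zero, neg_smul,
        map_neg, LinearMap.neg_apply]
      rw [sub_eq_add_neg]
    rw [LinearEquiv.mul_apply, h1, hRR]
  obtain ⟨σ, hσ⟩ := triv_form h (hX.le (X.mul_mem (X.inv_mem hR) hx)) hef hfe hg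
  have h0 := central_zero h h2 hX hNT he hee (X.mul_mem (X.inv_mem hR) hx) hσ
  have h1 : R⁻¹ * x = 1 := by
    ext v
    rw [hσ, h0]
    simp
  have h3 : x = R := by
    rw [← mul_one R, ← h1, mul_inv_cancel_left]
  rw [h3]
  exact hRk

/-- Lemma D -/
theorem normD (h : TE B₁ B₂ B τ (-1) 1) (h2 : (2 : F) ≠ 0) (hX : HX B τ X) (hNT : NT B₂ B τ X) (hm : 3 ≤ finrank F W)
    (hU : ∃ u : U, u ≠ 0) {e e' : W} (he : e ≠ 0) (he' : e' ≠ 0) (hee : B₂ e e = 0) (hee' : B₂ e' e' = 0) {x : V ≃ₗ[F] V}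
    (hx : x ∈ X) {α : Module.End F U} (hα : ∀ u, x (τ u e) = τ (α u) e') : Kr τ x := by
  obtain ⟨y, hy, hyy⟩ := exists_ns_perp h.f₂ h2 hm he hee
  exact norm_of h h2 hX hU he he' hee hee' ⟨y, y, hy, hy, hyy⟩ (rad_kr h h2 hX hNT hm hU he hee) hx hα

end H96.TeC
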