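import Mathlib
import Cfsg.Agent.Lib.H96.TeC

set_option autoImplicit false
set_option linter.unusedSectionVars false
set_option linter.unusedVariables false
set_option linter.unusedSimpArgs false

/-!
Overgroups of the tensor product of a symplectic and an orthogonal group without transvections:
the coefficients on the orthogonal side.
-/

namespace H96.TeE

open Module H95.SpBasic H96.TeBase H96.TeNorm H96.TeC
open H96.StBase (In)

variable {F U W V : Type*} [Field F] [AddCommGroup U] [Module F U] [AddCommGroup W] [Module F W] [AddCommGroup V]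
  [Module F V] [FiniteDimensional F U] [FiniteDimensional F W]
variable {B₁ : LinearMap.BilinForm F U} {B₂ : LinearMap.BilinForm F W} {B : LinearMap.BilinForm F V}
  {τ : U →ₗ[F] W →ₗ[F] V} {s₁ s₂ : F} {X : Subgroup (V ≃ₗ[F] V)}

lemma K_flip (h : TE B₁ B₂ B τ s₁ s₂) (n : Module.End F W) (y z : U) (v : V) :
    K h.symm n y z v = τ y (n (kap h.symm z v)) := rfl

/-- a sum of two pure vectors that is pure -/
lemma dep_of_pure (h : TE B₁ B₂ B τ s₁ s₂) {x u a : U} {w w' b : W} (hs : τ x w + τ u w' = τ a b)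
    (hux : u ∉ Submodule.span F {x}) (hxu : x ∉ Submodule.span F {u}) (hw0 : w = 0 → w' = 0) :
    w' ∈ Submodule.span F {w} := by
  obtain ⟨z₁, h1, h1'⟩ := h.f₁.sep1 hux
  obtain ⟨z₂, h2, h2'⟩ := h.f₁.sep1 hxu
  have e1 := congrArg (kap h.symm z₁) hs
  have e2 := congrArg (kap h.symm z₂) hs
  rw [map_add, kap_pure' h, kap_pure' h, kap_pure' h, h1, h1', zero_smul, one_smul, zero_add] at e1
  rw [map_add, kap_pure' h, kap_pure' h, kap_pure' h, h2, h2', zero_smul, one_smul, add_zero] at e2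
  by_cases hw : w = 0
  · rw [hw0 hw]; exact Submodule.zero_mem _
  have hc : B₁ a z₂ ≠ 0 := by
    intro h0
    rw [h0, zero_smul] at e2
    exact hw e2
  rw [e1, e2]
  exact Submodule.mem_span_singleton.mpr ⟨B₁ a z₁ * (B₁ a z₂)⁻¹, by
    rw [smul_smul, mul_assoc, inv_mul_cancel₀ hc, mul_one]⟩

lemma span_symm {M : Type*} [AddCommGroup M] [Module F M] {a b : M} (ha : a ≠ 0) (hb : b ∉ Submodule.span F {a}) :
    a ∉ Submodule.span F {b} := by
  intro hab
  obtain ⟨c, rfl⟩ := Submodule.mem_span_singleton.mp hab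
  apply hb
  have hc : c ≠ 0 := by rintro rfl; exact ha (zero_smul _ _)
  exact Submodule.mem_span_singleton.mpr ⟨c⁻¹, by rw [smul_smul, inv_mul_cancel₀ hc, one_smul]⟩

lemma not_span_of {B : LinearMap.BilinForm F U} {x u z : U} (h1 : B u z = 0) (h2 : B x z ≠ 0) : x ∉ Submodule.span F {u} := by
  intro hx
  obtain ⟨c, rfl⟩ := Submodule.mem_span_singleton.mp hx
  rw [map_smul, LinearMap.smul_apply, h1, smul_zero] at h2
  exact h2 rfl

/-- hypotheses -/
structure Hy (h : TE B₁ B₂ B τ (-1) 1) (X : Subgroup (V ≃ₗ[F] V)) : Prop where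
  two : (2 : F) ≠ 0
  hX : HX B τ X
  nt : NT B₂ B τ X
  m3 : 3 ≤ finrank F W
  hU : ∃ u : U, u ≠ 0
  big : 4 ≤ finrank F W ∨ ∃ t : F, t ≠ 0 ∧ t * t ≠ 1

variable {h : TE B₁ B₂ B τ (-1) 1}

lemma mem_span_e (hB₂ : EF B₂ s₂) {e f : W} (hef : B₂ e f = 1) {s : W}
    (hs : ∀ y, B₂ e y = 0 → B₂ s y = 0) : s = B₂ s f • e := by
  rw [← sub_eq_zero]
  apply hB₂.nd
  intro z
  have h1 := hs (z - B₂ e z • f) (by rw [map_sub, map_smul, hef, smul_eq_mul, mul_one, sub_self])
  rw [map_sub, map_smul, smul_eq_mul] at h1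
  rw [map_sub, map_smul, LinearMap.sub_apply, LinearMap.smul_apply, smul_eq_mul]
  linear_combination h1

/-- isotropic vectors exist -/
lemma exists_iso [Finite F] (hB₂ : EF B₂ 1) (h2 : (2 : F) ≠ 0) {S : Submodule F W} (hS : 3 ≤ finrank F S) :
    ∃ e ∈ S, e ≠ 0 ∧ B₂ e e = 0 := by
  obtain ⟨x, hx, hx0, hxx⟩ := H95.OGeo.exists_sing (LinearMap.BilinMap.toQuadraticMap B₂) hS
  exact ⟨x, hx, hx0, hxx⟩

/-- E0 -/
lemma z_self (H : Hy h X) {u : U} (hu : u ≠ 0) {σ : Module.End F W} (hσ : In X (K h.symm σ u u)) (w w' : W) :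
    B₂ (σ w) w' = B₂ w (σ w') := by
  obtain ⟨g, hg, hgg⟩ := hσ
  obtain ⟨x, hx⟩ := h.f₁.one hu
  have halt := fun x => alt_of h.f₁ H.two x
  have hxu : B₁ x u = -1 := by rw [h.f₁.flip, hx, mul_one]
  have h1 := H.hX.le hg (τ x w) (τ x w')
  rw [hgg, hgg, K_flip h, K_flip h, kap_pure' h, kap_pure' h, hxu] at h1
  simp only [map_add, map_smul, map_neg, LinearMap.add_apply, LinearMap.smul_apply, LinearMap.neg_apply, h.bp, halt, hx, hxu,
    smul_eq_mul, neg_smul, one_smul, zero_mul, neg_zero, add_zero] at h1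
  linear_combination -h1

/-- E1 -/
lemma z_eig (H : Hy h X) {u : U} (hu : u ≠ 0) {σ : Module.End F W} (hσ : In X (K h.symm σ u u)) {e : W} (he : e ≠ 0)
    (hee : B₂ e e = 0) {c : F} (hc : σ e = c • e) : ∃ c : F, ∀ w, σ w = c • w := by
  obtain ⟨g, hg, hgg⟩ := hσ
  have halt := fun x => alt_of h.f₁ H.two x
  have hk : Kr τ g := by
    refine normD h H.two H.hX H.nt H.m3 H.hU he he hee hee hg (α := 1 + c • (LinearMap.flip B₁ u).smulRight u) (fun x => ?_)
    rw [hgg, K_flip h, kap_pure' h, map_smul, hc]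
    simp only [LinearMap.add_apply, Module.End.one_apply, LinearMap.smul_apply, LinearMap.smulRight_apply, LinearMap.flip_apply,
      map_add, map_smul]
    module
  obtain ⟨a, b, hab⟩ := hk
  obtain ⟨x, hx⟩ := h.f₁.one hu
  have hxu : B₁ (-x) u = 1 := by rw [map_neg, LinearMap.neg_apply, h.f₁.flip, hx]; ring
  have h3 : -x ∉ Submodule.span F {u} := not_span_of (B := B₁) (halt u) (by rw [hxu]; exact one_ne_zero)
  have hux : u ∉ Submodule.span F {-x} := span_symm (fun h0 => by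
    rw [h0] at hxu
    simp at hxu) h3
  apply scalar_of_span
  intro w
  have h1 := hab (-x) w
  rw [hgg, K_flip h, kap_pure' h, hxu, one_smul] at h1
  exact dep_of_pure h h1 hux h3 (fun h0 => by rw [h0, map_zero])

lemma sieg_inv (h : TE B₁ B₂ B τ s₁ s₂) (h2 : (2 : F) ≠ 0) {e y : W} (he : B₂ e e = 0) (hy : B₂ y e = 0) {R : V ≃ₗ[F] V}
    (hR : ∀ u w, R (τ u w) = τ u (sg B₂ s₂ y e w)) (u : U) (w : W) : R⁻¹ (τ u w) = τ u (sg B₂ s₂ (-y) e w) := by
  have h1 : R (τ u (sg B₂ s₂ (-y) e w)) = τ u w := by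
    rw [hR]
    have h3 := sg_inv h.f₂ h2 (y := -y) he (by rw [map_neg, LinearMap.neg_apply, hy, neg_zero]) w
    rw [neg_neg] at h3
    rw [h3]
  rw [← h1]
  exact R.symm_apply_apply _

/-- E2 -/
lemma z_diff (H : Hy h X) {u : U} {σ : Module.End F W} (hσ : In X (K h.symm σ u u)) {e y : W}
    (hee : B₂ e e = 0) (hy : B₂ y e = 0) : In X (K h.symm (sg B₂ 1 y e ∘ₗ σ ∘ₗ sg B₂ 1 (-y) e - σ) u u) := by
  obtain ⟨R, hR, hR1, -⟩ := exists_sieg h H.two H.hX hee hy
  have halt := fun x => alt_of h.f₁ H.two x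
  have h1 : In X (K h.symm (sg B₂ 1 y e ∘ₗ σ ∘ₗ sg B₂ 1 (-y) e) u u) := by
    refine hσ.conj hR fun v => ?_
    rw [K_flip h, hR1, kap_left_act h.symm (T := R⁻¹) (a := sg B₂ 1 (-y) e) (fun w u => sieg_inv h H.two hee hy hR1 u w), K_flip h]
    rfl
  have hz : ∀ (n n' : Module.End F W) v, K h.symm n u u (K h.symm n' u u v) = 0 := by
    intro n n' v
    rw [K_flip h, K_flip h, kap_pure' h, halt, zero_smul, map_zero, map_zero]
  have h3 := h1.sub hσ (hz _ _) (hz _ _)
  have h4 : K h.symm (sg B₂ 1 y e ∘ₗ σ ∘ₗ sg B₂ 1 (-y) e) u u - K h.symm σ u u =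
      K h.symm (sg B₂ 1 y e ∘ₗ σ ∘ₗ sg B₂ 1 (-y) e - σ) u u := by
    ext v
    rw [LinearMap.sub_apply, K_flip h, K_flip h, K_flip h, LinearMap.sub_apply, map_sub]
  rwa [h4] at h3

lemma sg_neg_sg (hB₂ : EF B₂ 1) (h2 : (2 : F) ≠ 0) {e y : W} (he : B₂ e e = 0) (hy : B₂ y e = 0) (w : W) :
    sg B₂ 1 (-y) e (sg B₂ 1 y e w) = w := sg_inv hB₂ h2 he hy w

/-- E3, first part -/
lemma z_comm (H : Hy h X) {u : U} (hu : u ≠ 0) {σ : Module.End F W} (hσ : In X (K h.symm σ u u)) {e y : W} (he : e ≠ 0)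
    (hee : B₂ e e = 0) (hy : B₂ y e = 0) (h0 : B₂ (σ e) e = 0) (w : W) :
    sg B₂ 1 y e (σ w) = σ (sg B₂ 1 y e w) - B₂ (σ e) y • sg B₂ 1 y e w := by
  have hy' : B₂ (-y) e = 0 := by rw [map_neg, LinearMap.neg_apply, hy, neg_zero]
  have h1 := z_diff H hσ hee hy
  have h3 : (sg B₂ 1 y e ∘ₗ σ ∘ₗ sg B₂ 1 (-y) e - σ) e = (- B₂ (σ e) y) • e := by
    rw [LinearMap.sub_apply, LinearMap.comp_apply, LinearMap.comp_apply, sg_fix h.f₂ hee hy', sg_apply, h0]
    module
  obtain ⟨c, hc⟩ := z_eig H hu h1 he hee h3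
  have h4 : c = - B₂ (σ e) y := by
    have h5 := hc e
    rw [h3] at h5
    exact (smul_left_injective F he h5).symm
  have h6 := hc (sg B₂ 1 y e w)
  rw [LinearMap.sub_apply, LinearMap.comp_apply, LinearMap.comp_apply, sg_neg_sg h.f₂ H.two hee hy, h4] at h6
  rw [sub_eq_iff_eq_add.mp h6]
  module

lemma exists_off_span {L : W →ₗ[F] F × F} (hm : 4 ≤ finrank F W) (e : W) : ∃ y₀, L y₀ = 0 ∧ y₀ ∉ Submodule.span F {e} := by
  by_contra hcon
  push Not at hcon
  have h1 : LinearMap.ker L ≤ Submodule.span F {e} := fun y hy => hcon y hy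
  have h3 := Submodule.finrank_mono h1
  have h4 : finrank F (Submodule.span F {e}) ≤ 1 := by
    have := finrank_span_le_card (R := F) ({e} : Set W)
    simpa using this
  have h5 := L.finrank_range_add_finrank_ker
  have h6 := Submodule.finrank_le (LinearMap.range L)
  rw [Module.finrank_prod, finrank_self] at h6
  omega

/-- Claim 1 -/
lemma z_zero (H : Hy h X) {u : U} (hu : u ≠ 0) {σ : Module.End F W} (hσ : In X (K h.symm σ u u)) {e : W} (he : e ≠ 0)
    (hee : B₂ e e = 0) (h0 : B₂ (σ e) e = 0) : ∃ c : F, ∀ w, σ w = c • w := by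
  obtain ⟨f, hef, hfe, hff⟩ := h.f₂.partner H.two he hee
  have hself := z_self H hu hσ
  have key : ∀ y, B₂ y e = 0 → B₂ y y ≠ 0 → B₂ (σ e) y = 0 := by
    intro y hy hyy
    have hey := h.f₂.zero_flip hy
    rcases H.big with hm | ⟨t, ht0, ht1⟩
    · obtain ⟨y₀, hy₀, hy₀'⟩ := exists_off_span (L := (LinearMap.flip B₂ e).prod (LinearMap.flip B₂ y)) hm e
      have h1 : B₂ y₀ e = 0 := congrArg Prod.fst hy₀
      have h3 : B₂ y₀ y = 0 := congrArg Prod.snd hy₀
      have h4 := z_comm H hu hσ he hee hy h0 y₀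
      have h5 : sg B₂ 1 y e y₀ = y₀ := by rw [sg_apply, h1, h3]; simp
      rw [h5, sg_apply] at h4
      by_contra hβ
      have h6 : y₀ = (B₂ (σ e) y)⁻¹ • (- (B₂ (σ y₀) e) • y + (1 * B₂ (σ y₀) y) • e + (1 / 2 * B₂ y y * B₂ (σ y₀) e) • e) := by
        rw [eq_inv_smul_iff₀ hβ]
        linear_combination (norm := module) h4
      have h7 := congrArg (fun z => B₂ z y) h6
      simp only [map_add, map_smul, LinearMap.add_apply, LinearMap.smul_apply, smul_eq_mul, h3, hey, mul_zero, add_zero] at h7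
      have h8 : B₂ (σ y₀) e = 0 := by
        have h9 := (mul_eq_zero.mp h7.symm).resolve_left (inv_ne_zero hβ)
        rcases mul_eq_zero.mp h9 with h10 | h10
        · exact neg_eq_zero.mp h10
        · exact absurd h10 hyy
      apply hy₀'
      rw [h6, h8]
      simp only [neg_zero, zero_smul, mul_zero, add_zero, zero_add]
      exact Submodule.smul_mem _ _ (Submodule.smul_mem _ _ (Submodule.mem_span_singleton_self _))
    · -- the adjusted vector
      obtain ⟨z, hz⟩ : ∃ z, z = y - B₂ y f • e := ⟨_, rfl⟩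
      have hze : B₂ z e = 0 := by rw [hz, map_sub, map_smul, LinearMap.sub_apply, LinearMap.smul_apply, hy, hee]; simp
      have hez := h.f₂.zero_flip hze
      have hzf : B₂ z f = 0 := by rw [hz, map_sub, map_smul, LinearMap.sub_apply, LinearMap.smul_apply, hef]; simp
      have hfz := h.f₂.zero_flip hzf
      have hzz : B₂ z z ≠ 0 := by
        have : B₂ z z = B₂ y y := by
          rw [hz]
          simp only [map_sub, map_smul, LinearMap.sub_apply, LinearMap.smul_apply, smul_eq_mul, hey, hy, hee]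
          ring
        rwa [this]
      have hσy : B₂ (σ e) y = B₂ (σ e) z := by
        rw [hz, map_sub, map_smul, smul_eq_mul, h0]; ring
      have e1 : ∀ t : F, t * (2 * 2 * B₂ (σ f) z + t * t * B₂ z z * B₂ (σ e) z) = 0 := by
        intro t
        have hte : B₂ (t • z) e = 0 := by rw [map_smul, LinearMap.smul_apply, hze, smul_zero]
        have h4 := z_comm H hu hσ he hee hte h0 f
        have h5 := congrArg (fun s => B₂ s f) h4
        simp only [sg_apply, map_add, map_sub, map_smul, LinearMap.add_apply, LinearMap.sub_apply, LinearMap.smul_apply, smul_eq_mul,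
          hfe, hfz, hzf, hff, hef, mul_zero, add_zero, zero_smul, sub_zero, mul_one, one_mul] at h5
        have h6 : B₂ (σ z) f = B₂ (σ f) z := by rw [hself z f, h.f₂.flip z, one_mul]
        have h7 : B₂ (σ f) e = B₂ (σ e) f := by rw [hself f e, h.f₂.flip f, one_mul]
        rw [h6, h7] at h5
        have h2 := H.two
        have h8 : (1 / 2 : F) * 2 = 1 := by field_simp
        linear_combination (-2) * h5 - (t ^ 3 * B₂ z z * B₂ (σ e) z) * h8
      have h5 := e1 1
      have h6 := e1 t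
      have h7 := (mul_eq_zero.mp h6).resolve_left ht0
      have h8 : (t * t - 1) * (B₂ z z * B₂ (σ e) z) = 0 := by linear_combination h7 - h5
      have h9 := (mul_eq_zero.mp h8).resolve_left (sub_ne_zero.mpr ht1)
      rw [hσy]
      exact (mul_eq_zero.mp h9).resolve_left hzz
  -- all vectors orthogonal to e
  obtain ⟨y₁, hy₁, hy₁'⟩ := exists_ns_perp h.f₂ H.two H.m3 he hee
  have key2 : ∀ y, B₂ e y = 0 → B₂ (σ e) y = 0 := by
    intro y hy
    have hy' := h.f₂.zero_flip hy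
    by_cases hyy : B₂ y y = 0
    · obtain ⟨t, ht⟩ : ∃ t : F, B₂ (y + t • y₁) (y + t • y₁) ≠ 0 := by
        by_contra hcon
        push Not at hcon
        have h1 := hcon 1
        have h3 := hcon (-1)
        simp only [map_add, map_smul, LinearMap.add_apply, LinearMap.smul_apply, smul_eq_mul, hyy] at h1 h3
        have h4 : 2 * B₂ y₁ y₁ = 0 := by linear_combination h1 + h3
        exact hy₁' ((mul_eq_zero.mp h4).resolve_left H.two)
      have h1 := key _ (by rw [map_add, map_smul, LinearMap.add_apply, LinearMap.smul_apply, hy', hy₁]; simp) ht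
      rw [map_add, map_smul, key y₁ hy₁ hy₁', smul_zero, add_zero] at h1
      exact h1
    · exact key y hy' hyy
  exact z_eig H hu hσ he hee (mem_span_e h.f₂ hef key2)

/-- Lemma E -/
theorem z_scalar [Finite F] (H : Hy h X) {u : U} (hu : u ≠ 0) {σ : Module.End F W} (hσ : In X (K h.symm σ u u)) :
    ∃ c : F, ∀ w, σ w = c • w := by
  obtain ⟨e, -, he, hee⟩ := exists_iso h.f₂ H.two (S := (⊤ : Submodule F W)) (by rw [finrank_top]; exact H.m3)
  by_cases h0 : B₂ (σ e) e = 0
  · exact z_zero H hu hσ he hee h0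
  obtain ⟨y, hy, hyy⟩ := exists_ns_perp h.f₂ H.two H.m3 he hee
  have hy' : B₂ (-y) e = 0 := by rw [map_neg, LinearMap.neg_apply, hy, neg_zero]
  have h1 := z_diff H hσ hee hy
  have hey := h.f₂.zero_flip hy
  have h3 : (sg B₂ 1 y e ∘ₗ σ ∘ₗ sg B₂ 1 (-y) e - σ) e = B₂ (σ e) e • y - (B₂ (σ e) y + 1 / 2 * B₂ y y * B₂ (σ e) e) • e := by
    rw [LinearMap.sub_apply, LinearMap.comp_apply, LinearMap.comp_apply, sg_fix h.f₂ hee hy', sg_apply]
    module
  obtain ⟨c, hc⟩ := z_zero H hu h1 he hee (by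
    rw [h3]
    simp only [map_sub, map_smul, LinearMap.sub_apply, LinearMap.smul_apply, hy, hee]
    simp)
  exfalso
  have h4 := hc e
  rw [h3] at h4
  have h5 := congrArg (fun z => B₂ z y) h4
  simp only [map_sub, map_smul, LinearMap.sub_apply, LinearMap.smul_apply, hey, smul_eq_mul, mul_zero, sub_zero] at h5
  rcases mul_eq_zero.mp h5 with h6 | h6
  · exact h0 h6
  · exact hyy h6

end H96.TeE
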