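import Mathlib
import Cfsg.Agent.Lib.H96.OoBase
import Cfsg.Agent.Lib.H96.TeE

set_option autoImplicit false
set_option linter.unusedSectionVars false
set_option linter.unusedVariables false
set_option linter.unusedSimpArgs false

/-!
Tensor products of two orthogonal spaces: central elements of the radicals.
-/

namespace H96.OoCent

open Module H95.SpBasic H96.TeBase H96.TeNorm H96.OoBase H96.TeC H96.TeE
open H96.StBase (In)

section one
variable {F U : Type*} [Field F] [AddCommGroup U] [Module F U] [FiniteDimensional F U] {S : LinearMap.BilinForm F U}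

/-- orthogonal decomposition for a hyperbolic pair -/
lemma hyp_perp (hB : EF S 1) {u v : U} (hu : S u u = 0) (huv : S u v = 1) (hv : S v v = 0) (x : U) :
    S (x - S x v • u - S x u • v) u = 0 ∧ S (x - S x v • u - S x u • v) v = 0 := by
  have hvu : S v u = 1 := by rw [hB.flip, huv, one_mul]
  constructor
  · simp only [map_sub, map_smul, LinearMap.sub_apply, LinearMap.smul_apply, smul_eq_mul, hu, hvu]; ring
  · simp only [map_sub, map_smul, LinearMap.sub_apply, LinearMap.smul_apply, smul_eq_mul, hv, huv]; ring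

/-- endomorphisms stabilising all isotropic lines -/
theorem eig_iso [Finite F] (hB : EF S 1) (h2 : (2 : F) ≠ 0) (hd : 3 ≤ finrank F U) {σ : Module.End F U}
    (hσ : ∀ u, S u u = 0 → ∃ c : F, σ u = c • u) : ∃ c : F, ∀ u, σ u = c • u := by
  obtain ⟨u, -, hu0, hu⟩ := exists_iso hB h2 (S := (⊤ : Submodule F U)) (by rw [finrank_top]; exact hd)
  obtain ⟨v, huv, hvu, hv⟩ := hB.partner h2 hu0 hu
  obtain ⟨c, hc⟩ := hσ u hu
  obtain ⟨c', hc'⟩ := hσ v hv
  have key : ∀ y, S y u = 0 → S y v = 0 → S y y ≠ 0 → σ y = c • y ∧ c' = c := by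
    intro y hyu hyv hyy
    have huy : S u y = 0 := hB.zero_flip hyu
    have hvy : S v y = 0 := hB.zero_flip hyv
    obtain ⟨l, hl⟩ := hσ (u + y - (S y y / 2) • v) (by
      simp only [map_add, map_sub, map_smul, LinearMap.add_apply, LinearMap.sub_apply, LinearMap.smul_apply, smul_eq_mul, hu, hv,
        huv, hvu, huy, hvy, hyu, hyv]
      have : S y y / 2 * 2 = S y y := by field_simp
      linear_combination - this)
    obtain ⟨l', hl'⟩ := hσ (u - y - (S y y / 2) • v) (by
      simp only [map_add, map_sub, map_smul, LinearMap.add_apply, LinearMap.sub_apply, LinearMap.smul_apply, smul_eq_mul, hu, hv,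
        huv, hvu, huy, hvy, hyu, hyv]
      have : S y y / 2 * 2 = S y y := by field_simp
      linear_combination - this)
    rw [map_sub, map_add, map_smul, hc, hc'] at hl
    rw [map_sub, map_sub, map_smul, hc, hc'] at hl'
    have h1 : (2 * c) • u - (S y y * c') • v = (l + l') • u + (l - l') • y - (S y y / 2 * (l + l')) • v := by
      have h3 : (2 * c) • u - (S y y * c') • v = (c • u + σ y - (S y y / 2) • c' • v) + (c • u - σ y - (S y y / 2) • c' • v) := by
        match_scalars <;> field_simp <;> ring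
      rw [h3, hl, hl']
      match_scalars <;> field_simp <;> ring
    have e1 := congrArg (fun x => S x v) h1
    have e2 := congrArg (fun x => S x y) h1
    have e3 := congrArg (fun x => S x u) h1
    simp only [map_add, map_sub, map_smul, LinearMap.add_apply, LinearMap.sub_apply, LinearMap.smul_apply, smul_eq_mul, hu, hv,
        huv, hvu, huy, hvy, hyu, hyv] at e1 e2 e3
    have e4 : l = l' := by
      have : (l - l') * S y y = 0 := by linear_combination - e2
      exact sub_eq_zero.mp ((mul_eq_zero.mp this).resolve_right hyy)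
    have e5 : l = c := by
      have : 2 * (l - c) = 0 := by rw [← e4] at e1; linear_combination - e1
      exact sub_eq_zero.mp ((mul_eq_zero.mp this).resolve_left h2)
    have e6 : c' = c := by
      rw [← e4, e5] at e3
      have e7 : S y y * (c' - c) = 0 := by
        have : S y y / 2 * 2 = S y y := by field_simp
        linear_combination - e3 + c * this
      exact sub_eq_zero.mp ((mul_eq_zero.mp e7).resolve_left hyy)
    refine ⟨?_, e6⟩
    rw [e5, e6] at hl
    have h3 : σ y = (c • u + σ y - (S y y / 2) • c • v) - c • u + (S y y / 2) • c • v := by abel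
    rw [h3, hl]
    module
  obtain ⟨y₀, hy₀u, hy₀⟩ := exists_ns_perp hB h2 hd hu0 hu
  obtain ⟨y₁, hy₁⟩ : ∃ y₁, y₁ = y₀ - S y₀ v • u := ⟨_, rfl⟩
  have hy₁u : S y₁ u = 0 := by rw [hy₁, map_sub, map_smul, LinearMap.sub_apply, LinearMap.smul_apply, hy₀u, hu]; simp
  have hy₁v : S y₁ v = 0 := by rw [hy₁, map_sub, map_smul, LinearMap.sub_apply, LinearMap.smul_apply, huv]; simp
  have huy₀ : S u y₀ = 0 := hB.zero_flip hy₀u
  have hy₁y : S y₁ y₁ ≠ 0 := by
    rw [hy₁]
    simp only [map_sub, map_smul, LinearMap.sub_apply, LinearMap.smul_apply, smul_eq_mul, hy₀u, hu, huy₀]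
    simpa using hy₀
  obtain ⟨-, hcc⟩ := key y₁ hy₁u hy₁v hy₁y
  have hy1s : σ y₁ = c • y₁ := (key y₁ hy₁u hy₁v hy₁y).1
  have key2 : ∀ y, S y u = 0 → S y v = 0 → σ y = c • y := by
    intro y hyu hyv
    by_cases hyy : S y y = 0
    · -- add a multiple of `y₁`
      have hf : S y₁ y = S y y₁ := by rw [hB.flip, one_mul]
      by_cases h3 : S (y + y₁) (y + y₁) = 0
      · have h4 : S (y - y₁) (y - y₁) ≠ 0 := by
          intro h4
          simp only [map_add, map_sub, LinearMap.add_apply, LinearMap.sub_apply, hyy, hf] at h3 h4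
          apply hy₁y
          have : 2 * S y₁ y₁ = 0 := by linear_combination h3 + h4
          exact (mul_eq_zero.mp this).resolve_left h2
        have h5 := (key (y - y₁) (by rw [map_sub, LinearMap.sub_apply, hyu, hy₁u, sub_zero])
          (by rw [map_sub, LinearMap.sub_apply, hyv, hy₁v, sub_zero]) h4).1
        rw [map_sub, hy1s] at h5
        rw [sub_eq_iff_eq_add.mp h5]
        module
      · have h5 := (key (y + y₁) (by rw [map_add, LinearMap.add_apply, hyu, hy₁u, add_zero])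
          (by rw [map_add, LinearMap.add_apply, hyv, hy₁v, add_zero]) h3).1
        rw [map_add, hy1s] at h5
        rw [eq_sub_iff_add_eq.mpr h5]
        module
    · exact (key y hyu hyv hyy).1
  refine ⟨c, fun x => ?_⟩
  obtain ⟨h3, h4⟩ := hyp_perp hB hu huv hv x
  have h5 := key2 _ h3 h4
  rw [map_sub, map_sub, map_smul, map_smul, hc, hc', hcc] at h5
  have h6 : σ x = (σ x - S x v • c • u - S x u • c • v) + S x v • c • u + S x u • c • v := by abel
  rw [h6, h5]
  module

/-- basic skew map -/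
noncomputable def nn (S : LinearMap.BilinForm F U) (u z : U) : Module.End F U :=
  (LinearMap.flip S u).smulRight z - (LinearMap.flip S z).smulRight u

lemma nn_apply (S : LinearMap.BilinForm F U) (u z x : U) : nn S u z x = S x u • z - S x z • u := rfl

end one

variable {F U W V : Type*} [Field F] [AddCommGroup U] [Module F U] [AddCommGroup W] [Module F W] [AddCommGroup V]
  [Module F V] [FiniteDimensional F U] [FiniteDimensional F W]
variable {B₁ : LinearMap.BilinForm F U} {B₂ : LinearMap.BilinForm F W} {B : LinearMap.BilinForm F V}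
  {τ : U →ₗ[F] W →ₗ[F] V} {Om X : Subgroup (V ≃ₗ[F] V)}

/-- no long root elements of the given type -/
def NR (h : TE B₁ B₂ B τ 1 1) (X : Subgroup (V ≃ₗ[F] V)) : Prop :=
  ∀ u z : U, u ≠ 0 → B₁ u u = 0 → B₁ z u = 0 → z ∉ Submodule.span F {u} → ∀ e : W, e ≠ 0 → B₂ e e = 0 →
    ¬ In X (K h (nn B₁ u z) e e)

lemma kk0 (h : TE B₁ B₂ B τ 1 1) {e : W} (hee : B₂ e e = 0) (n n' : Module.End F U) (v : V) :
    K h n e e (K h n' e e v) = 0 := by
  rw [K_apply, K_apply, kap_pure, hee, zero_smul, map_zero, map_zero, LinearMap.zero_apply]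

lemma c_add (h : TE B₁ B₂ B τ 1 1) {e : W} (hee : B₂ e e = 0) {σ σ' : Module.End F U} (hσ : In X (K h σ e e))
    (hσ' : In X (K h σ' e e)) : In X (K h (σ + σ') e e) := by
  have h3 := hσ.mul hσ' (kk0 h hee _ _)
  have h4 : K h σ e e + K h σ' e e = K h (σ + σ') e e := by
    ext v
    rw [LinearMap.add_apply, K_apply, K_apply, K_apply, LinearMap.add_apply, map_add, LinearMap.add_apply]
  rwa [h4] at h3

lemma c_neg (h : TE B₁ B₂ B τ 1 1) {e : W} (hee : B₂ e e = 0) {σ : Module.End F U} (hσ : In X (K h σ e e)) :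
    In X (K h (-σ) e e) := by
  have h3 := hσ.neg (kk0 h hee _ _)
  have h4 : -K h σ e e = K h (-σ) e e := by
    ext v
    rw [LinearMap.neg_apply, K_apply, K_apply, LinearMap.neg_apply, map_neg, LinearMap.neg_apply]
  rwa [h4] at h3

lemma c_sub (h : TE B₁ B₂ B τ 1 1) {e : W} (hee : B₂ e e = 0) {σ σ' : Module.End F U} (hσ : In X (K h σ e e))
    (hσ' : In X (K h σ' e e)) : In X (K h (σ - σ') e e) := by
  rw [sub_eq_add_neg]
  exact c_add h hee hσ (c_neg h hee hσ')

/-- central elements are skew -/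
lemma c_skew (h : TE B₁ B₂ B τ 1 1) (h2 : (2 : F) ≠ 0) (hX : HO B τ Om X) {e : W} (he : e ≠ 0) (hee : B₂ e e = 0)
    {σ : Module.End F U} (hσ : In X (K h σ e e)) (x x' : U) : B₁ (σ x) x' = - B₁ x (σ x') := by
  obtain ⟨g, hg, hgv⟩ := hσ
  obtain ⟨f, hef, hfe, hff⟩ := h.f₂.partner h2 he hee
  have h1 : ∀ x, g (τ x f) = τ x f + τ (σ x) e := by
    intro x
    rw [hgv, K_apply, kap_pure, hfe, one_smul]
  have h3 := hX.lei hg (τ x f) (τ x' f)
  rw [h1, h1] at h3
  simp only [map_add, LinearMap.add_apply, h.bp, hef, hfe, hff, hee] at h3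
  linear_combination h3

lemma siegO_inv {B₁ : LinearMap.BilinForm F U} {B₂ : LinearMap.BilinForm F W} {B : LinearMap.BilinForm F V}
    {τ : U →ₗ[F] W →ₗ[F] V} {s₁ s₂ : F} (h : TE B₁ B₂ B τ s₁ s₂) (h2 : (2 : F) ≠ 0) {e y : W} (he : B₂ e e = 0) (hy : B₂ y e = 0) {R : V ≃ₗ[F] V}
    (hR : ∀ u w, R (τ u w) = τ u (sg B₂ s₂ y e w)) (u : U) (w : W) : R⁻¹ (τ u w) = τ u (sg B₂ s₂ (-y) e w) :=
  sieg_inv h h2 he hy hR u w

/-- conjugation of central elements -/
lemma c_conj (h : TE B₁ B₂ B τ 1 1) (h2 : (2 : F) ≠ 0) (hX : HO B τ Om X) {e : W}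
    {σ : Module.End F U} (hσ : In X (K h σ e e)) {u y : U} (hu : B₁ u u = 0) (hy : B₁ y u = 0) :
    In X (K h (sg B₁ 1 y u ∘ₗ σ ∘ₗ sg B₁ 1 (-y) u) e e) := by
  obtain ⟨R, hR, hR1, -⟩ := exists_siegO h.symm h2 hX.symm hu hy
  refine hσ.conj hR fun v => ?_
  have h3 : ∀ x w, R⁻¹ (τ x w) = τ (sg B₁ 1 (-y) u x) w := fun x w => siegO_inv h.symm h2 hu hy hR1 w x
  have h4 : ∀ x w, R (τ x w) = τ (sg B₁ 1 y u x) w := fun x w => hR1 w x
  rw [K_apply, h4, kap_left_act h h3, K_apply]
  rfl

/-- the main trick -/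
theorem c_T (h : TE B₁ B₂ B τ 1 1) (h2 : (2 : F) ≠ 0) (hX : HO B τ Om X) {e : W} (he : e ≠ 0) (hee : B₂ e e = 0)
    {σ : Module.End F U} (hσ : In X (K h σ e e)) {u y : U} (hu : B₁ u u = 0) (hy : B₁ y u = 0) :
    In X (K h (nn B₁ u ((2 * B₁ (σ u) y) • y - B₁ y y • σ u)) e e) := by
  have h1 := c_conj h h2 hX hσ hu hy
  have h3 := c_conj h h2 hX hσ hu (y := -y) (by rw [map_neg, LinearMap.neg_apply, hy, neg_zero])
  rw [neg_neg] at h3
  have h4 := c_sub h hee (c_sub h hee (c_add h hee h1 h3) hσ) hσ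
  have hs := c_skew h h2 hX he hee hσ
  have huy : B₁ u y = 0 := h.f₁.zero_flip hy
  have hs0 : ∀ x, B₁ (σ x) x = 0 := by
    intro x
    have h5 := hs x x
    rw [h.f₁.flip x (σ x), one_mul] at h5
    have : 2 * B₁ (σ x) x = 0 := by linear_combination h5
    exact (mul_eq_zero.mp this).resolve_left h2
  have h5 : sg B₁ 1 y u ∘ₗ σ ∘ₗ sg B₁ 1 (-y) u + sg B₁ 1 (-y) u ∘ₗ σ ∘ₗ sg B₁ 1 y u - σ - σ =
      nn B₁ u ((2 * B₁ (σ u) y) • y - B₁ y y • σ u) := by
    ext x
    have e1 : B₁ (σ x) u = - B₁ (σ u) x := by rw [hs, h.f₁.flip x, one_mul]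
    have e2 : B₁ (σ x) y = - B₁ (σ y) x := by rw [hs, h.f₁.flip x, one_mul]
    have e3 : B₁ (σ y) u = - B₁ (σ u) y := by rw [hs, h.f₁.flip y, one_mul]
    have e4 : B₁ x (σ u) = B₁ (σ u) x := by rw [h.f₁.flip x, one_mul]
    simp only [nn_apply, LinearMap.sub_apply, LinearMap.add_apply, LinearMap.comp_apply, sg_apply, map_add, map_sub, map_smul,
      map_neg, LinearMap.neg_apply, LinearMap.smul_apply, smul_eq_mul, e1, e2, e3, e4, hs0]
    match_scalars <;> field_simp <;> ring
  rwa [h5] at h4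

/-- no central elements -/
theorem c_zero [Finite F] (h : TE B₁ B₂ B τ 1 1) (h2 : (2 : F) ≠ 0) (hX : HO B τ Om X) (hNR : NR h X) (hd : 3 ≤ finrank F U) {e : W}
    (he : e ≠ 0) (hee : B₂ e e = 0) {σ : Module.End F U} (hσ : In X (K h σ e e)) : σ = 0 := by
  have hs := c_skew h h2 hX he hee hσ
  have hs0 : ∀ x, B₁ (σ x) x = 0 := by
    intro x
    have h5 := hs x x
    rw [h.f₁.flip x (σ x), one_mul] at h5
    have : 2 * B₁ (σ x) x = 0 := by linear_combination h5
    exact (mul_eq_zero.mp this).resolve_left h2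
  have h1 : ∀ u, B₁ u u = 0 → ∃ c : F, σ u = c • u := by
    intro u hu
    by_cases hu0 : u = 0
    · exact ⟨0, by rw [hu0, map_zero, smul_zero]⟩
    by_contra hcon
    obtain ⟨y, hyu, hyy⟩ := exists_ns_perp h.f₁ h2 hd hu0 hu
    refine hNR u _ hu0 hu ?_ ?_ e he hee (c_T h h2 hX he hee hσ hu hyu)
    · simp only [map_sub, map_smul, LinearMap.sub_apply, LinearMap.smul_apply, hyu, hs0]
      simp
    · intro hmem
      obtain ⟨c, hc⟩ := Submodule.mem_span_singleton.mp hmem
      have h3 := congrArg (fun x => B₁ x y) hc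
      simp only [map_sub, map_smul, LinearMap.sub_apply, LinearMap.smul_apply, smul_eq_mul, h.f₁.zero_flip hyu] at h3
      have h4 : B₁ (σ u) y = 0 := by
        have : B₁ y y * B₁ (σ u) y = 0 := by linear_combination - h3
        exact (mul_eq_zero.mp this).resolve_left hyy
      rw [h4, mul_zero, zero_smul, zero_sub] at hc
      apply hcon
      refine ⟨- (B₁ y y)⁻¹ * c, ?_⟩
      rw [mul_smul, hc, smul_neg, neg_smul, neg_neg, smul_smul, inv_mul_cancel₀ hyy, one_smul]
  obtain ⟨c, hc⟩ := eig_iso h.f₁ h2 hd h1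
  obtain ⟨y, -, hyy⟩ : ∃ y : U, True ∧ B₁ y y ≠ 0 := by
    obtain ⟨u, -, hu0, hu⟩ := exists_iso h.f₁ h2 (S := (⊤ : Submodule F U)) (by rw [finrank_top]; exact hd)
    obtain ⟨y, hyu, hyy⟩ := exists_ns_perp h.f₁ h2 hd hu0 hu
    exact ⟨y, trivial, hyy⟩
  have h3 := hs0 y
  rw [hc, map_smul, LinearMap.smul_apply, smul_eq_mul] at h3
  have h4 : c = 0 := (mul_eq_zero.mp h3).resolve_right hyy
  ext u
  rw [hc, h4, zero_smul, LinearMap.zero_apply]

end H96.OoCent
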