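import Mathlib
import Cfsg.Agent.Lib.H96.StBase

set_option autoImplicit false
set_option linter.unusedSectionVars false
set_option linter.unusedVariables false
set_option linter.unusedSimpArgs false

/-!
Overgroups of the tensor product of two symplectic groups: the coefficient algebra.
-/

namespace H96.StN

open Module QuadraticMap H17.OrthAbs H95.OGeo H95.OSie H96.StAlg H96.StBase

variable {F U W V : Type*} [Field F] [AddCommGroup U] [Module F U] [AddCommGroup W] [Module F W] [AddCommGroup V]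
  [Module F V] [FiniteDimensional F U] [FiniteDimensional F W]
variable {B₁ : LinearMap.BilinForm F U} {B₂ : LinearMap.BilinForm F W} {τ : U →ₗ[F] W →ₗ[F] V} {Q : QuadraticForm F V}
variable {X : Subgroup (V ≃ₗ[F] V)}

/-- the group contains the root elements of the two factors -/
structure HX (h : TS B₁ B₂ τ Q) (X : Subgroup (V ≃ₗ[F] V)) : Prop where
  le : X ≤ O Q
  r₂ : ∀ (w : W) (c : F), In X (c • K h 1 w w)
  r₁ : ∀ (u : U) (c : F), In X (c • K h.symm 1 u u)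

variable {h : TS B₁ B₂ τ Q}

/-- `g` acts as `1 ⊗ b` -/
def Act (τ : U →ₗ[F] W →ₗ[F] V) (g : V ≃ₗ[F] V) (b : W → W) : Prop := ∀ u y, g (τ u y) = τ u (b y)

lemma conjK (h : TS B₁ B₂ τ Q) {g : V ≃ₗ[F] V} (hgO : g ∈ O Q) {b : W → W} (hg : Act τ g b) (n : Module.End F U)
    (y z : W) (v : V) : g (K h n y z (g⁻¹ v)) = K h n (b y) (b z) v := by
  have h1 : kap h z (g⁻¹ v) = kap h (b z) v := by
    refine h.s₁.ext fun u' => ?_
    rw [kap_left, kap_left, ← hg, ← polar_map hgO]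
    congr 1
    exact g.apply_symm_apply v
  rw [K_apply, hg, K_apply, h1]

lemma root_mem (hX : HX h X) (w : W) (c : F) : ∃ g ∈ X, (∀ v, g v = v + (c • K h 1 w w) v) ∧
    Act τ g (fun y => y + (c * B₂ y w) • w) := by
  obtain ⟨g, hg, e⟩ := hX.r₂ w c
  refine ⟨g, hg, e, fun u y => ?_⟩
  rw [e, LinearMap.smul_apply, K_apply, kap_pure]
  simp only [Module.End.one_apply, map_smul, LinearMap.smul_apply, map_add, smul_smul]

lemma heis (hX : HX h X) {p q : W} (hpq : B₂ p q = 0) (c : F) : In X (c • (K h 1 p q + K h 1 q p)) := by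
  have hqp : B₂ q p = 0 := by rw [h.s₂.flip, hpq, neg_zero]
  have h1 := ((hX.r₂ (p + q) c).sub (hX.r₂ p c) (by
    intro v
    simp [K_apply, h.s₂.alt, hpq, hqp]) (by
    intro v
    simp [K_apply, h.s₂.alt, hpq, hqp])).sub (hX.r₂ q c) (by
    intro v
    simp [K_apply, h.s₂.alt, hpq, hqp]) (by
    intro v
    simp [K_apply, h.s₂.alt, hpq, hqp])
  have h2 : c • K h 1 (p + q) (p + q) - c • K h 1 p p - c • K h 1 q q = c • (K h 1 p q + K h 1 q p) := by
    rw [K_add_left, K_add_right, K_add_right]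
    module
  rwa [h2] at h1

/-- an element adding `b` to `a` and fixing `b` and `c` -/
lemma mover (hX : HX h X) {a b c : W} (hab : B₂ a b = 0) (hcb : B₂ c b = 0)
    (ha : a ∉ Submodule.span F {b, c}) : ∃ g ∈ X, ∃ φ : W → W, Act τ g φ ∧ φ a = a + b ∧ φ b = b ∧ φ c = c := by
  obtain ⟨t, ht, hat⟩ := h.s₂.sep _ ha
  have hbt : B₂ b t = 0 := ht b (Submodule.subset_span (by simp))
  have hct : B₂ c t = 0 := ht c (Submodule.subset_span (by simp))
  obtain ⟨g, hg, e⟩ := heis hX hbt (B₂ a t)⁻¹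
  refine ⟨g, hg, fun y => y + ((B₂ a t)⁻¹ * B₂ y t) • b + ((B₂ a t)⁻¹ * B₂ y b) • t, ?_, ?_, ?_, ?_⟩
  · intro u y
    rw [e]
    simp only [LinearMap.smul_apply, LinearMap.add_apply, K_apply, kap_pure, Module.End.one_apply, map_smul, map_add,
      smul_smul, smul_add]
    abel
  · simp [inv_mul_cancel₀ hat, hab]
  · simp [hbt, h.s₂.alt]
  · simp [hct, hcb]

/-- the symmetric elements -/
noncomputable def G (h : TS B₁ B₂ τ Q) (n : Module.End F U) (w₁ w₂ : W) : Module.End F V :=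
  K h n w₁ w₂ + K h (h.s₁.adj n) w₂ w₁

lemma G_swap (h : TS B₁ B₂ τ Q) (n : Module.End F U) (w₁ w₂ : W) : G h (h.s₁.adj n) w₂ w₁ = G h n w₁ w₂ := by
  rw [G, G, h.s₁.adj_adj, add_comm]

lemma G_add_right (h : TS B₁ B₂ τ Q) (n : Module.End F U) (w₁ w₂ w₃ : W) :
    G h n w₁ (w₂ + w₃) = G h n w₁ w₂ + G h n w₁ w₃ := by
  rw [G, G, G, K_add_left, K_add_right]; abel

lemma G_add (h : TS B₁ B₂ τ Q) (n n' : Module.End F U) (w₁ w₂ : W) : G h (n + n') w₁ w₂ = G h n w₁ w₂ + G h n' w₁ w₂ := by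
  rw [G, G, G, K_add, h.s₁.adj_add, K_add]; abel

lemma G_smul (h : TS B₁ B₂ τ Q) (c : F) (n : Module.End F U) (w₁ w₂ : W) : G h (c • n) w₁ w₂ = G h n (c • w₁) w₂ := by
  rw [G, G, K_smul, h.s₁.adj_smul, K_smul, K_smul_left, K_smul_right]

lemma G_smul' (h : TS B₁ B₂ τ Q) (c : F) (n : Module.End F U) (w₁ w₂ : W) : G h (c • n) w₁ w₂ = c • G h n w₁ w₂ := by
  rw [G, G, K_smul, h.s₁.adj_smul, K_smul, smul_add]

lemma G_apply (h : TS B₁ B₂ τ Q) (n : Module.End F U) (w₁ w₂ : W) (v : V) :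
    G h n w₁ w₂ v = τ (n (kap h w₂ v)) w₁ + τ (h.s₁.adj n (kap h w₁ v)) w₂ := rfl

lemma G_conj (hX : HX h X) {n : Module.End F U} {w₁ w₂ : W} (hG : In X (G h n w₁ w₂)) {g : V ≃ₗ[F] V} (hg : g ∈ X)
    {φ : W → W} (hφ : Act τ g φ) : In X (G h n (φ w₁) (φ w₂)) := by
  refine hG.conj hg fun v => ?_
  rw [G, LinearMap.add_apply, map_add, conjK h (hX.le hg) hφ, conjK h (hX.le hg) hφ]
  rfl

/-- one step for the second vector -/
lemma step (hX : HX h X) {n : Module.End F U} {w₁ w₂ z : W} (h12 : B₂ w₁ w₂ = 0) (h1z : B₂ w₁ z = 0) (h2z : B₂ w₂ z = 0)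
    (hw : w₂ ∉ Submodule.span F {z, w₁}) (hG : In X (G h n w₁ w₂)) : In X (G h n w₁ z) := by
  have h21 : B₂ w₂ w₁ = 0 := by rw [h.s₂.flip, h12, neg_zero]
  have hz1 : B₂ z w₁ = 0 := by rw [h.s₂.flip, h1z, neg_zero]
  have hz2 : B₂ z w₂ = 0 := by rw [h.s₂.flip, h2z, neg_zero]
  obtain ⟨g, hg, φ, hφ, e1, e2, e3⟩ := mover hX h2z h1z hw
  have h1 := G_conj hX hG hg hφ
  rw [e1, e3] at h1
  have h2 := h1.sub hG (by
    intro v
    simp [G_apply, h.s₂.alt, h12, h21, hz1, hz2, h1z, h2z]) (by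
    intro v
    simp [G_apply, h.s₂.alt, h12, h21, hz1, hz2, h1z, h2z])
  rwa [G_add_right, add_sub_cancel_left] at h2

/-- orthogonal complement of a family of three vectors -/
lemma exists_perp3 (B₂ : LinearMap.BilinForm F W) (hm : 6 ≤ finrank F W) (a b c : W) {S T : Submodule F W}
    (hS : finrank F S ≤ 2) (hT : finrank F T ≤ 2) :
    ∃ z, B₂ z a = 0 ∧ B₂ z b = 0 ∧ B₂ z c = 0 ∧ z ∉ S ∧ z ∉ T := by
  let L : W →ₗ[F] (F × (F × F)) := (B₂.flip a).prod ((B₂.flip b).prod (B₂.flip c))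
  have h3 := L.finrank_range_add_finrank_ker
  have h4 := Submodule.finrank_le (LinearMap.range L)
  rw [finrank_prod, finrank_prod, finrank_self] at h4
  have h5 : ∀ S : Submodule F W, finrank F S ≤ 2 → ¬ LinearMap.ker L ≤ S := by
    intro S hS hle
    have := Submodule.finrank_mono hle
    omega
  obtain ⟨z, hz, h6, h7⟩ := exists_avoid (h5 S hS) (h5 T hT)
  rw [LinearMap.mem_ker] at hz
  exact ⟨z, congrArg Prod.fst hz, congrArg (fun x => x.2.1) hz, congrArg (fun x => x.2.2) hz, h6, h7⟩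

lemma finrank_span2 (a b : W) : finrank F (Submodule.span F ({a, b} : Set W)) ≤ 2 := by
  classical
  have h1 := finrank_span_finset_le_card (R := F) ({a, b} : Finset W)
  rw [Finset.coe_pair] at h1
  exact h1.trans Finset.card_le_two

lemma not_mem_swap {a b c : W} (h1 : a ∉ Submodule.span F {b}) (h2 : c ∉ Submodule.span F {b, a}) :
    a ∉ Submodule.span F {c, b} := by
  intro h3
  rw [Submodule.mem_span_pair] at h3
  obtain ⟨x, y, hxy⟩ := h3
  by_cases hx : x = 0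
  · apply h1
    rw [hx, zero_smul, zero_add] at hxy
    rw [← hxy]
    exact Submodule.smul_mem _ _ (Submodule.mem_span_singleton_self _)
  · apply h2
    rw [Submodule.mem_span_pair]
    refine ⟨- (x⁻¹ * y), x⁻¹, ?_⟩
    rw [← hxy, smul_add, smul_smul, smul_smul, inv_mul_cancel₀ hx]
    module

/-- all second vectors -/
lemma stepR (hX : HX h X) (hm : 6 ≤ finrank F W) {n : Module.End F U} {w₁ w₂ z : W} (h12 : B₂ w₁ w₂ = 0)
    (hw : w₂ ∉ Submodule.span F {w₁}) (hG : In X (G h n w₁ w₂)) (h1z : B₂ w₁ z = 0) (hz : z ∉ Submodule.span F {w₁}) :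
    In X (G h n w₁ z) := by
  obtain ⟨t, t1, t2, t3, t4, t5⟩ := exists_perp3 B₂ hm w₁ w₂ z (finrank_span2 w₁ w₂) (finrank_span2 w₁ z)
  have h1t : B₂ w₁ t = 0 := by rw [h.s₂.flip, t1, neg_zero]
  have h2t : B₂ w₂ t = 0 := by rw [h.s₂.flip, t2, neg_zero]
  have h1 := step hX h12 h1t h2t (not_mem_swap hw t4) hG
  refine step hX h1t h1z t3 ?_ h1
  intro h2
  rw [Submodule.mem_span_pair] at h2
  apply t5
  obtain ⟨x, y, hxy⟩ := h2
  rw [Submodule.mem_span_pair]
  exact ⟨y, x, by rw [← hxy, add_comm]⟩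

/-- one pair gives all pairs -/
lemma allpairs (hX : HX h X) (hm : 6 ≤ finrank F W) {n : Module.End F U} {w₁ w₂ : W} (h12 : B₂ w₁ w₂ = 0)
    (hw : w₂ ∉ Submodule.span F {w₁}) (hw₁ : w₁ ≠ 0) (hG : In X (G h n w₁ w₂)) {y z : W} (hyz : B₂ y z = 0) :
    In X (G h n y z) := by
  by_cases hy : y = 0
  · have : G h n y z = 0 := by
      ext v
      rw [hy, G_apply]
      simp
    rw [this]; exact In.zero
  have key : ∀ z, B₂ y z = 0 → z ∉ Submodule.span F {y} → In X (G h n y z) := by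
    intro z hyz hz
    have f1 : ∀ a : W, finrank F (Submodule.span F {a}) ≤ 2 := fun a => by
      have := finrank_span2 (F := F) a a
      rwa [Set.pair_eq_singleton] at this
    obtain ⟨t, t1, t2, t3, t4, t5⟩ := exists_perp3 B₂ hm w₁ y y (f1 w₁) (f1 y)
    have h1t : B₂ w₁ t = 0 := by rw [h.s₂.flip, t1, neg_zero]
    have hyt : B₂ y t = 0 := by rw [h.s₂.flip, t2, neg_zero]
    have ht0 : t ≠ 0 := by rintro rfl; exact t4 (Submodule.zero_mem _)
    have h1 := stepR hX hm h12 hw hG h1t t4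
    rw [← G_swap] at h1
    have h2 : ∀ a b : W, a ≠ 0 → b ∉ Submodule.span F {a} → a ∉ Submodule.span F {b} := by
      intro a b ha hb hab
      obtain ⟨c, rfl⟩ := Submodule.mem_span_singleton.mp hab
      apply hb
      have hc : c ≠ 0 := by rintro rfl; exact ha (zero_smul _ _)
      exact Submodule.mem_span_singleton.mpr ⟨c⁻¹, by rw [smul_smul, inv_mul_cancel₀ hc, one_smul]⟩
    have h3 := stepR hX hm t1 (h2 _ _ hw₁ t4) h1 t2 (h2 _ _ hy t5)
    rw [G_swap] at h3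
    exact stepR hX hm hyt t5 h3 hyz hz
  by_cases hz : z ∈ Submodule.span F {y}
  · have f1 : ∀ a : W, finrank F (Submodule.span F {a}) ≤ 2 := fun a => by
      have := finrank_span2 (F := F) a a
      rwa [Set.pair_eq_singleton] at this
    obtain ⟨t, t1, t2, t3, t4, t5⟩ := exists_perp3 B₂ hm y z y (f1 y) (f1 y)
    have hyt : B₂ y t = 0 := by rw [h.s₂.flip, t1, neg_zero]
    have hzt : B₂ z t = 0 := by rw [h.s₂.flip, t2, neg_zero]
    have hzy : B₂ z y = 0 := by rw [h.s₂.flip, hyz, neg_zero]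
    have h1 := key t hyt t4
    have h2 := key (t + z) (by rw [map_add, hyt, hyz, add_zero]) (by
      intro h; exact t4 ((Submodule.add_mem_iff_left _ hz).mp h))
    have h3 := h2.sub h1 (by
      intro v
      simp [G_apply, h.s₂.alt, hyt, hyz, t1, t2, hzt, hzy]) (by
      intro v
      simp [G_apply, h.s₂.alt, hyt, hyz, t1, t2, hzt, hzy])
    rwa [G_add_right, add_sub_cancel_left] at h3
  · exact key z hyz hz

lemma exists_hyp2 (h : TS B₁ B₂ τ Q) (hm : 6 ≤ finrank F W) (a b : W) : ∃ p q, B₂ p a = 0 ∧ B₂ p b = 0 ∧ B₂ q a = 0 ∧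
    B₂ q b = 0 ∧ B₂ p q = 1 := by
  obtain ⟨p, p1, p2, p3, p4, p5⟩ := exists_perp3 B₂ hm a b b (finrank_span2 a b) (finrank_span2 a b)
  obtain ⟨q, q1, q2⟩ := h.s₂.sep _ p4
  refine ⟨p, (B₂ p q)⁻¹ • q, p1, p2, ?_, ?_, ?_⟩
  · rw [h.s₂.flip, map_smul, q1 a (Submodule.subset_span (by simp)), smul_zero, neg_zero]
  · rw [h.s₂.flip, map_smul, q1 b (Submodule.subset_span (by simp)), smul_zero, neg_zero]
  · rw [map_smul, smul_eq_mul, inv_mul_cancel₀ q2]

/-- the coefficient algebra -/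
noncomputable def NN (hX : HX h X) (hm : 6 ≤ finrank F W) : Subalgebra F (Module.End F U) where
  carrier := {n | ∀ w₁ w₂, B₂ w₁ w₂ = 0 → In X (G h n w₁ w₂)}
  mul_mem' := by
    intro n n' hn hn' w₁ w₄ h14
    obtain ⟨w₂, w₃, h21, h24, h31, h34, h23⟩ := exists_hyp2 h hm w₁ w₄
    have h41 : B₂ w₄ w₁ = 0 := by rw [h.s₂.flip, h14, neg_zero]
    have h12 : B₂ w₁ w₂ = 0 := by rw [h.s₂.flip, h21, neg_zero]
    have h42 : B₂ w₄ w₂ = 0 := by rw [h.s₂.flip, h24, neg_zero]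
    have h13 : B₂ w₁ w₃ = 0 := by rw [h.s₂.flip, h31, neg_zero]
    have h43 : B₂ w₄ w₃ = 0 := by rw [h.s₂.flip, h34, neg_zero]
    have h32 : B₂ w₃ w₂ = -1 := by rw [h.s₂.flip, h23]
    have h1 := (hn w₁ w₂ h12).comm (hn' w₃ w₄ h34) (by
      intro v
      simp [G_apply, h.s₂.alt, h12, h21, h24, h42, h31, h13, h34, h43, h23, h32, h14, h41]) (by
      intro v
      simp [G_apply, h.s₂.alt, h12, h21, h24, h42, h31, h13, h34, h43, h23, h32, h14, h41]) (by
      intro v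
      simp [G_apply, h.s₂.alt, h12, h21, h24, h42, h31, h13, h34, h43, h23, h32, h14, h41]) (by
      intro v
      simp [G_apply, h.s₂.alt, h12, h21, h24, h42, h31, h13, h34, h43, h23, h32, h14, h41])
    have h2 := h1.neg (by
      intro v
      simp [G_apply, h.s₂.alt, h12, h21, h24, h42, h31, h13, h34, h43, h23, h32, h14, h41])
    convert h2 using 1
    ext v
    simp [G_apply, h.s₂.alt, h12, h21, h24, h42, h31, h13, h34, h43, h23, h32, h14, h41, h.s₁.adj_mul]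
    abel
  add_mem' := by
    intro n n' hn hn' w₁ w₂ h12
    have h21 : B₂ w₂ w₁ = 0 := by rw [h.s₂.flip, h12, neg_zero]
    rw [G_add]
    refine (hn w₁ w₂ h12).mul (hn' w₁ w₂ h12) fun v => ?_
    simp [G_apply, h.s₂.alt, h12, h21]
  algebraMap_mem' := by
    intro c w₁ w₂ h12
    have h1 := heis hX h12 c
    have h2 : G h (algebraMap F (Module.End F U) c) w₁ w₂ = c • (K h 1 w₁ w₂ + K h 1 w₂ w₁) := by
      rw [Algebra.algebraMap_eq_smul_one, G_smul', G, h.s₁.adj_one]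
    rw [h2]; exact h1

lemma mem_NN (hX : HX h X) (hm : 6 ≤ finrank F W) {n : Module.End F U} :
    n ∈ NN hX hm ↔ ∀ w₁ w₂, B₂ w₁ w₂ = 0 → In X (G h n w₁ w₂) := Iff.rfl

end H96.StN
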