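import Mathlib
import Cfsg.Agent.Lib.H96.TeE

set_option autoImplicit false
set_option linter.unusedSectionVars false
set_option linter.unusedVariables false
set_option linter.unusedSimpArgs false

/-!
Overgroups of the tensor product of a symplectic and an orthogonal group containing a transvection.
-/

namespace H96.TeA

open Module H95.SpBasic H96.TeBase H96.TeNorm H96.TeC H96.TeE

lemma avoid2 {F M N₁ N₂ : Type*} [Field F] [AddCommGroup M] [Module F M] [AddCommGroup N₁] [Module F N₁]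
      [AddCommGroup N₂] [Module F N₂] {f : M →ₗ[F] N₁} {g : M →ₗ[F] N₂} (hf : ∃ x, f x ≠ 0) (hg : ∃ x, g x ≠ 0) :
      ∃ x, f x ≠ 0 ∧ g x ≠ 0 := by
  obtain ⟨a, ha⟩ := hf
  obtain ⟨b, hb⟩ := hg
  by_cases h1 : g a = 0
  · by_cases h2 : f b = 0
    · exact ⟨a + b, by rwa [map_add, h2, add_zero], by rwa [map_add, h1, zero_add]⟩
    · exact ⟨b, h2, hb⟩
  · exact ⟨a, ha, h1⟩

lemma zero_of_pm {F N : Type*} [Field F] [AddCommGroup N] [Module F N] (h2 : (2 : F) ≠ 0) {a b : N} (h1 : a + b = 0)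
    (h3 : a - b = 0) : a = 0 := by
  have h4 : (2 : F) • a = 0 := by
    have : (2 : F) • a = (a + b) + (a - b) := by module
    rw [this, h1, h3, add_zero]
  exact (smul_eq_zero.mp h4).resolve_left h2

/-- three non-zero maps do not cover -/
lemma avoid3 {F M N₁ N₂ N₃ : Type*} [Field F] [AddCommGroup M] [Module F M] [AddCommGroup N₁] [Module F N₁]
    [AddCommGroup N₂] [Module F N₂] [AddCommGroup N₃] [Module F N₃] (h2 : (2 : F) ≠ 0) {f : M →ₗ[F] N₁} {g : M →ₗ[F] N₂}
    {k : M →ₗ[F] N₃} (hf : ∃ x, f x ≠ 0) (hg : ∃ x, g x ≠ 0) (hk : ∃ x, k x ≠ 0) : ∃ x, f x ≠ 0 ∧ g x ≠ 0 ∧ k x ≠ 0 := by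
  obtain ⟨x, hx1, hx2⟩ := avoid2 hf hg
  by_cases hx3 : k x = 0
  · obtain ⟨y, hy⟩ := hk
    by_cases h1 : f y = 0
    · by_cases h3 : g (x + y) = 0
      · by_cases h4 : g (x - y) = 0
        · exfalso
          rw [map_add] at h3
          rw [map_sub] at h4
          exact hx2 (zero_of_pm h2 h3 h4)
        · exact ⟨x - y, by rwa [map_sub, h1, sub_zero], h4, by rw [map_sub, hx3, zero_sub]; exact neg_ne_zero.mpr hy⟩
      · exact ⟨x + y, by rwa [map_add, h1, add_zero], h3, by rwa [map_add, hx3, zero_add]⟩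
    · by_cases h5 : g y = 0
      · by_cases h3 : f (x + y) = 0
        · by_cases h4 : f (x - y) = 0
          · exfalso
            rw [map_add] at h3
            rw [map_sub] at h4
            exact hx1 (zero_of_pm h2 h3 h4)
          · exact ⟨x - y, h4, by rwa [map_sub, h5, sub_zero], by rw [map_sub, hx3, zero_sub]; exact neg_ne_zero.mpr hy⟩
        · exact ⟨x + y, h3, by rwa [map_add, h5, add_zero], by rwa [map_add, hx3, zero_add]⟩
      · exact ⟨y, h1, h5, hy⟩
  · exact ⟨x, hx1, hx2, hx3⟩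

variable {F U W V : Type*} [Field F] [AddCommGroup U] [Module F U] [AddCommGroup W] [Module F W] [AddCommGroup V]
  [Module F V] [FiniteDimensional F U] [FiniteDimensional F W]
variable {B₁ : LinearMap.BilinForm F U} {B₂ : LinearMap.BilinForm F W} {B : LinearMap.BilinForm F V}
  {τ : U →ₗ[F] W →ₗ[F] V} {X : Subgroup (V ≃ₗ[F] V)}

/-- all transvections with centre `v` are in the group -/
def De (hB : B.IsAlt) (X : Subgroup (V ≃ₗ[F] V)) (v : V) : Prop := ∀ c : F, tr B hB v c ∈ X

lemma De.add {hB : B.IsAlt} (hX : X ≤ isom B) {v v' : V} (hv : De hB X v) (hv' : De hB X v') (h : B v' v ≠ 0) :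
    De hB X (v' + v) := by
  intro c
  have h1 := tr_conj B hB v' c (tr B hB v (B v' v)⁻¹) (tr_mem_isom B hB _ _)
  rw [tr_apply, inv_mul_cancel₀ h, one_smul] at h1
  rw [← h1]
  exact X.mul_mem (X.mul_mem (hv _) (hv' _)) (X.inv_mem (hv _))

lemma De.smul {hB : B.IsAlt} {v : V} (hv : De hB X v) (a : F) : De hB X (a • v) := by
  intro c
  rw [tr_smul]
  exact hv _

lemma De.map {hB : B.IsAlt} (hX : X ≤ isom B) {v : V} (hv : De hB X v) {g : V ≃ₗ[F] V} (hg : g ∈ X) : De hB X (g v) := by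
  intro c
  rw [← tr_conj B hB v c g (hX hg)]
  exact X.mul_mem (X.mul_mem hg (hv _)) (X.inv_mem hg)

lemma isAlt_of (h : TE B₁ B₂ B τ (-1) 1) (h2 : (2 : F) ≠ 0) : B.IsAlt := by
  intro x
  have h1 := h.f
  rw [mul_one] at h1
  have h3 := h1.flip x x
  have h4 : 2 * B x x = 0 := by linear_combination h3
  exact (mul_eq_zero.mp h4).resolve_left h2

/-- transitivity on the vectors of `U` -/
lemma trans_U (h : TE B₁ B₂ B τ (-1) 1) (h2 : (2 : F) ≠ 0) (hX : HX B τ X) {u u' : U} (hu : u ≠ 0) (hu' : u' ≠ 0) :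
    ∃ g ∈ X, ∀ w, g (τ u w) = τ u' w := by
  have step : ∀ u u' : U, B₁ u u' ≠ 0 → ∃ g ∈ X, ∀ w, g (τ u w) = τ u' w := by
    intro u u' huu
    obtain ⟨T, hT, hT1, -, -⟩ := exists_tr h h2 hX (u' - u) (B₁ u u')⁻¹
    refine ⟨T, hT, fun w => ?_⟩
    rw [hT1, map_sub, alt_of h.f₁ h2 u, sub_zero, inv_mul_cancel₀ huu, one_smul, add_sub_cancel]
  obtain ⟨z₁, h1⟩ := h.f₁.one hu
  obtain ⟨z₂, h3⟩ := h.f₁.one hu'
  obtain ⟨z, hz1, hz2⟩ := exists_both_ne (f := (B₁ u)) (g := (B₁ u')) ⟨z₁, by rw [h1]; exact one_ne_zero⟩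
    ⟨z₂, by rw [h3]; exact one_ne_zero⟩
  obtain ⟨g, hg, hgg⟩ := step u z hz1
  obtain ⟨g', hg', hgg'⟩ := step z u' (by rw [h.f₁.flip]; exact mul_ne_zero (neg_ne_zero.mpr one_ne_zero) hz2)
  exact ⟨g' * g, X.mul_mem hg' hg, fun w => by rw [LinearEquiv.mul_apply, hgg, hgg']⟩

/-- transitivity on the isotropic vectors of `W`, up to orthogonality -/
lemma exists_refl (h : TE B₁ B₂ B τ (-1) 1) (h2 : (2 : F) ≠ 0) (hX : HX B τ X) {y : W} (hyy : B₂ y y ≠ 0) :
    ∃ S ∈ X, ∀ u w, S (τ u w) = τ u (w - (2 / B₂ y y * B₂ w y) • y) := by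
  let ρ : Module.End F W := 1 - (2 / B₂ y y) • (LinearMap.flip B₂ y).smulRight y
  have hρ : ∀ w, ρ w = w - (2 / B₂ y y * B₂ w y) • y := fun w => by
    simp only [ρ, LinearMap.sub_apply, Module.End.one_apply, LinearMap.smul_apply, LinearMap.smulRight_apply,
      LinearMap.flip_apply, smul_smul]
  have hρρ : ∀ w, ρ (ρ w) = w := by
    intro w
    rw [hρ, hρ]
    simp only [map_sub, map_smul, LinearMap.sub_apply, LinearMap.smul_apply, smul_eq_mul]
    match_scalars
    · ring
    · field_simp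
      ring
  have hρi : ∀ w w', B₂ (ρ w) (ρ w') = B₂ w w' := by
    intro w w'
    rw [hρ, hρ]
    simp only [map_sub, map_smul, LinearMap.sub_apply, LinearMap.smul_apply, smul_eq_mul]
    rw [h.f₂.flip y w']
    field_simp
    ring
  obtain ⟨S, hS, hSS⟩ := exists_mem h hX 1 (LinearEquiv.ofLinearMap ρ ρ (by ext w; exact hρρ w) (by ext w; exact hρρ w))
    (fun u w u' w' => by
      have := hρi w w'
      change B₁ u u' * B₂ (ρ w) (ρ w') = _
      rw [this])
  refine ⟨S, hS, fun u w => ?_⟩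
  rw [hSS]
  change τ u (ρ w) = _
  rw [hρ]

/-- Lemma A -/
theorem all_of_tr [Finite F] (h : TE B₁ B₂ B τ (-1) 1) (h2 : (2 : F) ≠ 0) (hX : HX B τ X) [FiniteDimensional F V]
    (hm : 3 ≤ finrank F W) {u₀ : U} {e₀ : W} {c₀ : F} (hu₀ : u₀ ≠ 0) (he₀ : e₀ ≠ 0) (hee₀ : B₂ e₀ e₀ = 0) (hc₀ : c₀ ≠ 0)
    (hg : ∃ g ∈ X, ∀ v, g v = v + (c₀ * B v (τ u₀ e₀)) • τ u₀ e₀) : isom B ≤ X := by
  have hB := isAlt_of h h2
  have halt := fun x => alt_of h.f₁ h2 x
  have h0 : tr B hB (τ u₀ e₀) c₀ ∈ X := by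
    obtain ⟨g, hg, hgg⟩ := hg
    have : tr B hB (τ u₀ e₀) c₀ = g := by
      ext v
      rw [tr_apply, hgg]
    rwa [this]
  -- all scalars
  have h1 : ∀ u : U, De hB X (τ u e₀) := by
    intro u c
    by_cases hu : u = 0
    · have : tr B hB (τ u e₀) c = 1 := by
        ext v
        rw [tr_apply, hu]
        simp
      rw [this]; exact X.one_mem
    have hsq : ∀ a : F, tr B hB (τ u e₀) (c₀ * a ^ 2) ∈ X := by
      intro a
      by_cases ha : a = 0
      · rw [ha, zero_pow two_ne_zero, mul_zero, tr_zero]; exact X.one_mem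
      obtain ⟨g, hg, hgg⟩ := trans_U h h2 hX hu₀ (u' := a • u) (smul_ne_zero ha hu)
      have h3 := tr_conj B hB (τ u₀ e₀) c₀ g (hX.le hg)
      rw [hgg, map_smul, LinearMap.smul_apply, tr_smul] at h3
      rw [← h3]
      exact X.mul_mem (X.mul_mem hg h0) (X.inv_mem hg)
    obtain ⟨x, hx⟩ : ∃ x, x = c / c₀ := ⟨_, rfl⟩
    have h3 : c = c₀ * ((x + 1) / 2) ^ 2 + -(c₀ * ((x - 1) / 2) ^ 2) := by
      rw [hx]
      field_simp
      ring
    rw [h3, ← tr_mul, ← tr_inv]
    exact X.mul_mem (hsq _) (X.inv_mem (hsq _))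
  -- all isotropic vectors
  have step : ∀ e e' : W, B₂ e e = 0 → B₂ e' e' = 0 → B₂ e e' ≠ 0 → (∀ u, De hB X (τ u e)) → ∀ u, De hB X (τ u e') := by
    intro e e' he he' hee hD u
    have h3 : B₂ (e - e') (e - e') = -2 * B₂ e e' := by
      simp only [map_sub, LinearMap.sub_apply, he, he', h.f₂.flip e' e]
      ring
    obtain ⟨S, hS, hSS⟩ := exists_refl h h2 hX (y := e - e') (by rw [h3]; exact mul_ne_zero (neg_ne_zero.mpr h2) hee)
    have h4 := (hD u).map hX.le hS
    have h5 : e - (2 / B₂ (e - e') (e - e') * B₂ e (e - e')) • (e - e') = e' := by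
      rw [h3, map_sub, he]
      have : 2 / (-2 * B₂ e e') * (0 - B₂ e e') = 1 := by field_simp; ring
      rw [this, one_smul, sub_sub_cancel]
    rwa [hSS, h5] at h4
  have h3 : ∀ e : W, B₂ e e = 0 → ∀ u, De hB X (τ u e) := by
    intro e he
    by_cases hee : B₂ e₀ e = 0
    · by_cases hs : e ∈ Submodule.span F {e₀}
      · obtain ⟨c, rfl⟩ := Submodule.mem_span_singleton.mp hs
        intro u
        rw [map_smul]
        exact (h1 u).smul c
      · obtain ⟨z₁, ha, hb⟩ := h.f₂.sep1 hs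
        obtain ⟨z₂, hc, hd⟩ := h.f₂.sep1 (span_symm he₀ hs)
        obtain ⟨z, hz⟩ : ∃ z, z = z₁ + z₂ := ⟨_, rfl⟩
        have hz1 : B₂ e₀ z = 1 := by rw [hz, map_add, ha, hd, zero_add]
        have hz2 : B₂ e z = 1 := by rw [hz, map_add, hb, hc, add_zero]
        have hz1' : B₂ z e₀ = 1 := by rw [h.f₂.flip, hz1, mul_one]
        have hz2' : B₂ z e = 1 := by rw [h.f₂.flip, hz2, mul_one]
        obtain ⟨f, hf⟩ : ∃ f, f = z - (B₂ z z / 2) • e₀ := ⟨_, rfl⟩
        have hff : B₂ f f = 0 := by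
          rw [hf]
          simp only [map_sub, map_smul, LinearMap.sub_apply, LinearMap.smul_apply, smul_eq_mul, hz1, hz1', hee₀]
          field_simp
          ring
        have hef : B₂ e₀ f = 1 := by rw [hf, map_sub, map_smul, hee₀, hz1]; simp
        have hfe : B₂ f e = 1 := by
          rw [hf, map_sub, map_smul, LinearMap.sub_apply, LinearMap.smul_apply, hee, hz2']; simp
        exact step f e hff he (by rw [hfe]; exact one_ne_zero)
          (step e₀ f hee₀ hff (by rw [hef]; exact one_ne_zero) h1)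
    · exact step e₀ e hee₀ he hee h1
  -- all pure vectors
  have hsub : ∀ v v' : V, De hB X v → De hB X v' → B v' v ≠ 0 → De hB X (v' - v) := by
    intro v v' hv hv' hvv
    have := De.add hX.le (hv.smul (-1)) hv' (by rw [map_smul, smul_eq_mul]; exact mul_ne_zero (neg_ne_zero.mpr one_ne_zero) hvv)
    rwa [neg_one_smul, ← sub_eq_add_neg] at this
  have h4 : ∀ u w, De hB X (τ u w) := by
    intro u w
    by_cases hww : B₂ w w = 0
    · exact h3 w hww u
    by_cases hu : u = 0
    · rw [hu, map_zero, LinearMap.zero_apply]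
      have := (h1 0).smul 0
      rwa [zero_smul] at this
    -- an isotropic vector not orthogonal to w
    obtain ⟨e, hee, hew⟩ : ∃ e, B₂ e e = 0 ∧ B₂ e w ≠ 0 := by
      by_cases h5 : B₂ e₀ w = 0
      · obtain ⟨f, hef, hfe, hff⟩ := h.f₂.partner h2 he₀ hee₀
        by_cases h6 : B₂ f w = 0
        · -- w ⊥ e₀, f
          have hwe : B₂ w e₀ = 0 := h.f₂.zero_flip h5
          have hwf : B₂ w f = 0 := h.f₂.zero_flip h6
          refine ⟨f + w - (B₂ w w / 2) • e₀, ?_, ?_⟩
          · simp only [map_sub, map_add, map_smul, LinearMap.sub_apply, LinearMap.add_apply, LinearMap.smul_apply, smul_eq_mul,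
              hff, h6, hfe, hwe, hwf, h5, hef, hee₀]
            field_simp
            ring
          · simp only [map_sub, map_add, map_smul, LinearMap.sub_apply, LinearMap.add_apply, LinearMap.smul_apply, smul_eq_mul,
              h6, h5, mul_zero, zero_add, sub_zero]
            exact hww
        · exact ⟨f, hff, h6⟩
      · exact ⟨e₀, hee₀, h5⟩
    obtain ⟨α, hα⟩ : ∃ α, α = B₂ w w / (2 * B₂ e w) := ⟨_, rfl⟩
    have hα0 : α ≠ 0 := by rw [hα]; exact div_ne_zero hww (mul_ne_zero h2 hew)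
    have hwe : B₂ w e = B₂ e w := by rw [h.f₂.flip, one_mul]
    obtain ⟨f, hf⟩ : ∃ f, f = w - α • e := ⟨_, rfl⟩
    have hff : B₂ f f = 0 := by
      rw [hf, hα]
      simp only [map_sub, map_smul, LinearMap.sub_apply, LinearMap.smul_apply, smul_eq_mul, hee, hwe]
      field_simp
      ring
    have hef : B₂ e f = B₂ e w := by rw [hf, map_sub, map_smul, hee, smul_zero, sub_zero]
    obtain ⟨u', hu'⟩ := h.f₁.one hu
    have d1 : De hB X (τ u (α • e)) := h3 _ (by rw [map_smul, map_smul, LinearMap.smul_apply, hee, smul_zero, smul_zero]) u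
    have d2 : De hB X (τ u' f) := h3 f hff u'
    have d3 : De hB X (τ u (α • e) + τ u' f) := De.add hX.le d2 d1 (by
      rw [h.bp, hu', map_smul, LinearMap.smul_apply, hef, one_mul]
      exact mul_ne_zero hα0 hew)
    obtain ⟨T, hT, hT1, -, -⟩ := exists_tr h h2 hX u (-1)
    have d4 := d3.map hX.le hT
    have hu'u : B₁ u' u = -1 := by rw [h.f₁.flip, hu', mul_one]
    rw [map_add, hT1, hT1, halt, hu'u] at d4
    have d5 := hsub _ _ d2 d4 (by
      simp only [map_add, map_smul, LinearMap.add_apply, LinearMap.smul_apply, mul_zero, zero_smul, add_zero, h.bp, hu', hff,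
        hef, halt, mul_neg, mul_one, neg_neg, one_smul, one_mul, smul_eq_mul]
      exact mul_ne_zero hα0 hew)
    have h7 : τ (u + (-1 * (0 : F)) • u) (α • e) + τ (u' + (-1 * (-1 : F)) • u) f - τ u' f = τ u w := by
      rw [hf]
      simp only [mul_zero, zero_smul, add_zero, mul_neg, mul_one, neg_neg, one_smul, map_add, LinearMap.add_apply, map_sub]
      abel
    rwa [h7] at d5
  -- the subspace
  have h5 : ∀ v s : V, De hB X v → De hB X s → De hB X (v + s) := by
    intro v s hv hs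
    by_cases hvs : B v s = 0
    · by_cases hv0 : v = 0
      · rw [hv0, zero_add]; exact hs
      by_cases hs0 : s = 0
      · rw [hs0, add_zero]; exact hv
      by_cases hsum : v + s = 0
      · rw [hsum]
        have := hv.smul 0
        rwa [zero_smul] at this
      have e1 : ∀ v : V, v ≠ 0 → ∃ w, (LinearMap.flip (kap h) v) w ≠ 0 := by
        intro v hv
        by_contra hcon
        push Not at hcon
        exact hv (kap_zero h hcon)
      obtain ⟨w, hw1, hw2, hw3⟩ := avoid3 h2 (e1 v hv0) (e1 s hs0) (e1 _ hsum)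
      simp only [LinearMap.flip_apply] at hw1 hw2 hw3
      have e2 : ∀ a : U, a ≠ 0 → ∃ x, B₁ a x ≠ 0 := by
        intro a ha
        obtain ⟨x, hx⟩ := h.f₁.one ha
        exact ⟨x, by rw [hx]; exact one_ne_zero⟩
      obtain ⟨x, hx1, hx2, hx3⟩ := avoid3 h2 (e2 _ hw1) (e2 _ hw2) (e2 _ hw3)
      rw [kap_left] at hx1 hx2 hx3
      have d := h4 x w
      have hyx : ∀ a b : V, B a b = - B b a := fun a b => (LinearMap.BilinForm.IsAlt.neg_eq hB b a).symm
      have d1 : De hB X (v + τ x w) := De.add hX.le d hv hx1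
      have d2 : De hB X (s - τ x w) := hsub _ _ d hs hx2
      have d3 : De hB X ((v + τ x w) + (s - τ x w)) := De.add hX.le d2 d1 (by
        have h6 : B (v + τ x w) (s - τ x w) = - B (v + s) (τ x w) := by
          simp only [map_add, map_sub, LinearMap.add_apply, LinearMap.sub_apply, hvs, hyx (τ x w) s]
          rw [show B (τ x w) (τ x w) = 0 from hB _]
          ring
        rw [h6]
        exact neg_ne_zero.mpr hx3)
      have h7 : v + τ x w + (s - τ x w) = v + s := by abel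
      rwa [h7] at d3
    · exact De.add hX.le hs hv hvs
  let S : Submodule F V :=
    { carrier := {v | De hB X v}
      add_mem' := fun {a b} ha hb => h5 a b ha hb
      zero_mem' := by
        have := (h4 0 0).smul 0
        rwa [zero_smul] at this
      smul_mem' := fun c v hv => De.smul hv c }
  have hS : S = ⊤ := h.span S h4
  refine isom_le_of_tr B hB (fun v hv => h.f.nd v hv) X fun v c => ?_
  have hv : v ∈ S := by rw [hS]; trivial
  exact hv c

end H96.TeA
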