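import Mathlib
import Cfsg.Agent.Lib.H96.TeE

set_option autoImplicit false
set_option linter.unusedSectionVars false
set_option linter.unusedVariables false
set_option linter.unusedSimpArgs false

/-!
Overgroups of the tensor product of a symplectic and an orthogonal group without transvections:
normalisers of the subspaces u ⊗ W.
-/

namespace H96.TeF

open Module H95.SpBasic H96.TeBase H96.TeNorm H96.TeC H96.TeE
open H96.StBase (In)

variable {F U W V : Type*} [Field F] [AddCommGroup U] [Module F U] [AddCommGroup W] [Module F W] [AddCommGroup V]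
  [Module F V] [FiniteDimensional F U] [FiniteDimensional F W]
variable {B₁ : LinearMap.BilinForm F U} {B₂ : LinearMap.BilinForm F W} {B : LinearMap.BilinForm F V}
  {τ : U →ₗ[F] W →ₗ[F] V} {X : Subgroup (V ≃ₗ[F] V)} {h : TE B₁ B₂ B τ (-1) 1}

/-- Siegel type endomorphisms -/
noncomputable def NN (h : TE B₁ B₂ B τ (-1) 1) (n n' : Module.End F W) (u y : U) : Module.End F V :=
  K h.symm n u y + K h.symm n' y u

lemma NN_apply (h : TE B₁ B₂ B τ (-1) 1) (n n' : Module.End F W) (u y : U) (v : V) :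
    NN h n n' u y v = τ u (n (kap h.symm y v)) + τ y (n' (kap h.symm u v)) := rfl

lemma kap_u_NN (H : Hy h X) {u y : U} (huy : B₁ u y = 0) (n n' : Module.End F W) (v : V) :
    kap h.symm u (NN h n n' u y v) = 0 := by
  rw [NN_apply, map_add, kap_pure' h, kap_pure' h, alt_of h.f₁ H.two, h.f₁.zero_flip huy]
  simp

lemma kap_y_NN (H : Hy h X) {u y : U} (huy : B₁ u y = 0) (n n' : Module.End F W) (v : V) :
    kap h.symm y (NN h n n' u y v) = 0 := by
  rw [NN_apply, map_add, kap_pure' h, kap_pure' h, alt_of h.f₁ H.two, huy]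
  simp

lemma NN_NN (H : Hy h X) {u y : U} (huy : B₁ u y = 0) (n n' m m' : Module.End F W) (v : V) :
    NN h n n' u y (NN h m m' u y v) = 0 := by
  rw [NN_apply, kap_u_NN H huy, kap_y_NN H huy]
  simp

/-- F0 -/
lemma NN_scal (H : Hy h X) {u y : U} (huy : B₁ u y = 0) (c : F) : In X (NN h (c • 1) (c • 1) u y) := by
  have halt := fun x => alt_of h.f₁ H.two x
  obtain ⟨g, hg, -, hgg⟩ := exists_sieg h.symm H.two H.hX.symm (e := u) (y := c • y) (halt u) (by
    rw [map_smul, LinearMap.smul_apply, h.f₁.zero_flip huy, smul_zero])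
  refine ⟨g, hg, fun v => ?_⟩
  rw [hgg, NN_apply]
  simp only [map_smul, LinearMap.flip_apply, LinearMap.smul_apply, Module.End.one_apply, halt, smul_zero, zero_smul, mul_zero,
    sub_zero]
  module

/-- F1 -/
lemma NN_sum [Finite F] (H : Hy h X) {u y : U} (hu : u ≠ 0) (huy : B₁ u y = 0) (hy : y ∉ Submodule.span F {u}) {n n' : Module.End F W}
    (hn : In X (NN h n n' u y)) : ∃ c : F, ∀ w, n w + n' w = c • w := by
  have halt := fun x => alt_of h.f₁ H.two x
  obtain ⟨y', huy', hyy'⟩ := h.f₁.sep1 hy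
  have hy'y : B₁ y' y = -1 := by rw [h.f₁.flip, hyy', mul_one]
  have hM := NN_scal H huy' 1
  rw [one_smul] at hM
  have e1 : ∀ v, NN h 1 1 u y' (NN h n n' u y v) = τ u (n' (kap h.symm u v)) := by
    intro v
    rw [NN_apply h 1 1, kap_u_NN H huy, NN_apply h n, map_add, kap_pure' h, kap_pure' h, huy', hyy']
    simp
  have e2 : ∀ v, NN h n n' u y (NN h 1 1 u y' v) = - τ u (n (kap h.symm u v)) := by
    intro v
    rw [NN_apply h n, kap_u_NN H huy', NN_apply h 1 1, map_add, kap_pure' h, kap_pure' h, huy, hy'y]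
    simp
  have ku : ∀ w, kap h.symm u (τ u w) = 0 := fun w => by rw [kap_pure' h, halt, zero_smul]
  have ky : ∀ w, kap h.symm y (τ u w) = 0 := fun w => by rw [kap_pure' h, huy, zero_smul]
  have ky' : ∀ w, kap h.symm y' (τ u w) = 0 := fun w => by rw [kap_pure' h, huy', zero_smul]
  have h1 := hn.comm hM (NN_NN H huy _ _ _ _) (NN_NN H huy' _ _ _ _) (fun v => by
    rw [e1, NN_apply, ku, ky]; simp) (fun v => by rw [e2, map_neg, NN_apply, ku, ky']; simp)
  have h3 : NN h n n' u y * NN h 1 1 u y' - NN h 1 1 u y' * NN h n n' u y = K h.symm (-(n + n')) u u := by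
    ext v
    rw [LinearMap.sub_apply, Module.End.mul_apply, Module.End.mul_apply, e1, e2, K_flip h, LinearMap.neg_apply,
      LinearMap.add_apply, map_neg, map_add]
    abel
  rw [h3] at h1
  obtain ⟨c, hc⟩ := z_scalar H hu h1
  refine ⟨-c, fun w => ?_⟩
  rw [neg_smul, ← hc, LinearMap.neg_apply, LinearMap.add_apply, neg_neg]

/-- eigenvectors -/
lemma NN_eig (H : Hy h X) {u y : U} (hu : u ≠ 0) (huy : B₁ u y = 0) (hy : y ∉ Submodule.span F {u}) {n n' : Module.End F W}
    (hn : In X (NN h n n' u y)) {e : W} (he : e ≠ 0) (hee : B₂ e e = 0) {c c' : F} (hc : n e = c • e) (hc' : n' e = c' • e) :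
    ∃ c : F, ∀ w, n w = c • w := by
  obtain ⟨g, hg, hgg⟩ := hn
  have halt := fun x => alt_of h.f₁ H.two x
  have hk : Kr τ g := by
    refine normD h H.two H.hX H.nt H.m3 H.hU he he hee hee hg
      (α := 1 + c • (LinearMap.flip B₁ y).smulRight u + c' • (LinearMap.flip B₁ u).smulRight y) (fun x => ?_)
    rw [hgg, NN_apply, kap_pure' h, kap_pure' h, map_smul n, map_smul n', hc, hc']
    simp only [LinearMap.add_apply, Module.End.one_apply, LinearMap.smul_apply, LinearMap.smulRight_apply, LinearMap.flip_apply,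
      map_add, map_smul]
    module
  obtain ⟨a, b, hab⟩ := hk
  obtain ⟨x, hux, hyx⟩ := h.f₁.sep1 hy
  have hxy : B₁ (-x) y = 1 := by rw [map_neg, LinearMap.neg_apply, h.f₁.flip, hyx]; ring
  have hxu : B₁ (-x) u = 0 := by rw [map_neg, LinearMap.neg_apply, h.f₁.zero_flip hux, neg_zero]
  have h3 : -x ∉ Submodule.span F {u} := not_span_of (B := B₁) huy (by rw [hxy]; exact one_ne_zero)
  have hux : u ∉ Submodule.span F {-x} := span_symm hu h3
  apply scalar_of_span
  intro w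
  have h1 := hab (-x) w
  rw [hgg, NN_apply, kap_pure' h, kap_pure' h, hxy, hxu, one_smul, zero_smul, map_zero, map_zero, add_zero] at h1
  exact dep_of_pure h h1 hux h3 (fun h0 => by rw [h0, map_zero])

lemma sg_adj (hB₂ : EF B₂ 1) (h2 : (2 : F) ≠ 0) {e y : W} (he : B₂ e e = 0) (hy : B₂ y e = 0) (w w' : W) :
    B₂ (sg B₂ 1 y e w) w' = B₂ w (sg B₂ 1 (-y) e w') := by
  have hy' : B₂ (-y) e = 0 := by rw [map_neg, LinearMap.neg_apply, hy, neg_zero]
  have h1 := sg_isom hB₂ h2 he hy w (sg B₂ 1 (-y) e w')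
  have h3 := sg_inv hB₂ h2 (y := -y) he hy' w'
  rw [neg_neg] at h3
  rw [← h1, h3]

/-- F3 -/
lemma NN_diff (H : Hy h X) {u y : U} (huy : B₁ u y = 0) {n n' : Module.End F W} (hn : In X (NN h n n' u y))
    {e z : W} (hee : B₂ e e = 0) (hz : B₂ z e = 0) :
    In X (NN h (sg B₂ 1 z e ∘ₗ n ∘ₗ sg B₂ 1 (-z) e - n) (sg B₂ 1 z e ∘ₗ n' ∘ₗ sg B₂ 1 (-z) e - n') u y) := by
  obtain ⟨R, hR, hR1, -⟩ := exists_sieg h H.two H.hX hee hz
  have h1 : In X (NN h (sg B₂ 1 z e ∘ₗ n ∘ₗ sg B₂ 1 (-z) e) (sg B₂ 1 z e ∘ₗ n' ∘ₗ sg B₂ 1 (-z) e) u y) := by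
    refine hn.conj hR fun v => ?_
    have e1 : ∀ x, kap h.symm x (R⁻¹ v) = sg B₂ 1 (-z) e (kap h.symm x v) := fun x =>
      kap_left_act h.symm (T := R⁻¹) (a := sg B₂ 1 (-z) e) (fun w u => sieg_inv h H.two hee hz hR1 u w) x v
    rw [NN_apply, map_add, hR1, hR1, e1, e1, NN_apply]
    rfl
  have h3 := h1.sub hn (NN_NN H huy _ _ _ _) (NN_NN H huy _ _ _ _)
  have h4 : NN h (sg B₂ 1 z e ∘ₗ n ∘ₗ sg B₂ 1 (-z) e) (sg B₂ 1 z e ∘ₗ n' ∘ₗ sg B₂ 1 (-z) e) u y - NN h n n' u y =
      NN h (sg B₂ 1 z e ∘ₗ n ∘ₗ sg B₂ 1 (-z) e - n) (sg B₂ 1 z e ∘ₗ n' ∘ₗ sg B₂ 1 (-z) e - n') u y := by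
    ext v
    rw [LinearMap.sub_apply, NN_apply, NN_apply, NN_apply, LinearMap.sub_apply, LinearMap.sub_apply, map_sub, map_sub]
    abel
  rwa [h4] at h3

/-- the skew case -/
lemma NN_skew [Finite F] (H : Hy h X) {u y : U} (hu : u ≠ 0) (huy : B₁ u y = 0) (hy : y ∉ Submodule.span F {u}) {n : Module.End F W}
    (hn : In X (NN h n (-n) u y)) (hsk : ∀ w w', B₂ (n w) w' = - B₂ w (n w')) (w : W) : n w = 0 := by
  -- a scalar skew map is zero
  have hsc0 : ∀ m : Module.End F W, (∀ w w', B₂ (m w) w' = - B₂ w (m w')) → (∃ c : F, ∀ w, m w = c • w) → ∀ w, m w = 0 := by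
    rintro m hm ⟨c, hc⟩ w
    apply h.f₂.nd
    intro w'
    have h1 := hm w w'
    rw [hc, hc, map_smul, map_smul, LinearMap.smul_apply, smul_eq_mul] at h1
    rw [hc, map_smul, LinearMap.smul_apply, smul_eq_mul]
    have h3 : 2 * (c * B₂ w w') = 0 := by linear_combination h1
    exact (mul_eq_zero.mp h3).resolve_left H.two
  have hiso : ∀ e, B₂ (n e) e = 0 := by
    intro e
    have h1 := hsk e e
    rw [h.f₂.flip e (n e), one_mul] at h1
    have h3 : 2 * B₂ (n e) e = 0 := by linear_combination h1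
    exact (mul_eq_zero.mp h3).resolve_left H.two
  obtain ⟨e, -, he, hee⟩ := exists_iso h.f₂ H.two (S := (⊤ : Submodule F W)) (by rw [finrank_top]; exact H.m3)
  obtain ⟨f, hef, hfe, hff⟩ := h.f₂.partner H.two he hee
  have key : ∀ z, B₂ e z = 0 → B₂ (n e) z = 0 := by
    intro z hz'
    have hz := h.f₂.zero_flip hz'
    have hmz : B₂ (-z) e = 0 := by rw [map_neg, LinearMap.neg_apply, hz, neg_zero]
    have h1 := NN_diff H huy hn hee hz
    obtain ⟨m, hm⟩ : ∃ m, m = sg B₂ 1 z e ∘ₗ n ∘ₗ sg B₂ 1 (-z) e - n := ⟨_, rfl⟩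
    have hm' : sg B₂ 1 z e ∘ₗ (-n) ∘ₗ sg B₂ 1 (-z) e - (-n) = -m := by
      rw [hm]
      ext w
      simp only [LinearMap.sub_apply, LinearMap.neg_apply, LinearMap.comp_apply, map_neg]
      abel
    rw [hm', ← hm] at h1
    have hme : m e = (- B₂ (n e) z) • e := by
      rw [hm, LinearMap.sub_apply, LinearMap.comp_apply, LinearMap.comp_apply, sg_fix h.f₂ hee hmz, sg_apply, hiso]
      module
    have hmsk : ∀ w w', B₂ (m w) w' = - B₂ w (m w') := by
      intro w w'
      rw [hm]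
      simp only [LinearMap.sub_apply, LinearMap.comp_apply, map_sub]
      rw [sg_adj h.f₂ H.two hee hz, hsk, hsk]
      have h5 := sg_adj h.f₂ H.two hee hmz w (n (sg B₂ 1 (-z) e w'))
      rw [neg_neg] at h5
      rw [h5]; ring
    have h3 := NN_eig H hu huy hy h1 he hee hme (c' := B₂ (n e) z) (by rw [LinearMap.neg_apply, hme]; module)
    have h4 := hsc0 m hmsk h3 e
    rw [hme] at h4
    exact neg_eq_zero.mp ((smul_eq_zero.mp h4).resolve_right he)
  have h1 := mem_span_e h.f₂ hef key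
  have h3 := NN_eig H hu huy hy hn he hee h1 (c' := - B₂ (n e) f) (by
    rw [LinearMap.neg_apply]
    conv_lhs => rw [h1]
    module)
  exact hsc0 n hsk h3 w

/-- Lemma F -/
theorem NN_scalar [Finite F] (H : Hy h X) {u y : U} (hu : u ≠ 0) (huy : B₁ u y = 0) (hy : y ∉ Submodule.span F {u})
    {n n' : Module.End F W} (hn : In X (NN h n n' u y)) (hadj : ∀ w w', B₂ (n w) w' = B₂ w (n' w')) : ∃ c : F, ∀ w, n w = c • w := by
  obtain ⟨c, hc⟩ := NN_sum H hu huy hy hn
  have h2 := H.two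
  obtain ⟨k, rfl⟩ : ∃ k, c = k + k := ⟨c / 2, by field_simp; ring⟩
  have h1 := hn.sub (NN_scal H huy k) (NN_NN H huy _ _ _ _) (NN_NN H huy _ _ _ _)
  have hn' : n' = (k + k) • 1 - n := by
    ext w
    rw [LinearMap.sub_apply, LinearMap.smul_apply, Module.End.one_apply, ← hc]; abel
  have h3 : NN h n n' u y - NN h (k • 1) (k • 1) u y = NN h (n - k • 1) (-(n - k • 1)) u y := by
    ext v
    rw [LinearMap.sub_apply, NN_apply, NN_apply, NN_apply, hn']
    simp only [LinearMap.sub_apply, LinearMap.smul_apply, Module.End.one_apply, LinearMap.neg_apply, map_sub, map_smul, map_neg]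
    module
  rw [h3] at h1
  have h4 := NN_skew H hu huy hy h1 (fun w w' => by
    have h5 := hadj w w'
    rw [hn'] at h5
    simp only [LinearMap.sub_apply, LinearMap.smul_apply, Module.End.one_apply, map_sub, map_smul, smul_eq_mul] at h5 ⊢
    rw [h5]
    ring)
  refine ⟨k, fun w => ?_⟩
  have h5 := h4 w
  rw [LinearMap.sub_apply, LinearMap.smul_apply, Module.End.one_apply] at h5
  exact sub_eq_zero.mp h5

end H96.TeF
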