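import Mathlib
import Cfsg.Agent.Lib.H96.TeF

set_option autoImplicit false
set_option linter.unusedSectionVars false
set_option linter.unusedVariables false
set_option linter.unusedSimpArgs false

/-!
Overgroups of the tensor product of a symplectic and an orthogonal group without transvections:
normalisers of the subspaces u ⊗ W, conclusion.
-/

namespace H96.TeG

open Module H95.SpBasic H96.TeBase H96.TeNorm H96.TeC H96.TeE H96.TeF
open H96.StBase (In)

variable {F U W V : Type*} [Field F] [AddCommGroup U] [Module F U] [AddCommGroup W] [Module F W] [AddCommGroup V]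
  [Module F V] [FiniteDimensional F U] [FiniteDimensional F W]
variable {B₁ : LinearMap.BilinForm F U} {B₂ : LinearMap.BilinForm F W} {B : LinearMap.BilinForm F V}
  {τ : U →ₗ[F] W →ₗ[F] V} {X : Subgroup (V ≃ₗ[F] V)} {h : TE B₁ B₂ B τ (-1) 1}

/-- `-1` on a hyperbolic plane -/
lemma exists_torus (H : Hy h X) {y y' : U} (hyy' : B₁ y y' = 1) : ∃ A ∈ X, ∀ x w, A (τ x w) =
    τ (x - (2 * B₁ x y') • y + (2 * B₁ x y) • y') w := by
  have halt := fun x => alt_of h.f₁ H.two x
  have hy'y : B₁ y' y = -1 := by rw [h.f₁.flip, hyy', mul_one]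
  let a : Module.End F U := 1 - (2 : F) • (LinearMap.flip B₁ y').smulRight y + (2 : F) • (LinearMap.flip B₁ y).smulRight y'
  have ha : ∀ x, a x = x - (2 * B₁ x y') • y + (2 * B₁ x y) • y' := fun x => by
    simp only [a, LinearMap.sub_apply, LinearMap.add_apply, Module.End.one_apply, LinearMap.smul_apply, LinearMap.smulRight_apply,
      LinearMap.flip_apply, smul_smul]
  have haa : ∀ x, a (a x) = x := by
    intro x
    rw [ha, ha x]
    simp only [map_sub, map_add, map_smul, LinearMap.sub_apply, LinearMap.add_apply, LinearMap.smul_apply, smul_eq_mul, halt,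
      hyy', hy'y]
    module
  have hai : ∀ x x', B₁ (a x) (a x') = B₁ x x' := by
    intro x x'
    rw [ha, ha x']
    simp only [map_sub, map_add, map_smul, LinearMap.sub_apply, LinearMap.add_apply, LinearMap.smul_apply, smul_eq_mul, halt,
      hyy', hy'y, h.f₁.flip y x', h.f₁.flip y' x']
    ring
  obtain ⟨A, hA, hAA⟩ := exists_mem h H.hX (LinearEquiv.ofLinearMap a a (by ext w; exact haa w) (by ext w; exact haa w)) 1
    (fun x w x' w' => by
      have := hai x x'
      change B₁ (a x) (a x') * B₂ w w' = _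
      rw [this])
  refine ⟨A, hA, fun x w => ?_⟩
  rw [hAA]
  change τ (a x) w = _
  rw [ha]

lemma rad_u_scalar [Finite F] (H : Hy h X) {u : U} (hu : u ≠ 0) {x : V ≃ₗ[F] V} (hx : x ∈ X) (hfix : ∀ w, x (τ u w) = τ u w)
    {y : U} (huy : B₁ u y = 0) (hy : y ∉ Submodule.span F {u}) {n : U → Module.End F W}
    (hact : ∀ z, B₁ z u = 0 → ∀ w, x (τ z w) = τ z w + τ u (n z w)) : ∃ c : F, ∀ w, n y w = c • w := by
  have halt := fun x => alt_of h.f₁ H.two x
  have hyu := h.f₁.zero_flip huy
  obtain ⟨f, hef, hfe, -⟩ := h.f₁.partner H.two hu (halt u)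
  obtain ⟨y', huy', hyy'⟩ := h.f₁.sep1 hy
  obtain ⟨T, hT, hT1, hT2, -⟩ := exists_tr h H.two H.hX y 1
  have hxi : ∀ w, x⁻¹ (τ u w) = τ u w := by
    intro w
    conv_lhs => rw [← hfix w]
    exact x.symm_apply_apply _
  have hxz : ∀ z, B₁ z u = 0 → ∀ w, x⁻¹ (τ z w) = τ z w - τ u (n z w) := by
    intro z hz w
    have h1 : x (τ z w - τ u (n z w)) = τ z w := by
      rw [map_sub, hact z hz, hfix]; abel
    conv_lhs => rw [← h1]
    exact x.symm_apply_apply _
  have hnlin : ∀ (z : U) (c : F), B₁ z u = 0 → ∀ w, n (z - c • y) w = n z w - c • n y w := by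
    intro z c hz w
    have h1 := hact (z - c • y) (by rw [map_sub, map_smul, LinearMap.sub_apply, LinearMap.smul_apply, hz, hyu]; simp) w
    rw [map_sub, map_smul, LinearMap.sub_apply, LinearMap.smul_apply, map_sub, map_smul, hact z hz, hact y hyu] at h1
    have h3 : τ u (n (z - c • y) w) = τ u (n z w - c • n y w) := by
      rw [map_sub, map_smul]
      linear_combination (norm := module) (-1 : F) • h1
    exact pure_inj' h hu h3
  obtain ⟨g, hgd⟩ : ∃ g, g = x⁻¹ * (T * x * T⁻¹) := ⟨_, rfl⟩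
  have hgX : g ∈ X := by rw [hgd]; exact X.mul_mem (X.inv_mem hx) (X.mul_mem (X.mul_mem hT hx) (X.inv_mem hT))
  have hgfix : ∀ w, g (τ u w) = τ u w := by
    intro w
    rw [hgd, LinearEquiv.mul_apply, LinearEquiv.mul_apply, LinearEquiv.mul_apply, hT2, huy, mul_zero, zero_smul, sub_zero,
      hfix, hT1, huy, mul_zero, zero_smul, add_zero, hxi]
  have hgact : ∀ z, B₁ z u = 0 → ∀ w, g (τ z w) = τ z w - B₁ z y • τ u (n y w) := by
    intro z hz w
    have hz' : B₁ (z - B₁ z y • y) u = 0 := by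
      rw [map_sub, map_smul, LinearMap.sub_apply, LinearMap.smul_apply, hz, hyu]; simp
    have e1 : z - B₁ z y • y + B₁ (z - B₁ z y • y) y • y = z := by
      rw [map_sub, map_smul, LinearMap.sub_apply, LinearMap.smul_apply, halt]
      module
    rw [hgd, LinearEquiv.mul_apply, LinearEquiv.mul_apply, LinearEquiv.mul_apply, hT2, one_mul, hact _ hz', map_add, hT1, hT1,
      one_mul, one_mul, huy, zero_smul, add_zero, e1, map_add, hxz z hz, hxi, hnlin z _ hz, map_sub, map_smul]
    abel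
  have hself : ∀ z v, B₁ z u = 0 → kap h.symm z (g v) = kap h.symm z v + B₁ z y • h.f₂.adj (n y) (kap h.symm u v) := by
    intro z v hz
    refine h.f₂.ext fun w => ?_
    have h1 := H.hX.le hgX v (τ z w)
    have h3 := H.hX.le hgX v (τ u (n y w))
    rw [hgfix] at h3
    rw [hgact z hz, map_sub, map_smul, h3, smul_eq_mul] at h1
    rw [map_add, map_smul, LinearMap.add_apply, LinearMap.smul_apply, h.f₂.adj_left, kap_left h.symm, kap_left h.symm,
      kap_left h.symm, LinearMap.flip_apply, LinearMap.flip_apply, smul_eq_mul]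
    linear_combination h1
  let G : V →ₗ[F] V := g.toLinearMap - LinearMap.id + NN h (n y) (h.f₂.adj (n y)) u y
  have hG : ∀ v, G v = g v - v + (τ u (n y (kap h.symm y v)) + τ y (h.f₂.adj (n y) (kap h.symm u v))) := fun v => rfl
  have h1 : ∀ v, G v = τ u (kap h.symm f (G v)) := by
    intro v
    refine mem_D h.symm hef ?_
    intro z hz
    have hz' := h.f₁.zero_flip hz
    rw [hG, map_add, map_sub, hself z v hz', map_add, kap_pure' h, kap_pure' h, hz, h.f₁.flip y z]
    module
  have h3 : ∀ v, G v = - G (τ f (kap h.symm u v)) := by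
    intro v
    have := perp_ext h.symm hfe (g := G) (fun w z hz => by
      rw [LinearMap.flip_apply, hG, hgact z hz, kap_pure' h, kap_pure' h, hz, zero_smul, map_zero, map_zero, add_zero, map_smul,
        map_smul]
      abel) v
    rw [this, neg_one_smul, map_neg, LinearMap.neg_apply, map_neg, LinearMap.flip_apply]
  obtain ⟨t, ht⟩ : ∃ t : Module.End F W, t = - (kap h.symm f ∘ₗ G ∘ₗ τ f) := ⟨_, rfl⟩
  have ht' : ∀ v, G v = τ u (t (kap h.symm u v)) := by
    intro v
    have h4 : t (kap h.symm u v) = kap h.symm f (G v) := by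
      rw [h3 v, ht]
      simp only [LinearMap.neg_apply, LinearMap.comp_apply, map_neg]
    rw [h4, ← h1]
  have hIn : In X (K h.symm t u u - NN h (n y) (h.f₂.adj (n y)) u y) := by
    refine ⟨g, hgX, fun v => ?_⟩
    rw [LinearMap.sub_apply, K_flip h, ← ht', hG, NN_apply]
    abel
  -- the torus element
  obtain ⟨A, hA, hAA⟩ := exists_torus H hyy'
  have hAu : ∀ w, A (τ u w) = τ u w := fun w => by rw [hAA, huy, huy']; simp
  have hAy : ∀ w, A (τ y w) = - τ y w := by
    intro w
    rw [hAA, hyy', halt, mul_one, mul_zero, zero_smul, add_zero, map_sub, LinearMap.sub_apply, map_smul, LinearMap.smul_apply]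
    module
  have hAiu : ∀ v, kap h.symm u (A⁻¹ v) = kap h.symm u v := by
    intro v
    refine h.f₂.ext fun w => ?_
    rw [kap_left h.symm, inv_form (H.hX.le hA), LinearMap.flip_apply, hAu, kap_left h.symm, LinearMap.flip_apply]
  have hAiy : ∀ v, kap h.symm y (A⁻¹ v) = - kap h.symm y v := by
    intro v
    refine h.f₂.ext fun w => ?_
    rw [kap_left h.symm, inv_form (H.hX.le hA), LinearMap.flip_apply, hAy, map_neg, map_neg, LinearMap.neg_apply, kap_left h.symm,
      LinearMap.flip_apply]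
  have hIn2 : In X (K h.symm t u u + NN h (n y) (h.f₂.adj (n y)) u y) := by
    refine hIn.conj hA fun v => ?_
    rw [LinearMap.sub_apply, LinearMap.add_apply, K_flip h, K_flip h, NN_apply, NN_apply, hAiu, hAiy, map_sub, map_add, hAu,
      map_neg, map_neg, map_neg, hAu, hAy]
    abel
  have ku : ∀ w, kap h.symm u (τ u w) = 0 := fun w => by rw [kap_pure' h, halt, zero_smul]
  have ky : ∀ w, kap h.symm y (τ u w) = 0 := fun w => by rw [kap_pure' h, huy, zero_smul]
  have a1 : ∀ v, kap h.symm u ((K h.symm t u u + NN h (n y) (h.f₂.adj (n y)) u y) v) = 0 := by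
    intro v
    rw [LinearMap.add_apply, K_flip h, map_add, ku, kap_u_NN H huy, add_zero]
  have a2 : ∀ v, kap h.symm y ((K h.symm t u u + NN h (n y) (h.f₂.adj (n y)) u y) v) = 0 := by
    intro v
    rw [LinearMap.add_apply, K_flip h, map_add, ky, kap_y_NN H huy, add_zero]
  have a3 : ∀ v, kap h.symm u ((K h.symm t u u - NN h (n y) (h.f₂.adj (n y)) u y) v) = 0 := by
    intro v
    rw [LinearMap.sub_apply, K_flip h, map_sub, ku, kap_u_NN H huy, sub_zero]
  have a4 : ∀ v, kap h.symm y ((K h.symm t u u - NN h (n y) (h.f₂.adj (n y)) u y) v) = 0 := by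
    intro v
    rw [LinearMap.sub_apply, K_flip h, map_sub, ky, kap_y_NN H huy, sub_zero]
  have a5 : ∀ v, kap h.symm u v = 0 → kap h.symm y v = 0 → (K h.symm t u u - NN h (n y) (h.f₂.adj (n y)) u y) v = 0 := by
    intro v hv1 hv2
    rw [LinearMap.sub_apply, K_flip h, NN_apply, hv1, hv2]
    simp
  have hz1 : ∀ v, (K h.symm t u u - NN h (n y) (h.f₂.adj (n y)) u y) ((K h.symm t u u + NN h (n y) (h.f₂.adj (n y)) u y) v) = 0 :=
    fun v => a5 _ (a1 v) (a2 v)
  have hz2 : ∀ v, K h.symm t u u ((K h.symm t u u - NN h (n y) (h.f₂.adj (n y)) u y) v) = 0 := by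
    intro v
    rw [K_flip h, a3, map_zero, map_zero]
  have hz3 : ∀ v, (K h.symm t u u - NN h (n y) (h.f₂.adj (n y)) u y) ((K h.symm t u u - NN h (n y) (h.f₂.adj (n y)) u y) v) = 0 :=
    fun v => a5 _ (a3 v) (a4 v)
  have h4 := hIn.mul hIn2 hz1
  have h5 : K h.symm t u u - NN h (n y) (h.f₂.adj (n y)) u y + (K h.symm t u u + NN h (n y) (h.f₂.adj (n y)) u y) =
      K h.symm (t + t) u u := by
    ext v
    simp only [LinearMap.add_apply, LinearMap.sub_apply, K_flip h, map_add]
    abel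
  rw [h5] at h4
  obtain ⟨c, hc⟩ := z_scalar H hu h4
  have htc : ∀ w, t w = (c / 2) • w := by
    intro w
    have h6 := hc w
    rw [LinearMap.add_apply, ← two_smul F] at h6
    rw [div_eq_inv_mul, mul_smul, ← h6, smul_smul, inv_mul_cancel₀ H.two, one_smul]
  have h7 : In X (K h.symm t u u) := by
    obtain ⟨T', hT', -, -, hTT⟩ := exists_tr h H.two H.hX u (c / 2)
    refine ⟨T', hT', fun v => ?_⟩
    rw [hTT, K_flip h, htc, map_smul]
  have h8 := h7.sub hIn hz2 hz3
  rw [sub_sub_cancel] at h8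
  exact NN_scalar H hu huy hy h8 (fun w w' => by rw [h.f₂.adj_right])

/-- the radicals on the symplectic side -/
theorem rad_u [Finite F] (H : Hy h X) {u : U} (hu : u ≠ 0) : RH h.symm X u := by
  intro x hx hfix hact
  have halt := fun x => alt_of h.f₁ H.two x
  obtain ⟨f, hef, hfe, -⟩ := h.f₁.partner H.two hu (halt u)
  have hfix' : ∀ w, x (τ u w) = τ u w := fun w => hfix w
  -- the coefficients
  let n : U →ₗ[F] Module.End F W := LinearMap.mk₂ F (fun z w => kap h.symm f (x (τ z w) - τ z w))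
    (fun w w' u => by simp only [map_add, map_sub, LinearMap.add_apply]; abel)
    (fun c w u => by simp only [map_smul, map_sub, smul_sub, LinearMap.smul_apply])
    (fun w u u' => by simp only [map_add, map_sub]; abel)
    (fun c w u => by simp only [map_smul, map_sub, smul_sub])
  have hn : ∀ z w, n z w = kap h.symm f (x (τ z w) - τ z w) := fun w u => rfl
  have hact' : ∀ z, B₁ z u = 0 → ∀ w, x (τ z w) = τ z w + τ u (n z w) := by
    intro z hz w
    obtain ⟨w', hw'⟩ := hact (τ z w) (by rw [kap_pure' h, hz, zero_smul])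
    rw [LinearMap.flip_apply] at hw'
    rw [hn, hw', add_sub_cancel_left, kap_pure' h, hef, one_smul]
  have hsc : ∀ z, B₁ z u = 0 → ∃ c : F, ∀ w, n z w = c • w := by
    intro z hz
    by_cases hzu : z ∈ Submodule.span F {u}
    · obtain ⟨c, rfl⟩ := Submodule.mem_span_singleton.mp hzu
      refine ⟨0, fun w => ?_⟩
      rw [hn, map_smul, LinearMap.smul_apply, map_smul, hfix', sub_self, map_zero, zero_smul]
    · exact rad_u_scalar H hu hx hfix' (h.f₁.zero_flip hz) hzu hact'
  by_cases hW0 : ∀ w : W, w = 0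
  · exfalso
    have := H.m3
    have h3 : finrank F W = 0 := by
      have : Subsingleton W := ⟨fun a b => by rw [hW0 a, hW0 b]⟩
      exact finrank_zero_of_subsingleton
    omega
  push Not at hW0
  obtain ⟨w₀, hw₀⟩ := hW0
  obtain ⟨w₁, hw₁⟩ := h.f₂.one hw₀
  obtain ⟨y₀, hy₀⟩ := h.f₁.repr ((LinearMap.flip B₂ w₁) ∘ₗ (LinearMap.flip n w₀))
  have hy₀' : ∀ z, B₁ z u = 0 → ∀ w, n z w = B₁ z y₀ • w := by
    intro z hz w
    obtain ⟨c, hc⟩ := hsc z hz
    have h1 := hy₀ z
    rw [LinearMap.comp_apply, LinearMap.flip_apply, LinearMap.flip_apply, hc, map_smul, LinearMap.smul_apply,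
      hw₁, smul_eq_mul, mul_one] at h1
    rw [hc, h1]
  have huy₀ : B₁ u y₀ = 0 := by
    have h1 := hy₀' u (halt u) w₀
    rw [hn, hfix', sub_self, map_zero] at h1
    exact (smul_eq_zero.mp h1.symm).resolve_right hw₀
  have hy₀u := h.f₁.zero_flip huy₀
  obtain ⟨R, hR, hR1, hR2⟩ := exists_sieg h.symm H.two H.hX.symm (halt u) hy₀u
  have hRk : Kr τ R := ⟨sgE h.f₁ H.two (halt u) hy₀u, 1, fun z w => hR1 w z⟩
  have hRR : ∀ v, R⁻¹ (R v) = v := fun v => R.symm_apply_apply v
  have hg : ∀ w z, B₁ z u = 0 → (R⁻¹ * x) (τ.flip w z) = τ.flip w z := by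
    intro w z hz
    have h1 : x (τ z w) = R (τ z w) := by
      have h3 := hR1 w z
      rw [LinearMap.flip_apply] at h3
      rw [hact' z hz, hy₀' z hz, h3, LinearMap.flip_apply, sg_apply, hz, halt]
      simp only [map_sub, map_smul, map_add, LinearMap.smul_apply, zero_smul, mul_zero, add_zero, sub_zero, LinearMap.sub_apply,
        LinearMap.add_apply]
      module
    rw [LinearEquiv.mul_apply, LinearMap.flip_apply, h1, hRR]
  obtain ⟨σ, hσ⟩ := triv_form h.symm (H.hX.le (X.mul_mem (X.inv_mem hR) hx)) hef hfe hg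
  have h0 := z_scalar H hu (σ := σ) ⟨R⁻¹ * x, X.mul_mem (X.inv_mem hR) hx, fun v => by
    rw [hσ v, K_flip h, LinearMap.flip_apply]⟩
  obtain ⟨c, hc⟩ := h0
  have h1 : R⁻¹ * x ∈ KrG τ := by
    obtain ⟨T', hT', hTT1, hTT2, hTT⟩ := exists_tr h H.two H.hX u c
    have h3 : R⁻¹ * x = T' := by
      ext v
      rw [hσ, hTT, hc, map_smul, LinearMap.smul_apply, LinearMap.flip_apply]
    rw [h3]
    have halt' : B₁.IsAlt := halt
    exact ⟨tr B₁ halt' u c, 1, fun x w => hTT1 x w⟩
  have h3 := (KrG τ).mul_mem (show R ∈ KrG τ from hRk) h1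
  rw [mul_inv_cancel_left] at h3
  exact Kr.symm (τ := τ) h3

/-- Norm E -/
theorem normE [Finite F] (H : Hy h X) (hd : 4 ≤ finrank F U) {u u' : U} (hu : u ≠ 0) (hu' : u' ≠ 0) {x : V ≃ₗ[F] V}
    (hx : x ∈ X) {β : Module.End F W} (hβ : ∀ w, x (τ u w) = τ u' (β w)) : Kr τ x := by
  have halt := fun x => alt_of h.f₁ H.two x
  obtain ⟨f, hef, hfe, -⟩ := h.f₁.partner H.two hu (halt u)
  -- a hyperbolic pair orthogonal to u
  obtain ⟨y, hy, hy'⟩ : ∃ y, (((LinearMap.flip B₁ u).prod (LinearMap.flip B₁ f)) : U →ₗ[F] F × F) y = 0 ∧ y ∉ Submodule.span F {u} :=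
    exists_off_span hd u
  have h1 : B₁ y u = 0 := congrArg Prod.fst hy
  obtain ⟨z, hz1, hz2⟩ := h.f₁.sep1 hy'
  have hW : ∃ w : W, w ≠ 0 := by
    have := H.m3
    obtain ⟨w, hw⟩ := (finrank_pos_iff_exists_ne_zero (R := F) (M := W)).mp (by omega)
    exact ⟨w, hw⟩
  exact Kr.symm' (norm_of h.symm H.two H.hX.symm hW hu hu' (halt u) (halt u')
    ⟨y, z, h1, h.f₁.zero_flip hz1, by rw [hz2]; exact one_ne_zero⟩ (rad_u H hu) hx (α := β) hβ)

end H96.TeG
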