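import Mathlib
import Cfsg.Agent.Lib.H96.TeG
import Cfsg.Agent.Lib.H96.TeA
import Cfsg.Agent.Lib.H96.StFus

set_option autoImplicit false
set_option linter.unusedSectionVars false
set_option linter.unusedVariables false
set_option linter.unusedSimpArgs false

/-!
Overgroups of the tensor product of a symplectic and an orthogonal group without transvections: fusion.
-/

namespace H96.TeT

open Module H95.SpBasic H96.TeBase H96.TeNorm H96.TeC H96.TeE H96.TeF H96.TeG H96.TeA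
open H96.StBase (In)

variable {F U W V : Type*} [Field F] [AddCommGroup U] [Module F U] [AddCommGroup W] [Module F W] [AddCommGroup V]
  [Module F V]

/-- good elements -/
structure GE (τ : U →ₗ[F] W →ₗ[F] V) (X : Subgroup (V ≃ₗ[F] V)) (p : ℕ) (t : V ≃ₗ[F] V) : Prop where
  mem : t ∈ X
  kr : Kr τ t
  pel : ∃ k : ℕ, t ^ p ^ k = 1
  good : ∀ g ∈ X, Kr τ (g⁻¹ * t * g) → Kr τ g

lemma good_of {τ : U →ₗ[F] W →ₗ[F] V} {X : Subgroup (V ≃ₗ[F] V)} {p : ℕ} {t : V ≃ₗ[F] V} (ht : GE τ X p t) :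
    StFus.Good ((KrG τ).subgroupOf X) p (⟨t, ht.mem⟩ : X) := by
  refine ⟨ht.kr, ?_, fun g hg => ht.good g g.2 hg⟩
  obtain ⟨k, hk⟩ := ht.pel
  rintro ⟨y, hy⟩
  obtain ⟨n, rfl⟩ := Subgroup.mem_zpowers_iff.mp hy
  refine ⟨k, Subtype.ext ?_⟩
  change ((⟨t, ht.mem⟩ : X) ^ n) ^ p ^ k = 1
  have h1 : (⟨t, ht.mem⟩ : X) ^ p ^ k = 1 := Subtype.ext (by rw [SubmonoidClass.coe_pow]; exact hk)
  rw [← zpow_natCast, ← zpow_mul, mul_comm, zpow_mul, zpow_natCast, h1, one_zpow]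

/-- fusion -/
theorem fus [Finite V] {τ : U →ₗ[F] W →ₗ[F] V} {X : Subgroup (V ≃ₗ[F] V)} {p : ℕ} (hp : p.Prime) {t s g : V ≃ₗ[F] V}
    {C : Subgroup (V ≃ₗ[F] V)} (hC : C ≤ X) (ht : GE τ X p t) (hs : GE τ X p s) (hg : g ∈ X) (htC : t ∈ C) (hsC : g * s * g⁻¹ ∈ C) :
    ∃ c ∈ C, Kr τ (c * g) := by
  have : Fact p.Prime := ⟨hp⟩
  have hfin : Finite (V ≃ₗ[F] V) := Finite.of_injective (fun e : V ≃ₗ[F] V => (e : V → V)) DFunLike.coe_injective
  obtain ⟨c, hc, hcg⟩ := StFus.fusion (X := X) (H := (KrG τ).subgroupOf X) (p := p) (C := C.subgroupOf X) (g := ⟨g, hg⟩)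
    (good_of ht) (good_of hs) htC hsC
  exact ⟨c, hc, hcg⟩

/-- transfer of fusion to commuting elements -/
theorem transfer [Finite V] {τ : U →ₗ[F] W →ₗ[F] V} {X : Subgroup (V ≃ₗ[F] V)} {p : ℕ} (hp : p.Prime) {s s' t t' g : V ≃ₗ[F] V}
    (hs' : s' = g⁻¹ * s * g) (hg : g ∈ X) (ht : GE τ X p t) (ht' : GE τ X p t')
    (hc : t * s = s * t) (hc' : t' * s' = s' * t') : ∃ k ∈ X, Kr τ k ∧ k * s * k⁻¹ = s' ∧ ∃ c ∈ X, c * s' = s' * c ∧ k = c * g⁻¹ := by
  let C : Subgroup (V ≃ₗ[F] V) := X ⊓ Subgroup.centralizer {s'}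
  have memC : ∀ x, x ∈ C ↔ x ∈ X ∧ x * s' = s' * x := fun x => by
    rw [Subgroup.mem_inf, Subgroup.mem_centralizer_singleton_iff]
  have htC : t' ∈ C := (memC _).mpr ⟨ht'.mem, hc'⟩
  have hsC : g⁻¹ * t * g⁻¹⁻¹ ∈ C := (memC _).mpr ⟨X.mul_mem (X.mul_mem (X.inv_mem hg) ht.mem) (X.inv_mem (X.inv_mem hg)), by
    rw [hs', inv_inv]
    calc g⁻¹ * t * g * (g⁻¹ * s * g) = g⁻¹ * (t * s) * g := by group
      _ = g⁻¹ * (s * t) * g := by rw [hc]
      _ = g⁻¹ * s * g * (g⁻¹ * t * g) := by group⟩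
  obtain ⟨c, hcC, hck⟩ := fus hp (C := C) inf_le_left ht' ht (X.inv_mem hg) htC hsC
  obtain ⟨hcX, hcc⟩ := (memC _).mp hcC
  refine ⟨c * g⁻¹, X.mul_mem hcX (X.inv_mem hg), hck, ?_, c, hcX, hcc, rfl⟩
  calc c * g⁻¹ * s * (c * g⁻¹)⁻¹ = c * (g⁻¹ * s * g) * c⁻¹ := by group
    _ = c * s' * c⁻¹ := by rw [hs']
    _ = s' := by rw [hcc]; group

variable [FiniteDimensional F U] [FiniteDimensional F W]
variable {B₁ : LinearMap.BilinForm F U} {B₂ : LinearMap.BilinForm F W} {B : LinearMap.BilinForm F V}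
  {τ : U →ₗ[F] W →ₗ[F] V} {X : Subgroup (V ≃ₗ[F] V)} {h : TE B₁ B₂ B τ (-1) 1}

/-- Claim A: square zero differences -/
lemma scalar_or (h : TE B₁ B₂ B τ (-1) 1) (h2 : (2 : F) ≠ 0) {k : V ≃ₗ[F] V} {a : U ≃ₗ[F] U} {b : W ≃ₗ[F] W}
    (hk : ∀ x w, k (τ x w) = τ (a x) (b w)) (hsq : ∀ v, k (k v) - (2 : F) • k v + v = 0) :
    (∃ c : F, ∀ x, a x = c • x) ∨ ∃ c : F, ∀ w, b w = c • w := by
  by_contra hcon
  push Not at hcon
  obtain ⟨h3, h4⟩ := hcon
  have h5 : ∃ x, a x ∉ Submodule.span F {x} := by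
    by_contra hcon
    push Not at hcon
    obtain ⟨c, hc⟩ := scalar_of_span (n := a.toLinearMap) hcon
    obtain ⟨x, hx⟩ := h3 c
    exact hx (hc x)
  have h6 : ∃ x, b x ∉ Submodule.span F {x} := by
    by_contra hcon
    push Not at hcon
    obtain ⟨c, hc⟩ := scalar_of_span (n := b.toLinearMap) hcon
    obtain ⟨x, hx⟩ := h4 c
    exact hx (hc x)
  obtain ⟨x, hx⟩ := h5
  obtain ⟨w, hw⟩ := h6
  have hx0 : x ≠ 0 := by rintro rfl; rw [map_zero] at hx; exact hx (Submodule.zero_mem _)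
  obtain ⟨z, hz1, hz2⟩ := h.f₁.sep1 hx
  obtain ⟨z', hz1', hz2'⟩ := h.f₁.sep1 (span_symm hx0 hx)
  have h7 := hsq (τ x w)
  rw [hk, hk] at h7
  have e1 := congrArg (kap h.symm z) h7
  have e2 := congrArg (kap h.symm z') h7
  simp only [map_add, map_sub, map_smul, kap_pure' h, hz1, hz2, hz1', hz2', zero_smul, smul_zero, one_smul, sub_zero, add_zero,
    map_zero] at e1 e2
  have hc : B₁ (a (a x)) z' ≠ 0 := by
    intro h0
    rw [h0, zero_smul, zero_add] at e2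
    rw [e2] at hw
    exact hw (by rw [map_zero]; exact Submodule.zero_mem _)
  have e3 : b (b w) = (-(B₁ (a (a x)) z')⁻¹) • w := by
    have : B₁ (a (a x)) z' • b (b w) = - w := eq_neg_of_add_eq_zero_left e2
    rw [neg_smul, ← smul_neg, ← this, smul_smul, inv_mul_cancel₀ hc, one_smul]
  rw [e3] at e1
  apply hw
  have e4 : b w = ((2 : F)⁻¹ * (B₁ (a (a x)) z * -(B₁ (a (a x)) z')⁻¹)) • w := by
    rw [mul_smul, mul_smul, sub_eq_zero.mp e1, smul_smul, inv_mul_cancel₀ h2, one_smul]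
  rw [e4]
  exact Submodule.smul_mem _ _ (Submodule.mem_span_singleton_self _)

/-- the transvection element of the group -/
lemma tu_pow {T : V ≃ₗ[F] V} (h : TE B₁ B₂ B τ (-1) 1) (h2 : (2 : F) ≠ 0) {u : U} {c : F}
    (hT : ∀ v, T v = v + c • τ u (kap h.symm u v)) (n : ℕ) (v : V) : (T ^ n) v = v + ((n : F) * c) • τ u (kap h.symm u v) := by
  induction n generalizing v with
  | zero => simp
  | succ n ih =>
    rw [pow_succ, LinearEquiv.mul_apply, ih, hT, map_add, map_smul, kap_pure' h, alt_of h.f₁ h2]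
    push_cast
    simp only [zero_smul, smul_zero, add_zero]
    module

/-- Claim C: the transvections can be conjugate to elements of the orthogonal group only in large dimension -/
lemma claimC (h : TE B₁ B₂ B τ (-1) 1) (h2 : (2 : F) ≠ 0) (hX : HX B τ X) (hU : ∃ u : U, u ≠ 0)
    (hW : ∃ w : W, w ≠ 0) {T g : V ≃ₗ[F] V} (hT : T ∈ X) (hg : g ∈ X) {u : U} (hu : u ≠ 0) {c : F} (hc : c ≠ 0) (hTv : ∀ v, T v = v + c • τ u (kap h.symm u v)) {b : Module.End F W}
    (hk : ∀ x w, (g⁻¹ * T * g) (τ x w) = τ x (b w)) :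
    ∃ β : Module.End F W, (∀ w, b w = w + β w) ∧ (∀ w, β (β w) = 0) ∧ (∀ w w', B₂ (β w) w' = - B₂ w (β w')) ∧
      (∀ x w, ∃ w', g (τ x (β w)) = τ u w') ∧ ∃ w, β w ≠ 0 := by
  obtain ⟨x₀, hx₀⟩ := hU
  obtain ⟨x₁, hx₁⟩ := h.f₁.one hx₀
  have halt := fun x => alt_of h.f₁ h2 x
  have hgg : ∀ v, g (g⁻¹ v) = v := fun v => g.apply_symm_apply v
  have hgg' : ∀ v, g⁻¹ (g v) = v := fun v => g.symm_apply_apply v
  have hkv : ∀ v, (g⁻¹ * T * g) v = v + c • g⁻¹ (τ u (kap h.symm u (g v))) := by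
    intro v
    rw [LinearEquiv.mul_apply, LinearEquiv.mul_apply, hTv, map_add, hgg', map_smul]
  obtain ⟨β, hβ⟩ : ∃ β : Module.End F W, β = b - 1 := ⟨_, rfl⟩
  have hβ' : ∀ w, b w = w + β w := fun w => by rw [hβ, LinearMap.sub_apply, Module.End.one_apply]; abel
  have h3 : ∀ x w, τ x (β w) = c • g⁻¹ (τ u (kap h.symm u (g (τ x w)))) := by
    intro x w
    have h4 := hk x w
    rw [hkv, hβ', map_add] at h4
    exact (add_left_cancel h4).symm
  have h4 : ∀ x w, g (τ x (β w)) = τ u (c • kap h.symm u (g (τ x w))) := by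
    intro x w
    rw [h3, map_smul, hgg, map_smul]
  have h5 : ∀ w, β (β w) = 0 := by
    intro w
    have h6 := h4 x₀ (β w)
    rw [h4 x₀ w, kap_pure' h, halt, zero_smul, smul_zero, map_zero] at h6
    exact pure_eq_zero' h hx₀ ((map_eq_zero_iff g g.injective).mp h6)
  have h6 : ∀ w w', B₂ (b w) (b w') = B₂ w w' := by
    intro w w'
    have h7 := hX.le (X.mul_mem (X.mul_mem (X.inv_mem hg) hT) hg) (τ x₀ w) (τ x₁ w')
    rw [hk, hk, h.bp, h.bp, hx₁, one_mul, one_mul] at h7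
    exact h7
  have h7 : ∀ w w', B₂ (β w) w' = - B₂ w (β w') := by
    intro w w'
    have e1 := h6 w (w' - β w')
    have e2 : b (w' - β w') = w' := by rw [map_sub, hβ', hβ' (β w'), h5]; abel
    rw [e2, hβ', map_add, LinearMap.add_apply, map_sub] at e1
    linear_combination e1
  refine ⟨β, hβ', h5, h7, fun x w => ⟨_, h4 x w⟩, ?_⟩
  by_contra hcon
  push Not at hcon
  have h8 : ∀ v, c • g⁻¹ (τ u (kap h.symm u (g v))) = 0 := by
    have : c • ((g⁻¹ : V ≃ₗ[F] V).toLinearMap ∘ₗ τ u ∘ₗ kap h.symm u ∘ₗ g.toLinearMap) = 0 := by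
      apply h.ext
      intro x w
      simp only [LinearMap.smul_apply, LinearMap.comp_apply, LinearEquiv.coe_coe, LinearMap.zero_apply]
      rw [← h3, hcon, map_zero]
    intro v
    exact LinearMap.congr_fun this v
  obtain ⟨y, hy⟩ := h.f₁.one hu
  obtain ⟨w, hw⟩ := hW
  have h9 := h8 (g⁻¹ (τ y w))
  rw [hgg, kap_pure' h] at h9
  have h10 := (smul_eq_zero.mp h9).resolve_left hc
  have h11 := (map_eq_zero_iff g⁻¹ g⁻¹.injective).mp h10
  have h12 := pure_eq_zero' h hu h11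
  have hyu : B₁ y u = -1 := by rw [h.f₁.flip, hy, mul_one]
  rw [hyu, neg_one_smul, neg_eq_zero] at h12
  exact hw h12

/-- dimension consequence of Claim C -/
lemma claimC_dim (h : TE B₁ B₂ B τ (-1) 1) {g : V ≃ₗ[F] V} {u : U} {β : Module.End F W} (hsk : ∀ w w', B₂ (β w) w' = - B₂ w (β w'))
    (h2 : (2 : F) ≠ 0) (him : ∀ x w, ∃ w', g (τ x (β w)) = τ u w') (hne : ∃ w, β w ≠ 0) (hu : u ≠ 0) :
    2 * finrank F U ≤ finrank F W := by
  obtain ⟨w₁, hw₁⟩ := hne
  obtain ⟨w₂, hw₂⟩ := h.f₂.one hw₁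
  have h0 : B₂ (β w₁) w₁ = 0 := by
    have h1 := hsk w₁ w₁
    rw [h.f₂.flip w₁ (β w₁), one_mul] at h1
    have h3 : 2 * B₂ (β w₁) w₁ = 0 := by linear_combination h1
    exact (mul_eq_zero.mp h3).resolve_left h2
  have h21 : B₂ (β w₂) w₁ = -1 := by rw [hsk, h.f₂.flip w₂, hw₂, mul_one]
  have hs : β w₂ ∉ Submodule.span F {β w₁} := not_span_of (B := B₂) h0 (by rw [h21]; exact neg_ne_zero.mpr one_ne_zero)
  obtain ⟨z₂, hz1, hz2⟩ := h.f₂.sep1 hs
  obtain ⟨z₁, hz3, hz4⟩ := h.f₂.sep1 (span_symm hw₁ hs)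
  obtain ⟨y, hy⟩ := h.f₁.one hu
  let L : U × U →ₗ[F] W := kap h.symm y ∘ₗ g.toLinearMap ∘ₗ (LinearMap.coprod (τ.flip (β w₁)) (τ.flip (β w₂)))
  have hL : ∀ x : U × U, ∃ w', g (τ x.1 (β w₁) + τ x.2 (β w₂)) = τ u w' ∧ L x = w' := by
    intro x
    obtain ⟨a, ha⟩ := him x.1 w₁
    obtain ⟨b, hb⟩ := him x.2 w₂
    refine ⟨a + b, by rw [map_add, ha, hb, map_add], ?_⟩
    simp only [L, LinearMap.comp_apply, LinearMap.coprod_apply, LinearMap.flip_apply, LinearEquiv.coe_coe]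
    rw [map_add, ha, hb, map_add, kap_pure' h, kap_pure' h, hy, one_smul, one_smul]
  have hinj : Function.Injective L := by
    rw [injective_iff_map_eq_zero]
    intro x hx
    obtain ⟨w', h1, h3⟩ := hL x
    rw [hx] at h3
    rw [← h3, map_zero] at h1
    have h4 := (map_eq_zero_iff g g.injective).mp h1
    have h5 := congrArg (kap h z₁) h4
    have h6 := congrArg (kap h z₂) h4
    rw [map_add, kap_pure, kap_pure, hz3, hz4, zero_smul, one_smul, add_zero, map_zero] at h5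
    rw [map_add, kap_pure, kap_pure, hz1, hz2, zero_smul, one_smul, zero_add, map_zero] at h6
    exact Prod.ext h5 h6
  have h7 := LinearMap.finrank_le_finrank_of_injective hinj
  rw [Module.finrank_prod] at h7
  omega

/-- conjugates of transvections that are tensor products: the good case -/
lemma claimB [Finite F] (H : Hy h X) (hd : 4 ≤ finrank F U) {T g : V ≃ₗ[F] V} (hg : g ∈ X) {u : U} (hu : u ≠ 0) {c : F}
    (hc : c ≠ 0) (hTv : ∀ v, T v = v + c • τ u (kap h.symm u v)) {a : Module.End F U}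
    (hk : ∀ x w, (g⁻¹ * T * g) (τ x w) = τ (a x) w) : Kr τ g := by
  have hgg : ∀ v, g (g⁻¹ v) = v := fun v => g.apply_symm_apply v
  have hgg' : ∀ v, g⁻¹ (g v) = v := fun v => g.symm_apply_apply v
  have hkv : ∀ v, (g⁻¹ * T * g) v = v + c • g⁻¹ (τ u (kap h.symm u (g v))) := by
    intro v
    rw [LinearEquiv.mul_apply, LinearEquiv.mul_apply, hTv, map_add, hgg', map_smul]
  have h3 : ∀ x w, g (τ (a x - x) w) = τ u (c • kap h.symm u (g (τ x w))) := by
    intro x w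
    have h4 := hk x w
    rw [hkv] at h4
    rw [map_sub, LinearMap.sub_apply, ← h4, add_sub_cancel_left, map_smul, hgg, map_smul]
  by_cases hne : ∃ x, a x - x ≠ 0
  · obtain ⟨x, hx⟩ := hne
    exact normE H hd hx hu hg (β := c • (kap h.symm u ∘ₗ g.toLinearMap ∘ₗ τ x)) (fun w => h3 x w)
  · exfalso
    push Not at hne
    have hW : ∃ w : W, w ≠ 0 := by
      have := H.m3
      obtain ⟨w, hw⟩ := (finrank_pos_iff_exists_ne_zero (R := F) (M := W)).mp (by omega)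
      exact ⟨w, hw⟩
    have h8 : ∀ v, c • τ u (kap h.symm u (g v)) = 0 := by
      have : c • (τ u ∘ₗ kap h.symm u ∘ₗ g.toLinearMap) = 0 := by
        apply h.ext
        intro x w
        simp only [LinearMap.smul_apply, LinearMap.comp_apply, LinearEquiv.coe_coe, LinearMap.zero_apply]
        rw [← map_smul, ← h3, hne, map_zero, LinearMap.zero_apply, map_zero]
      intro v
      exact LinearMap.congr_fun this v
    obtain ⟨y, hy⟩ := h.f₁.one hu
    obtain ⟨w, hw⟩ := hW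
    have h9 := h8 (g⁻¹ (τ y w))
    rw [hgg, kap_pure' h] at h9
    have h12 := pure_eq_zero' h hu ((smul_eq_zero.mp h9).resolve_left hc)
    have hyu : B₁ y u = -1 := by rw [h.f₁.flip, hy, mul_one]
    rw [hyu, neg_one_smul, neg_eq_zero] at h12
    exact hw h12

/-- the transvections are good if no element of the orthogonal group is conjugate to them -/
lemma tu_good_aux [Finite F] (H : Hy h X) (hd : 4 ≤ finrank F U) {p : ℕ} [CharP F p] {T : V ≃ₗ[F] V} (hT : T ∈ X) {u : U} (hu : u ≠ 0)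
    {c : F} (hc : c ≠ 0) (hTv : ∀ v, T v = v + c • τ u (kap h.symm u v))
    (hno : ∀ g ∈ X, ∀ b : Module.End F W, ¬ ∀ x w, (g⁻¹ * T * g) (τ x w) = τ x (b w)) : GE τ X p T := by
  have halt := fun x => alt_of h.f₁ H.two x
  have hsqT : ∀ v, T (T v) - (2 : F) • T v + v = 0 := by
    intro v
    rw [hTv (T v), hTv v, map_add, map_smul, kap_pure' h, halt]
    simp only [zero_smul, smul_zero, add_zero]
    module
  have hTk : Kr τ T := by
    have hA : B₁.IsAlt := halt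
    refine ⟨tr B₁ hA u c, 1, fun x w => ?_⟩
    rw [hTv, kap_pure' h, tr_apply]
    simp only [map_add, map_smul, LinearMap.add_apply, LinearMap.smul_apply, smul_smul]
    rfl
  refine ⟨hT, hTk, ⟨1, ?_⟩, fun g hg hk => ?_⟩
  · ext v
    rw [pow_one, tu_pow h H.two hTv, CharP.cast_eq_zero, zero_mul, zero_smul, add_zero]
    rfl
  · obtain ⟨a, b, hab⟩ := hk
    have hgg : ∀ v, g (g⁻¹ v) = v := fun v => g.apply_symm_apply v
    have hgg' : ∀ v, g⁻¹ (g v) = v := fun v => g.symm_apply_apply v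
    have hsq : ∀ v, (g⁻¹ * T * g) ((g⁻¹ * T * g) v) - (2 : F) • (g⁻¹ * T * g) v + v = 0 := by
      intro v
      have h1 := congrArg (fun z => g⁻¹ z) (hsqT (g v))
      simp only [map_add, map_sub, map_smul, map_zero, hgg'] at h1
      rw [LinearEquiv.mul_apply, LinearEquiv.mul_apply, LinearEquiv.mul_apply, LinearEquiv.mul_apply, hgg]
      exact h1
    rcases scalar_or h H.two hab hsq with ⟨c', hc'⟩ | ⟨c', hc'⟩
    · exfalso
      refine hno g hg (c' • b.toLinearMap) fun x w => ?_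
      rw [hab, hc', map_smul, LinearMap.smul_apply, LinearMap.smul_apply, map_smul]
      rfl
    · refine claimB H hd hg hu hc hTv (a := c' • a.toLinearMap) fun x w => ?_
      rw [hab, hc', map_smul, LinearMap.smul_apply, map_smul, LinearMap.smul_apply]
      rfl

end H96.TeT
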