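import Mathlib
import Cfsg.Agent.Lib.H96.TeT
import Cfsg.Agent.Lib.H96.StN

set_option autoImplicit false
set_option linter.unusedSectionVars false
set_option linter.unusedVariables false
set_option linter.unusedSimpArgs false

/-!
Overgroups of the tensor product of a symplectic and an orthogonal group without transvections:
Siegel elements of the orthogonal group are good.
-/

namespace H96.TeR

open Module H95.SpBasic H96.TeBase H96.TeNorm H96.TeC H96.TeE H96.TeF H96.TeG H96.TeA H96.TeT
open H96.StBase (In)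

variable {F U W V : Type*} [Field F] [AddCommGroup U] [Module F U] [AddCommGroup W] [Module F W] [AddCommGroup V]
  [Module F V] [FiniteDimensional F U] [FiniteDimensional F W]
variable {B₁ : LinearMap.BilinForm F U} {B₂ : LinearMap.BilinForm F W} {B : LinearMap.BilinForm F V}
  {τ : U →ₗ[F] W →ₗ[F] V} {X : Subgroup (V ≃ₗ[F] V)} {h : TE B₁ B₂ B τ (-1) 1}

lemma sg_add (hB : EF B₂ 1) (h2 : (2 : F) ≠ 0) {y y' e : W} (he : B₂ e e = 0) (hy : B₂ y e = 0) (hy' : B₂ y' e = 0) (w : W) :
    sg B₂ 1 y e (sg B₂ 1 y' e w) = sg B₂ 1 (y + y') e w := by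
  have h1 := hB.zero_flip hy
  have h3 := hB.zero_flip hy'
  have h4 : B₂ y y' = B₂ y' y := by rw [hB.flip, one_mul]
  simp only [sg_apply, map_add, map_sub, map_smul, LinearMap.add_apply, LinearMap.sub_apply,
    LinearMap.smul_apply, he, hy, hy', h1, h3, h4, smul_eq_mul, mul_zero, sub_zero, add_zero, one_mul]
  match_scalars
  · ring
  · ring
  · field_simp
    ring
  · ring

lemma sieg_pow (h : TE B₁ B₂ B τ (-1) 1) (h2 : (2 : F) ≠ 0) {y e : W} (he : B₂ e e = 0) (hy : B₂ y e = 0) {R : V ≃ₗ[F] V}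
    (hR : ∀ u w, R (τ u w) = τ u (sg B₂ 1 y e w)) (n : ℕ) (u : U) (w : W) : (R ^ n) (τ u w) = τ u (sg B₂ 1 ((n : F) • y) e w) := by
  induction n with
  | zero => simp [sg_apply]
  | succ n ih =>
    rw [pow_succ', LinearEquiv.mul_apply, ih, hR, sg_add h.f₂ h2 he hy (by rw [map_smul, LinearMap.smul_apply, hy, smul_zero])]
    push_cast
    congr 3
    module

lemma exists_notMem_span2 (hd : 3 ≤ finrank F U) (a b : U) : ∃ x, x ∉ Submodule.span F {a, b} := by
  by_contra hcon
  push Not at hcon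
  have h1 : Submodule.span F {a, b} = ⊤ := by
    rw [eq_top_iff]
    intro x _
    exact hcon x
  have h3 := H96.StN.finrank_span2 (F := F) a b
  rw [h1, finrank_top] at h3
  omega

theorem r_good [Finite F] (H : Hy h X) {p : ℕ} [CharP F p] {e y : W} (he : e ≠ 0) (hee : B₂ e e = 0) (hy : B₂ y e = 0)
    (hyy : B₂ y y ≠ 0) {R : V ≃ₗ[F] V} (hR : R ∈ X) (hR1 : ∀ u w, R (τ u w) = τ u (sg B₂ 1 y e w))
    (hR2 : ∀ v, R v = v + τ (kap h e v) y - (1 : F) • τ (kap h y v) e - (1 / 2 * B₂ y y) • τ (kap h e v) e)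
    (hdm : 2 * finrank F U < finrank F W ∨ (2 * finrank F U = finrank F W ∧ 3 ≤ finrank F U)) : GE τ X p R := by
  have halt := fun x => alt_of h.f₁ H.two x
  refine ⟨hR, ⟨1, sgE h.f₂ H.two hee hy, fun u w => hR1 u w⟩, ⟨1, ?_⟩, fun g hg hk => ?_⟩
  · have h1 : (R ^ p : V ≃ₗ[F] V).toLinearMap = LinearMap.id := by
      apply h.ext
      intro u w
      rw [LinearEquiv.coe_coe, sieg_pow h H.two hee hy hR1, CharP.cast_eq_zero, zero_smul, sg_apply]
      simp
    ext v
    rw [pow_one]
    exact LinearMap.congr_fun h1 v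
  obtain ⟨a, b, hab⟩ := hk
  have hgg : ∀ v, g (g⁻¹ v) = v := fun v => g.apply_symm_apply v
  have hgg' : ∀ v, g⁻¹ (g v) = v := fun v => g.symm_apply_apply v
  obtain ⟨k, hkd⟩ : ∃ k, k = g⁻¹ * R * g := ⟨_, rfl⟩
  rw [← hkd] at hab
  have hkX : k ∈ X := by rw [hkd]; exact X.mul_mem (X.mul_mem (X.inv_mem hg) hR) hg
  let N : Module.End F V := R.toLinearMap - LinearMap.id
  have hN : ∀ v, N v = τ (kap h e v) y - τ (kap h y v) e - (1 / 2 * B₂ y y) • τ (kap h e v) e := by
    intro v
    simp only [N, LinearMap.sub_apply, LinearEquiv.coe_coe, LinearMap.id_apply]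
    rw [hR2, one_smul]
    abel
  have hey := h.f₂.zero_flip hy
  have hNN : ∀ v, N (N v) = - (B₂ y y • τ (kap h e v) e) := by
    intro v
    rw [hN (N v)]
    have e1 : kap h e (N v) = 0 := by
      rw [hN, map_sub, map_sub, map_smul, kap_pure, kap_pure, kap_pure, hy, hee]; simp
    have e2 : kap h y (N v) = B₂ y y • kap h e v := by
      rw [hN, map_sub, map_sub, map_smul, kap_pure, kap_pure, kap_pure, hey]; simp
    rw [e1, e2]
    simp
  have hkv : ∀ v, k v = v + g⁻¹ (N (g v)) := by
    intro v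
    rw [hkd, LinearEquiv.mul_apply, LinearEquiv.mul_apply]
    have : R (g v) = g v + N (g v) := by
      simp only [N, LinearMap.sub_apply, LinearEquiv.coe_coe, LinearMap.id_apply]; abel
    rw [this, map_add, hgg']
  have hkN : ∀ v, g (k v - v) = N (g v) := by
    intro v
    rw [hkv, add_sub_cancel_left, hgg]
  have hkk : ∀ v, g (k (k v - v) - (k v - v)) = - (B₂ y y • τ (kap h e (g v)) e) := by
    intro v
    rw [hkN, hkN, hNN]
  have hU := H.hU
  obtain ⟨x₂, hx₂⟩ := hU
  obtain ⟨x₃, hx₃⟩ := h.f₁.one hx₂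
  obtain ⟨f, hef, hfe, -⟩ := h.f₂.partner H.two he hee
  -- the square is not zero
  have hsq : ¬ ∀ x w, k (k (τ x w) - τ x w) - (k (τ x w) - τ x w) = 0 := by
    intro hcon
    have h1 : ∀ v, kap h e (g v) = 0 := by
      have : kap h e ∘ₗ g.toLinearMap = 0 := by
        apply h.ext
        intro x w
        have h3 := hkk (τ x w)
        rw [hcon, map_zero] at h3
        have h4 := (smul_eq_zero.mp (neg_eq_zero.mp h3.symm)).resolve_left hyy
        exact pure_eq_zero h he h4
      exact fun v => LinearMap.congr_fun this v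
    have h3 := h1 (g⁻¹ (τ x₂ f))
    rw [hgg, kap_pure, hfe, one_smul] at h3
    exact hx₂ h3
  by_cases ha : ∃ c : F, ∀ x, a x = c • x
  · obtain ⟨c, hc⟩ := ha
    -- the first factor is scalar
    let δ : Module.End F W := c • b.toLinearMap - 1
    have hδ : ∀ x w, k (τ x w) - τ x w = τ x (δ w) := by
      intro x w
      rw [hab, hc]
      simp only [δ, LinearMap.sub_apply, LinearMap.smul_apply, LinearEquiv.coe_coe, Module.End.one_apply, map_sub, map_smul]
    obtain ⟨w, hw⟩ : ∃ w, δ (δ w) ≠ 0 := by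
      by_contra hcon
      push Not at hcon
      apply hsq
      intro x w
      rw [hδ, hδ, hcon, map_zero]
    have h1 : ∀ x, g (τ x (δ (δ w))) = τ (- B₂ y y • kap h e (g (τ x w))) e := by
      intro x
      have h3 := hkk (τ x w)
      rw [hδ, hδ] at h3
      rw [h3]
      simp only [neg_smul, map_neg, map_smul, LinearMap.neg_apply, LinearMap.smul_apply]
    have h3 : B₂ (δ (δ w)) (δ (δ w)) = 0 := by
      have h4 := H.hX.le hg (τ x₂ (δ (δ w))) (τ x₃ (δ (δ w)))
      rw [h1, h1, h.bp, h.bp, hee, hx₃, mul_zero, one_mul] at h4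
      exact h4.symm
    exact normD h H.two H.hX H.nt H.m3 H.hU hw he h3 hee hg
      (α := - B₂ y y • (kap h e ∘ₗ g.toLinearMap ∘ₗ τ.flip (δ (δ w)) |> fun _ => kap h e ∘ₗ g.toLinearMap ∘ₗ τ.flip w))
      (fun x => h1 x)
  · exfalso
    obtain ⟨x₀, hx₀⟩ : ∃ x, a x ∉ Submodule.span F {x} := by
      by_contra hcon
      push Not at hcon
      exact ha (scalar_of_span (n := a.toLinearMap) hcon)
    obtain ⟨z, hz1, hz2⟩ := h.f₁.sep1 hx₀
    -- the image of k - 1
    let D : Module.End F V := k.toLinearMap - LinearMap.id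
    have hD : ∀ v, D v = k v - v := fun v => rfl
    let E : U × U →ₗ[F] V := (g⁻¹ : V ≃ₗ[F] V).toLinearMap ∘ₗ (LinearMap.coprod (τ.flip y) (τ.flip e))
    have hDE : LinearMap.range D ≤ LinearMap.range E := by
      rintro _ ⟨v, rfl⟩
      refine ⟨(kap h e (g v), - kap h y (g v) - (1 / 2 * B₂ y y) • kap h e (g v)), ?_⟩
      have h1 : D v = g⁻¹ (N (g v)) := by rw [hD, hkv]; abel
      rw [h1, hN]
      simp only [E, LinearMap.comp_apply, LinearMap.coprod_apply, LinearMap.flip_apply, LinearEquiv.coe_coe, map_sub, map_neg,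
        map_smul, LinearMap.sub_apply, LinearMap.neg_apply, LinearMap.smul_apply, map_add]
      congr 1
      abel
    haveI : FiniteDimensional F (LinearMap.range D) := Submodule.finiteDimensional_of_le hDE
    have hrD : finrank F (LinearMap.range D) ≤ 2 * finrank F U := by
      have h1 := Submodule.finrank_mono hDE
      have h3 := LinearMap.finrank_range_le E
      rw [Module.finrank_prod] at h3
      omega
    let M : W →ₗ[F] V := D ∘ₗ τ x₀
    have hM : ∀ w, M w = τ (a x₀) (b w) - τ x₀ w := fun w => by rw [← hab]; rfl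
    have hMinj : Function.Injective M := by
      rw [injective_iff_map_eq_zero]
      intro w hw
      rw [hM] at hw
      have h1 := congrArg (kap h.symm z) hw
      rw [map_sub, kap_pure' h, kap_pure' h, hz1, hz2, zero_smul, one_smul, sub_zero, map_zero] at h1
      exact b.injective (by rw [h1, map_zero])
    have hMD : LinearMap.range M ≤ LinearMap.range D := LinearMap.range_comp_le_range _ _
    have hfM := LinearMap.finrank_range_of_inj hMinj
    have h1 := Submodule.finrank_mono hMD
    rcases hdm with hdm | ⟨hdm, hd3⟩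
    · omega
    have hMD' : LinearMap.range M = LinearMap.range D := Submodule.eq_of_le_of_finrank_le hMD (by omega)
    have hDM : ∀ v, ∃ w, D v = τ (a x₀) (b w) - τ x₀ w := by
      intro v
      have h3 : D v ∈ LinearMap.range M := by rw [hMD']; exact ⟨v, rfl⟩
      obtain ⟨w, hw⟩ := h3
      exact ⟨w, by rw [← hw, hM]⟩
    -- b is scalar
    obtain ⟨x₁, hx₁⟩ := exists_notMem_span2 hd3 x₀ (a x₀)
    obtain ⟨z', hz'1, hz'2⟩ := h.f₁.sep _ hx₁
    have hz'3 := hz'1 x₀ (Submodule.subset_span (by simp))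
    have hz'4 := hz'1 (a x₀) (Submodule.subset_span (by simp))
    have hb1 : ∀ w, B₁ (a x₁) z' • b w = w := by
      intro w
      obtain ⟨w', hw'⟩ := hDM (τ x₁ w)
      rw [hD, hab] at hw'
      have h3 := congrArg (kap h.symm z') hw'
      rw [map_sub, map_sub, kap_pure' h, kap_pure' h, kap_pure' h, kap_pure' h, hz'3, hz'4, hz'2, zero_smul, zero_smul, one_smul,
        sub_zero] at h3
      exact sub_eq_zero.mp h3
    have hW : ∃ w : W, w ≠ 0 := ⟨e, he⟩
    obtain ⟨c, hcd⟩ : ∃ c, c = (B₁ (a x₁) z')⁻¹ := ⟨_, rfl⟩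
    have hc0 : B₁ (a x₁) z' ≠ 0 := by
      intro h0
      have := hb1 e
      rw [h0, zero_smul] at this
      exact he this.symm
    have hb2 : ∀ w, b w = c • w := by
      intro w
      conv_rhs => rw [← hb1 w]
      rw [hcd, smul_smul, inv_mul_cancel₀ hc0, one_smul]
    let δ : Module.End F U := c • a.toLinearMap - 1
    have hδ : ∀ x w, k (τ x w) - τ x w = τ (δ x) w := by
      intro x w
      rw [hab, hb2]
      simp only [δ, LinearMap.sub_apply, LinearMap.smul_apply, LinearEquiv.coe_coe, Module.End.one_apply, map_sub, map_smul]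
    have hδ1 : ∀ x, δ x ∈ Submodule.span F {δ x₀} := by
      intro x
      by_contra hcon
      obtain ⟨z'', h3, h4⟩ := h.f₁.sep1 hcon
      obtain ⟨w', hw'⟩ := hDM (τ x e)
      have h5 : τ (a x₀) (b w') - τ x₀ w' = τ (δ x₀) w' := by rw [← hδ, hab]
      rw [hD, hδ, h5] at hw'
      have h6 := congrArg (kap h.symm z'') hw'
      rw [kap_pure' h, kap_pure' h, h3, h4, zero_smul, one_smul] at h6
      exact he h6
    have hiso : ∀ x x', B₁ (x + δ x) (x' + δ x') = B₁ x x' := by
      intro x x'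
      obtain ⟨w', hw'⟩ := h.f₂.one he
      have h3 := H.hX.le hkX (τ x e) (τ x' w')
      have h4 : ∀ x w, k (τ x w) = τ (x + δ x) w := by
        intro x w
        rw [map_add, LinearMap.add_apply, ← hδ]; abel
      rw [h4, h4, h.bp, h.bp, hw', mul_one, mul_one] at h3
      exact h3
    have hpp : ∀ x x', B₁ (δ x) (δ x') = 0 := by
      intro x x'
      obtain ⟨c₁, h3⟩ := Submodule.mem_span_singleton.mp (hδ1 x)
      obtain ⟨c₂, h4⟩ := Submodule.mem_span_singleton.mp (hδ1 x')
      rw [← h3, ← h4, map_smul, map_smul, LinearMap.smul_apply, halt, smul_zero, smul_zero]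
    have hδδ : ∀ x, δ (δ x) = 0 := by
      intro x
      apply h.f₁.nd
      intro x'
      have h3 := hiso x' (δ x)
      rw [map_add, map_add, LinearMap.add_apply, LinearMap.add_apply, hpp, hpp] at h3
      have h4 : B₁ x' (δ (δ x)) = 0 := by linear_combination h3
      exact h.f₁.zero_flip h4
    apply hsq
    intro x w
    rw [hδ, hδ, hδδ, map_zero, LinearMap.zero_apply]

end H96.TeR
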