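import Mathlib
import Cfsg.Agent.Lib.H96.TeR

set_option autoImplicit false
set_option linter.unusedSectionVars false
set_option linter.unusedVariables false
set_option linter.unusedSimpArgs false

/-!
Overgroups of the tensor product of a symplectic and an orthogonal group without transvections:
orthogonal groups of large dimension.
-/

namespace H96.TeS

open Module H95.SpBasic H96.TeBase H96.TeNorm H96.TeC H96.TeE H96.TeF H96.TeG H96.TeA H96.TeT H96.TeR

section

variable {F U W V : Type*} [Field F] [AddCommGroup U] [Module F U] [AddCommGroup W] [Module F W] [AddCommGroup V]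
  [Module F V] [FiniteDimensional F U] [FiniteDimensional F W]
variable {B₁ : LinearMap.BilinForm F U} {B₂ : LinearMap.BilinForm F W} {B : LinearMap.BilinForm F V}
  {τ : U →ₗ[F] W →ₗ[F] V} {s₁ s₂ : F}

/-- totally isotropic subspaces -/
lemma ti_dim {s : F} (hB : EF B₂ s) {S : Submodule F W} (hS : ∀ x ∈ S, ∀ y ∈ S, B₂ x y = 0) : 2 * finrank F S ≤ finrank F W := by
  let L : S →ₗ[F] S.dualAnnihilator := LinearMap.codRestrict _ (B₂ ∘ₗ S.subtype)
    (fun x => (Submodule.mem_dualAnnihilator _).mpr fun y hy => hS x x.2 y hy)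
  have hL : Function.Injective L := by
    rw [injective_iff_map_eq_zero]
    intro x hx
    apply Subtype.ext
    apply hB.nd
    intro y
    have := congrArg Subtype.val hx
    exact LinearMap.congr_fun this y
  have h1 := LinearMap.finrank_le_finrank_of_injective hL
  have h2 := Subspace.finrank_add_finrank_dualAnnihilator_eq S
  omega

/-- non-singular vectors -/
lemma exists_ns (hB : EF B₂ 1) (h2 : (2 : F) ≠ 0) {S : Submodule F W} (hS : finrank F W < 2 * finrank F S) :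
    ∃ y ∈ S, B₂ y y ≠ 0 := by
  by_contra hcon
  push Not at hcon
  have h1 : ∀ x ∈ S, ∀ y ∈ S, B₂ x y = 0 := by
    intro x hx y hy
    have h3 := hcon _ (S.add_mem hx hy)
    rw [map_add, map_add, LinearMap.add_apply, LinearMap.add_apply, hcon x hx, hcon y hy, hB.flip y x, one_mul] at h3
    have h4 : 2 * B₂ x y = 0 := by linear_combination h3
    exact (mul_eq_zero.mp h4).resolve_left h2
  have := ti_dim hB h1
  omega

lemma exists_ey [Finite F] (hB : EF B₂ 1) (h2 : (2 : F) ≠ 0) {S : Submodule F W} (hS : finrank F W < 2 * finrank F S)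
    (h3 : 3 ≤ finrank F S) : ∃ e ∈ S, ∃ y ∈ S, e ≠ 0 ∧ B₂ e e = 0 ∧ B₂ y e = 0 ∧ B₂ y y ≠ 0 := by
  by_cases hrad : ∃ e ∈ S, e ≠ 0 ∧ ∀ x ∈ S, B₂ x e = 0
  · obtain ⟨y, hy, hyy⟩ := exists_ns hB h2 hS
    obtain ⟨e, he, he0, hex⟩ := hrad
    exact ⟨e, he, y, hy, he0, hex e he, hex y hy, hyy⟩
  push Not at hrad
  obtain ⟨e, he, he0, hee⟩ := exists_iso hB h2 h3
  obtain ⟨f, hf, hfe⟩ := hrad e he he0
  by_contra hcon
  push Not at hcon
  have hcon' := hcon e he
  have hti : ∀ x ∈ S, ∀ y ∈ S, B₂ x e = 0 → B₂ y e = 0 → B₂ x y = 0 := by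
    intro x hx y hy hxe hye
    have h4 := hcon' _ (S.add_mem hx hy) he0 hee (by rw [map_add, LinearMap.add_apply, hxe, hye, add_zero])
    rw [map_add, map_add, LinearMap.add_apply, LinearMap.add_apply, hcon' x hx he0 hee hxe, hcon' y hy he0 hee hye, hB.flip y x,
      one_mul] at h4
    have h5 : 2 * B₂ x y = 0 := by linear_combination h4
    exact (mul_eq_zero.mp h5).resolve_left h2
  let L : S →ₗ[F] F × F := ((LinearMap.flip B₂ e).prod (LinearMap.flip B₂ f)) ∘ₗ S.subtype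
  obtain ⟨y, hy, hy0⟩ : ∃ y ∈ LinearMap.ker L, y ≠ 0 := by
    apply Submodule.exists_mem_ne_zero_of_ne_bot
    intro h0
    have h5 := L.finrank_range_add_finrank_ker
    rw [h0, finrank_bot, add_zero] at h5
    have h6 := Submodule.finrank_le (LinearMap.range L)
    rw [Module.finrank_prod, finrank_self] at h6
    omega
  have hy1 : B₂ y e = 0 := congrArg Prod.fst hy
  have hy2 : B₂ y f = 0 := congrArg Prod.snd hy
  obtain ⟨x, hx, hxy⟩ := hrad y y.2 (fun h0 => hy0 (Subtype.ext h0))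
  apply hxy
  have h5 := hti (x - (B₂ x e / B₂ f e) • f) (S.sub_mem hx (S.smul_mem _ hf)) y y.2 (by
    rw [map_sub, map_smul, LinearMap.sub_apply, LinearMap.smul_apply, smul_eq_mul, div_mul_cancel₀ _ hfe, sub_self]) hy1
  rw [map_sub, map_smul, LinearMap.sub_apply, LinearMap.smul_apply, hB.zero_flip hy2, smul_zero, sub_zero] at h5
  exact h5

/-- pure vectors -/
def Pu (τ : U →ₗ[F] W →ₗ[F] V) (v : V) : Prop := ∃ u w, v = τ u w

/-- mapping a subspace `U ⊗ f` -/
def Mp (τ : U →ₗ[F] W →ₗ[F] V) (x : V ≃ₗ[F] V) (f f' : W) : Prop := ∃ α : Module.End F U, ∀ u, x (τ u f) = τ (α u) f'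

/-- sums of two pure vectors that are pure -/
lemma par (h : TE B₁ B₂ B τ s₁ s₂) {a a' c : U} {b b' d : W} (hs : τ a b + τ a' b' = τ c d) (ha : a ≠ 0)
    (hb : b ∉ Submodule.span F {b'}) (hb' : b' ∉ Submodule.span F {b}) : a' ∈ Submodule.span F {a} := by
  obtain ⟨z, hz1, hz2⟩ := h.f₂.sep1 hb
  obtain ⟨z', hz1', hz2'⟩ := h.f₂.sep1 hb'
  have e1 : a = B₂ d z • c := by
    have h1 := congrArg (kap h z) hs
    rwa [map_add, kap_pure, kap_pure, kap_pure, hz1, hz2, zero_smul, one_smul, add_zero] at h1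
  have e2 : a' = B₂ d z' • c := by
    have h1 := congrArg (kap h z') hs
    rwa [map_add, kap_pure, kap_pure, kap_pure, hz1', hz2', zero_smul, one_smul, zero_add] at h1
  have hc : B₂ d z ≠ 0 := by
    intro h0
    apply ha
    rw [e1, h0, zero_smul]
  rw [e2, e1]
  exact Submodule.mem_span_singleton.mpr ⟨B₂ d z' * (B₂ d z)⁻¹, by
    rw [smul_smul, mul_assoc, inv_mul_cancel₀ hc, mul_one]⟩

/-- maps preserving pure vectors -/
theorem mp_of_pure (h : TE B₁ B₂ B τ s₁ s₂) (hdm : finrank F U < finrank F W) (hU : ∃ u : U, u ≠ 0) {x : V ≃ₗ[F] V}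
    (hx : ∀ u w, Pu τ (x (τ u w))) (hx' : ∀ u w, Pu τ (x⁻¹ (τ u w))) (f : W) : ∃ f', Mp τ x f f' := by
  have hxx : ∀ v, x (x⁻¹ v) = v := fun v => x.apply_symm_apply v
  have hxx' : ∀ v, x⁻¹ (x v) = v := fun v => x.symm_apply_apply v
  by_cases hf : f = 0
  · refine ⟨0, 0, fun u => ?_⟩
    rw [hf, map_zero, map_zero, map_zero]
  obtain ⟨u₁, hu₁⟩ := hU
  obtain ⟨a₁, b₁, h1⟩ := hx u₁ f
  have hx1 : x (τ u₁ f) ≠ 0 := fun h0 => hu₁ (pure_eq_zero h hf ((map_eq_zero_iff x x.injective).mp h0))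
  have ha₁ : a₁ ≠ 0 := by
    rintro rfl
    rw [map_zero, LinearMap.zero_apply] at h1
    exact hx1 h1
  have hb₁ : b₁ ≠ 0 := by
    rintro rfl
    rw [map_zero] at h1
    exact hx1 h1
  have key : ∀ u, ∃ u', x (τ u f) = τ u' b₁ := by
    intro u₂
    by_contra hcon
    push Not at hcon
    obtain ⟨a₂, b₂, h2⟩ := hx u₂ f
    have hb₂ : b₂ ∉ Submodule.span F {b₁} := by
      intro h3
      obtain ⟨c, rfl⟩ := Submodule.mem_span_singleton.mp h3
      apply hcon (c • a₂)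
      rw [h2, map_smul, map_smul, LinearMap.smul_apply]
    have hb₂' := span_symm hb₁ hb₂
    obtain ⟨a₃, b₃, h3⟩ := hx (u₁ + u₂) f
    rw [map_add, LinearMap.add_apply, map_add, h1, h2] at h3
    have h4 := par h h3 ha₁ hb₂' hb₂
    obtain ⟨c, hc⟩ := Submodule.mem_span_singleton.mp h4
    rw [← hc, map_smul, LinearMap.smul_apply, ← map_smul] at h2
    have hc0 : c ≠ 0 := by
      rintro rfl
      apply hcon 0
      rw [h2, zero_smul, map_zero, map_zero, LinearMap.zero_apply]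
    obtain ⟨b₄, hb₄⟩ : ∃ b₄, b₄ = c • b₂ := ⟨_, rfl⟩
    rw [← hb₄] at h2
    have hb₄' : b₄ ∉ Submodule.span F {b₁} := by
      intro h5
      apply hb₂
      have : b₂ = c⁻¹ • b₄ := by rw [hb₄, smul_smul, inv_mul_cancel₀ hc0, one_smul]
      rw [this]
      exact Submodule.smul_mem _ _ h5
    have hb₄0 : b₄ ≠ 0 := by rintro rfl; exact hb₄' (Submodule.zero_mem _)
    -- preimages of a₁ ⊗ b
    have claim : ∀ b, ∃ u', x⁻¹ (τ a₁ b) = τ u' f := by
      intro b
      by_contra hcon'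
      push Not at hcon'
      obtain ⟨p, q, hpq⟩ := hx' a₁ b
      have hq : q ∉ Submodule.span F {f} := by
        intro h5
        obtain ⟨c, rfl⟩ := Submodule.mem_span_singleton.mp h5
        apply hcon' (c • p)
        rw [hpq, map_smul, map_smul, LinearMap.smul_apply]
      have hq' := span_symm hf hq
      have hp : p ≠ 0 := by
        rintro rfl
        apply hcon' 0
        rw [hpq, map_zero, LinearMap.zero_apply, LinearMap.zero_apply]
      have h5 : u₁ ∈ Submodule.span F {p} := by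
        obtain ⟨s, t, hst⟩ := hx' a₁ (b + b₁)
        rw [map_add, map_add, hpq, ← h1, hxx'] at hst
        exact par h hst hp hq hq'
      have h6 : u₂ ∈ Submodule.span F {p} := by
        obtain ⟨s, t, hst⟩ := hx' a₁ (b + b₄)
        rw [map_add, map_add, hpq, ← h2, hxx'] at hst
        exact par h hst hp hq hq'
      obtain ⟨c₁, hc₁⟩ := Submodule.mem_span_singleton.mp h5
      obtain ⟨c₂, hc₂⟩ := Submodule.mem_span_singleton.mp h6
      have hc₁0 : c₁ ≠ 0 := by
        rintro rfl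
        rw [zero_smul] at hc₁
        exact hu₁ hc₁.symm
      have h7 : u₂ = (c₂ * c₁⁻¹) • u₁ := by
        rw [← hc₁, ← hc₂, smul_smul, mul_assoc, inv_mul_cancel₀ hc₁0, mul_one]
      rw [h7, map_smul, LinearMap.smul_apply, map_smul, h1, ← map_smul] at h2
      apply hb₄'
      have h8 := pure_eq_zero h.symm ha₁ (u := (c₂ * c₁⁻¹) • b₁ - b₄) (by
        rw [LinearMap.flip_apply, map_sub, h2, sub_self])
      rw [← sub_eq_zero.mp h8]
      exact Submodule.smul_mem _ _ (Submodule.mem_span_singleton_self _)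
    obtain ⟨z, hz⟩ := h.f₂.one hf
    let L : W →ₗ[F] U := kap h z ∘ₗ (x⁻¹ : V ≃ₗ[F] V).toLinearMap ∘ₗ τ a₁
    have hker : LinearMap.ker L ≠ ⊥ := by
      intro h0
      have h3 := L.finrank_range_add_finrank_ker
      rw [h0, finrank_bot, add_zero] at h3
      have h4 := Submodule.finrank_le (LinearMap.range L)
      omega
    obtain ⟨b, hb, hb0⟩ := Submodule.exists_mem_ne_zero_of_ne_bot hker
    have hb' : kap h z (x⁻¹ (τ a₁ b)) = 0 := hb
    obtain ⟨u', hu'⟩ := claim b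
    rw [hu', kap_pure, hz, one_smul] at hb'
    rw [hb', map_zero, LinearMap.zero_apply] at hu'
    have h5 := (map_eq_zero_iff x⁻¹ x⁻¹.injective).mp hu'
    exact hb0 (pure_eq_zero h.symm ha₁ (u := b) h5)
  obtain ⟨z, hz⟩ := h.f₂.one hb₁
  refine ⟨b₁, kap h z ∘ₗ x.toLinearMap ∘ₗ τ.flip f, fun u => ?_⟩
  obtain ⟨u', hu'⟩ := key u
  have h2 : (kap h z ∘ₗ x.toLinearMap ∘ₗ τ.flip f) u = kap h z (x (τ u f)) := rfl
  rw [h2, hu', kap_pure, hz, one_smul]


end

variable {F U W V : Type*} [Field F] [AddCommGroup U] [Module F U] [AddCommGroup W] [Module F W] [AddCommGroup V]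
  [Module F V] [FiniteDimensional F U] [FiniteDimensional F W]
variable {B₁ : LinearMap.BilinForm F U} {B₂ : LinearMap.BilinForm F W} {B : LinearMap.BilinForm F V}
  {τ : U →ₗ[F] W →ₗ[F] V} {X : Subgroup (V ≃ₗ[F] V)} {h : TE B₁ B₂ B τ (-1) 1}

/-- pure vectors are preserved -/
theorem pure_of [Finite F] [Finite V] (H : Hy h X) (hdm : 2 * finrank F U < finrank F W) (hdm3 : finrank F U + 3 ≤ finrank F W)
    (hm5 : 5 ≤ finrank F W) {x : V ≃ₗ[F] V} (hx : x ∈ X) (u₀ : U) (w₀ : W) : Pu τ (x (τ u₀ w₀)) := by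
  obtain ⟨p, hp⟩ := CharP.exists F
  have hpp : p.Prime := (CharP.char_is_prime_or_zero F p).resolve_right (by
    intro h0
    subst h0
    have := CharP.charP_to_charZero F
    exact not_finite F)
  obtain ⟨v, hv⟩ : ∃ v, v = x (τ u₀ w₀) := ⟨_, rfl⟩
  obtain ⟨e, he, y, hy, he0, hee, hye, hyy⟩ : ∃ e, e ∈ LinearMap.ker ((kap h).flip v) ∧ ∃ y, y ∈ LinearMap.ker ((kap h).flip v) ∧
      e ≠ 0 ∧ B₂ e e = 0 ∧ B₂ y e = 0 ∧ B₂ y y ≠ 0 := by
    have h3 := ((kap h).flip v).finrank_range_add_finrank_ker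
    have h4 := Submodule.finrank_le (LinearMap.range ((kap h).flip v))
    obtain ⟨e, he, y, hy, hh⟩ := exists_ey h.f₂ H.two (S := LinearMap.ker ((kap h).flip v)) (by omega) (by omega)
    exact ⟨e, he, y, hy, hh⟩
  obtain ⟨e', he', y', hy', he0', hee', hye', hyy'⟩ : ∃ e, e ∈ LinearMap.ker (B₂ w₀) ∧ ∃ y, y ∈ LinearMap.ker (B₂ w₀) ∧
      e ≠ 0 ∧ B₂ e e = 0 ∧ B₂ y e = 0 ∧ B₂ y y ≠ 0 := by
    have h3 := (B₂ w₀).finrank_range_add_finrank_ker
    have h4 : finrank F (LinearMap.range (B₂ w₀)) ≤ 1 := (Submodule.finrank_le _).trans (by rw [finrank_self])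
    obtain ⟨e, he, y, hy, hh⟩ := exists_ey h.f₂ H.two (S := LinearMap.ker (B₂ w₀)) (by omega) (by omega)
    exact ⟨e, he, y, hy, hh⟩
  have he1 : kap h e v = 0 := he
  have hy1 : kap h y v = 0 := hy
  have he1' : B₂ w₀ e' = 0 := he'
  have hy1' : B₂ w₀ y' = 0 := hy'
  obtain ⟨R, hR, hR1, hR2⟩ := exists_sieg h H.two H.hX hee hye
  obtain ⟨R', hR', hR1', hR2'⟩ := exists_sieg h H.two H.hX hee' hye'
  have hg := r_good H (p := p) he0 hee hye hyy hR hR1 hR2 (Or.inl hdm)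
  have hg' := r_good H (p := p) he0' hee' hye' hyy' hR' hR1' hR2' (Or.inl hdm)
  let C : Subgroup (V ≃ₗ[F] V) := X ⊓ MulAction.stabilizer (V ≃ₗ[F] V) v
  have memC : ∀ g, g ∈ C ↔ g ∈ X ∧ g v = v := fun g => Iff.rfl
  have hRC : R ∈ C := by
    refine (memC _).mpr ⟨hR, ?_⟩
    rw [hR2, he1, hy1]
    simp
  have hxi : x⁻¹ (x (τ u₀ w₀)) = τ u₀ w₀ := x.symm_apply_apply _
  have hRC' : x * R' * x⁻¹ ∈ C := by
    refine (memC _).mpr ⟨X.mul_mem (X.mul_mem hx hR') (X.inv_mem hx), ?_⟩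
    rw [LinearEquiv.mul_apply, LinearEquiv.mul_apply, hv, hxi, hR1', sg_apply, he1', hy1']
    simp
  obtain ⟨c, hc, a, b, hab⟩ := fus hpp (C := C) inf_le_left hg hg' hx hRC hRC'
  have h1 := hab u₀ w₀
  rw [LinearEquiv.mul_apply, ← hv, ((memC _).mp hc).2] at h1
  exact ⟨_, _, by rw [← hv]; exact h1⟩

/-- large orthogonal groups -/
theorem main_large [Finite F] [Finite V] (H : Hy h X) (hdm : 2 * finrank F U < finrank F W) (hdm3 : finrank F U + 3 ≤ finrank F W)
    (hm5 : 5 ≤ finrank F W) : X ≤ KrG τ := by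
  intro x hx
  have hd : finrank F U < finrank F W := by omega
  obtain ⟨e, -, he, hee⟩ := exists_iso h.f₂ H.two (S := (⊤ : Submodule F W)) (by rw [finrank_top]; omega)
  obtain ⟨e', α, hα⟩ := mp_of_pure h hd H.hU (fun u w => pure_of H hdm hdm3 hm5 hx u w)
    (fun u w => pure_of H hdm hdm3 hm5 (X.inv_mem hx) u w) e
  obtain ⟨u, hu⟩ := H.hU
  obtain ⟨u', huu'⟩ := h.f₁.one hu
  have he' : e' ≠ 0 := by
    rintro rfl
    have h1 := hα u
    rw [map_zero] at h1
    exact hu (pure_eq_zero h he ((map_eq_zero_iff x x.injective).mp h1))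
  obtain ⟨γ, hγ1, hγ2⟩ := exists_inv (inj_of h he hα)
  have hee' : B₂ e' e' = 0 := by
    have h1 := H.hX.le hx (τ (γ u) e) (τ (γ u') e)
    rw [hα, hα, h.bp, h.bp, hγ1, hγ1, huu', hee, mul_zero, one_mul] at h1
    exact h1
  exact normD h H.two H.hX H.nt H.m3 ⟨u, hu⟩ he he' hee hee' hx hα

end H96.TeS
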