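import Mathlib
import Cfsg.Agent.Lib.H96.OoCent
import Cfsg.Agent.Lib.H96.TeS

set_option autoImplicit false
set_option linter.unusedSectionVars false
set_option linter.unusedVariables false
set_option linter.unusedSimpArgs false

/-!
Tensor products of two orthogonal spaces: generation by long root elements, part 1.
-/

namespace H96.OoGen

open Module H95.SpBasic H96.TeBase H96.TeNorm H96.OoBase H96.TeC H96.TeE H96.OoCent H96.TeA H96.TeS
open H96.StBase (In)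

section one
variable {F U : Type*} [Field F] [AddCommGroup U] [Module F U] [FiniteDimensional F U] {S : LinearMap.BilinForm F U}

/-- Witt index at most one -/
def AN (S : LinearMap.BilinForm F U) : Prop := ∀ u v : U, u ≠ 0 → S u u = 0 → S u v = 0 → S v v = 0 → v ∈ Submodule.span F {u}

lemma nn_add (u z z' : U) : nn S u (z + z') = nn S u z + nn S u z' := by
  ext x; simp only [nn_apply, LinearMap.add_apply, map_add]; module

lemma nn_sub (u z z' : U) : nn S u (z - z') = nn S u z - nn S u z' := by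
  ext x; simp only [nn_apply, LinearMap.sub_apply, map_sub]; module

lemma nn_smul (c : F) (u z : U) : nn S u (c • z) = c • nn S u z := by
  ext x; simp only [nn_apply, LinearMap.smul_apply, map_smul, smul_eq_mul]; module

lemma nn_swap (u z : U) : nn S u z = - nn S z u := by
  ext x; simp only [nn_apply, LinearMap.neg_apply]; module

lemma conn_iso (hB : EF S 1) (h2 : (2 : F) ≠ 0) {u u' : U} (hu0 : u ≠ 0) (hu' : u' ≠ 0) (huu : S u u = 0)
    (h0 : S u u' = 0) : ∃ u₂, S u₂ u₂ = 0 ∧ S u u₂ ≠ 0 ∧ S u₂ u' ≠ 0 := by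
  obtain ⟨x, hx1, hx2⟩ := avoid2 (f := S u) (g := S u') (by obtain ⟨z, hz⟩ := hB.one hu0; exact ⟨z, by rw [hz]; exact one_ne_zero⟩)
    (by obtain ⟨z, hz⟩ := hB.one hu'; exact ⟨z, by rw [hz]; exact one_ne_zero⟩)
  have hxu : S x u = S u x := by rw [hB.flip, one_mul]
  refine ⟨x - (S x x / (2 * S u x)) • u, ?_, ?_, ?_⟩
  · simp only [map_sub, map_smul, LinearMap.sub_apply, LinearMap.smul_apply, smul_eq_mul, huu, hxu]
    field_simp
    ring
  · rw [map_sub, map_smul, huu, smul_zero, sub_zero]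
    exact hx1
  · rw [map_sub, map_smul, LinearMap.sub_apply, LinearMap.smul_apply, h0, smul_zero, sub_zero, hB.flip, one_mul]
    exact hx2

end one

variable {F U W V : Type*} [Field F] [AddCommGroup U] [Module F U] [AddCommGroup W] [Module F W] [AddCommGroup V]
  [Module F V] [FiniteDimensional F U] [FiniteDimensional F W]
variable {B₁ : LinearMap.BilinForm F U} {B₂ : LinearMap.BilinForm F W} {B : LinearMap.BilinForm F V}
  {τ : U →ₗ[F] W →ₗ[F] V} {Om X : Subgroup (V ≃ₗ[F] V)}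

/-- G1a -/
lemma g1a (h : TE B₁ B₂ B τ 1 1) (h2 : (2 : F) ≠ 0) (hX : HO B τ Om X) {e : W} (he : e ≠ 0) (hee : B₂ e e = 0)
    {σ : Module.End F U} (hσ : In X (K h σ e e)) {u : U} (hu : B₁ u u = 0) (hN : B₁ (σ u) (σ u) ≠ 0) {z : U}
    (hz : B₁ z u = 0) : In X (K h (nn B₁ u z) e e) := by
  have hs := c_skew h h2 hX he hee hσ
  have hsu : B₁ (σ u) u = 0 := by
    have h5 := hs u u
    rw [h.f₁.flip u (σ u), one_mul] at h5
    have : 2 * B₁ (σ u) u = 0 := by linear_combination h5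
    exact (mul_eq_zero.mp this).resolve_left h2
  obtain ⟨y₂, hy₂⟩ : ∃ y₂, y₂ = (1 / (2 * B₁ (σ u) (σ u))) • z := ⟨_, rfl⟩
  have hy₂u : B₁ y₂ u = 0 := by rw [hy₂, map_smul, LinearMap.smul_apply, hz, smul_zero]
  have h1 := c_T h h2 hX he hee hσ hu (y := σ u + y₂) (by rw [map_add, LinearMap.add_apply, hsu, hy₂u, add_zero])
  have h3 := c_T h h2 hX he hee hσ hu (y := σ u) hsu
  have h4 := c_T h h2 hX he hee hσ hu (y := y₂) hy₂u
  have h5 := c_sub h hee (c_sub h hee h1 h3) h4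
  rw [← nn_sub, ← nn_sub] at h5
  have h6 : (2 * B₁ (σ u) (σ u + y₂)) • (σ u + y₂) - B₁ (σ u + y₂) (σ u + y₂) • σ u -
      ((2 * B₁ (σ u) (σ u)) • σ u - B₁ (σ u) (σ u) • σ u) - ((2 * B₁ (σ u) y₂) • y₂ - B₁ y₂ y₂ • σ u) = z := by
    have e1 : z = (2 * B₁ (σ u) (σ u)) • y₂ := by
      rw [hy₂, smul_smul, mul_one_div_cancel (mul_ne_zero h2 hN), one_smul]
    rw [e1]
    have e2 : B₁ y₂ (σ u) = B₁ (σ u) y₂ := by rw [h.f₁.flip, one_mul]
    simp only [map_add, LinearMap.add_apply, e2]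
    module
  rwa [h6] at h5

/-- G1b -/
lemma g1b (h : TE B₁ B₂ B τ 1 1) (h2 : (2 : F) ≠ 0) (hX : HO B τ Om X) {e : W} (he : e ≠ 0) (hee : B₂ e e = 0)
    {u₁ z₀ : U} (hσ : In X (K h (nn B₁ u₁ z₀) e e)) (hu₁ : B₁ u₁ u₁ = 0) (hz₀ : B₁ z₀ u₁ = 0) (hN : B₁ z₀ z₀ ≠ 0) {u₂ : U}
    (hu₂ : B₁ u₂ u₂ = 0) (h12 : B₁ u₁ u₂ ≠ 0) {z : U} (hz : B₁ z u₂ = 0) : In X (K h (nn B₁ u₂ z) e e) := by
  refine g1a h h2 hX he hee hσ hu₂ ?_ hz
  have h21 : B₁ u₂ u₁ ≠ 0 := by rw [h.f₁.flip, one_mul]; exact h12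
  have hz₀' := h.f₁.zero_flip hz₀
  rw [nn_apply]
  simp only [map_sub, map_smul, LinearMap.sub_apply, LinearMap.smul_apply, smul_eq_mul, hu₁, hz₀, hz₀', mul_zero, sub_zero, zero_sub]
  exact mul_ne_zero h21 (mul_ne_zero h21 hN)

/-- G1c -/
lemma g1c [Finite F] (h : TE B₁ B₂ B τ 1 1) (h2 : (2 : F) ≠ 0) (hX : HO B τ Om X) (hd : 5 ≤ finrank F U ∨ AN B₁) {e : W} (he : e ≠ 0)
    (hee : B₂ e e = 0) {u₁ z₁ : U} (hu0 : u₁ ≠ 0) (hσ : In X (K h (nn B₁ u₁ z₁) e e)) (hu₁ : B₁ u₁ u₁ = 0) (hz₁ : B₁ z₁ u₁ = 0)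
    (hzu : z₁ ∉ Submodule.span F {u₁}) : ∃ u z₀, u ≠ 0 ∧ B₁ u u = 0 ∧ B₁ z₀ u = 0 ∧ B₁ z₀ z₀ ≠ 0 ∧ In X (K h (nn B₁ u z₀) e e) := by
  by_cases hN : B₁ z₁ z₁ = 0
  swap
  · exact ⟨u₁, z₁, hu0, hu₁, hz₁, hN, hσ⟩
  have hd5 : 5 ≤ finrank F U := by
    rcases hd with hd | hd
    · exact hd
    · exact absurd (hd u₁ z₁ hu0 hu₁ (h.f₁.zero_flip hz₁) hN) hzu
  have hz10 : z₁ ≠ 0 := by rintro rfl; exact hzu (Submodule.zero_mem _)
  obtain ⟨x, hx1, hx2⟩ := h.f₁.sep1 (u := z₁) (y := u₁) (span_symm hu0 hzu)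
  obtain ⟨v, hv⟩ : ∃ v, v = x - (B₁ x x / 2) • u₁ := ⟨_, rfl⟩
  have hxu : B₁ x u₁ = 1 := by rw [h.f₁.flip, hx2, one_mul]
  have hvu : B₁ v u₁ = 1 := by rw [hv, map_sub, map_smul, LinearMap.sub_apply, LinearMap.smul_apply, hu₁, hxu]; simp
  have hvv : B₁ v v = 0 := by
    rw [hv]
    simp only [map_sub, map_smul, LinearMap.sub_apply, LinearMap.smul_apply, smul_eq_mul, hu₁, hxu, hx2]
    field_simp
    ring
  have hzv : B₁ z₁ v = 0 := by rw [hv, map_sub, map_smul, hx1, hz₁]; simp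
  have hvz : B₁ v z₁ = 0 := h.f₁.zero_flip hzv
  have hv0 : v ≠ 0 := by
    rintro rfl
    rw [map_zero, LinearMap.zero_apply] at hvu
    exact zero_ne_one hvu
  have hz1v : z₁ ∉ Submodule.span F {v} := by
    intro hmem
    obtain ⟨c, hc⟩ := Submodule.mem_span_singleton.mp hmem
    rw [← hc, map_smul, LinearMap.smul_apply, hvu, smul_eq_mul, mul_one] at hz₁
    rw [hz₁, zero_smul] at hc
    exact hz10 hc.symm
  have hσv : nn B₁ u₁ z₁ v = z₁ := by rw [nn_apply, hvu, hvz, one_smul, zero_smul, sub_zero]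
  obtain ⟨y₁, hy1, hy2⟩ := h.f₁.sep1 (u := v) (y := z₁) hz1v
  obtain ⟨y₂, hy₂, hyy⟩ := exists_ns h.f₁ h2 (S := LinearMap.ker (B₁ v) ⊓ LinearMap.ker (B₁ z₁)) (by
    have h3 := Submodule.finrank_sup_add_finrank_inf_eq (LinearMap.ker (B₁ v)) (LinearMap.ker (B₁ z₁))
    have h4 := (B₁ v).finrank_range_add_finrank_ker
    have h5 := (B₁ z₁).finrank_range_add_finrank_ker
    have h6 : finrank F (LinearMap.range (B₁ v)) ≤ 1 := (Submodule.finrank_le _).trans (by rw [finrank_self])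
    have h7 : finrank F (LinearMap.range (B₁ z₁)) ≤ 1 := (Submodule.finrank_le _).trans (by rw [finrank_self])
    have h8 := Submodule.finrank_le (LinearMap.ker (B₁ v) ⊔ LinearMap.ker (B₁ z₁))
    omega)
  obtain ⟨hvy₂, hzy₂⟩ := Submodule.mem_inf.mp hy₂
  rw [LinearMap.mem_ker] at hvy₂ hzy₂
  have hy₁v := h.f₁.zero_flip hy1
  have hy₂v := h.f₁.zero_flip hvy₂
  have hy₂z := h.f₁.zero_flip hzy₂
  have hy₁₂ : B₁ y₂ y₁ = B₁ y₁ y₂ := by rw [h.f₁.flip, one_mul]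
  obtain ⟨k, hk⟩ : ∃ k, k = (1 / 2 : F) • y₁ := ⟨_, rfl⟩
  have hkv : B₁ k v = 0 := by rw [hk, map_smul, LinearMap.smul_apply, hy₁v, smul_zero]
  have h1 := c_T h h2 hX he hee hσ hvv (y := k + y₂) (by rw [map_add, LinearMap.add_apply, hkv, hy₂v, add_zero])
  have h3 := c_T h h2 hX he hee hσ hvv (y := k) hkv
  have h4 := c_T h h2 hX he hee hσ hvv (y := y₂) hy₂v
  have h5 := c_sub h hee (c_sub h hee h1 h3) h4
  rw [← nn_sub, ← nn_sub, hσv] at h5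
  have h6 : (2 * B₁ z₁ (k + y₂)) • (k + y₂) - B₁ (k + y₂) (k + y₂) • z₁ -
      ((2 * B₁ z₁ k) • k - B₁ k k • z₁) - ((2 * B₁ z₁ y₂) • y₂ - B₁ y₂ y₂ • z₁) = y₂ - B₁ y₁ y₂ • z₁ := by
    rw [hk]
    simp only [map_add, map_smul, LinearMap.add_apply, LinearMap.smul_apply, smul_eq_mul, hy2, hzy₂, hy₁₂]
    match_scalars <;> field_simp <;> ring
  rw [h6] at h5
  refine ⟨v, _, hv0, hvv, ?_, ?_, h5⟩
  · rw [map_sub, map_smul, LinearMap.sub_apply, LinearMap.smul_apply, hy₂v, hzv, smul_zero, sub_zero]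
  · simp only [map_sub, map_smul, LinearMap.sub_apply, LinearMap.smul_apply, smul_eq_mul, hy₂z, hzy₂, hN]
    simpa using hyy

/-- G1d -/
lemma g1d [Finite F] (h : TE B₁ B₂ B τ 1 1) (h2 : (2 : F) ≠ 0) (hX : HO B τ Om X) (hd3 : 3 ≤ finrank F U)
    (hd : 5 ≤ finrank F U ∨ AN B₁) {e : W} (he : e ≠ 0)
    (hee : B₂ e e = 0) {u₁ z₁ : U} (hu0 : u₁ ≠ 0) (hσ : In X (K h (nn B₁ u₁ z₁) e e)) (hu₁ : B₁ u₁ u₁ = 0) (hz₁ : B₁ z₁ u₁ = 0)
    (hzu : z₁ ∉ Submodule.span F {u₁}) {u z : U} (hu : B₁ u u = 0) (hz : B₁ z u = 0) : In X (K h (nn B₁ u z) e e) := by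
  obtain ⟨u', z₀, hu', huu', hzu', hN, h1⟩ := g1c h h2 hX hd he hee hu0 hσ hu₁ hz₁ hzu
  by_cases hu00 : u = 0
  · have : K h (nn B₁ u z) e e = 0 := by
      ext v
      rw [K_apply, nn_apply, hu00]
      simp
    rw [this]
    exact In.zero
  by_cases h12 : B₁ u' u = 0
  swap
  · exact g1b h h2 hX he hee h1 huu' hzu' hN hu h12 hz
  obtain ⟨u₂, hu₂, h12', h23⟩ := conn_iso h.f₁ h2 hu' hu00 huu' h12
  have hu₂0 : u₂ ≠ 0 := by rintro rfl; rw [map_zero] at h12'; exact h12' rfl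
  obtain ⟨y, hy, hyy⟩ := exists_ns_perp h.f₁ h2 hd3 hu₂0 hu₂
  have h3 := g1b h h2 hX he hee h1 huu' hzu' hN hu₂ h12' hy
  exact g1b h h2 hX he hee h3 hu₂ hy hyy hu h23 hz

/-- G1e -/
lemma g1e [Finite F] (h : TE B₁ B₂ B τ 1 1) (h2 : (2 : F) ≠ 0) (hX : HO B τ Om X) (hd3 : 3 ≤ finrank F U)
    (hd : 5 ≤ finrank F U ∨ AN B₁) {e : W} (he : e ≠ 0)
    (hee : B₂ e e = 0) {u₁ z₁ : U} (hu0 : u₁ ≠ 0) (hσ : In X (K h (nn B₁ u₁ z₁) e e)) (hu₁ : B₁ u₁ u₁ = 0) (hz₁ : B₁ z₁ u₁ = 0)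
    (hzu : z₁ ∉ Submodule.span F {u₁}) (p q : U) : In X (K h (nn B₁ p q) e e) := by
  have hg : ∀ {u z : U}, B₁ u u = 0 → B₁ z u = 0 → In X (K h (nn B₁ u z) e e) := fun hu hz =>
    g1d h h2 hX hd3 hd he hee hu0 hσ hu₁ hz₁ hzu hu hz
  obtain ⟨v, huv, hvu, hvv⟩ := h.f₁.partner h2 hu0 hu₁
  -- vectors orthogonal to the hyperbolic pair
  have key : ∀ y y' : U, B₁ y u₁ = 0 → B₁ y v = 0 → B₁ y' u₁ = 0 → B₁ y' v = 0 →
      In X (K h (nn B₁ y y' - B₁ y' y • nn B₁ u₁ v) e e) := by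
    intro y y' hyu hyv hyu' hyv'
    have huy := h.f₁.zero_flip hyu
    have hvy := h.f₁.zero_flip hyv
    have h1 := hg (u := u₁ + y - (B₁ y y / 2) • v) (z := y' - B₁ y' y • v) (by
      simp only [map_add, map_sub, map_smul, LinearMap.add_apply, LinearMap.sub_apply, LinearMap.smul_apply, smul_eq_mul,
        hu₁, huv, hvu, hvv, huy, hvy, hyu, hyv]
      have : B₁ y y / 2 * 2 = B₁ y y := by field_simp
      linear_combination - this) (by
      simp only [map_add, map_sub, map_smul, LinearMap.add_apply, LinearMap.sub_apply, LinearMap.smul_apply, smul_eq_mul,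
        hvu, hvv, hvy, hyu', hyv']
      ring)
    have h3 := hg (u := u₁) (z := y') hu₁ hyu'
    have h4 := hg (u := v) (z := - (B₁ y y / 2) • y' + B₁ y' y • y) hvv (by
      simp only [map_add, map_smul, LinearMap.add_apply, LinearMap.smul_apply, smul_eq_mul, hyv', hyv]; ring)
    have h5 := c_sub h hee (c_sub h hee h1 h3) h4
    have h6 : nn B₁ (u₁ + y - (B₁ y y / 2) • v) (y' - B₁ y' y • v) - nn B₁ u₁ y' - nn B₁ v (- (B₁ y y / 2) • y' + B₁ y' y • y) =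
        nn B₁ y y' - B₁ y' y • nn B₁ u₁ v := by
      ext x
      simp only [nn_apply, LinearMap.sub_apply, LinearMap.smul_apply, map_add, map_sub, map_smul, smul_eq_mul]
      match_scalars <;> ring
    rwa [h6] at h5
  obtain ⟨y₀, hy₀u, hy₀⟩ := exists_ns_perp h.f₁ h2 hd3 hu0 hu₁
  obtain ⟨y₁, hy₁⟩ : ∃ y₁, y₁ = y₀ - B₁ y₀ v • u₁ := ⟨_, rfl⟩
  have hy₁u : B₁ y₁ u₁ = 0 := by rw [hy₁, map_sub, map_smul, LinearMap.sub_apply, LinearMap.smul_apply, hy₀u, hu₁]; simp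
  have hy₁v : B₁ y₁ v = 0 := by rw [hy₁, map_sub, map_smul, LinearMap.sub_apply, LinearMap.smul_apply, huv]; simp
  have huy₀ : B₁ u₁ y₀ = 0 := h.f₁.zero_flip hy₀u
  have hy₁y : B₁ y₁ y₁ ≠ 0 := by
    rw [hy₁]
    simp only [map_sub, map_smul, LinearMap.sub_apply, LinearMap.smul_apply, smul_eq_mul, hy₀u, hu₁, huy₀]
    simpa using hy₀
  have huv' : ∀ c : F, In X (K h (c • nn B₁ u₁ v) e e) := by
    intro c
    have h1 := key y₁ ((- c / (2 * B₁ y₁ y₁)) • y₁) hy₁u hy₁v (by rw [map_smul, LinearMap.smul_apply, hy₁u, smul_zero])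
      (by rw [map_smul, LinearMap.smul_apply, hy₁v, smul_zero])
    have h3 := key ((- c / (2 * B₁ y₁ y₁)) • y₁) y₁ (by rw [map_smul, LinearMap.smul_apply, hy₁u, smul_zero])
      (by rw [map_smul, LinearMap.smul_apply, hy₁v, smul_zero]) hy₁u hy₁v
    have h4 := c_add h hee h1 h3
    have h5 : nn B₁ y₁ ((- c / (2 * B₁ y₁ y₁)) • y₁) - B₁ ((- c / (2 * B₁ y₁ y₁)) • y₁) y₁ • nn B₁ u₁ v +
        (nn B₁ ((- c / (2 * B₁ y₁ y₁)) • y₁) y₁ - B₁ y₁ ((- c / (2 * B₁ y₁ y₁)) • y₁) • nn B₁ u₁ v) = c • nn B₁ u₁ v := by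
      rw [nn_swap ((- c / (2 * B₁ y₁ y₁)) • y₁) y₁, map_smul, map_smul, LinearMap.smul_apply, smul_eq_mul]
      have h6 : (- c / (2 * B₁ y₁ y₁)) * B₁ y₁ y₁ = - c / 2 := by field_simp
      rw [h6]
      ext x
      simp only [LinearMap.add_apply, LinearMap.sub_apply, LinearMap.smul_apply, LinearMap.neg_apply]
      match_scalars
      · ring
      · field_simp
        ring
    rwa [h5] at h4
  have hyy' : ∀ y y' : U, B₁ y u₁ = 0 → B₁ y v = 0 → B₁ y' u₁ = 0 → B₁ y' v = 0 → In X (K h (nn B₁ y y') e e) := by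
    intro y y' hyu hyv hyu' hyv'
    have h1 := c_add h hee (key y y' hyu hyv hyu' hyv') (huv' (B₁ y' y))
    rwa [sub_add_cancel] at h1
  -- general vectors
  obtain ⟨p', hp'⟩ : ∃ p', p' = p - B₁ p v • u₁ - B₁ p u₁ • v := ⟨_, rfl⟩
  obtain ⟨q', hq'⟩ : ∃ q', q' = q - B₁ q v • u₁ - B₁ q u₁ • v := ⟨_, rfl⟩
  obtain ⟨hp1, hp2⟩ := hyp_perp h.f₁ hu₁ huv hvv p
  obtain ⟨hq1, hq2⟩ := hyp_perp h.f₁ hu₁ huv hvv q
  rw [← hp'] at hp1 hp2
  rw [← hq'] at hq1 hq2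
  have hpd : p = p' + B₁ p v • u₁ + B₁ p u₁ • v := by rw [hp']; abel
  have hqd : q = q' + B₁ q v • u₁ + B₁ q u₁ • v := by rw [hq']; abel
  obtain ⟨a, ha⟩ : ∃ a, a = B₁ p v := ⟨_, rfl⟩
  obtain ⟨b, hb⟩ : ∃ b, b = B₁ p u₁ := ⟨_, rfl⟩
  obtain ⟨a', ha'⟩ : ∃ a', a' = B₁ q v := ⟨_, rfl⟩
  obtain ⟨b', hb'⟩ : ∃ b', b' = B₁ q u₁ := ⟨_, rfl⟩
  rw [← ha, ← hb] at hpd
  rw [← ha', ← hb'] at hqd
  have k1 := hyy' p' q' hp1 hp2 hq1 hq2
  have k2 := huv' (a * b' - b * a')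
  have k3 := hg (u := u₁) (z := a • q' - a' • p') hu₁ (by
    simp only [map_sub, map_smul, LinearMap.sub_apply, LinearMap.smul_apply, smul_eq_mul, hq1, hp1]; ring)
  have k4 := hg (u := v) (z := b • q' - b' • p') hvv (by
    simp only [map_sub, map_smul, LinearMap.sub_apply, LinearMap.smul_apply, smul_eq_mul, hq2, hp2]; ring)
  have k5 := c_add h hee (c_add h hee (c_add h hee k1 k2) k3) k4
  have k6 : nn B₁ p' q' + (a * b' - b * a') • nn B₁ u₁ v + nn B₁ u₁ (a • q' - a' • p') + nn B₁ v (b • q' - b' • p') = nn B₁ p q := by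
    rw [hpd, hqd]
    ext x
    simp only [nn_apply, LinearMap.add_apply, LinearMap.sub_apply, LinearMap.smul_apply, map_add, map_sub, map_smul, smul_eq_mul]
    match_scalars <;> ring
  rwa [k6] at k5

/-- moving the isotropic vector of the second space -/
lemma g2 [Finite F] (h : TE B₁ B₂ B τ 1 1) (h2 : (2 : F) ≠ 0) (hX : HO B τ Om X) (hm : 3 ≤ finrank F W) {e f : W} (he : e ≠ 0)
    (hee : B₂ e e = 0) (hff : B₂ f f = 0) (hef : B₂ e f = 1) (hP : ∀ p q : U, In X (K h (nn B₁ p q) e e)) (p q : U) :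
    In X (K h (nn B₁ p q) f f) := by
  obtain ⟨y₀, hy₀e, hy₀⟩ := exists_ns_perp h.f₂ h2 hm he hee
  obtain ⟨y, hy⟩ : ∃ y, y = y₀ - B₂ y₀ f • e := ⟨_, rfl⟩
  have hfe : B₂ f e = 1 := by rw [h.f₂.flip, hef, one_mul]
  have hye : B₂ y e = 0 := by rw [hy, map_sub, map_smul, LinearMap.sub_apply, LinearMap.smul_apply, hy₀e, hee]; simp
  have hyf : B₂ y f = 0 := by rw [hy, map_sub, map_smul, LinearMap.sub_apply, LinearMap.smul_apply, hef]; simp
  have hey : B₂ e y = 0 := h.f₂.zero_flip hye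
  have hfy : B₂ f y = 0 := h.f₂.zero_flip hyf
  have hyy : B₂ y y ≠ 0 := by
    rw [hy]
    simp only [map_sub, map_smul, LinearMap.sub_apply, LinearMap.smul_apply, smul_eq_mul, hy₀e, hee, h.f₂.zero_flip hy₀e]
    simpa using hy₀
  obtain ⟨μ, hμ⟩ : ∃ μ, μ = - (B₂ y y / 2) := ⟨_, rfl⟩
  have hμ0 : μ ≠ 0 := by rw [hμ]; exact neg_ne_zero.mpr (div_ne_zero hyy h2)
  have hμy : B₂ y y = - 2 * μ := by rw [hμ]; field_simp
  obtain ⟨e', he'⟩ : ∃ e', e' = μ⁻¹ • (e + y + μ • f) := ⟨_, rfl⟩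
  have hee' : B₂ e e' = 1 := by
    rw [he']
    simp only [map_add, map_smul, smul_eq_mul, hee, hey, hef]
    field_simp
    ring
  have he'e' : B₂ e' e' = 0 := by
    rw [he']
    simp only [map_add, map_smul, LinearMap.add_apply, LinearMap.smul_apply, smul_eq_mul, hee, hey, hef, hfe, hye, hyf, hfy, hff, hμy]
    ring
  have hfe' : B₂ f e' = μ⁻¹ := by
    rw [he']
    simp only [map_add, map_smul, smul_eq_mul, hfe, hfy, hff]
    ring
  obtain ⟨z, hz⟩ : ∃ z, z = μ • f - e := ⟨_, rfl⟩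
  have hze' : B₂ z e' = 0 := by
    rw [hz, map_sub, map_smul, LinearMap.sub_apply, LinearMap.smul_apply, hfe', hee', smul_eq_mul, mul_inv_cancel₀ hμ0, sub_self]
  have hzz : B₂ z z = - 2 * μ := by
    rw [hz]
    simp only [map_sub, map_smul, LinearMap.sub_apply, LinearMap.smul_apply, smul_eq_mul, hee, hef, hfe, hff]
    ring
  have hez : B₂ e z = μ := by
    rw [hz]
    simp only [map_sub, map_smul, smul_eq_mul, hee, hef]
    ring
  obtain ⟨R, hR, hR1, -⟩ := exists_siegO h h2 hX he'e' hze'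
  have hRe : ∀ x, R (τ x e) = τ x (μ • f) := by
    intro x
    rw [hR1, sg_apply, hee', hez, hzz, one_smul]
    congr 1
    rw [hz]
    match_scalars <;> field_simp <;> ring
  have h1 := hP p ((μ⁻¹ * μ⁻¹) • q)
  refine h1.conj hR fun v => ?_
  rw [K_apply, hRe, K_apply, nn_smul, LinearMap.smul_apply]
  have h3 : kap h e (R⁻¹ v) = μ • kap h f v := by
    refine h.f₁.ext fun x => ?_
    rw [kap_left, map_smul, LinearMap.smul_apply, kap_left, inv_form (hX.lei hR), hRe, map_smul, map_smul]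
  rw [h3]
  simp only [map_smul, LinearMap.smul_apply, smul_smul]
  rw [show μ * (μ⁻¹ * μ⁻¹ * μ) = 1 by field_simp, one_smul]

end H96.OoGen
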