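import Mathlib
import Cfsg.Agent.Lib.H96.OoGen
import Cfsg.Agent.Lib.H95.OSie

set_option autoImplicit false
set_option linter.unusedSectionVars false
set_option linter.unusedVariables false
set_option linter.unusedSimpArgs false

/-!
Tensor products of two orthogonal spaces: generation by long root elements, part 2.
-/

namespace H96.OoGen2

open Module QuadraticMap H95.SpBasic H96.TeBase H96.TeNorm H96.OoBase H96.TeC H96.TeE H96.OoCent H96.TeA H96.TeS H96.OoGen
open H96.StBase (In)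
open H95.OSie H17.OrthAbs H48.QuadSplit
open scoped commutatorElement

variable {F U W V : Type*} [Field F] [AddCommGroup U] [Module F U] [AddCommGroup W] [Module F W] [AddCommGroup V]
  [Module F V] [FiniteDimensional F U] [FiniteDimensional F W]
variable {B₁ : LinearMap.BilinForm F U} {B₂ : LinearMap.BilinForm F W} {B : LinearMap.BilinForm F V}
  {τ : U →ₗ[F] W →ₗ[F] V} {Om X : Subgroup (V ≃ₗ[F] V)} {Q : QuadraticForm F V}

lemma Q_zero (h2 : (2 : F) ≠ 0) (hQB : ∀ x y, polar Q x y = B x y) {v : V} (hv : B v v = 0) : Q v = 0 := by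
  have h1 := hQB v v
  rw [polar_self, hv] at h1
  have h3 : (2 : F) * Q v = 0 := by rw [← h1]; simp
  exact (mul_eq_zero.mp h3).resolve_left h2

lemma isom_O (h2 : (2 : F) ≠ 0) (hQB : ∀ x y, polar Q x y = B x y) {g : V ≃ₗ[F] V} (hg : g ∈ isom B) : g ∈ O Q := by
  intro v
  have h1 := hQB v v
  have h3 := hQB (g v) (g v)
  rw [hg, ← h1, polar_self, polar_self] at h3
  simpa [h2] using h3

lemma O_isom (hQB : ∀ x y, polar Q x y = B x y) {g : V ≃ₗ[F] V} (hg : g ∈ O Q) : g ∈ isom B := by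
  intro x y
  rw [← hQB, ← hQB, polar_map hg]

/-- the Siegel elements of the central type -/
lemma sie_iff (h : TE B₁ B₂ B τ 1 1) (h2 : (2 : F) ≠ 0) (hQB : ∀ x y, polar Q x y = B x y) {e : W} (hee : B₂ e e = 0) (p q : U) :
    In X (K h (nn B₁ p q) e e) ↔ sie Q (τ p e) (τ q e) ∈ X := by
  have e1 : Q (τ p e) = 0 := Q_zero h2 hQB (by rw [h.bp, hee, mul_zero])
  have e2 : Q (τ q e) = 0 := Q_zero h2 hQB (by rw [h.bp, hee, mul_zero])
  have e3 : polar Q (τ p e) (τ q e) = 0 := by rw [hQB, h.bp, hee, mul_zero]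
  have key : ∀ v, sie Q (τ p e) (τ q e) v = v + K h (nn B₁ p q) e e v := by
    intro v
    rw [sie_apply e1 e3, e2, K_apply, nn_apply, kap_left, kap_left, hQB, hQB]
    simp only [map_sub, map_smul, LinearMap.sub_apply, LinearMap.smul_apply, zero_mul, zero_smul]
    abel
  constructor
  · rintro ⟨g, hg, hgv⟩
    have : g = sie Q (τ p e) (τ q e) := by
      ext v
      rw [hgv, key]
    rwa [← this]
  · intro hg
    exact ⟨_, hg, key⟩

/-- G3 -/
lemma g3 (h : TE B₁ B₂ B τ 1 1) (h2 : (2 : F) ≠ 0) (hX : HO B τ Om X) (hQB : ∀ x y, polar Q x y = B x y) (hd : 3 ≤ finrank F U)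
    {e f : W} (hee : B₂ e e = 0) (hff : B₂ f f = 0) (hef : B₂ e f = 1) (hP : ∀ p q : U, In X (K h (nn B₁ p q) e e))
    (hP' : ∀ p q : U, In X (K h (nn B₁ p q) f f)) {q w : U} (hqw : B₁ q w = 0) : sie Q (τ q e) (τ w f) ∈ X := by
  have hfe : B₂ f e = 1 := by rw [h.f₂.flip, hef, one_mul]
  obtain ⟨p, hpw, hpq⟩ : ∃ p, B₁ p w = 0 ∧ p ∉ Submodule.span F {q} := by
    by_contra hcon
    push Not at hcon
    have h1 : LinearMap.ker (B₁.flip w) ≤ Submodule.span F {q} := fun p hp => hcon p hp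
    have h3 := Submodule.finrank_mono h1
    have h4 : finrank F (Submodule.span F {q}) ≤ 1 := by
      refine (finrank_span_le_card _).trans ?_
      simp
    have h5 := (B₁.flip w).finrank_range_add_finrank_ker
    have h6 : finrank F (LinearMap.range (B₁.flip w)) ≤ 1 := (Submodule.finrank_le _).trans (by rw [finrank_self])
    omega
  obtain ⟨v, hv1, hv2⟩ := h.f₁.sep1 hpq
  have e1 : ∀ x : U, Q (τ x e) = 0 := fun x => Q_zero h2 hQB (by rw [h.bp, hee, mul_zero])
  have e2 : ∀ x : U, Q (τ x f) = 0 := fun x => Q_zero h2 hQB (by rw [h.bp, hff, mul_zero])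
  have e3 : ∀ x y : U, polar Q (τ x e) (τ y e) = 0 := fun x y => by rw [hQB, h.bp, hee, mul_zero]
  have e4 : ∀ x y : U, polar Q (τ x f) (τ y f) = 0 := fun x y => by rw [hQB, h.bp, hff, mul_zero]
  have hg : sie Q (τ v f) (τ w f) ∈ X := (sie_iff h h2 hQB hff v w).mp (hP' v w)
  have hg0 : sie Q (τ q e) (τ p e) ∈ X := (sie_iff h h2 hQB hee q p).mp (hP q p)
  have hgO : sie Q (τ v f) (τ w f) ∈ O Q := sie_mem_O Q _ _
  have hgq : sie Q (τ v f) (τ w f) (τ q e) = τ q e := by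
    rw [sie_apply (e2 v) (e4 v w), e2, hQB, hQB, h.bp, h.bp, hv1, hqw]
    simp
  have hgp : sie Q (τ v f) (τ w f) (τ p e) = τ p e + τ w f := by
    rw [sie_apply (e2 v) (e4 v w), e2, hQB, hQB, h.bp, h.bp, hv2, hef, hpw]
    simp
  have h1 := sie_conj (e1 q) (e3 q p) hgO
  rw [hgq, hgp] at h1
  have h3 : sie Q (τ q e) (τ p e + τ w f) ∈ X := by
    rw [← h1]
    exact X.mul_mem (X.mul_mem hg hg0) (X.inv_mem hg)
  have e5 : polar Q (τ q e) (τ w f) = 0 := by rw [hQB, h.bp, hqw, zero_mul]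
  have e6 : polar Q (τ q e) (-τ p e) = 0 := by rw [hQB, map_neg, ← hQB, e3, neg_zero]
  have e7 : polar Q (τ q e) (τ p e + τ w f) = 0 := by rw [hQB, map_add, ← hQB, ← hQB, e3, e5, add_zero]
  have h4 := X.mul_mem (X.inv_mem hg0) h3
  rw [sie_inv (e1 q) (e3 q p), sie_mul (e1 q) e6 e7, neg_add_cancel_left] at h4
  exact h4

/-- G4: type one elements -/
lemma g4 [Finite F] (h : TE B₁ B₂ B τ 1 1) (h2 : (2 : F) ≠ 0) (hX : HO B τ Om X) (hQB : ∀ x y, polar Q x y = B x y)
    (hd : 3 ≤ finrank F U) (hm : 3 ≤ finrank F W) {e : W} (he : e ≠ 0) (hee : B₂ e e = 0)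
    (hP : ∀ p q : U, In X (K h (nn B₁ p q) e e)) {u w : U} (huw : B₁ u w = 0) (z : W) : sie Q (τ u e) (τ w z) ∈ X := by
  obtain ⟨f, hef, hfe, hff⟩ := h.f₂.partner h2 he hee
  have e1 : Q (τ u e) = 0 := Q_zero h2 hQB (by rw [h.bp, hee, mul_zero])
  have hpol : ∀ z, polar Q (τ u e) (τ w z) = 0 := fun z => by rw [hQB, h.bp, huw, zero_mul]
  have hadd : ∀ z z', sie Q (τ u e) (τ w z) ∈ X → sie Q (τ u e) (τ w z') ∈ X → sie Q (τ u e) (τ w (z + z')) ∈ X := by
    intro z z' hz hz'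
    rw [map_add, ← sie_mul e1 (hpol z) (hpol z')]
    exact X.mul_mem hz hz'
  -- multiples of e
  have k1 : ∀ c : F, sie Q (τ u e) (τ w (c • e)) ∈ X := by
    intro c
    have h1 := (sie_iff h h2 hQB hee u (c • w)).mp (hP u (c • w))
    rwa [map_smul, LinearMap.smul_apply, ← map_smul] at h1
  -- isotropic partners
  have k2 : ∀ f, B₂ f f = 0 → B₂ e f = 1 → ∀ c : F, sie Q (τ u e) (τ w (c • f)) ∈ X := by
    intro f hff hef c
    have h1 := g3 h h2 hX hQB hd hee hff hef hP (g2 h h2 hX hm he hee hff hef hP) (q := u) (w := c • w)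
      (by rw [map_smul, huw, smul_zero])
    rwa [map_smul, LinearMap.smul_apply, ← map_smul] at h1
  -- orthogonal vectors
  have k3 : ∀ y, B₂ y e = 0 → B₂ y f = 0 → sie Q (τ u e) (τ w y) ∈ X := by
    intro y hye hyf
    have hey := h.f₂.zero_flip hye
    have hfy := h.f₂.zero_flip hyf
    have h1 := k2 (f + y - (B₂ y y / 2) • e) (by
      simp only [map_add, map_sub, map_smul, LinearMap.add_apply, LinearMap.sub_apply, LinearMap.smul_apply, smul_eq_mul,
        hff, hye, hyf, hey, hfy, hee, hef, hfe]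
      have : B₂ y y / 2 * 2 = B₂ y y := by field_simp
      linear_combination - this) (by
      simp only [map_add, map_sub, map_smul, smul_eq_mul, hef, hey, hee]; ring) 1
    have h3 := hadd _ _ (hadd _ _ h1 (k2 f hff hef (-1))) (k1 (B₂ y y / 2))
    have h4 : (1 : F) • (f + y - (B₂ y y / 2) • e) + (-1 : F) • f + (B₂ y y / 2) • e = y := by module
    rwa [h4] at h3
  obtain ⟨h5, h6⟩ := hyp_perp h.f₂ hee hef hff z
  have h7 := hadd _ _ (hadd _ _ (k3 _ h5 h6) (k1 (B₂ z f))) (k2 f hff hef (B₂ z e))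
  have h8 : z - B₂ z f • e - B₂ z e • f + B₂ z f • e + B₂ z e • f = z := by abel
  rwa [h8] at h7

/-- from one long root element to all of type one -/
theorem type_one [Finite F] (h : TE B₁ B₂ B τ 1 1) (h2 : (2 : F) ≠ 0) (hX : HO B τ Om X) (hQB : ∀ x y, polar Q x y = B x y)
    (hd3 : 3 ≤ finrank F U) (hd : 5 ≤ finrank F U ∨ AN B₁) (hm : 3 ≤ finrank F W) (hNR : ¬ NR h X) :
    ∀ e : W, e ≠ 0 → B₂ e e = 0 → ∀ p q : U, In X (K h (nn B₁ p q) e e) := by
  unfold NR at hNR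
  push Not at hNR
  obtain ⟨u, z, hu0, hu, hzu, hz, e₀, he₀, hee₀, hin⟩ := hNR
  have h1 := g1e h h2 hX hd3 hd he₀ hee₀ hu0 hin hu hzu hz
  intro e he hee
  have hscale : ∀ (e : W) (c : F), c ≠ 0 → B₂ e e = 0 → (∀ p q : U, In X (K h (nn B₁ p q) (c • e) (c • e))) →
      ∀ p q : U, In X (K h (nn B₁ p q) e e) := by
    intro e c hc hee hP p q
    have h3 := hP p ((c⁻¹ * c⁻¹) • q)
    have h4 : K h (nn B₁ p ((c⁻¹ * c⁻¹) • q)) (c • e) (c • e) = K h (nn B₁ p q) e e := by
      ext v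
      rw [K_apply, K_apply, nn_smul]
      simp only [map_smul, LinearMap.smul_apply, smul_smul]
      rw [show c * (c * (c⁻¹ * c⁻¹)) = 1 by field_simp, one_smul]
    rwa [h4] at h3
  -- moving
  have hmove : ∀ e e' : W, e ≠ 0 → B₂ e e = 0 → B₂ e' e' = 0 → B₂ e e' ≠ 0 → (∀ p q : U, In X (K h (nn B₁ p q) e e)) →
      ∀ p q : U, In X (K h (nn B₁ p q) e' e') := by
    intro e e' he hee hee' hne hP
    refine hscale e' (B₂ e e')⁻¹ (inv_ne_zero hne) hee' (g2 h h2 hX hm he hee ?_ ?_ hP)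
    · simp only [map_smul, LinearMap.smul_apply, hee', smul_zero]
    · rw [map_smul, smul_eq_mul, inv_mul_cancel₀ hne]
  by_cases h0 : B₂ e₀ e = 0
  · obtain ⟨e₂, he₂, h3, h4⟩ := conn_iso h.f₂ h2 he₀ he hee₀ h0
    have he₂0 : e₂ ≠ 0 := by rintro rfl; rw [map_zero] at h3; exact h3 rfl
    exact hmove e₂ e he₂0 he₂ hee h4 (hmove e₀ e₂ he₀ hee₀ he₂ h3 h1)
  · exact hmove e₀ e he₀ hee₀ hee h0 h1

/-- everything from one long root element of type one -/
theorem all_one [Finite F] [FiniteDimensional F V] (h : TE B₁ B₂ B τ 1 1) (h2 : (2 : F) ≠ 0) (hX : HO B τ Om X)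
    (hQB : ∀ x y, polar Q x y = B x y) (hV : 7 ≤ finrank F V)
    (hd3 : 3 ≤ finrank F U) (hd : 5 ≤ finrank F U ∨ AN B₁) (hm3 : 3 ≤ finrank F W) (hm : 5 ≤ finrank F W ∨ AN B₂)
    (hNR : ¬ NR h X) : ⁅O Q, O Q⁆ ≤ X := by
  have hP1 := type_one h h2 hX hQB hd3 hd hm3 hNR
  obtain ⟨u, -, hu0, hu⟩ := exists_iso h.f₁ h2 (S := (⊤ : Submodule F U)) (by rw [finrank_top]; exact hd3)
  obtain ⟨e, -, he0, he⟩ := exists_iso h.f₂ h2 (S := (⊤ : Submodule F W)) (by rw [finrank_top]; exact hm3)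
  obtain ⟨v, huv, hvu, hvv⟩ := h.f₁.partner h2 hu0 hu
  obtain ⟨f, hef, hfe, hff⟩ := h.f₂.partner h2 he0 he
  have hv0 : v ≠ 0 := by rintro rfl; rw [map_zero] at huv; exact zero_ne_one huv
  have hf0 : f ≠ 0 := by rintro rfl; rw [map_zero] at hef; exact zero_ne_one hef
  -- type two elements
  have hNR' : ¬ NR h.symm X := by
    intro hcon
    obtain ⟨y, hye, hyy⟩ := exists_ns_perp h.f₂ h2 hm3 he0 he
    refine hcon e y he0 he hye ?_ u hu0 hu ?_
    · intro hmem
      obtain ⟨c, hc⟩ := Submodule.mem_span_singleton.mp hmem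
      apply hyy
      rw [← hc, map_smul, map_smul, LinearMap.smul_apply, he, smul_zero, smul_zero]
    · rw [sie_iff h.symm h2 hQB hu]
      exact g4 h h2 hX hQB hd3 hm3 he0 he (hP1 e he0 he) hu y
  have hP2 := type_one h.symm h2 hX.symm hQB hm3 hm hd3 hNR'
  have hfull : ∀ (u v : U) (e f : W), u ≠ 0 → B₁ u u = 0 → B₁ v v = 0 → B₁ u v = 1 → e ≠ 0 → B₂ e e = 0 → B₂ f f = 0 → B₂ e f = 1 →
      Full Q X (τ u e) := by
    intro u v e f hu0 hu hvv huv he0 he hff hef
    have e1 : Q (τ u e) = 0 := Q_zero h2 hQB (by rw [h.bp, he, mul_zero])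
    let S : Submodule F V :=
      { carrier := {b | polar Q (τ u e) b = 0 ∧ ∀ c : F, sie Q (τ u e) (c • b) ∈ X}
        add_mem' := by
          rintro a b ⟨ha, ha'⟩ ⟨hb, hb'⟩
          refine ⟨by rw [hQB, map_add, ← hQB, ← hQB, ha, hb, add_zero], fun c => ?_⟩
          rw [smul_add, ← sie_mul e1 (by rw [hQB, map_smul, ← hQB, ha, smul_zero]) (by rw [hQB, map_smul, ← hQB, hb, smul_zero])]
          exact X.mul_mem (ha' c) (hb' c)
        zero_mem' := by
          refine ⟨by rw [hQB, map_zero], fun c => ?_⟩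
          rw [smul_zero, sie_zero e1]
          exact X.one_mem
        smul_mem' := by
          rintro c a ⟨ha, ha'⟩
          refine ⟨by rw [hQB, map_smul, ← hQB, ha, smul_zero], fun c' => ?_⟩
          rw [smul_smul]
          exact ha' _ }
    have hS1 : ∀ w z, B₁ u w = 0 → τ w z ∈ S := by
      intro w z huw
      refine ⟨by rw [hQB, h.bp, huw, zero_mul], fun c => ?_⟩
      rw [← map_smul]
      exact g4 h h2 hX hQB hd3 hm3 he0 he (hP1 e he0 he) huw _
    have hS2 : ∀ w z, B₂ e z = 0 → τ w z ∈ S := by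
      intro w z hez
      refine ⟨by rw [hQB, h.bp, hez, mul_zero], fun c => ?_⟩
      have h3 := g4 h.symm h2 hX.symm hQB hm3 hd3 hu0 hu (hP2 u hu0 hu) hez (c • w)
      rw [LinearMap.flip_apply, LinearMap.flip_apply, map_smul, LinearMap.smul_apply] at h3
      exact h3
    refine ⟨e1, fun b hb => ?_⟩
    have hb' : polar Q (τ u e) b = 0 := hb
    let L : V →ₗ[F] V := LinearMap.id - (B (τ u e)).smulRight (τ v f)
    have hL : ∀ b, L b = b - B (τ u e) b • τ v f := fun b => rfl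
    have h1 : S.comap L = ⊤ := by
      apply h.span
      intro x z
      rw [Submodule.mem_comap, hL, h.bp]
      have h3 : τ x z - (B₁ u x * B₂ e z) • τ v f = τ (x - B₁ u x • v) z + τ (B₁ u x • v) (z - B₂ e z • f) := by
        simp only [map_sub, map_smul, LinearMap.sub_apply, LinearMap.smul_apply]
        module
      rw [h3]
      refine S.add_mem (hS1 _ _ ?_) (hS2 _ _ ?_)
      · rw [map_sub, map_smul, huv, smul_eq_mul, mul_one, sub_self]
      · rw [map_sub, map_smul, hef, smul_eq_mul, mul_one, sub_self]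
    have h3 : L b ∈ S := by rw [← Submodule.mem_comap, h1]; trivial
    rw [hL, ← hQB, hb', zero_smul, sub_zero] at h3
    have h4 := h3.2 1
    rwa [one_smul] at h4
  have hND : ND Q := by
    intro x hx
    apply h.f.nd
    intro y
    rw [← hQB, hx]
  refine omega_le_of_full hND hV (hfull u v e f hu0 hu hvv huv he0 he hff hef)
    (hfull v u f e hv0 hvv hu hvu hf0 hff he hfe) ?_
  rw [hQB, h.bp, hvu, hfe, mul_one]
  exact one_ne_zero

/-- everything from one long root element -/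
theorem gen_all [Finite F] [FiniteDimensional F V] (h : TE B₁ B₂ B τ 1 1) (h2 : (2 : F) ≠ 0) (hX : HO B τ Om X)
    (hQB : ∀ x y, polar Q x y = B x y) (hV : 7 ≤ finrank F V)
    (hd3 : 3 ≤ finrank F U) (hd : 5 ≤ finrank F U ∨ AN B₁) (hm3 : 3 ≤ finrank F W) (hm : 5 ≤ finrank F W ∨ AN B₂)
    (hnot : ¬ ⁅O Q, O Q⁆ ≤ X) : NR h X ∧ NR h.symm X := by
  constructor
  · by_contra hcon
    exact hnot (all_one h h2 hX hQB hV hd3 hd hm3 hm hcon)
  · by_contra hcon
    exact hnot (all_one h.symm h2 hX.symm hQB hV hm3 hm hd3 hd hcon)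

end H96.OoGen2
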