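import Mathlib
import Cfsg.Agent.Lib.H5.ZStar
import Cfsg.Agent.Lib.H2.GenCent
import Cfsg.Agent.Lib.H1.Cores

set_option autoImplicit false
set_option linter.unusedSectionVars false
set_option linter.unusedVariables false
set_option linter.unusedSimpArgs false
set_option linter.style.haveILetI false

/-!
Two generation lemmas on finite groups.
-/

namespace H96.OoGrp

open Subgroup Cfsg

universe u

variable {G : Type u} [Group G]

lemma conj_iff [Finite G] {K : Subgroup G} {T : G} (h1 : ∀ k ∈ K, T * k * T⁻¹ ∈ K) (k : G) : k ∈ K ↔ T * k * T⁻¹ ∈ K := by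
  refine ⟨h1 k, fun hk => ?_⟩
  have h3 : K.map (MulAut.conj T).toMonoidHom = K := by
    apply Subgroup.eq_of_le_of_card_ge
    · rintro _ ⟨k, hk, rfl⟩
      exact h1 k hk
    · rw [Subgroup.card_map_of_injective (MulAut.conj T).injective]
  rw [← h3] at hk
  obtain ⟨k', hk', hkk⟩ := hk
  have : k' = k := (MulAut.conj T).injective hkk
  rwa [← this]

lemma gen_le_of {A J K : Subgroup G} (hC : ∀ a ∈ A, a ≠ 1 → ∀ j ∈ J, a * j = j * a → j ∈ K) : H2.GenCent.gen A J ≤ K := by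
  refine iSup₂_le fun a ha => ?_
  rintro j ⟨hj, hja⟩
  refine hC a ha.1 ha.2 j hj ?_
  have h1 := Subgroup.mem_centralizer_singleton_iff.mp (show j ∈ Subgroup.centralizer {a} from hja)
  first
    | exact h1
    | exact h1.symm

/-- groups generated by the centralisers of a noncyclic p-group -/
theorem cgp [Finite G] {p : ℕ} (hp : p.Prime) {A J K : Subgroup G} (hc : ∀ a ∈ A, ∀ b ∈ A, a * b = b * a) (hA : ¬ IsCyclic A)
    (hAp : IsPGroup p A) (hAJ : ∀ a ∈ A, ∀ k ∈ J, a * k * a⁻¹ ∈ J) (hC : ∀ a ∈ A, a ≠ 1 → ∀ j ∈ J, a * j = j * a → j ∈ K)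
    (hno : ∀ k ∈ J, k ∈ K → k ^ p = 1 → k = 1) : J ≤ K := by
  haveI : Fact p.Prime := ⟨hp⟩
  have hA1 : ∃ a ∈ A, a ≠ 1 := by
    by_contra hcon
    push Not at hcon
    apply hA
    haveI : Subsingleton A := ⟨fun x y => Subtype.ext ((hcon x x.2).trans (hcon y y.2).symm)⟩
    exact isCyclic_of_subsingleton
  have hpJ : ¬ p ∣ Nat.card J := by
    intro hd
    letI : MulAction A J :=
      { smul := fun a j => ⟨a * j * (a : G)⁻¹, hAJ a a.2 j j.2⟩
        one_smul := fun j => Subtype.ext (by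
          change (1 : G) * j * (1 : G)⁻¹ = j
          group)
        mul_smul := fun a b j => Subtype.ext (by
          change ((a : G) * b) * j * ((a : G) * b)⁻¹ = a * (b * j * (b : G)⁻¹) * (a : G)⁻¹
          group) }
    have h1 := hAp.card_modEq_card_fixedPoints J
    have h2 : p ∣ Nat.card (MulAction.fixedPoints A J) := Nat.modEq_zero_iff_dvd.mp (h1.symm.trans hd.modEq_zero_nat)
    obtain ⟨C, hC'⟩ : ∃ C : Subgroup G, C = J ⊓ Subgroup.centralizer (A : Set G) := ⟨_, rfl⟩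
    have hmem : ∀ c : G, c ∈ C ↔ c ∈ J ∧ ∀ a ∈ A, a * c = c * a := by
      intro c
      rw [hC', Subgroup.mem_inf, Subgroup.mem_centralizer_iff]
      rfl
    have h3 : Nat.card (MulAction.fixedPoints A J) = Nat.card C := by
      refine Nat.card_congr
        { toFun := fun j => ⟨j.1, (hmem _).mpr ⟨j.1.2, fun a ha => ?_⟩⟩
          invFun := fun c => ⟨⟨c, ((hmem _).mp c.2).1⟩, fun a => ?_⟩
          left_inv := fun j => rfl
          right_inv := fun c => rfl }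
      · have h4 := congrArg Subtype.val (j.2 (⟨a, ha⟩ : A))
        have h5 : a * (j.1 : G) * a⁻¹ = j.1 := h4
        rw [← h5]
        nth_rw 1 [h5]
        group
      · apply Subtype.ext
        change (a : G) * c * (a : G)⁻¹ = c
        rw [((hmem _).mp c.2).2 a a.2]
        group
    rw [h3] at h2
    obtain ⟨⟨k, hkC⟩, hk⟩ := exists_prime_orderOf_dvd_card' p h2
    have hk' : orderOf k = p := by rw [← hk]; exact (Subgroup.orderOf_mk k hkC).symm
    obtain ⟨a, ha, ha1⟩ := hA1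
    have h4 := (hmem k).mp hkC
    have h5 := hno k h4.1 (hC a ha ha1 k h4.1 (h4.2 a ha)) (by rw [← hk']; exact pow_orderOf_eq_one k)
    rw [h5, orderOf_one] at hk'
    exact hp.one_lt.ne hk'
  obtain ⟨n, hn⟩ := IsPGroup.iff_card.mp hAp
  have hcop : (Nat.card A).Coprime (Nat.card J) := by
    rw [hn]
    exact Nat.Coprime.pow_left n ((Nat.Prime.coprime_iff_not_dvd hp).mpr hpJ)
  have h1 := H2.GenCent.main A J ⟨⟨fun a b => Subtype.ext (hc a a.2 b b.2)⟩⟩ hA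
    (fun a ha => Subgroup.mem_normalizer_iff.mpr (conj_iff (hAJ a ha))) hcop
  rw [← h1]
  exact gen_le_of hC

/-- the odd core of a subgroup -/
def oc (Q : Subgroup G) : Subgroup G := (pPrimeCore 2 Q).map Q.subtype

lemma oc_le (Q : Subgroup G) : oc Q ≤ Q := by
  rintro _ ⟨x, -, rfl⟩
  exact x.2

lemma le_oc [Finite G] {Q N : Subgroup G} (hN : N ≤ Q) (hn : ∀ q ∈ Q, ∀ n ∈ N, q * n * q⁻¹ ∈ N) (hc : (Nat.card N).Coprime 2) :
    N ≤ oc Q := by
  have h1 : (N.subgroupOf Q).Normal := ⟨fun n hn' q => by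
    rw [Subgroup.mem_subgroupOf] at hn' ⊢
    exact hn q q.2 n hn'⟩
  have h2 : Nat.card (N.subgroupOf Q) = Nat.card N := Nat.card_congr (Subgroup.subgroupOfEquivOfLe hN).toEquiv
  have h3 := H1.Cores.le_pPrimeCore h1 (by rw [h2]; exact hc)
  intro n hn'
  exact ⟨⟨n, hN hn'⟩, h3 (Subgroup.mem_subgroupOf.mpr hn'), rfl⟩

lemma oc_normal [Finite G] {Q : Subgroup G} : ∀ q ∈ Q, ∀ n ∈ oc Q, q * n * q⁻¹ ∈ oc Q := by
  rintro q hq _ ⟨n, hn, rfl⟩
  have h1 : (pPrimeCore 2 Q).Normal := by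
    haveI := H1.Cores.pPrimeCore_characteristic (G := Q) 2
    infer_instance
  exact ⟨_, h1.conj_mem n hn ⟨q, hq⟩, rfl⟩

lemma oc_card [Finite G] (Q : Subgroup G) : (Nat.card (oc Q)).Coprime 2 := by
  rw [oc, Subgroup.card_map_of_injective (Subgroup.subtype_injective _)]
  exact H1.Cores.coprime_card_pPrimeCore 2

lemma oc_conj [Finite G] {Q : Subgroup G} {T : G} (hT : ∀ q ∈ Q, T * q * T⁻¹ ∈ Q) : ∀ n ∈ oc Q, T * n * T⁻¹ ∈ oc Q := by
  have h1 : (oc Q).map (MulAut.conj T).toMonoidHom ≤ oc Q := by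
    apply le_oc
    · rintro _ ⟨n, hn, rfl⟩
      exact hT n (oc_le Q hn)
    · rintro q hq _ ⟨n, hn, rfl⟩
      have h2 : T⁻¹ * q * T ∈ Q := (conj_iff hT _).mpr (by
        have : T * (T⁻¹ * q * T) * T⁻¹ = q := by group
        rw [this]; exact hq)
      refine ⟨_, oc_normal _ h2 n hn, ?_⟩
      change T * ((T⁻¹ * q * T) * n * (T⁻¹ * q * T)⁻¹) * T⁻¹ = q * (T * n * T⁻¹) * q⁻¹
      group
    · rw [Subgroup.card_map_of_injective (MulAut.conj T).injective]
      exact oc_card Q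
  intro n hn
  exact h1 ⟨n, hn, rfl⟩

lemma odd_two {N : Subgroup G} [Finite G] (hN : (Nat.card N).Coprime 2) {n : G} (hn : n ∈ N) (h2 : n * n = 1) : n = 1 := by
  have h1 : orderOf n ∣ 2 := orderOf_dvd_of_pow_eq_one (by rw [pow_two]; exact h2)
  have h3 : orderOf n ∣ Nat.card N := by
    have := orderOf_dvd_natCard (⟨n, hn⟩ : N)
    rwa [Subgroup.orderOf_mk] at this
  have h4 := Nat.dvd_gcd h3 h1
  rw [hN] at h4
  exact orderOf_eq_one_iff.mp (Nat.dvd_one.mp h4)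

/-- a four-group -/
def V4 (T₁ T₂ : G) (h1 : T₁ * T₁ = 1) (h2 : T₂ * T₂ = 1) (h12 : T₁ * T₂ = T₂ * T₁) : Subgroup G where
  carrier := {g | g = 1 ∨ g = T₁ ∨ g = T₂ ∨ g = T₁ * T₂}
  one_mem' := Or.inl rfl
  mul_mem' := by
    have e1 : ∀ x, T₁ * (T₁ * x) = x := fun x => by rw [← mul_assoc, h1, one_mul]
    have e2 : ∀ x, T₂ * (T₂ * x) = x := fun x => by rw [← mul_assoc, h2, one_mul]
    have e3 : ∀ x, T₂ * (T₁ * x) = T₁ * (T₂ * x) := fun x => by rw [← mul_assoc, ← h12, mul_assoc]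
    rintro a b (rfl | rfl | rfl | rfl) (rfl | rfl | rfl | rfl)
    · exact Or.inl (by rw [one_mul])
    · exact Or.inr (Or.inl (by rw [one_mul]))
    · exact Or.inr (Or.inr (Or.inl (by rw [one_mul])))
    · exact Or.inr (Or.inr (Or.inr (by rw [one_mul])))
    · exact Or.inr (Or.inl (by rw [mul_one]))
    · exact Or.inl h1
    · exact Or.inr (Or.inr (Or.inr rfl))
    · exact Or.inr (Or.inr (Or.inl (e1 _)))
    · exact Or.inr (Or.inr (Or.inl (by rw [mul_one])))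
    · exact Or.inr (Or.inr (Or.inr h12.symm))
    · exact Or.inl h2
    · exact Or.inr (Or.inl (by rw [e3, h2, mul_one]))
    · exact Or.inr (Or.inr (Or.inr (by rw [mul_one])))
    · exact Or.inr (Or.inr (Or.inl (by rw [mul_assoc, ← h12, e1])))
    · exact Or.inr (Or.inl (by rw [mul_assoc, h2, mul_one]))
    · exact Or.inl (by rw [mul_assoc, e3, h2, mul_one, h1])
  inv_mem' := by
    have i1 : T₁⁻¹ = T₁ := inv_eq_of_mul_eq_one_left h1
    have i2 : T₂⁻¹ = T₂ := inv_eq_of_mul_eq_one_left h2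
    rintro a (rfl | rfl | rfl | rfl)
    · exact Or.inl inv_one
    · exact Or.inr (Or.inl i1)
    · exact Or.inr (Or.inr (Or.inl i2))
    · exact Or.inr (Or.inr (Or.inr (by rw [mul_inv_rev, i1, i2, h12])))

lemma mem_V4 {T₁ T₂ : G} {h1 : T₁ * T₁ = 1} {h2 : T₂ * T₂ = 1} {h12 : T₁ * T₂ = T₂ * T₁} {g : G} :
    g ∈ V4 T₁ T₂ h1 h2 h12 ↔ g = 1 ∨ g = T₁ ∨ g = T₂ ∨ g = T₁ * T₂ := Iff.rfl

lemma V4_sq {T₁ T₂ : G} {h1 : T₁ * T₁ = 1} {h2 : T₂ * T₂ = 1} {h12 : T₁ * T₂ = T₂ * T₁} {g : G}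
    (hg : g ∈ V4 T₁ T₂ h1 h2 h12) : g * g = 1 := by
  rcases mem_V4.mp hg with rfl | rfl | rfl | rfl
  · exact one_mul 1
  · exact h1
  · exact h2
  · rw [mul_assoc, ← mul_assoc T₂, ← h12, mul_assoc, h2, mul_one, h1]

/-- the Z*-lemma -/
theorem zl [Finite G] {Q K : Subgroup G} {T₁ T₂ : G} (h1 : T₁ * T₁ = 1) (h2 : T₂ * T₂ = 1) (h12 : T₁ * T₂ = T₂ * T₁)
    (n1 : T₁ ≠ 1) (n2 : T₂ ≠ 1) (n12 : T₁ ≠ T₂) (hQ1 : ∀ q ∈ Q, T₁ * q * T₁⁻¹ ∈ Q) (hQ2 : ∀ q ∈ Q, T₂ * q * T₂⁻¹ ∈ Q)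
    (pg : ∀ P : Subgroup G, IsPGroup 2 P → P ≤ Q ⊔ Subgroup.zpowers T₁ → T₁ ∈ P → P ≤ K)
    (good : ∀ q ∈ Q, q * T₁ * q⁻¹ ∈ K → q ∈ K)
    (cent : ∀ q ∈ Q, q ∈ K → q * T₁ = T₁ * q)
    (c1 : ∀ q ∈ Q, T₁ * q = q * T₁ → q ∈ K) (c2 : ∀ q ∈ Q, T₂ * q = q * T₂ → q ∈ K)
    (c3 : ∀ q ∈ Q, (T₁ * T₂) * q = q * (T₁ * T₂) → q ∈ K) : Q ≤ K := by
  have i1 : T₁⁻¹ = T₁ := inv_eq_of_mul_eq_one_left h1
  obtain ⟨H, hH⟩ : ∃ H, H = Q ⊔ Subgroup.zpowers T₁ := ⟨_, rfl⟩
  have hQH : Q ≤ H := by rw [hH]; exact le_sup_left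
  have hTH : T₁ ∈ H := by rw [hH]; exact (le_sup_right : _ ≤ Q ⊔ _) (Subgroup.mem_zpowers T₁)
  have hTn : Subgroup.zpowers T₁ ≤ Subgroup.normalizer (Q : Set G) := by
    rw [Subgroup.zpowers_le]
    exact Subgroup.mem_normalizer_iff.mpr (conj_iff hQ1)
  have hHe : ∀ g ∈ H, ∃ q ∈ Q, g = q ∨ g = q * T₁ := by
    let S : Subgroup G :=
      { carrier := {g | g ∈ Q ∨ g * T₁ ∈ Q}
        one_mem' := Or.inl Q.one_mem
        mul_mem' := by
          rintro a b (ha | ha) (hb | hb)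
          · exact Or.inl (Q.mul_mem ha hb)
          · exact Or.inr (by rw [mul_assoc]; exact Q.mul_mem ha hb)
          · refine Or.inr ?_
            have h3 : a * b * T₁ = (a * T₁) * (T₁ * b * T₁⁻¹) := by
              have : (a * T₁) * (T₁ * b * T₁⁻¹) = a * (T₁ * T₁) * b * T₁⁻¹ := by group
              rw [this, h1, i1, mul_one]
            rw [h3]
            exact Q.mul_mem ha (hQ1 b hb)
          · refine Or.inl ?_
            have h3 : a * b = (a * T₁) * (T₁ * (b * T₁) * T₁⁻¹) := by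
              have : (a * T₁) * (T₁ * (b * T₁) * T₁⁻¹) = a * (T₁ * T₁) * b := by group
              rw [this, h1, mul_one]
            rw [h3]
            exact Q.mul_mem ha (hQ1 _ hb)
        inv_mem' := by
          rintro a (ha | ha)
          · exact Or.inl (Q.inv_mem ha)
          · refine Or.inr ?_
            have h3 : a⁻¹ * T₁ = T₁ * (a * T₁)⁻¹ * T₁⁻¹ := by
              have : T₁ * (a * T₁)⁻¹ * T₁⁻¹ = a⁻¹ * T₁⁻¹ := by group
              rw [this, i1]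
            rw [h3]
            exact hQ1 _ (Q.inv_mem ha) }
    have hS : H ≤ S := by
      rw [hH]
      refine sup_le (fun q hq => Or.inl hq) ?_
      rw [Subgroup.zpowers_le]
      exact Or.inr (by rw [h1]; exact Q.one_mem)
    intro g hg
    rcases hS hg with h3 | h3
    · exact ⟨g, h3, Or.inl rfl⟩
    · exact ⟨g * T₁, h3, Or.inr (by rw [mul_assoc, h1, mul_one])⟩
  -- the two-group
  have hT2 : IsPGroup 2 (Subgroup.zpowers (⟨T₁, hTH⟩ : H)) := by
    rintro ⟨x, hx⟩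
    obtain ⟨k, rfl⟩ := Subgroup.mem_zpowers_iff.mp hx
    refine ⟨1, Subtype.ext ?_⟩
    change ((⟨T₁, hTH⟩ : H) ^ k) ^ 2 ^ 1 = 1
    have h3 : (⟨T₁, hTH⟩ : H) * ⟨T₁, hTH⟩ = 1 := Subtype.ext h1
    rw [pow_one, ← zpow_natCast, ← zpow_mul, mul_comm, zpow_mul, zpow_natCast, pow_two, h3, one_zpow]
  obtain ⟨P, hP⟩ := hT2.exists_le_sylow
  have hTP : (⟨T₁, hTH⟩ : H) ∈ P := hP (Subgroup.mem_zpowers _)
  have hPK : (P : Subgroup H).map H.subtype ≤ K := by
    apply pg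
    · exact P.2.map _
    · rw [← hH]
      rintro _ ⟨x, -, rfl⟩
      exact x.2
    · exact ⟨_, hTP, rfl⟩
  have hoT : orderOf (⟨T₁, hTH⟩ : H) = 2 :=
    orderOf_eq_prime (by rw [pow_two]; exact Subtype.ext h1) (fun h => n1 (congrArg Subtype.val h))
  have hcQ : ∀ q ∈ Q, q * T₁ * q⁻¹ ∈ K → q * T₁ * q⁻¹ = T₁ := by
    intro q hq hqK
    rw [cent q hq (good q hq hqK)]
    group
  have hz := H5.ZStar.sylow_form P (⟨T₁, hTH⟩ : H) hoT (by
    rintro ⟨g, hg⟩ hgP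
    apply Subtype.ext
    change g * T₁ * g⁻¹ = T₁
    have h3 : g * T₁ * g⁻¹ ∈ K := hPK ⟨_, hgP, rfl⟩
    obtain ⟨q, hq, rfl | rfl⟩ := hHe g hg
    · exact hcQ _ hq h3
    · have h4 : q * T₁ * T₁ * (q * T₁)⁻¹ = q * T₁ * q⁻¹ := by group
      rw [h4] at h3 ⊢
      exact hcQ _ hq h3)
  -- the commutators
  have hcom : ∀ q ∈ Q, T₁ * q * T₁⁻¹ * q⁻¹ ∈ oc Q := by
    have h5 : Q ⊓ (pPrimeCore 2 H).map H.subtype ≤ oc Q := by
      apply le_oc inf_le_left
      · rintro q hq _ ⟨hn1, n, hn, rfl⟩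
        refine ⟨Q.mul_mem (Q.mul_mem hq hn1) (Q.inv_mem hq), ?_⟩
        have h6 : (pPrimeCore 2 H).Normal := by
          haveI := H1.Cores.pPrimeCore_characteristic (G := H) 2
          infer_instance
        exact ⟨_, h6.conj_mem n hn ⟨q, hQH hq⟩, rfl⟩
      · refine Nat.Coprime.coprime_dvd_left (Subgroup.card_dvd_of_le inf_le_right) ?_
        rw [Subgroup.card_map_of_injective (Subgroup.subtype_injective _)]
        exact H1.Cores.coprime_card_pPrimeCore 2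
    intro q hq
    apply h5
    refine ⟨Q.mul_mem (hQ1 q hq) (Q.inv_mem hq), ?_⟩
    exact ⟨_, hz ⟨q, hQH hq⟩, rfl⟩
  -- generation of the core
  have hA2 : IsPGroup 2 (V4 T₁ T₂ h1 h2 h12) := by
    rintro ⟨x, hx⟩
    refine ⟨1, Subtype.ext ?_⟩
    rw [pow_one, pow_two]
    exact V4_sq hx
  obtain ⟨n, hn⟩ := IsPGroup.iff_card.mp hA2
  have hM := H2.GenCent.main (V4 T₁ T₂ h1 h2 h12) (oc Q) ⟨⟨by
      have hsq : ∀ a : V4 T₁ T₂ h1 h2 h12, a * a = 1 := fun a => Subtype.ext (V4_sq a.2)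
      intro a b
      have h3 : (a * b) * (a * b) = 1 := hsq _
      have ha : a⁻¹ = a := inv_eq_of_mul_eq_one_left (hsq a)
      have hb : b⁻¹ = b := inv_eq_of_mul_eq_one_left (hsq b)
      have h4 : (a * b)⁻¹ = a * b := inv_eq_of_mul_eq_one_left h3
      rw [← h4, mul_inv_rev, ha, hb]⟩⟩
    (by
      intro hcyc
      obtain ⟨g, hg⟩ := hcyc.exists_generator
      have hgg : g * g = 1 := Subtype.ext (V4_sq g.2)
      have hpw : ∀ x : V4 T₁ T₂ h1 h2 h12, x ≠ 1 → x = g := by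
        intro x hx
        obtain ⟨k, hk⟩ := Subgroup.mem_zpowers_iff.mp (hg x)
        rcases Int.even_or_odd' k with ⟨l, rfl | rfl⟩
        · rw [zpow_mul, zpow_two, hgg, one_zpow] at hk
          exact absurd hk.symm hx
        · rw [zpow_add, zpow_mul, zpow_two, hgg, one_zpow, one_mul, zpow_one] at hk
          exact hk.symm
      have e1 := hpw ⟨T₁, Or.inr (Or.inl rfl)⟩ (fun h => n1 (congrArg Subtype.val h))
      have e2 := hpw ⟨T₂, Or.inr (Or.inr (Or.inl rfl))⟩ (fun h => n2 (congrArg Subtype.val h))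
      exact n12 (congrArg Subtype.val (e1.trans e2.symm)))
    (by
      intro a ha
      have o1 := oc_conj hQ1
      have o2 := oc_conj hQ2
      apply Subgroup.mem_normalizer_iff.mpr
      apply conj_iff
      rcases mem_V4.mp ha with rfl | rfl | rfl | rfl
      · intro k hk
        rw [one_mul, inv_one, mul_one]
        exact hk
      · exact o1
      · exact o2
      · intro k hk
        have h3 : T₁ * T₂ * k * (T₁ * T₂)⁻¹ = T₁ * (T₂ * k * T₂⁻¹) * T₁⁻¹ := by group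
        rw [h3]
        exact o1 _ (o2 _ hk))
    (by
      rw [hn]
      exact Nat.Coprime.pow_left n (oc_card Q).symm)
  have hMK : oc Q ≤ K := by
    rw [← hM]
    apply gen_le_of
    intro a ha ha1 j hj hja
    have hjQ := oc_le Q hj
    rcases mem_V4.mp ha with rfl | rfl | rfl | rfl
    · exact absurd rfl ha1
    · exact c1 j hjQ hja
    · exact c2 j hjQ hja
    · exact c3 j hjQ hja
  -- conclusion
  intro q hq
  apply c1 q hq
  obtain ⟨n, hnd⟩ : ∃ n, n = T₁ * q * T₁⁻¹ * q⁻¹ := ⟨_, rfl⟩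
  have hn := hcom q hq
  rw [← hnd] at hn
  have hnT := cent n (oc_le Q hn) (hMK hn)
  have h3 : T₁ * q * T₁ = n * q := by rw [hnd, i1]; group
  have h4 : q = n * n * q := by
    calc q = T₁ * (T₁ * q * T₁) * T₁ := by
          have h8 : T₁ * (T₁ * q * T₁) * T₁ = (T₁ * T₁) * q * (T₁ * T₁) := by simp only [mul_assoc]
          rw [h8, h1, one_mul, mul_one]
      _ = T₁ * (n * q) * T₁ := by rw [h3]
      _ = (T₁ * n) * q * T₁ := by group
      _ = n * (T₁ * q * T₁) := by rw [← hnT]; group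
      _ = n * n * q := by rw [h3, mul_assoc]
  have h5 : n * n = 1 := by
    have := congrArg (· * q⁻¹) h4
    simpa using this.symm
  have h6 := odd_two (oc_card Q) hn h5
  rw [h6, one_mul] at h3
  have h7 := congrArg (· * T₁) h3
  simp only [mul_assoc, h1, mul_one] at h7
  exact h7

end H96.OoGrp
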