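import Mathlib

set_option autoImplicit false
set_option linter.unusedSectionVars false
set_option linter.unusedVariables false
set_option linter.unusedSimpArgs false
set_option linter.style.haveILetI false

/-!
Two lemmas on finite groups: the dihedral argument and a counting argument.
-/

namespace H96.OoGrp2

open Subgroup

variable {G : Type*} [Group G]

/-- products of two involutions -/
lemma two_inv [Finite G] {z z' : G} (hz : z * z = 1) (hz' : z' * z' = 1) (hzz : z ≠ z') :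
    (∃ g : G, g ∈ Subgroup.closure {z, z'} ∧ g * z' = z * g) ∨
    ∃ j : G, j ∈ Subgroup.closure {z, z'} ∧ j ≠ 1 ∧ j * j = 1 ∧ j * z = z * j ∧ j * z' = z' * j ∧
      ((∃ g, g ∈ Subgroup.closure {z, z'} ∧ g * z' = z * g * j) ∨
        ∃ r, r ∈ Subgroup.closure {z, z'} ∧ r * r = j ∧ z * r * z = r⁻¹ ∧ ∃ g ∈ Subgroup.closure {z, z'},
          z * r = g * z * g⁻¹ ∨ z * r = g * z' * g⁻¹) := by
  obtain ⟨ρ, hρ⟩ : ∃ ρ, ρ = z * z' := ⟨_, rfl⟩
  have hi : z⁻¹ = z := inv_eq_of_mul_eq_one_right hz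
  have hi' : z'⁻¹ = z' := inv_eq_of_mul_eq_one_right hz'
  have hz'ρ : z' = z * ρ := by rw [hρ, ← mul_assoc, hz, one_mul]
  have hρinv : z * ρ * z = ρ⁻¹ := by
    rw [hρ, mul_inv_rev, hi, hi', ← mul_assoc z z z', hz, one_mul]
  have hinvp : ∀ n : ℕ, z * ρ ^ n * z = (ρ ^ n)⁻¹ := by
    intro n
    have h1 : z * ρ ^ n * z⁻¹ = (z * ρ * z⁻¹) ^ n := by rw [conj_pow]
    rw [hi] at h1
    rw [h1, hρinv, inv_pow]
  have hρC : ρ ∈ Subgroup.closure {z, z'} := by
    rw [hρ]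
    exact Subgroup.mul_mem _ (Subgroup.subset_closure (by simp)) (Subgroup.subset_closure (by simp))
  have hsw : ∀ k : ℕ, (ρ ^ k)⁻¹ * z = z * ρ ^ k := by
    intro k
    have h2 := hinvp k
    calc (ρ ^ k)⁻¹ * z = (z * ρ ^ k * z) * z := by rw [h2]
      _ = z * ρ ^ k * (z * z) := by group
      _ = z * ρ ^ k := by rw [hz, mul_one]
  -- conjugating element
  have key : ∀ k : ℕ, (ρ ^ k)⁻¹ * z' = z * (ρ ^ k)⁻¹ * ρ ^ (2 * k + 1) := by
    intro k
    have h1 := hsw k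
    rw [hz'ρ, ← mul_assoc, h1]
    have h3 : ρ ^ (2 * k + 1) = ρ ^ k * (ρ ^ k * ρ) := by
      rw [← pow_succ, ← pow_add]
      congr 1
      ring
    rw [h3]
    group
  rcases Nat.even_or_odd (orderOf ρ) with ⟨h, hh⟩ | ⟨k, hk⟩
  · right
    have hpos : 0 < orderOf ρ := orderOf_pos ρ
    have hj1 : ρ ^ h ≠ 1 := by
      intro h0
      have := Nat.le_of_dvd (by omega) (orderOf_dvd_of_pow_eq_one h0)
      omega
    have hjj : ρ ^ h * ρ ^ h = 1 := by rw [← pow_add, ← hh, pow_orderOf_eq_one]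
    have hji : (ρ ^ h)⁻¹ = ρ ^ h := inv_eq_of_mul_eq_one_right hjj
    have hjz : ρ ^ h * z = z * ρ ^ h := by
      have h1 := hinvp h
      rw [hji] at h1
      calc ρ ^ h * z = (z * ρ ^ h * z) * z := by rw [h1]
        _ = z * ρ ^ h * (z * z) := by group
        _ = z * ρ ^ h := by rw [hz, mul_one]
    refine ⟨ρ ^ h, Subgroup.pow_mem _ hρC _, hj1, hjj, hjz, ?_, ?_⟩
    · rw [hz'ρ, ← mul_assoc, hjz, mul_assoc, mul_assoc]
      congr 1
      rw [← pow_succ, ← pow_succ']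
    · rcases Nat.even_or_odd h with ⟨i, hi⟩ | ⟨k, hk⟩
      · right
        refine ⟨ρ ^ i, Subgroup.pow_mem _ hρC _, by rw [← pow_add, ← hi], hinvp i, ?_⟩
        rcases Nat.even_or_odd' i with ⟨s, rfl | rfl⟩
        · refine ⟨(ρ ^ s)⁻¹, Subgroup.inv_mem _ (Subgroup.pow_mem _ hρC _), Or.inl ?_⟩
          rw [hsw s, inv_inv, mul_assoc, ← pow_add, two_mul]
        · refine ⟨(ρ ^ s)⁻¹, Subgroup.inv_mem _ (Subgroup.pow_mem _ hρC _), Or.inr ?_⟩
          rw [hz'ρ, ← mul_assoc, hsw s, inv_inv, mul_assoc, mul_assoc, ← pow_succ', ← pow_add]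
          congr 2
          ring
      · left
        refine ⟨(ρ ^ k)⁻¹, Subgroup.inv_mem _ (Subgroup.pow_mem _ hρC _), ?_⟩
        rw [key k, hk]
  · left
    refine ⟨(ρ ^ k)⁻¹, Subgroup.inv_mem _ (Subgroup.pow_mem _ hρC _), ?_⟩
    rw [key k, ← hk, pow_orderOf_eq_one, mul_one]

/-- good elements -/
def Gd (K H : Subgroup G) (t : G) : Prop := t ∈ H ∧ ∀ g ∈ K, g⁻¹ * t * g ∈ H → g ∈ H

lemma Gd.inv {K H : Subgroup G} {t : G} (ht : Gd K H t) {g : G} (hg : g ∈ K) (h : g * t * g⁻¹ ∈ H) : g ∈ H := by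
  have h1 := ht.2 g⁻¹ (K.inv_mem hg) (by rw [inv_inv]; exact h)
  have h2 := H.inv_mem h1
  rwa [inv_inv] at h2

lemma Gd.comm {K H : Subgroup G} {t : G} (ht : Gd K H t) {g : G} (hg : g ∈ K) (h : t * g = g * t) : g ∈ H := by
  apply ht.2 g hg
  rw [mul_assoc, h, inv_mul_cancel_left]
  exact ht.1

/-- the dihedral argument -/
theorem dh [Finite G] {K H : Subgroup G} {i z : G} (hi : i ∈ K) (hz : z ∈ K) (ii : i * i = 1) (zz : z * z = 1) (gi : Gd K H i)
    (gz : Gd K H z) (nc : ∀ k ∈ K, k ∈ H → k * i ≠ z * k)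
    (jj : ∀ j ∈ K, j ∈ H → j ≠ 1 → j * j = 1 → ((∃ h ∈ K, h ∈ H ∧ z * j = h * i * h⁻¹) ∨
      ∃ r ∈ K, r ∈ H ∧ r * r = j ∧ ∃ h ∈ K, h ∈ H ∧ (z * r = h * z * h⁻¹ ∨ z * r = h * i * h⁻¹)) → Gd K H j) : K ≤ H := by
  intro x hx
  by_contra hxk
  obtain ⟨z', hz'⟩ : ∃ z', z' = x * i * x⁻¹ := ⟨_, rfl⟩
  have hz'K : z' ∈ K := by rw [hz']; exact K.mul_mem (K.mul_mem hx hi) (K.inv_mem hx)
  have hz'z' : z' * z' = 1 := by
    rw [hz']
    have : x * i * x⁻¹ * (x * i * x⁻¹) = x * (i * i) * x⁻¹ := by group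
    rw [this, ii]; group
  have key : ∀ g ∈ K, g * i ≠ z * g := by
    intro g hg h0
    refine nc g hg (gz.2 g hg ?_) h0
    rw [mul_assoc, ← h0, inv_mul_cancel_left]
    exact gi.1
  have hne : z ≠ z' := by
    intro h0
    apply key x hx
    rw [h0, hz']; group
  have hCK : Subgroup.closure {z, z'} ≤ K := by
    rw [Subgroup.closure_le]
    rintro g (rfl | hg)
    · exact hz
    · rw [Set.mem_singleton_iff.mp hg]; exact hz'K
  rcases two_inv zz hz'z' hne with ⟨g, hgC, hg⟩ | ⟨j, hjC, hj1, hjj, hjz, hjz', hj⟩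
  · refine key (g * x) (K.mul_mem (hCK hgC) hx) ?_
    have : g * x * i = g * (x * i * x⁻¹) * x := by group
    rw [this, ← hz', hg]; group
  · have hjK := hCK hjC
    have hjH : j ∈ H := gz.comm hjK hjz.symm
    have gj : Gd K H j := by
      apply jj j hjK hjH hj1 hjj
      rcases hj with ⟨g, hgC, hg⟩ | ⟨r, hrC, hrr, hzr, g, hgC, hgr⟩
      · left
        have hgj : g * j = j * g := by
          have h3 : Subgroup.closure {z, z'} ≤ Subgroup.centralizer {j} := by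
            rw [Subgroup.closure_le]
            rintro a (rfl | ha)
            · exact Subgroup.mem_centralizer_singleton_iff.mpr (by first | exact hjz | exact hjz.symm)
            · rw [Set.mem_singleton_iff.mp ha]
              exact Subgroup.mem_centralizer_singleton_iff.mpr (by first | exact hjz' | exact hjz'.symm)
          exact Subgroup.mem_centralizer_singleton_iff.mp (h3 hgC)
        have h3 : (g * x) * i * (g * x)⁻¹ = z * j := by
          have h4 : (g * x) * i * (g * x)⁻¹ = g * (x * i * x⁻¹) * g⁻¹ := by group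
          have h5 : z * g * j * g⁻¹ = z * (g * j) * g⁻¹ := by rw [mul_assoc z g j]
          rw [h4, ← hz', hg, h5, hgj]
          group
        have hgx := K.mul_mem (hCK hgC) hx
        exact ⟨g * x, hgx, gi.inv hgx (by rw [h3]; exact H.mul_mem gz.1 hjH), h3.symm⟩
      · right
        have hrK := hCK hrC
        have hrH : r ∈ H := by
          apply gz.inv hrK
          have h4 : r * z = z * r⁻¹ := by
            have h5 : z * (z * r * z) = r * z := by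
              have : z * (z * r * z) = (z * z) * r * z := by simp only [mul_assoc]
              rw [this, zz, one_mul]
            rw [← h5, hzr]
          have h3 : r * z * r⁻¹ = z * j⁻¹ := by rw [h4, ← hrr]; group
          rw [h3]
          exact H.mul_mem gz.1 (H.inv_mem hjH)
        refine ⟨r, hrK, hrH, hrr, ?_⟩
        have hzr' : z * r ∈ H := H.mul_mem gz.1 hrH
        rcases hgr with hgr | hgr
        · refine ⟨g, hCK hgC, ?_, Or.inl hgr⟩
          exact gz.inv (hCK hgC) (by rw [← hgr]; exact hzr')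
        · have h3 : g * z' * g⁻¹ = (g * x) * i * (g * x)⁻¹ := by rw [hz']; group
          rw [h3] at hgr
          have hgx := K.mul_mem (hCK hgC) hx
          exact ⟨g * x, hgx, gi.inv hgx (by rw [← hgr]; exact hzr'), Or.inr hgr⟩
    apply hxk
    apply gj.2 x hx
    apply gi.comm (K.mul_mem (K.mul_mem (K.inv_mem hx) hjK) hx)
    have h4 : i = x⁻¹ * z' * x := by rw [hz']; group
    rw [h4]
    have h5 : x⁻¹ * z' * x * (x⁻¹ * j * x) = x⁻¹ * (z' * j) * x := by group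
    have h6 : x⁻¹ * j * x * (x⁻¹ * z' * x) = x⁻¹ * (j * z') * x := by group
    rw [h5, h6, hjz']

/-- orbits of a subgroup -/
lemma orb_card [Finite G] (H : Subgroup G) (T : G) :
    Nat.card H ≤ Nat.card {t : G // ∃ h ∈ H, t = h * T * h⁻¹} * Nat.card (H ⊓ Subgroup.centralizer {T} : Subgroup G) := by
  classical
  rw [← Nat.card_prod]
  let rep : {t : G // ∃ h ∈ H, t = h * T * h⁻¹} → G := fun t => t.2.choose
  have hrep : ∀ t, rep t ∈ H ∧ (t : G) = rep t * T * (rep t)⁻¹ := fun t => t.2.choose_spec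
  let f : H → {t : G // ∃ h ∈ H, t = h * T * h⁻¹} × (H ⊓ Subgroup.centralizer {T} : Subgroup G) := fun h =>
    ⟨⟨h * T * (h : G)⁻¹, h, h.2, rfl⟩, ⟨(rep ⟨h * T * (h : G)⁻¹, h, h.2, rfl⟩)⁻¹ * h, by
      obtain ⟨h1, h2⟩ := hrep ⟨h * T * (h : G)⁻¹, h, h.2, rfl⟩
      obtain ⟨r, hr⟩ : ∃ r, r = rep ⟨h * T * (h : G)⁻¹, h, h.2, rfl⟩ := ⟨_, rfl⟩
      rw [← hr] at h1 h2 ⊢
      refine ⟨H.mul_mem (H.inv_mem h1) h.2, ?_⟩
      have h3 : (h : G) * T * (h : G)⁻¹ = r * T * r⁻¹ := h2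
      have h4 : r⁻¹ * h * T = T * (r⁻¹ * h) := by
        have h5 : r⁻¹ * h * T = r⁻¹ * (h * T * (h : G)⁻¹) * h := by group
        rw [h5, h3]; group
      exact Subgroup.mem_centralizer_singleton_iff.mpr (by first | exact h4 | exact h4.symm)⟩⟩
  refine Nat.card_le_card_of_injective f ?_
  intro a b hab
  have h1 : (⟨a * T * (a : G)⁻¹, a, a.2, rfl⟩ : {t : G // ∃ h ∈ H, t = h * T * h⁻¹}) = ⟨b * T * (b : G)⁻¹, b, b.2, rfl⟩ :=
    congrArg Prod.fst hab
  have h2 : (rep ⟨a * T * (a : G)⁻¹, a, a.2, rfl⟩)⁻¹ * (a : G) = (rep ⟨b * T * (b : G)⁻¹, b, b.2, rfl⟩)⁻¹ * b :=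
    congrArg (fun x => (x.2 : G)) hab
  rw [h1] at h2
  exact Subtype.ext (mul_left_cancel h2)

/-- the counting argument -/
theorem ct_top [Finite G] {H M : Subgroup G} {T₁ T₂ : G} (s1 : T₁ * T₁ = 1) (s2 : T₂ * T₂ = 1) (m1 : T₁ ∈ H) (m2 : T₂ ∈ H)
    (g1 : ∀ g, g⁻¹ * T₁ * g ∈ H → g ∈ H) (g2 : ∀ g, g⁻¹ * T₂ * g ∈ H → g ∈ H) (nc : ∀ k ∈ H, k * T₁ ≠ T₂ * k)
    (hM : M ≤ H) (hMg : ∀ m ∈ M, m ≠ 1 → ∀ g, g⁻¹ * m * g ∈ H → g ∈ H) {c : ℕ}
    (hc1 : Nat.card (H ⊓ Subgroup.centralizer {T₁} : Subgroup G) ≤ c) (hc2 : Nat.card (H ⊓ Subgroup.centralizer {T₂} : Subgroup G) ≤ c)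
    (hcM : c < 2 * Nat.card M) : H = ⊤ := by
  classical
  by_contra hH
  haveI : Fintype G := Fintype.ofFinite G
  -- the good involutions
  let I₀ : Type _ := {t : G // ∃ h ∈ H, t = h * T₁ * h⁻¹} ⊕ {t : G // ∃ h ∈ H, t = h * T₂ * h⁻¹}
  let v : I₀ → G := Sum.elim Subtype.val Subtype.val
  have hvi : Function.Injective v := by
    rintro (⟨a, h, hh, ha⟩ | ⟨a, h, hh, ha⟩) (⟨b, k, hk, hb⟩ | ⟨b, k, hk, hb⟩) hab
    · exact congrArg Sum.inl (Subtype.ext hab)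
    · exfalso
      have h3 : a = b := hab
      apply nc (k⁻¹ * h) (H.mul_mem (H.inv_mem hk) hh)
      have h4 : k⁻¹ * h * T₁ = k⁻¹ * (h * T₁ * h⁻¹) * h := by group
      rw [h4, ← ha, h3, hb]; group
    · exfalso
      have h3 : a = b := hab
      apply nc (h⁻¹ * k) (H.mul_mem (H.inv_mem hh) hk)
      have h4 : h⁻¹ * k * T₁ = h⁻¹ * (k * T₁ * k⁻¹) * k := by group
      rw [h4, ← hb, ← h3, ha]; group
    · exact congrArg Sum.inr (Subtype.ext hab)
  have hvH : ∀ s, v s ∈ H := by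
    rintro (⟨a, h, hh, rfl⟩ | ⟨a, h, hh, rfl⟩)
    · exact H.mul_mem (H.mul_mem hh m1) (H.inv_mem hh)
    · exact H.mul_mem (H.mul_mem hh m2) (H.inv_mem hh)
  have hvs : ∀ s, v s * v s = 1 := by
    rintro (⟨a, h, hh, rfl⟩ | ⟨a, h, hh, rfl⟩)
    · change h * T₁ * h⁻¹ * (h * T₁ * h⁻¹) = 1
      have : h * T₁ * h⁻¹ * (h * T₁ * h⁻¹) = h * (T₁ * T₁) * h⁻¹ := by group
      rw [this, s1]; group
    · change h * T₂ * h⁻¹ * (h * T₂ * h⁻¹) = 1
      have : h * T₂ * h⁻¹ * (h * T₂ * h⁻¹) = h * (T₂ * T₂) * h⁻¹ := by group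
      rw [this, s2]; group
  have hvg : ∀ s, ∀ g, g⁻¹ * v s * g ∈ H → g ∈ H := by
    rintro (⟨a, h, hh, rfl⟩ | ⟨a, h, hh, rfl⟩) g hg
    · have h3 : h⁻¹ * g ∈ H := g1 _ (by
        have : (h⁻¹ * g)⁻¹ * T₁ * (h⁻¹ * g) = g⁻¹ * (h * T₁ * h⁻¹) * g := by group
        rw [this]; exact hg)
      have := H.mul_mem hh h3
      rwa [mul_inv_cancel_left] at this
    · have h3 : h⁻¹ * g ∈ H := g2 _ (by
        have : (h⁻¹ * g)⁻¹ * T₂ * (h⁻¹ * g) = g⁻¹ * (h * T₂ * h⁻¹) * g := by group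
        rw [this]; exact hg)
      have := H.mul_mem hh h3
      rwa [mul_inv_cancel_left] at this
  have hvg' : ∀ s, ∀ g, g * v s * g⁻¹ ∈ H → g ∈ H := by
    intro s g hg
    have h1 := hvg s g⁻¹ (by rw [inv_inv]; exact hg)
    have h2 := H.inv_mem h1
    rwa [inv_inv] at h2
  -- the number of good involutions
  have hN : 2 * Nat.card H ≤ Nat.card I₀ * c := by
    have e1 := orb_card H T₁
    have e2 := orb_card H T₂
    have e3 : Nat.card I₀ = Nat.card {t : G // ∃ h ∈ H, t = h * T₁ * h⁻¹} + Nat.card {t : G // ∃ h ∈ H, t = h * T₂ * h⁻¹} := Nat.card_sum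
    rw [e3, add_mul, two_mul]
    exact Nat.add_le_add (e1.trans (Nat.mul_le_mul_left _ hc1)) (e2.trans (Nat.mul_le_mul_left _ hc2))
  -- pigeonhole
  let β : Type _ := {q : G ⧸ H // q ≠ ((1 : G) : G ⧸ H)}
  let u : β × I₀ → G := fun x => x.1.1.out * v x.2 * (x.1.1.out)⁻¹
  have hqo : ∀ q : β, q.1.out ∉ H := by
    intro q hq
    apply q.2
    rw [← QuotientGroup.out_eq' q.1]
    exact QuotientGroup.eq.mpr (by rw [mul_one]; exact H.inv_mem hq)
  have huH : ∀ x, u x ∉ H := fun x hx => hqo x.1 (hvg' x.2 _ hx)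
  let f : β × I₀ → β := fun x => ⟨((u x : G) : G ⧸ H), fun h0 => huH x (by
    have := QuotientGroup.eq.mp h0
    rw [mul_one] at this
    have h2 := H.inv_mem this
    rwa [inv_inv] at h2)⟩
  obtain ⟨g₀, hg₀⟩ : ∃ g₀ : G, g₀ ∉ H := by
    by_contra hcon
    push Not at hcon
    exact hH ((Subgroup.eq_top_iff' H).mpr hcon)
  haveI : Fintype I₀ := Fintype.ofFinite I₀
  haveI : Fintype β := Fintype.ofFinite β
  haveI : Nonempty β := ⟨⟨((g₀ : G) : G ⧸ H), fun h0 => hg₀ (by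
    have := QuotientGroup.eq.mp h0
    rw [mul_one] at this
    have h2 := H.inv_mem this
    rwa [inv_inv] at h2)⟩⟩
  obtain ⟨y, hy⟩ := Fintype.exists_le_card_fiber_of_mul_le_card f (n := Fintype.card I₀) (by rw [Fintype.card_prod])
  have hI1 : 0 < Fintype.card I₀ := Fintype.card_pos_iff.mpr ⟨Sum.inl ⟨T₁, 1, H.one_mem, by group⟩⟩
  obtain ⟨x₀, hx₀⟩ := Finset.card_pos.mp (lt_of_lt_of_le hI1 hy)
  rw [Finset.mem_filter] at hx₀
  obtain ⟨t, ht⟩ : ∃ t, t = u x₀ := ⟨_, rfl⟩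
  have hus : ∀ x, u x * u x = 1 := by
    intro x
    have : u x * u x = x.1.1.out * (v x.2 * v x.2) * (x.1.1.out)⁻¹ := by
      change x.1.1.out * v x.2 * (x.1.1.out)⁻¹ * (x.1.1.out * v x.2 * (x.1.1.out)⁻¹) = _
      group
    rw [this, hvs]; group
  have hui : Function.Injective u := by
    rintro ⟨q, s⟩ ⟨q', s'⟩ hss
    have h1 : q.1.out * v s * (q.1.out)⁻¹ = q'.1.out * v s' * (q'.1.out)⁻¹ := hss
    have h3 : (q'.1.out)⁻¹ * q.1.out ∈ H := by
      apply hvg' s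
      have h4 : (q'.1.out)⁻¹ * q.1.out * v s * ((q'.1.out)⁻¹ * q.1.out)⁻¹ = (q'.1.out)⁻¹ * (q.1.out * v s * (q.1.out)⁻¹) * q'.1.out := by
        group
      rw [h4, h1]
      have h5 : (q'.1.out)⁻¹ * (q'.1.out * v s' * (q'.1.out)⁻¹) * q'.1.out = v s' := by group
      rw [h5]
      exact hvH s'
    have h6 : q = q' := by
      apply Subtype.ext
      rw [← QuotientGroup.out_eq' q.1, ← QuotientGroup.out_eq' q'.1]
      exact (QuotientGroup.eq.mpr h3).symm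
    subst h6
    have h7 : v s = v s' := mul_left_cancel (mul_right_cancel h1)
    rw [hvi h7]
  -- the intersection
  let D : Subgroup G := H ⊓ H.map (MulAut.conj t).toMonoidHom
  have hti : t⁻¹ = t := inv_eq_of_mul_eq_one_left (by rw [ht]; exact hus x₀)
  have htH : t ∉ H := by rw [ht]; exact huH x₀
  have hD : ∀ d, d ∈ D ↔ d ∈ H ∧ t * d * t⁻¹ ∈ H := by
    intro d
    constructor
    · rintro ⟨h1, l, hl, h2⟩
      refine ⟨h1, ?_⟩
      have h3 : t * l * t⁻¹ = d := h2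
      rw [← h3]
      have h4 : t * (t * l * t⁻¹) * t⁻¹ = (t * t) * l * (t * t)⁻¹ := by group
      have h5 : t * t = 1 := by rw [ht]; exact hus x₀
      rw [h4, h5, one_mul, inv_one, mul_one]
      exact hl
    · rintro ⟨h1, h2⟩
      refine ⟨h1, t * d * t⁻¹, h2, ?_⟩
      change t * (t * d * t⁻¹) * t⁻¹ = d
      have h4 : t * (t * d * t⁻¹) * t⁻¹ = (t * t) * d * (t * t)⁻¹ := by group
      have h5 : t * t = 1 := by rw [ht]; exact hus x₀
      rw [h4, h5, one_mul, inv_one, mul_one]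
  have hND : Fintype.card I₀ ≤ Nat.card D := by
    refine hy.trans ?_
    rw [← Fintype.card_coe, ← Nat.card_eq_fintype_card]
    let F : {x // x ∈ Finset.univ.filter (fun x => f x = y)} → D := fun x => ⟨t⁻¹ * u x.1, by
      have hx := (Finset.mem_filter.mp x.2).2
      have h1 : ((u x₀ : G) : G ⧸ H) = ((u x.1 : G) : G ⧸ H) := congrArg Subtype.val (hx₀.2.trans hx.symm)
      have h2 : t⁻¹ * u x.1 ∈ H := by rw [ht]; exact QuotientGroup.eq.mp h1
      refine (hD _).mpr ⟨h2, ?_⟩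
      have h3 : t * (t⁻¹ * u x.1) * t⁻¹ = (t⁻¹ * u x.1)⁻¹ := by
        have h4 : (u x.1)⁻¹ = u x.1 := inv_eq_of_mul_eq_one_left (hus x.1)
        rw [mul_inv_rev, h4, inv_inv, hti]
        have h5 : t * (t * u x.1) * t = (t * t) * u x.1 * t := by group
        have h6 : t * t = 1 := by rw [ht]; exact hus x₀
        rw [h5, h6, one_mul]
      rw [h3]
      exact H.inv_mem h2⟩
    refine Nat.card_le_card_of_injective F ?_
    intro a b hab
    have h1 : t⁻¹ * u a.1 = t⁻¹ * u b.1 := congrArg Subtype.val hab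
    exact Subtype.ext (hui (mul_left_cancel h1))
  have hDM : Nat.card D * Nat.card M ≤ Nat.card H := by
    rw [← Nat.card_prod]
    let F : D × M → H := fun x => ⟨x.1 * x.2, H.mul_mem x.1.2.1 (hM x.2.2)⟩
    refine Nat.card_le_card_of_injective F ?_
    rintro ⟨d, m⟩ ⟨d', m'⟩ hab
    have h1 : (d : G) * m = d' * m' := congrArg Subtype.val hab
    have h2 : (d' : G)⁻¹ * d = m' * (m : G)⁻¹ := by
      have : (d' : G)⁻¹ * d = (d' : G)⁻¹ * (d * m) * (m : G)⁻¹ := by group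
      rw [this, h1]; group
    have h3 : (m' : G) * (m : G)⁻¹ ∈ D := by rw [← h2]; exact D.mul_mem (D.inv_mem d'.2) d.2
    have h4 : (m' : G) * (m : G)⁻¹ = 1 := by
      by_contra h0
      apply htH
      have h5 := hMg _ (M.mul_mem m'.2 (M.inv_mem m.2)) h0 t⁻¹ (by rw [inv_inv]; exact ((hD _).mp h3).2)
      have h6 := H.inv_mem h5
      rwa [inv_inv] at h6
    have h5 : (m' : G) = m := mul_inv_eq_one.mp h4
    have h6 : (d : G) = d' := by rw [h5] at h1; exact mul_right_cancel h1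
    exact Prod.ext (Subtype.ext h6) (Subtype.ext h5.symm)
  rw [← Nat.card_eq_fintype_card] at hND
  have hHp : 0 < Nat.card H := Nat.card_pos
  have e1 : Nat.card I₀ * Nat.card M ≤ Nat.card H := (Nat.mul_le_mul_right _ hND).trans hDM
  have e2 : 2 * Nat.card H * Nat.card M ≤ Nat.card H * c := by
    calc 2 * Nat.card H * Nat.card M ≤ Nat.card I₀ * c * Nat.card M := Nat.mul_le_mul_right _ hN
      _ = Nat.card I₀ * Nat.card M * c := by ring
      _ ≤ Nat.card H * c := Nat.mul_le_mul_right _ e1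
  have e3 : Nat.card H * c < Nat.card H * (2 * Nat.card M) := Nat.mul_lt_mul_of_pos_left hcM hHp
  nlinarith

/-- the counting argument for a subgroup -/
theorem ct [Finite G] {K H M : Subgroup G} {T₁ T₂ : G} (s1 : T₁ * T₁ = 1) (s2 : T₂ * T₂ = 1) (k1 : T₁ ∈ K) (k2 : T₂ ∈ K)
    (g1 : Gd K H T₁) (g2 : Gd K H T₂) (nc : ∀ k ∈ K, k ∈ H → k * T₁ ≠ T₂ * k) (hMK : M ≤ K)
    (hM : M ≤ H) (hMg : ∀ m ∈ M, m ≠ 1 → Gd K H m) {c : ℕ}
    (hc1 : Nat.card {l : G // l ∈ K ∧ l ∈ H ∧ l * T₁ = T₁ * l} ≤ c) (hc2 : Nat.card {l : G // l ∈ K ∧ l ∈ H ∧ l * T₂ = T₂ * l} ≤ c)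
    (hcM : c < 2 * Nat.card M) : K ≤ H := by
  have hcard : ∀ (T : G) (hT : T ∈ K), Nat.card (H.subgroupOf K ⊓ Subgroup.centralizer {(⟨T, hT⟩ : K)} : Subgroup K) ≤
      Nat.card {l : G // l ∈ K ∧ l ∈ H ∧ l * T = T * l} := by
    intro T hT
    let F : (H.subgroupOf K ⊓ Subgroup.centralizer {(⟨T, hT⟩ : K)} : Subgroup K) → {l : G // l ∈ K ∧ l ∈ H ∧ l * T = T * l} :=
      fun l => ⟨l.1.1, l.1.2, l.2.1, by
        have h1 := Subgroup.mem_centralizer_singleton_iff.mp (show l.1 ∈ Subgroup.centralizer {(⟨T, hT⟩ : K)} from l.2.2)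
        have h2 := congrArg Subtype.val h1
        first
          | exact h2
          | exact h2.symm⟩
    refine Nat.card_le_card_of_injective F ?_
    intro a b hab
    have h1 : ((a : K) : G) = ((b : K) : G) := congrArg (fun x : {l : G // l ∈ K ∧ l ∈ H ∧ l * T = T * l} => (x : G)) hab
    exact Subtype.ext (Subtype.ext h1)
  have h := ct_top (G := K) (H := H.subgroupOf K) (M := M.subgroupOf K) (T₁ := ⟨T₁, k1⟩) (T₂ := ⟨T₂, k2⟩)
    (Subtype.ext s1) (Subtype.ext s2) g1.1 g2.1 (fun g hg => g1.2 g g.2 hg) (fun g hg => g2.2 g g.2 hg)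
    (fun k hk h0 => nc k k.2 hk (congrArg Subtype.val h0)) (fun m hm => hM hm)
    (fun m hm hm1 g hg => (hMg m hm (fun h0 => hm1 (Subtype.ext h0))).2 g g.2 hg) ((hcard T₁ k1).trans hc1) ((hcard T₂ k2).trans hc2)
    (by
      rw [Nat.card_congr (Subgroup.subgroupOfEquivOfLe hMK).toEquiv]
      exact hcM)
  exact Subgroup.subgroupOf_eq_top.mp h

end H96.OoGrp2
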