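import Mathlib
import Cfsg.Agent.Lib.H96.OoGen2

set_option autoImplicit false
set_option linter.unusedSectionVars false
set_option linter.unusedVariables false
set_option linter.unusedSimpArgs false

/-!
Tensor products of two orthogonal spaces: coefficients of the elements of the radicals.
-/

namespace H96.OoRad

open Module QuadraticMap H95.SpBasic H96.TeBase H96.TeNorm H96.OoBase H96.TeC H96.TeE H96.OoCent H96.TeA H96.TeS H96.OoGen H96.OoGen2
open H96.StBase (In)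
open H95.OSie H17.OrthAbs H48.QuadSplit

variable {F U W V : Type*} [Field F] [AddCommGroup U] [Module F U] [AddCommGroup W] [Module F W] [AddCommGroup V]
  [Module F V] [FiniteDimensional F U] [FiniteDimensional F W]
variable {B₁ : LinearMap.BilinForm F U} {B₂ : LinearMap.BilinForm F W} {B : LinearMap.BilinForm F V}
  {τ : U →ₗ[F] W →ₗ[F] V} {Om X : Subgroup (V ≃ₗ[F] V)} {Q : QuadraticForm F V}

/-- hypotheses -/
structure Hz (h : TE B₁ B₂ B τ 1 1) (Om X : Subgroup (V ≃ₗ[F] V)) (Q : QuadraticForm F V) : Prop where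
  two : (2 : F) ≠ 0
  hX : HO B τ Om X
  hQB : ∀ x y, polar Q x y = B x y
  nr₁ : NR h X
  nr₂ : NR h.symm X
  d3 : 3 ≤ finrank F U
  m3 : 3 ≤ finrank F W
  dt : 4 ≤ finrank F U ∨ ∃ t : F, t ≠ 0 ∧ t * t ≠ 1
  mt : 4 ≤ finrank F W ∨ ∃ t : F, t ≠ 0 ∧ t * t ≠ 1
  wd : 5 ≤ finrank F U ∨ AN B₁
  wm : 5 ≤ finrank F W ∨ AN B₂

variable {h : TE B₁ B₂ B τ 1 1}

lemma Hz.symm (H : Hz h Om X Q) : Hz h.symm Om X Q where
  two := H.two
  hX := H.hX.symm
  hQB := H.hQB
  nr₁ := H.nr₂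
  nr₂ := H.nr₁
  d3 := H.m3
  m3 := H.d3
  dt := H.mt
  mt := H.dt
  wd := H.wm
  wm := H.wd

lemma Hz.c0 [Finite F] (H : Hz h Om X Q) {e : W} (he : e ≠ 0) (hee : B₂ e e = 0) {σ : Module.End F U}
    (hσ : In X (K h σ e e)) : σ = 0 := c_zero h H.two H.hX H.nr₁ H.d3 he hee hσ

/-- elements with the same action up to the centre are equal -/
lemma eq_of_mulO [Finite F] (H : Hz h Om X Q) {e : W} (he : e ≠ 0)
    (hee : B₂ e e = 0) {σ : Module.End F U} {g k : V ≃ₗ[F] V} (hg : g ∈ X) (hk : k ∈ X) (hke : ∀ u, k (τ u e) = τ u e)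
    (hgk : ∀ v, g v = k v + τ (σ (kap h e v)) e) : σ = 0 := by
  refine H.c0 he hee ⟨g * k⁻¹, X.mul_mem hg (X.inv_mem hk), fun v => ?_⟩
  have hkk : k (k⁻¹ v) = v := k.apply_symm_apply v
  have hke' : ∀ u, k⁻¹ (τ u e) = τ u e := by
    intro u
    conv_lhs => rw [← hke u]
    exact k.symm_apply_apply _
  rw [LinearEquiv.mul_apply, hgk, hkk, kap_e_fix h (isom B |>.inv_mem (H.hX.lei hk)) hke', K_apply]

/-- the coefficient of an element of the radical -/
structure RadO (h : TE B₁ B₂ B τ 1 1) (e : W) (x : V ≃ₗ[F] V) (n : W →ₗ[F] Module.End F U) : Prop where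
  fix : ∀ u, x (τ u e) = τ u e
  act : ∀ w, B₂ w e = 0 → ∀ u, x (τ u w) = τ u w + τ (n w u) e

lemma RadO.kap {e : W} {x : V ≃ₗ[F] V} (hxi : x ∈ isom B) {n : W →ₗ[F] Module.End F U} (hr : RadO h e x n) {y : W}
    (hy : B₂ y e = 0) (v : V) : kap h y (x v) = kap h y v - h.f₁.adj (n y) (kap h e v) := by
  refine h.f₁.ext fun u => ?_
  rw [kap_left, map_sub, LinearMap.sub_apply, h.f₁.adj_left, kap_left, kap_left]
  have h1 := hxi v (τ u y)
  rw [hr.act y hy, map_add] at h1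
  have h3 : B (x v) (τ (n y u) e) = B v (τ (n y u) e) := by
    conv_lhs => rw [← hr.fix]
    rw [hxi]
  rw [h3] at h1
  linear_combination h1

/-- the coefficients are self-adjoint -/
lemma RadO.self [Finite F] (H : Hz h Om X Q) {e : W} (he : e ≠ 0)
    (hee : B₂ e e = 0) {x : V ≃ₗ[F] V} (hx : x ∈ X) {n : W →ₗ[F] Module.End F U} (hr : RadO h e x n) {y : W}
    (hy : B₂ y e = 0) : h.f₁.adj (n y) = n y := by
  obtain ⟨R, hR, hR1, hR2⟩ := exists_siegO h H.two H.hX hee hy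
  have hRe : ∀ u, R (τ u e) = τ u e := fun u => by rw [hR1, sg_fix h.f₂ hee hy]
  have h1 : n y - h.f₁.adj (n y) = 0 := by
    refine eq_of_mulO H he hee (g := x * R) (k := R * x) (X.mul_mem hx hR) (X.mul_mem hR hx) (fun u => by
      rw [LinearEquiv.mul_apply, hr.fix, hRe]) (fun v => ?_)
    rw [LinearEquiv.mul_apply, LinearEquiv.mul_apply, hR2 v, hR2 (x v), hr.kap (H.hX.lei hx) hy, kap_e_fix h (H.hX.lei hx) hr.fix]
    simp only [map_add, map_sub, map_smul, hr.act y hy, hr.fix, LinearMap.sub_apply, one_smul]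
    module
  exact (sub_eq_zero.mp h1).symm

/-- coefficients of elements of the group -/
def Rn (h : TE B₁ B₂ B τ 1 1) (X : Subgroup (V ≃ₗ[F] V)) (e : W) (n : W →ₗ[F] Module.End F U) : Prop := ∃ x ∈ X, RadO h e x n

lemma Rn.self [Finite F] (H : Hz h Om X Q) {e : W} (he : e ≠ 0) (hee : B₂ e e = 0) {n : W →ₗ[F] Module.End F U}
    (hn : Rn h X e n) {w : W} (hw : B₂ w e = 0) (u u' : U) : B₁ (n w u) u' = B₁ u (n w u') := by
  obtain ⟨x, hx, hr⟩ := hn
  have h1 := hr.self H he hee hx hw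
  have h3 := h.f₁.adj_left (n w) u' u
  rw [h1] at h3
  exact h3

lemma Rn.add {e : W} {n n' : W →ₗ[F] Module.End F U} (hn : Rn h X e n) (hn' : Rn h X e n') : Rn h X e (n + n') := by
  obtain ⟨x, hx, hr⟩ := hn
  obtain ⟨x', hx', hr'⟩ := hn'
  refine ⟨x * x', X.mul_mem hx hx', fun u => by rw [LinearEquiv.mul_apply, hr'.fix, hr.fix], fun w hw u => ?_⟩
  rw [LinearEquiv.mul_apply, hr'.act w hw, map_add, hr.act w hw, hr.fix, LinearMap.add_apply, LinearMap.add_apply, map_add,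
    LinearMap.add_apply]
  abel

lemma Rn.neg {e : W} {n : W →ₗ[F] Module.End F U} (hn : Rn h X e n) : Rn h X e (-n) := by
  obtain ⟨x, hx, hr⟩ := hn
  have hfix : ∀ u, x⁻¹ (τ u e) = τ u e := by
    intro u
    conv_lhs => rw [← hr.fix u]
    exact x.symm_apply_apply _
  refine ⟨x⁻¹, X.inv_mem hx, hfix, fun w hw u => ?_⟩
  have h1 : x (τ u w - τ (n w u) e) = τ u w := by
    rw [map_sub, hr.act w hw, hr.fix]; abel
  rw [LinearMap.neg_apply, LinearMap.neg_apply, map_neg, LinearMap.neg_apply, ← sub_eq_add_neg]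
  conv_lhs => rw [← h1]
  exact x.symm_apply_apply _

lemma Rn.sub {e : W} {n n' : W →ₗ[F] Module.End F U} (hn : Rn h X e n) (hn' : Rn h X e n') : Rn h X e (n - n') := by
  rw [sub_eq_add_neg]
  exact hn.add hn'.neg

/-- conjugation of the coefficients -/
def cj (a a' : Module.End F U) (n : W →ₗ[F] Module.End F U) : W →ₗ[F] Module.End F U where
  toFun w := a ∘ₗ n w ∘ₗ a'
  map_add' w w' := by rw [map_add, LinearMap.add_comp, LinearMap.comp_add]
  map_smul' c w := by rw [map_smul, LinearMap.smul_comp, LinearMap.comp_smul, RingHom.id_apply]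

lemma cj_apply (a a' : Module.End F U) (n : W →ₗ[F] Module.End F U) (w : W) (u : U) : cj a a' n w u = a (n w (a' u)) := rfl

lemma Rn.cj (H : Hz h Om X Q) {e : W} {n : W →ₗ[F] Module.End F U} (hn : Rn h X e n) {u y : U} (hu : B₁ u u = 0)
    (hy : B₁ y u = 0) : Rn h X e (cj (sg B₁ 1 y u) (sg B₁ 1 (-y) u) n) := by
  obtain ⟨x, hx, hr⟩ := hn
  obtain ⟨R, hR, hR1, -⟩ := exists_siegO h.symm H.two H.hX.symm hu hy
  have h3 : ∀ x w, R⁻¹ (τ x w) = τ (sg B₁ 1 (-y) u x) w := fun x w => siegO_inv h.symm H.two hu hy hR1 w x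
  have h4 : ∀ x w, R (τ x w) = τ (sg B₁ 1 y u x) w := fun x w => hR1 w x
  have h5 : ∀ x, sg B₁ 1 y u (sg B₁ 1 (-y) u x) = x := by
    intro x
    have := sg_inv h.f₁ H.two (y := -y) hu (by rw [map_neg, LinearMap.neg_apply, hy, neg_zero]) x
    rwa [neg_neg] at this
  refine ⟨R * x * R⁻¹, X.mul_mem (X.mul_mem hR hx) (X.inv_mem hR), fun a => ?_, fun w hw a => ?_⟩
  · rw [LinearEquiv.mul_apply, LinearEquiv.mul_apply, h3, hr.fix, h4, h5]
  · rw [LinearEquiv.mul_apply, LinearEquiv.mul_apply, h3, hr.act w hw, map_add, h4, h4, h5, cj_apply]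

/-- scalar coefficients -/
lemma Rn.scal (H : Hz h Om X Q) {e : W} (hee : B₂ e e = 0) {y : W} (hy : B₂ y e = 0) :
    Rn h X e ((LinearMap.flip B₂ y).smulRight (1 : Module.End F U)) := by
  have hy' : B₂ (-y) e = 0 := by rw [map_neg, LinearMap.neg_apply, hy, neg_zero]
  obtain ⟨R, hR, hR1, -⟩ := exists_siegO h H.two H.hX hee hy'
  refine ⟨R, hR, fun u => by rw [hR1, sg_fix h.f₂ hee hy'], fun w hw u => ?_⟩
  rw [hR1, sg_apply, hw]
  simp only [LinearMap.smulRight_apply, LinearMap.flip_apply, LinearMap.smul_apply, Module.End.one_apply, map_sub, map_add, map_smul,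
    map_neg, zero_smul, mul_zero, one_mul, map_zero, add_zero, sub_zero, neg_smul, sub_neg_eq_add]

lemma Rn.congr {e : W} {n n' : W →ₗ[F] Module.End F U} (hn : Rn h X e n) (hnn : ∀ w, B₂ w e = 0 → ∀ u, n' w u = n w u) : Rn h X e n' := by
  obtain ⟨x, hx, hr⟩ := hn
  exact ⟨x, hx, hr.fix, fun w hw u => by rw [hnn w hw, hr.act w hw]⟩

lemma Rn.e0 {e : W} (he : e ≠ 0) (hee : B₂ e e = 0) {n : W →ₗ[F] Module.End F U} (hn : Rn h X e n) (u : U) : n e u = 0 := by
  obtain ⟨x, hx, hr⟩ := hn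
  have h1 := hr.act e hee u
  rw [hr.fix] at h1
  have h3 : τ (n e u) e = 0 := by
    have := sub_eq_zero.mpr h1
    have h4 : τ u e - (τ u e + τ (n e u) e) = - τ (n e u) e := by abel
    rw [h4] at this
    exact neg_eq_zero.mp this
  exact pure_eq_zero h he h3

/-- rank one coefficients -/
lemma rank_one_form (H : Hz h Om X Q) {e : W} (he : e ≠ 0) (hee : B₂ e e = 0) {u : U} (hu : B₁ u u = 0) {y : W}
    (hy : B₂ y e = 0) {x : V ≃ₗ[F] V} (hx : x ∈ X)
    (hr : RadO h e x ((- LinearMap.flip B₂ y).smulRight ((LinearMap.flip B₁ u).smulRight u))) :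
    ∃ t : Module.End F U, ∀ v, x v = v + K h.symm (nn B₂ e y) u u v + τ (t (kap h e v)) e := by
  obtain ⟨f, hef, hfe, -⟩ := h.f₂.partner H.two he hee
  have hey := h.f₂.zero_flip hy
  have e1 : Q (τ u e) = 0 := Q_zero H.two H.hQB (by rw [h.bp, hee, mul_zero])
  have e2 : Q (τ u y) = 0 := Q_zero H.two H.hQB (by rw [h.bp, hu, zero_mul])
  have e3 : polar Q (τ u e) (τ u y) = 0 := by rw [H.hQB, h.bp, hu, zero_mul]
  obtain ⟨s₀, hs₀⟩ : ∃ s₀, s₀ = sie Q (τ u e) (τ u y) := ⟨_, rfl⟩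
  have hs : ∀ v, s₀ v = v + K h.symm (nn B₂ e y) u u v := by
    intro v
    rw [hs₀, sie_apply e1 e3, e2, K_flip h, nn_apply, kap_left, kap_left, H.hQB, H.hQB]
    simp only [map_sub, map_smul, LinearMap.flip_apply, zero_mul, zero_smul]
    abel
  have hsi : s₀ ∈ isom B := by rw [hs₀]; exact O_isom H.hQB (sie_mem_O Q _ _)
  have hKp : ∀ a w, K h.symm (nn B₂ e y) u u (τ a w) = (B₁ a u * B₂ w e) • τ u y - (B₁ a u * B₂ w y) • τ u e := by
    intro a w
    rw [K_flip h, kap_pure' h, nn_apply]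
    simp only [map_sub, map_smul, LinearMap.smul_apply, smul_eq_mul]
  have hse : ∀ a, s₀ (τ a e) = τ a e := by
    intro a
    rw [hs, hKp, hee, hey]
    simp
  have hss : ∀ v, s₀⁻¹ (s₀ v) = v := fun v => s₀.symm_apply_apply v
  obtain ⟨σ, hσ⟩ := triv_form h (g := s₀⁻¹ * x) ((isom B).mul_mem ((isom B).inv_mem hsi) (H.hX.lei hx)) hef hfe (fun a w hw => by
    rw [LinearEquiv.mul_apply, hr.act w hw]
    have : τ a w + τ (((- LinearMap.flip B₂ y).smulRight ((LinearMap.flip B₁ u).smulRight u)) w a) e = s₀ (τ a w) := by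
      rw [hs, hKp, hw]
      simp only [LinearMap.smulRight_apply, LinearMap.neg_apply, LinearMap.flip_apply, LinearMap.smul_apply, map_smul]
      module
    rw [this, hss])
  refine ⟨σ, fun v => ?_⟩
  have h1 : x v = s₀ ((s₀⁻¹ * x) v) := by
    rw [LinearEquiv.mul_apply]
    exact (s₀.apply_symm_apply _).symm
  rw [h1, hσ, map_add, hs v, hse]

end H96.OoRad
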