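import Mathlib
import Cfsg.Agent.Lib.H96.OoRad

set_option autoImplicit false
set_option linter.unusedSectionVars false
set_option linter.unusedVariables false
set_option linter.unusedSimpArgs false

/-!
Tensor products of two orthogonal spaces: the coefficients of the elements of the radicals are scalars.
-/

namespace H96.OoRad2

open Module QuadraticMap H95.SpBasic H96.TeBase H96.TeNorm H96.OoBase H96.TeC H96.TeE H96.OoCent H96.TeA H96.TeS H96.OoGen H96.OoGen2
  H96.OoRad
open H96.StBase (In)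
open H95.OSie H17.OrthAbs H48.QuadSplit

variable {F U W V : Type*} [Field F] [AddCommGroup U] [Module F U] [AddCommGroup W] [Module F W] [AddCommGroup V]
  [Module F V] [FiniteDimensional F U] [FiniteDimensional F W]
variable {B₁ : LinearMap.BilinForm F U} {B₂ : LinearMap.BilinForm F W} {B : LinearMap.BilinForm F V}
  {τ : U →ₗ[F] W →ₗ[F] V} {Om X : Subgroup (V ≃ₗ[F] V)} {Q : QuadraticForm F V} {h : TE B₁ B₂ B τ 1 1}

/-- orthogonal vector outside of a line -/
lemma exists_off {S : LinearMap.BilinForm F W} (a b c : W) (hm : 5 ≤ finrank F W) (e : W) :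
    ∃ y, S a y = 0 ∧ S b y = 0 ∧ S c y = 0 ∧ y ∉ Submodule.span F {e} := by
  by_contra hcon
  push Not at hcon
  have h1 : LinearMap.ker (S a) ⊓ LinearMap.ker (S b) ⊓ LinearMap.ker (S c) ≤ Submodule.span F {e} := fun y hy => by
    obtain ⟨h2, h3⟩ := Submodule.mem_inf.mp hy
    obtain ⟨h2, h4⟩ := Submodule.mem_inf.mp h2
    exact hcon y h2 h4 h3
  have h3 := Submodule.finrank_mono h1
  have h4 : finrank F (Submodule.span F {e}) ≤ 1 := by
    refine (finrank_span_le_card _).trans ?_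
    simp
  have hk : ∀ a : W, finrank F W ≤ finrank F (LinearMap.ker (S a)) + 1 := by
    intro a
    have h5 := (S a).finrank_range_add_finrank_ker
    have h6 : finrank F (LinearMap.range (S a)) ≤ 1 := (Submodule.finrank_le _).trans (by rw [finrank_self])
    omega
  have h5 := Submodule.finrank_sup_add_finrank_inf_eq (LinearMap.ker (S a)) (LinearMap.ker (S b))
  have h6 := Submodule.finrank_sup_add_finrank_inf_eq (LinearMap.ker (S a) ⊓ LinearMap.ker (S b)) (LinearMap.ker (S c))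
  have h7 := Submodule.finrank_le (LinearMap.ker (S a) ⊔ LinearMap.ker (S b))
  have h8 := Submodule.finrank_le (LinearMap.ker (S a) ⊓ LinearMap.ker (S b) ⊔ LinearMap.ker (S c))
  have h9 := hk a
  have h10 := hk b
  have h11 := hk c
  omega

/-- rank one coefficients do not occur -/
theorem phi_zero [Finite F] (H : Hz h Om X Q) {e : W} (he : e ≠ 0) (hee : B₂ e e = 0) {u : U} (hu0 : u ≠ 0) (hu : B₁ u u = 0)
    {φ : W →ₗ[F] F} (hφ : Rn h X e (φ.smulRight ((LinearMap.flip B₁ u).smulRight u))) {w₀ : W} (hw₀ : B₂ w₀ e = 0) : φ w₀ = 0 := by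
  by_contra hne
  have h2 := H.two
  obtain ⟨v, huv, hvu, hvv⟩ := h.f₁.partner h2 hu0 hu
  obtain ⟨y, hy⟩ := h.f₂.repr (-φ)
  have hφy : φ = - LinearMap.flip B₂ y := by
    ext w
    rw [LinearMap.neg_apply, LinearMap.flip_apply, hy, LinearMap.neg_apply, neg_neg]
  have hey : B₂ e y = 0 := by
    have h1 := Rn.e0 he hee hφ v
    simp only [LinearMap.smulRight_apply, LinearMap.flip_apply, LinearMap.smul_apply, hvu, one_smul] at h1
    rw [hy, LinearMap.neg_apply, (smul_eq_zero.mp h1).resolve_right hu0, neg_zero]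
  have hye := h.f₂.zero_flip hey
  have hyn : y ∉ Submodule.span F {e} := by
    intro hmem
    obtain ⟨c, hc⟩ := Submodule.mem_span_singleton.mp hmem
    apply hne
    rw [hφy, LinearMap.neg_apply, LinearMap.flip_apply, ← hc, map_smul, hw₀, smul_zero, neg_zero]
  rw [hφy] at hφ
  by_cases hyy : B₂ y y = 0
  · -- singular case
    have hm5 : 5 ≤ finrank F W := by
      rcases H.wm with hm | hm
      · exact hm
      · exact absurd (hm e y he hee hey hyy) hyn
    have hy0 : y ≠ 0 := by rintro rfl; exact hyn (Submodule.zero_mem _)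
    obtain ⟨z, hz1, hz2⟩ := h.f₂.sep1 (u := e) (y := y) hyn
    obtain ⟨e₃, he₃⟩ : ∃ e₃, e₃ = z - (B₂ z z / 2) • y := ⟨_, rfl⟩
    have hzy : B₂ z y = 1 := by rw [h.f₂.flip, hz2, one_mul]
    have he₃e : B₂ e e₃ = 0 := by rw [he₃, map_sub, map_smul, hz1, hey]; simp
    have he₃y : B₂ y e₃ = 1 := by rw [he₃, map_sub, map_smul, hz2, hyy]; simp
    have he₃3 : B₂ e₃ e₃ = 0 := by
      rw [he₃]
      simp only [map_sub, map_smul, LinearMap.sub_apply, LinearMap.smul_apply, smul_eq_mul, hyy, hz2, hzy]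
      field_simp
      ring
    obtain ⟨y₃, h31, h32, h33, h34⟩ := exists_off (S := B₂) e y e₃ hm5 e
    have hy₃ : B₂ y₃ e₃ = 0 := h.f₂.zero_flip h33
    obtain ⟨R, hR, hR1, -⟩ := exists_siegO h h2 H.hX he₃3 hy₃
    have hy₃' : B₂ (-y₃) e₃ = 0 := by rw [map_neg, LinearMap.neg_apply, hy₃, neg_zero]
    have hR2 : ∀ u w, R⁻¹ (τ u w) = τ u (sg B₂ 1 (-y₃) e₃ w) := siegO_inv h h2 he₃3 hy₃ hR1
    have hRe : ∀ a, R (τ a e) = τ a e := by
      intro a
      rw [hR1, sg_apply, he₃e, h.f₂.zero_flip (h.f₂.zero_flip h31)]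
      simp
    obtain ⟨b, hb⟩ : ∃ b, b = sg B₂ 1 y₃ e₃ y := ⟨_, rfl⟩
    have hb' : b = y + y₃ - (B₂ y₃ y₃ / 2) • e₃ := by
      rw [hb, sg_apply, he₃y, h32]
      match_scalars <;> field_simp <;> ring
    have hbe : B₂ b e = 0 := by
      rw [hb', map_sub, map_add, map_smul, LinearMap.sub_apply, LinearMap.add_apply, LinearMap.smul_apply, hye,
        h.f₂.zero_flip h31, h.f₂.zero_flip he₃e]
      simp
    obtain ⟨x, hx, hr⟩ := hφ
    obtain ⟨t, ht⟩ := rank_one_form H he hee hu hye hx hr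
    obtain ⟨x₂, hx₂⟩ : ∃ x₂, x₂ = R * x * R⁻¹ := ⟨_, rfl⟩
    have hx₂X : x₂ ∈ X := by rw [hx₂]; exact X.mul_mem (X.mul_mem hR hx) (X.inv_mem hR)
    have hRR : ∀ v, R (R⁻¹ v) = v := fun v => R.apply_symm_apply v
    have hke : ∀ v, kap h e (R⁻¹ v) = kap h e v := by
      intro v
      refine h.f₁.ext fun a => ?_
      rw [kap_left, kap_left, inv_form (H.hX.lei hR), hRe]
    have hku : ∀ v z, B₂ (kap h.symm u (R⁻¹ v)) z = B₂ (kap h.symm u v) (sg B₂ 1 y₃ e₃ z) := by
      intro v z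
      rw [← kap_swap h, kap_left, inv_form (H.hX.lei hR), hR1, ← kap_left h, kap_swap h]
    have hsge : sg B₂ 1 y₃ e₃ e = e := by
      rw [sg_apply, he₃e, h31]
      simp
    have hx₂v : ∀ v, x₂ v = v + K h.symm (nn B₂ e b) u u v + τ (t (kap h e v)) e := by
      intro v
      rw [hx₂, LinearEquiv.mul_apply, LinearEquiv.mul_apply, ht, map_add, map_add, hRR, hRe, hke, K_flip h, nn_apply, K_flip h,
        nn_apply, hku, hku, hsge, ← hb, map_sub, map_smul, map_smul, map_sub, map_smul, map_smul, hR1, hRe, ← hb, map_sub, map_smul,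
        map_smul]
    have hin : In X (K h.symm (nn B₂ e (y - b)) u u) := by
      refine ⟨x₂⁻¹ * x, X.mul_mem (X.inv_mem hx₂X) hx, fun v => ?_⟩
      have h5 : x v = x₂ (v + K h.symm (nn B₂ e (y - b)) u u v) := by
        obtain ⟨Δ, hΔ⟩ : ∃ Δ, Δ = K h.symm (nn B₂ e (y - b)) u u v := ⟨_, rfl⟩
        have hΔ' : Δ = τ u (nn B₂ e (y - b) (kap h.symm u v)) := by rw [hΔ, K_flip h]
        have h6 : kap h.symm u Δ = 0 := by rw [hΔ', kap_pure' h, hu, zero_smul]
        have h7 : kap h e Δ = 0 := by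
          rw [hΔ', kap_pure, nn_apply, map_sub, map_smul, map_smul, LinearMap.sub_apply, LinearMap.smul_apply,
            LinearMap.smul_apply, map_sub, LinearMap.sub_apply, hye, hbe, hee]
          simp
        have h8 : kap h e (v + Δ) = kap h e v := by rw [map_add, h7, add_zero]
        have h9 : K h.symm (nn B₂ e b) u u (v + Δ) = K h.symm (nn B₂ e b) u u v := by
          rw [map_add, K_flip h _ _ _ Δ, h6, map_zero, map_zero, add_zero]
        rw [← hΔ, hx₂v, h8, h9, ht, hΔ', K_flip h, K_flip h, nn_sub, LinearMap.sub_apply, map_sub]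
        abel
      rw [LinearEquiv.mul_apply, h5]
      exact x₂.symm_apply_apply _
    refine H.nr₂ e (y - b) he hee (by rw [map_sub, LinearMap.sub_apply, hye, hbe, sub_zero]) ?_ u hu0 hu hin
    intro hmem
    have h5 : y - b = (B₂ y₃ y₃ / 2) • e₃ - y₃ := by rw [hb']; abel
    rw [h5] at hmem
    obtain ⟨c, hc⟩ := Submodule.mem_span_singleton.mp hmem
    have h6 := congrArg (fun z => B₂ y z) hc
    simp only [map_sub, map_smul, smul_eq_mul, he₃y, h32, hye, mul_zero, mul_one, sub_zero] at h6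
    rw [← h6, zero_smul, zero_sub] at hc
    apply h34
    rw [show y₃ = - (c • e) by rw [hc, neg_neg]]
    exact Submodule.neg_mem _ (Submodule.smul_mem _ _ (Submodule.mem_span_singleton_self _))
  · -- nonsingular case
    obtain ⟨y₁, hy₁u, hy₁⟩ := exists_ns_perp h.f₁ h2 H.d3 hu0 hu
    have huy₁ := h.f₁.zero_flip hy₁u
    -- replace by an element orthogonal to v is not needed
    obtain ⟨y₂, hy₂⟩ : ∃ y₂, y₂ = y₁ - B₁ y₁ v • u := ⟨_, rfl⟩
    have hy₂u : B₁ y₂ u = 0 := by rw [hy₂, map_sub, map_smul, LinearMap.sub_apply, LinearMap.smul_apply, hy₁u, hu]; simp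
    have hy₂v : B₁ y₂ v = 0 := by rw [hy₂, map_sub, map_smul, LinearMap.sub_apply, LinearMap.smul_apply, huv]; simp
    have huy₂ := h.f₁.zero_flip hy₂u
    have hy₂y : B₁ y₂ y₂ ≠ 0 := by
      rw [hy₂]
      simp only [map_sub, map_smul, LinearMap.sub_apply, LinearMap.smul_apply, smul_eq_mul, hy₁u, hu, huy₁]
      simpa using hy₁
    obtain ⟨u', hu'⟩ : ∃ u', u' = sg B₁ 1 y₂ v u := ⟨_, rfl⟩
    have hu'' : u' = u + y₂ - (B₁ y₂ y₂ / 2) • v := by
      rw [hu', sg_apply, huv, huy₂]
      match_scalars <;> field_simp <;> ring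
    have hu'u' : B₁ u' u' = 0 := by rw [hu', sg_isom h.f₁ h2 hvv hy₂v, hu]
    have huu' : B₁ u u' = - (B₁ y₂ y₂ / 2) := by
      rw [hu'', map_sub, map_add, map_smul, hu, huy₂, huv]
      simp
    have hφ' := Rn.cj H hφ hvv hy₂v
    have hφ2 : Rn h X e ((- LinearMap.flip B₂ y).smulRight ((LinearMap.flip B₁ u').smulRight u')) := by
      refine hφ'.congr fun w hw a => ?_
      rw [cj_apply]
      simp only [LinearMap.smulRight_apply, LinearMap.neg_apply, LinearMap.flip_apply, LinearMap.smul_apply, map_smul, ← hu']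
      have h5 : B₁ (sg B₁ 1 (-y₂) v a) u = B₁ a u' := by
        have h6 := sg_isom h.f₁ h2 hvv hy₂v (sg B₁ 1 (-y₂) v a) u
        have h7 : sg B₁ 1 y₂ v (sg B₁ 1 (-y₂) v a) = a := by
          have := sg_inv h.f₁ h2 (y := -y₂) hvv (by rw [map_neg, LinearMap.neg_apply, hy₂v, neg_zero]) a
          rwa [neg_neg] at this
        rw [h7, ← hu'] at h6
        exact h6.symm
      rw [h5]
    obtain ⟨x, hx, hr⟩ := hφ
    obtain ⟨x', hx', hr'⟩ := hφ2
    obtain ⟨t, ht⟩ := rank_one_form H he hee hu hye hx hr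
    obtain ⟨t', ht'⟩ := rank_one_form H he hee hu'u' hye hx' hr'
    have hu'u : B₁ u' u = B₁ u u' := by rw [h.f₁.flip, one_mul]
    have hK : ∀ (a : U) v, K h.symm (nn B₂ e y) a a v = B₁ (kap h e v) a • τ a y - B₁ (kap h y v) a • τ a e := by
      intro a v
      rw [K_flip h, nn_apply, ← kap_swap h, ← kap_swap h]
      simp only [map_sub, map_smul]
    have h0 : (B₂ y y * B₁ u u') • nn B₁ u u' = 0 := by
      refine eq_of_mulO H he hee (g := x * x') (k := x' * x) (X.mul_mem hx hx') (X.mul_mem hx' hx) (fun a => by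
        rw [LinearEquiv.mul_apply, hr.fix, hr'.fix]) (fun v => ?_)
      rw [LinearEquiv.mul_apply, LinearEquiv.mul_apply, ht, ht', ht' (x v), ht v]
      simp only [hK, map_add, map_sub, map_smul, kap_pure, hee, hye, hey, zero_smul, smul_zero, map_zero, LinearMap.zero_apply,
        sub_zero, add_zero, zero_sub, LinearMap.sub_apply, LinearMap.smul_apply, LinearMap.add_apply, nn_apply, hu'u, smul_eq_mul]
      module
    have h5 := LinearMap.congr_fun h0 v
    rw [LinearMap.smul_apply, LinearMap.zero_apply, nn_apply, hvu, one_smul] at h5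
    have h6 := (smul_eq_zero.mp h5).resolve_left (mul_ne_zero hyy (by rw [huu']; exact neg_ne_zero.mpr (div_ne_zero hy₂y h2)))
    have h7 := congrArg (fun a => B₁ a y₂) h6
    rw [hu''] at h7
    simp only [map_sub, map_add, map_smul, LinearMap.sub_apply, LinearMap.add_apply, LinearMap.smul_apply, smul_eq_mul, huy₂,
      h.f₁.zero_flip hy₂v, map_zero, LinearMap.zero_apply, mul_zero, sub_zero, zero_add] at h7
    exact hy₂y h7

end H96.OoRad2
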