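import Mathlib
import Cfsg.Agent.Lib.H96.OoRad2

set_option autoImplicit false
set_option linter.unusedSectionVars false
set_option linter.unusedVariables false
set_option linter.unusedSimpArgs false
set_option linter.unnecessarySeqFocus false

/-!
Tensor products of two orthogonal spaces: the radicals meet the group in the tensor product group.
-/

namespace H96.OoRad3

open Module QuadraticMap H95.SpBasic H96.TeBase H96.TeNorm H96.OoBase H96.TeC H96.TeE H96.OoCent H96.TeA H96.TeS H96.OoGen H96.OoGen2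
  H96.OoRad H96.OoRad2
open H96.StBase (In)
open H95.OSie H17.OrthAbs H48.QuadSplit

section one
variable {F U : Type*} [Field F] [AddCommGroup U] [Module F U] [FiniteDimensional F U] {S : LinearMap.BilinForm F U}

lemma M_formula (hB : EF S 1) (h2 : (2 : F) ≠ 0) {n : Module.End F U} (hs : ∀ a b, S (n a) b = S a (n b)) {u y : U} (hu : S u u = 0)
    (hy : S y u = 0) (x : U) :
    sg S 1 y u (n (sg S 1 (-y) u x)) + sg S 1 (-y) u (n (sg S 1 y u x)) - n x - n x =
      - (S y y * S (n u) x) • u - (S y y * S x u) • n u - (2 * S (n u) y * S x u) • y - (2 * S (n u) y * S x y) • u +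
      (2 * S (n y) y * S x u) • u + (2 * S (n u) u * S x y) • y + (1 / 2 * S y y * S y y * S (n u) u * S x u) • u := by
  have e1 : S (n x) u = S (n u) x := by rw [hs, hB.flip, one_mul]
  have e2 : S (n x) y = S (n y) x := by rw [hs, hB.flip, one_mul]
  have e3 : S (n y) u = S (n u) y := by rw [hs, hB.flip, one_mul]
  simp only [sg_apply, map_add, map_sub, map_smul, map_neg, LinearMap.add_apply, LinearMap.sub_apply, LinearMap.neg_apply,
    LinearMap.smul_apply, smul_eq_mul, e1, e2, e3]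
  match_scalars <;> field_simp <;> ring

lemma O_formula (hB : EF S 1) (h2 : (2 : F) ≠ 0) {n : Module.End F U} (hs : ∀ a b, S (n a) b = S a (n b)) {u y : U} (hu : S u u = 0)
    (hy : S y u = 0) (hd : S (n u) u = 0) (x : U) :
    sg S 1 y u (n (sg S 1 (-y) u x)) - sg S 1 (-y) u (n (sg S 1 y u x)) =
      (2 * S (n u) x) • y - (2 * S (n y) x) • u - (2 * S x u) • n y + (2 * S x y) • n u + (2 * S y y * S (n u) y * S x u) • u := by
  have e1 : S (n x) u = S (n u) x := by rw [hs, hB.flip, one_mul]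
  have e2 : S (n x) y = S (n y) x := by rw [hs, hB.flip, one_mul]
  have e3 : S (n y) u = S (n u) y := by rw [hs, hB.flip, one_mul]
  simp only [sg_apply, map_add, map_sub, map_smul, map_neg, LinearMap.add_apply, LinearMap.sub_apply, LinearMap.neg_apply,
    LinearMap.smul_apply, smul_eq_mul, e1, e2, e3, hd]
  match_scalars <;> field_simp <;> ring

lemma ext_hyp (hB : EF S 1) {u v a b : U} (hu : S u u = 0) (huv : S u v = 1) (hv : S v v = 0) (h1 : S a u = S b u) (h2 : S a v = S b v)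
    (h3 : ∀ x, S x u = 0 → S x v = 0 → S a x = S b x) : a = b := by
  apply hB.ext
  intro x
  obtain ⟨h4, h5⟩ := hyp_perp hB hu huv hv x
  have h6 : x = S x v • u + S x u • v + (x - S x v • u - S x u • v) := by abel
  rw [h6, map_add, map_add, map_smul, map_smul, map_add, map_add, map_smul, map_smul, h1, h2, h3 _ h4 h5]

lemma exists_off4 (hd : 4 ≤ finrank F U) (a b e : U) : ∃ x, S a x = 0 ∧ S b x = 0 ∧ x ∉ Submodule.span F {e} := by
  by_contra hcon
  push Not at hcon
  have h1 : LinearMap.ker (S a) ⊓ LinearMap.ker (S b) ≤ Submodule.span F {e} := fun y hy => by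
    obtain ⟨h2, h3⟩ := Submodule.mem_inf.mp hy
    exact hcon y h2 h3
  have h3 := Submodule.finrank_mono h1
  have h4 : finrank F (Submodule.span F {e}) ≤ 1 := by
    refine (finrank_span_le_card _).trans ?_
    simp
  have hk : ∀ a : U, finrank F U ≤ finrank F (LinearMap.ker (S a)) + 1 := by
    intro a
    have h5 := (S a).finrank_range_add_finrank_ker
    have h6 : finrank F (LinearMap.range (S a)) ≤ 1 := (Submodule.finrank_le _).trans (by rw [finrank_self])
    omega
  have h5 := Submodule.finrank_sup_add_finrank_inf_eq (LinearMap.ker (S a)) (LinearMap.ker (S b))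
  have h7 := Submodule.finrank_le (LinearMap.ker (S a) ⊔ LinearMap.ker (S b))
  have h9 := hk a
  have h10 := hk b
  omega

end one

variable {F U W V : Type*} [Field F] [AddCommGroup U] [Module F U] [AddCommGroup W] [Module F W] [AddCommGroup V]
  [Module F V] [FiniteDimensional F U] [FiniteDimensional F W]
variable {B₁ : LinearMap.BilinForm F U} {B₂ : LinearMap.BilinForm F W} {B : LinearMap.BilinForm F V}
  {τ : U →ₗ[F] W →ₗ[F] V} {Om X : Subgroup (V ≃ₗ[F] V)} {Q : QuadraticForm F V} {h : TE B₁ B₂ B τ 1 1}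

lemma Rn.M (H : Hz h Om X Q) {e : W} {n : W →ₗ[F] Module.End F U} (hn : Rn h X e n) {u y : U} (hu : B₁ u u = 0)
    (hy : B₁ y u = 0) : Rn h X e (cj (sg B₁ 1 y u) (sg B₁ 1 (-y) u) n + cj (sg B₁ 1 (-y) u) (sg B₁ 1 y u) n - n - n) := by
  have h1 := Rn.cj H hn hu hy
  have h3 := Rn.cj H hn hu (y := -y) (by rw [map_neg, LinearMap.neg_apply, hy, neg_zero])
  rw [neg_neg] at h3
  exact ((h1.add h3).sub hn).sub hn

lemma Rn.O (H : Hz h Om X Q) {e : W} {n : W →ₗ[F] Module.End F U} (hn : Rn h X e n) {u y : U} (hu : B₁ u u = 0)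
    (hy : B₁ y u = 0) : Rn h X e (cj (sg B₁ 1 y u) (sg B₁ 1 (-y) u) n - cj (sg B₁ 1 (-y) u) (sg B₁ 1 y u) n) := by
  have h1 := Rn.cj H hn hu hy
  have h3 := Rn.cj H hn hu (y := -y) (by rw [map_neg, LinearMap.neg_apply, hy, neg_zero])
  rw [neg_neg] at h3
  exact h1.sub h3

/-- Case 1 -/
theorem case_one [Finite F] (H : Hz h Om X Q) {e : W} (he : e ≠ 0) (hee : B₂ e e = 0) {u : U} (hu0 : u ≠ 0) (hu : B₁ u u = 0)
    {n : W →ₗ[F] Module.End F U} (hn : Rn h X e n) (hnu : ∀ w, B₂ w e = 0 → n w u = 0) {w : W} (hw : B₂ w e = 0) (a : U) :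
    n w a = 0 := by
  have h2 := H.two
  have hs := fun (w : W) (hw : B₂ w e = 0) => hn.self H he hee hw
  obtain ⟨v, huv, hvu, hvv⟩ := h.f₁.partner h2 hu0 hu
  have hBf : ∀ a b, B₁ a b = B₁ b a := fun a b => by rw [h.f₁.flip, one_mul]
  -- (1)
  have k1 : ∀ y, B₁ y u = 0 → ∀ w, B₂ w e = 0 → B₁ (n w y) y = 0 := by
    intro y hy w hw
    have h1 := Rn.M H hn hu hy
    have h3 : Rn h X e (((2 : F) • ((LinearMap.flip B₁ y) ∘ₗ (LinearMap.flip n y))).smulRight ((LinearMap.flip B₁ u).smulRight u)) := by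
      refine h1.congr fun w hw x => ?_
      have h4 := M_formula h.f₁ h2 (hs w hw) hu hy x
      simp only [LinearMap.sub_apply, LinearMap.add_apply, cj_apply]
      rw [h4, hnu w hw]
      simp only [LinearMap.smulRight_apply, LinearMap.flip_apply, LinearMap.smul_apply, LinearMap.comp_apply, map_zero,
        LinearMap.zero_apply, smul_eq_mul]
      module
    have h5 := phi_zero H he hee hu0 hu h3 hw
    simp only [LinearMap.smul_apply, LinearMap.comp_apply, LinearMap.flip_apply, smul_eq_mul] at h5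
    exact (mul_eq_zero.mp h5).resolve_left h2
  have k1' : ∀ y y', B₁ y u = 0 → B₁ y' u = 0 → ∀ w, B₂ w e = 0 → B₁ (n w y) y' = 0 := by
    intro y y' hy hy' w hw
    have h3 := k1 (y + y') (by rw [map_add, LinearMap.add_apply, hy, hy', add_zero]) w hw
    simp only [map_add, LinearMap.add_apply, k1 y hy w hw, k1 y' hy' w hw] at h3
    have h4 : B₁ (n w y') y = B₁ (n w y) y' := by rw [hs w hw, hBf]
    rw [h4] at h3
    have h5 : 2 * B₁ (n w y) y' = 0 := by linear_combination h3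
    exact (mul_eq_zero.mp h5).resolve_left h2
  -- (2)
  have k2 : ∀ y, B₁ y u = 0 → ∀ w, B₂ w e = 0 → n w y = B₁ (n w y) v • u := by
    intro y hy w hw
    refine ext_hyp h.f₁ hu huv hvv ?_ ?_ fun x hxu hxv => ?_
    · rw [hs w hw, hnu w hw, map_zero, map_smul, LinearMap.smul_apply, hu, smul_zero]
    · rw [map_smul, LinearMap.smul_apply, huv, smul_eq_mul, mul_one]
    · rw [k1' y x hy hxu w hw, map_smul, LinearMap.smul_apply, hBf u x, hxu, smul_zero]
  -- (3)
  have k3 : ∀ y, B₁ y u = 0 → ∀ w, B₂ w e = 0 → n w y = 0 := by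
    intro y hy w hw
    have h1 := (Rn.cj H hn hu hy).sub hn
    have h3 : Rn h X e (((-2 : F) • ((LinearMap.flip B₁ v) ∘ₗ (LinearMap.flip n y))).smulRight ((LinearMap.flip B₁ u).smulRight u)) := by
      refine h1.congr fun w hw x => ?_
      have e1 : B₁ (n w x) u = 0 := by rw [hs w hw, hnu w hw, map_zero]
      have e2 : B₁ (n w x) y = B₁ (n w y) v * B₁ x u := by
        rw [hs w hw, k2 y hy w hw, map_smul, smul_eq_mul, map_smul, LinearMap.smul_apply, huv, smul_eq_mul, mul_one]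
      have e4 : n w (sg B₁ 1 (-y) u x) = n w x - (B₁ x u * B₁ (n w y) v) • u := by
        rw [sg_apply]
        simp only [map_add, map_sub, map_smul, map_neg, hnu w hw]
        rw [k2 y hy w hw]
        simp only [map_smul, LinearMap.smul_apply, huv, smul_eq_mul, mul_one]
        module
      simp only [LinearMap.sub_apply, cj_apply]
      rw [e4, sg_apply]
      simp only [LinearMap.smulRight_apply, LinearMap.flip_apply, LinearMap.smul_apply, LinearMap.comp_apply, map_sub, map_smul,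
        LinearMap.sub_apply, smul_eq_mul, e1, e2, hu, hBf u y, hy]
      module
    have h5 := phi_zero H he hee hu0 hu h3 hw
    simp only [LinearMap.smul_apply, LinearMap.comp_apply, LinearMap.flip_apply, smul_eq_mul] at h5
    rw [k2 y hy w hw, (mul_eq_zero.mp h5).resolve_left (neg_ne_zero.mpr h2), zero_smul]
  -- (4)
  have k4 : ∀ w, B₂ w e = 0 → n w v = B₁ (n w v) v • u := by
    intro w hw
    refine ext_hyp h.f₁ hu huv hvv ?_ ?_ fun x hxu hxv => ?_
    · rw [hs w hw, hnu w hw, map_zero, map_smul, LinearMap.smul_apply, hu, smul_zero]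
    · rw [map_smul, LinearMap.smul_apply, huv, smul_eq_mul, mul_one]
    · rw [hs w hw, k3 x hxu w hw, map_zero, map_smul, LinearMap.smul_apply, hBf u x, hxu, smul_zero]
  have k5 : ∀ w, B₂ w e = 0 → ∀ x, n w x = (B₁ (n w v) v * B₁ x u) • u := by
    intro w hw x
    obtain ⟨h4, h5⟩ := hyp_perp h.f₁ hu huv hvv x
    have h6 := k3 _ h4 w hw
    rw [map_sub, map_sub, map_smul, map_smul, hnu w hw, k4 w hw] at h6
    have h7 : n w x = (n w x - B₁ x v • (0 : U) - B₁ x u • B₁ (n w v) v • u) + B₁ x u • B₁ (n w v) v • u := by module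
    rw [h7, h6, zero_add, smul_smul, mul_comm]
  have h3 : Rn h X e (((LinearMap.flip B₁ v) ∘ₗ (LinearMap.flip n v)).smulRight ((LinearMap.flip B₁ u).smulRight u)) := by
    refine hn.congr fun w hw x => ?_
    rw [k5 w hw x]
    simp only [LinearMap.smulRight_apply, LinearMap.flip_apply, LinearMap.smul_apply, LinearMap.comp_apply, smul_smul]
  have h5 := phi_zero H he hee hu0 hu h3 hw
  simp only [LinearMap.comp_apply, LinearMap.flip_apply] at h5
  rw [k5 w hw, h5, zero_mul, zero_smul]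

/-- a common isotropic eigenvector -/
theorem eig_scal [Finite F] (H : Hz h Om X Q) {e : W} (he : e ≠ 0) (hee : B₂ e e = 0) {u : U} (hu0 : u ≠ 0) (hu : B₁ u u = 0)
    {n : W →ₗ[F] Module.End F U} (hn : Rn h X e n) {l : W →ₗ[F] F} (hnu : ∀ w, B₂ w e = 0 → n w u = l w • u) {w : W}
    (hw : B₂ w e = 0) (a : U) : n w a = l w • a := by
  obtain ⟨y, hy⟩ := h.f₂.repr l
  have hey : B₂ e y = 0 := by
    have h1 := Rn.e0 he hee hn u
    rw [hnu e hee] at h1
    rw [hy]
    exact (smul_eq_zero.mp h1).resolve_right hu0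
  have h1 := hn.sub (Rn.scal H hee (h.f₂.zero_flip hey))
  have h3 := case_one H he hee hu0 hu h1 (fun w hw => by
    simp only [LinearMap.sub_apply, LinearMap.smulRight_apply, LinearMap.flip_apply, LinearMap.smul_apply, Module.End.one_apply,
      hnu w hw, hy, sub_self]) hw a
  simp only [LinearMap.sub_apply, LinearMap.smulRight_apply, LinearMap.flip_apply, LinearMap.smul_apply, Module.End.one_apply, hy] at h3
  exact sub_eq_zero.mp h3

/-- Case 2, first part -/
lemma delta_zero [Finite F] (H : Hz h Om X Q) {e : W} (he : e ≠ 0) (hee : B₂ e e = 0) {u : U} (hu0 : u ≠ 0) (hu : B₁ u u = 0)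
    {n : W →ₗ[F] Module.End F U} (hn : Rn h X e n) {w : W} (hw : B₂ w e = 0) : B₁ (n w u) u = 0 := by
  have h2 := H.two
  have hs := fun (w : W) (hw : B₂ w e = 0) => hn.self H he hee hw
  obtain ⟨v, huv, hvu, hvv⟩ := h.f₁.partner h2 hu0 hu
  have hBf : ∀ a b, B₁ a b = B₁ b a := fun a b => by rw [h.f₁.flip, one_mul]
  obtain ⟨y₁, hy₁u, hy₁⟩ := exists_ns_perp h.f₁ h2 H.d3 hu0 hu
  have huy₁ := h.f₁.zero_flip hy₁u
  obtain ⟨y₂, hy₂⟩ : ∃ y₂, y₂ = y₁ - B₁ y₁ v • u := ⟨_, rfl⟩
  have hy₂u : B₁ y₂ u = 0 := by rw [hy₂, map_sub, map_smul, LinearMap.sub_apply, LinearMap.smul_apply, hy₁u, hu]; simp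
  have hy₂v : B₁ y₂ v = 0 := by rw [hy₂, map_sub, map_smul, LinearMap.sub_apply, LinearMap.smul_apply, huv]; simp
  have huy₂ := h.f₁.zero_flip hy₂u
  have hy₂y : B₁ y₂ y₂ ≠ 0 := by
    rw [hy₂]
    simp only [map_sub, map_smul, LinearMap.sub_apply, LinearMap.smul_apply, smul_eq_mul, hy₁u, hu, huy₁]
    simpa using hy₁
  have key : ∀ y, B₁ y u = 0 → ∀ x, - (B₁ y y * B₁ (n w u) x) • u - (B₁ y y * B₁ x u) • n w u - (2 * B₁ (n w u) y * B₁ x u) • y -
      (2 * B₁ (n w u) y * B₁ x y) • u + (2 * B₁ (n w y) y * B₁ x u) • u + (2 * B₁ (n w u) u * B₁ x y) • y +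
      (1 / 2 * B₁ y y * B₁ y y * B₁ (n w u) u * B₁ x u) • u = (- B₁ y y * B₁ (n w u) u) • x := by
    intro y hy x
    have h1 := Rn.M H hn hu hy
    have huy := h.f₁.zero_flip hy
    have h3 := eig_scal H he hee hu0 hu h1 (l := (- B₁ y y) • ((LinearMap.flip B₁ u) ∘ₗ (LinearMap.flip n u))) (fun w hw => by
      have h4 := M_formula h.f₁ h2 (hs w hw) hu hy u
      simp only [LinearMap.sub_apply, LinearMap.add_apply, cj_apply]
      rw [h4, hu, huy]
      simp only [LinearMap.flip_apply, LinearMap.smul_apply, LinearMap.comp_apply, smul_eq_mul]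
      module) hw x
    have h4 := M_formula h.f₁ h2 (hs w hw) hu hy x
    simp only [LinearMap.sub_apply, LinearMap.add_apply, cj_apply, LinearMap.flip_apply, LinearMap.smul_apply, LinearMap.comp_apply,
      smul_eq_mul] at h3
    rw [h4] at h3
    exact h3
  rcases H.dt with hd | ⟨t, ht0, ht⟩
  · obtain ⟨x, hx1, hx2, hx3⟩ := exists_off4 (S := B₁) hd u y₂ u
    have h1 := key y₂ hy₂u x
    have hxu : B₁ x u = 0 := h.f₁.zero_flip hx1
    have hxy : B₁ x y₂ = 0 := h.f₁.zero_flip hx2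
    rw [hxu, hxy] at h1
    simp only [mul_zero, zero_smul, sub_zero, add_zero] at h1
    by_contra hδ
    apply hx3
    have h3 : x = ((- B₁ y₂ y₂ * B₁ (n w u) u)⁻¹ * - (B₁ y₂ y₂ * B₁ (n w u) x)) • u := by
      rw [mul_smul, h1, smul_smul, inv_mul_cancel₀ (mul_ne_zero (neg_ne_zero.mpr hy₂y) hδ), one_smul]
    rw [h3]
    exact Submodule.smul_mem _ _ (Submodule.mem_span_singleton_self _)
  · have h1 := congrArg (fun a => B₁ a v) (key y₂ hy₂u v)
    have h3 := congrArg (fun a => B₁ a v) (key (t • y₂) (by rw [map_smul, LinearMap.smul_apply, hy₂u, smul_zero]) v)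
    have hvy : B₁ v y₂ = 0 := h.f₁.zero_flip hy₂v
    simp only [map_add, map_sub, map_smul, map_neg, LinearMap.add_apply, LinearMap.sub_apply, LinearMap.smul_apply, smul_eq_mul,
      LinearMap.neg_apply, hvu, huv, hvv, hy₂v, hvy, mul_zero, mul_one, sub_zero, add_zero] at h1 h3
    have h4 : (t * t - 1) * (t * t * (1 / 2 * B₁ y₂ y₂ * B₁ y₂ y₂)) * B₁ (n w u) u = 0 := by
      linear_combination h3 - t * t * h1
    refine (mul_eq_zero.mp h4).resolve_left (mul_ne_zero (sub_ne_zero.mpr ht) (mul_ne_zero (mul_ne_zero ht0 ht0) ?_))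
    exact mul_ne_zero (mul_ne_zero (one_div_ne_zero h2) hy₂y) hy₂y

/-- Case 2, second part -/
lemma eps_zero [Finite F] (H : Hz h Om X Q) {e : W} (he : e ≠ 0) (hee : B₂ e e = 0) {u : U} (hu0 : u ≠ 0) (hu : B₁ u u = 0)
    {n : W →ₗ[F] Module.End F U} (hn : Rn h X e n) {w : W} (hw : B₂ w e = 0) {v y : U} (huv : B₁ u v = 1) (hvv : B₁ v v = 0)
    (hyu : B₁ y u = 0) (hyv : B₁ y v = 0) (hyy : B₁ y y ≠ 0) : B₁ (n w u) y = 0 := by
  have h2 := H.two
  have hs := fun (w : W) (hw : B₂ w e = 0) => hn.self H he hee hw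
  have hBf : ∀ a b, B₁ a b = B₁ b a := fun a b => by rw [h.f₁.flip, one_mul]
  have hvu : B₁ v u = 1 := by rw [hBf, huv]
  have hδ := fun (w : W) (hw : B₂ w e = 0) => delta_zero H he hee hu0 hu hn hw
  have key : ∀ y, B₁ y u = 0 → ∀ x, (2 * B₁ (n w u) x) • y - (2 * B₁ (n w y) x) • u - (2 * B₁ x u) • n w y + (2 * B₁ x y) • n w u +
      (2 * B₁ y y * B₁ (n w u) y * B₁ x u) • u = (- 2 * B₁ (n w u) y) • x := by
    intro y hy x
    have h1 := Rn.O H hn hu hy
    have huy := h.f₁.zero_flip hy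
    have h3 := eig_scal H he hee hu0 hu h1 (l := (- 2 : F) • ((LinearMap.flip B₁ y) ∘ₗ (LinearMap.flip n u))) (fun w hw => by
      have h4 := O_formula h.f₁ h2 (hs w hw) hu hy (hδ w hw) u
      have h5 : B₁ (n w y) u = B₁ (n w u) y := by rw [hs w hw, hBf]
      simp only [LinearMap.sub_apply, LinearMap.add_apply, cj_apply]
      rw [h4, hu, huy, hδ w hw, h5]
      simp only [LinearMap.flip_apply, LinearMap.smul_apply, LinearMap.comp_apply, smul_eq_mul]
      module) hw x
    have h4 := O_formula h.f₁ h2 (hs w hw) hu hy (hδ w hw) x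
    simp only [LinearMap.sub_apply, LinearMap.add_apply, cj_apply, LinearMap.flip_apply, LinearMap.smul_apply, LinearMap.comp_apply,
      smul_eq_mul] at h3
    rw [h4] at h3
    exact h3
  rcases H.dt with hd | ⟨t, ht0, ht⟩
  · obtain ⟨x, hx1, hx2, hx3⟩ := exists_off4 (S := B₁) hd u y u
    have h1 := key y hyu x
    have hxu : B₁ x u = 0 := h.f₁.zero_flip hx1
    have hxy : B₁ x y = 0 := h.f₁.zero_flip hx2
    rw [hxu, hxy] at h1
    simp only [mul_zero, zero_smul, sub_zero, add_zero] at h1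
    have h5 := congrArg (fun a => B₁ a y) h1
    simp only [map_sub, map_smul, LinearMap.sub_apply, LinearMap.smul_apply, smul_eq_mul, hBf u y, hyu, hxy, mul_zero, sub_zero] at h5
    have h6 : 2 * B₁ (n w u) x = 0 := (mul_eq_zero.mp h5).resolve_right hyy
    rw [h6, zero_smul, zero_sub] at h1
    by_contra hε
    apply hx3
    have h3 : x = ((- 2 * B₁ (n w u) y)⁻¹ * - (2 * B₁ (n w y) x)) • u := by
      rw [mul_smul, neg_smul, h1, smul_smul, inv_mul_cancel₀ (mul_ne_zero (neg_ne_zero.mpr h2) hε), one_smul]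
    rw [h3]
    exact Submodule.smul_mem _ _ (Submodule.mem_span_singleton_self _)
  · have h1 := congrArg (fun a => B₁ a v) (key y hyu v)
    have h3 := congrArg (fun a => B₁ a v) (key (t • y) (by rw [map_smul, LinearMap.smul_apply, hyu, smul_zero]) v)
    have hvy : B₁ v y = 0 := h.f₁.zero_flip hyv
    simp only [map_add, map_sub, map_smul, map_neg, LinearMap.add_apply, LinearMap.sub_apply, LinearMap.smul_apply, smul_eq_mul,
      LinearMap.neg_apply, hvu, huv, hvv, hyv, hvy, mul_zero, mul_one, sub_zero, add_zero] at h1 h3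
    have h4 : (t * t - 1) * (t * (2 * B₁ y y)) * B₁ (n w u) y = 0 := by
      linear_combination h3 - t * h1
    exact (mul_eq_zero.mp h4).resolve_left (mul_ne_zero (sub_ne_zero.mpr ht) (mul_ne_zero ht0 (mul_ne_zero h2 hyy)))

/-- the coefficients are scalars -/
theorem Rn.scalar [Finite F] (H : Hz h Om X Q) {e : W} (he : e ≠ 0) (hee : B₂ e e = 0)
    {n : W →ₗ[F] Module.End F U} (hn : Rn h X e n) : ∃ l : W →ₗ[F] F, ∀ w, B₂ w e = 0 → ∀ a, n w a = l w • a := by
  have h2 := H.two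
  obtain ⟨u, -, hu0, hu⟩ := exists_iso h.f₁ h2 (S := (⊤ : Submodule F U)) (by rw [finrank_top]; exact H.d3)
  obtain ⟨v, huv, hvu, hvv⟩ := h.f₁.partner h2 hu0 hu
  have hBf : ∀ a b, B₁ a b = B₁ b a := fun a b => by rw [h.f₁.flip, one_mul]
  refine ⟨(LinearMap.flip B₁ v) ∘ₗ (LinearMap.flip n u), fun w hw a => ?_⟩
  refine eig_scal H he hee hu0 hu hn (fun w hw => ?_) hw a
  rw [LinearMap.comp_apply, LinearMap.flip_apply, LinearMap.flip_apply]
  refine ext_hyp h.f₁ hu huv hvv ?_ ?_ fun x hxu hxv => ?_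
  · rw [delta_zero H he hee hu0 hu hn hw, map_smul, LinearMap.smul_apply, hu, smul_zero]
  · rw [map_smul, LinearMap.smul_apply, huv, smul_eq_mul, mul_one]
  · rw [map_smul, LinearMap.smul_apply, hBf u x, hxu, smul_zero]
    by_cases hxx : B₁ x x = 0
    · by_contra hne
      -- a nonsingular vector not orthogonal
      obtain ⟨z₀, hz₀⟩ : ∃ z₀, z₀ = n w u - B₁ (n w u) v • u := ⟨_, rfl⟩
      have hδ := delta_zero H he hee hu0 hu hn hw
      have hz₀u : B₁ z₀ u = 0 := by rw [hz₀, map_sub, map_smul, LinearMap.sub_apply, LinearMap.smul_apply, hδ, hu]; simp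
      have hz₀v : B₁ z₀ v = 0 := by rw [hz₀, map_sub, map_smul, LinearMap.sub_apply, LinearMap.smul_apply, huv]; simp
      have hz₀x : B₁ z₀ x = B₁ (n w u) x := by
        rw [hz₀, map_sub, map_smul, LinearMap.sub_apply, LinearMap.smul_apply, hBf u x, hxu, smul_zero, sub_zero]
      by_cases hzz : B₁ z₀ z₀ = 0
      · have h3 : B₁ (x + z₀) (x + z₀) ≠ 0 := by
          simp only [map_add, LinearMap.add_apply, hxx, hzz, hBf x z₀, hz₀x]
          have : 0 + B₁ (n w u) x + (B₁ (n w u) x + 0) = 2 * B₁ (n w u) x := by ring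
          rw [this]
          exact mul_ne_zero h2 hne
        have h4 := eps_zero H he hee hu0 hu hn hw huv hvv (y := x + z₀) (by rw [map_add, LinearMap.add_apply, hxu, hz₀u, add_zero])
          (by rw [map_add, LinearMap.add_apply, hxv, hz₀v, add_zero]) h3
        rw [map_add] at h4
        have h5 : B₁ (n w u) z₀ = 0 := by
          have h6 : n w u = z₀ + B₁ (n w u) v • u := by rw [hz₀]; abel
          rw [h6, map_add, map_smul, LinearMap.add_apply, LinearMap.smul_apply, hzz, hBf u z₀, hz₀u, smul_zero, add_zero]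
        rw [h5, add_zero] at h4
        exact hne h4
      · have h4 := eps_zero H he hee hu0 hu hn hw huv hvv hz₀u hz₀v hzz
        have h6 : n w u = z₀ + B₁ (n w u) v • u := by rw [hz₀]; abel
        rw [h6, map_add, map_smul, LinearMap.add_apply, LinearMap.smul_apply, hBf u z₀, hz₀u, smul_zero, add_zero] at h4
        exact hzz h4
    · exact eps_zero H he hee hu0 hu hn hw huv hvv hxu hxv hxx

/-- the radicals meet `X` in the tensor product group -/
theorem rad_krO [Finite F] (H : Hz h Om X Q) {e : W} (he : e ≠ 0) (hee : B₂ e e = 0) : RH h X e := by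
  intro x hx hfix hact
  have h2 := H.two
  obtain ⟨f, hef, hfe, -⟩ := h.f₂.partner h2 he hee
  obtain ⟨u₀, -, hu₀, -⟩ := exists_iso h.f₁ h2 (S := (⊤ : Submodule F U)) (by rw [finrank_top]; exact H.d3)
  -- the coefficients
  let n : W →ₗ[F] Module.End F U := LinearMap.mk₂ F (fun w u => kap h f (x (τ u w) - τ u w))
    (fun w w' u => by simp only [map_add, map_sub]; abel)
    (fun c w u => by simp only [map_smul, map_sub, smul_sub])
    (fun w u u' => by simp only [map_add, map_sub, LinearMap.add_apply]; abel)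
    (fun c w u => by simp only [map_smul, map_sub, LinearMap.smul_apply, smul_sub])
  have hn : ∀ w u, n w u = kap h f (x (τ u w) - τ u w) := fun w u => rfl
  have hr : RadO h e x n := by
    refine ⟨hfix, fun w hw u => ?_⟩
    obtain ⟨u', hu'⟩ := hact (τ u w) (by rw [kap_pure, hw, zero_smul])
    rw [hn, hu', add_sub_cancel_left, kap_pure, hef, one_smul]
  obtain ⟨l, hl⟩ := Rn.scalar H he hee ⟨x, hx, hr⟩
  obtain ⟨y₀, hy₀⟩ := h.f₂.repr (-l)
  have hy₀' : ∀ w, B₂ w e = 0 → ∀ u, n w u = - B₂ w y₀ • u := by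
    intro w hw u
    rw [hl w hw, hy₀, LinearMap.neg_apply, neg_neg]
  have hey₀ : B₂ e y₀ = 0 := by
    have h1 := hy₀' e hee u₀
    rw [hn, hfix, sub_self, map_zero] at h1
    have h3 := (smul_eq_zero.mp h1.symm).resolve_right hu₀
    exact neg_eq_zero.mp h3
  have hy₀e := h.f₂.zero_flip hey₀
  obtain ⟨R, hR, hR1, hR2⟩ := exists_siegO h h2 H.hX hee hy₀e
  have hRe : ∀ u, R (τ u e) = τ u e := fun u => by rw [hR1, sg_fix h.f₂ hee hy₀e]
  have hRk : Kr τ R := ⟨1, sgE h.f₂ h2 hee hy₀e, fun u w => hR1 u w⟩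
  have hRR : ∀ v, R⁻¹ (R v) = v := fun v => R.symm_apply_apply v
  have hg : ∀ u w, B₂ w e = 0 → (R⁻¹ * x) (τ u w) = τ u w := by
    intro u w hw
    have h1 : x (τ u w) = R (τ u w) := by
      rw [hr.act w hw, hy₀' w hw, hR1, sg_apply, hw]
      simp only [map_sub, map_smul, map_add, LinearMap.smul_apply, one_mul, zero_smul, mul_zero, add_zero, sub_zero, neg_smul,
        map_neg, LinearMap.neg_apply]
      rw [sub_eq_add_neg]
    rw [LinearEquiv.mul_apply, h1, hRR]
  obtain ⟨σ, hσ⟩ := triv_form h (H.hX.lei (X.mul_mem (X.inv_mem hR) hx)) hef hfe hg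
  have h0 := H.c0 he hee (σ := σ) ⟨_, X.mul_mem (X.inv_mem hR) hx, fun v => by rw [hσ, K_apply]⟩
  have h1 : R⁻¹ * x = 1 := by
    ext v
    rw [hσ, h0]
    simp
  have h3 : x = R := by
    rw [← mul_one R, ← h1, mul_inv_cancel_left]
  rw [h3]
  exact hRk

/-- elements of `X` mapping `U ⊗ e` to `U ⊗ e'` -/
theorem normD [Finite F] (H : Hz h Om X Q) {p : ℕ} [hp : Fact p.Prime] [CharP F p] (hp2 : p ≠ 2) {e e' : W} (he : e ≠ 0)
    (he' : e' ≠ 0) (hee : B₂ e e = 0) (hee' : B₂ e' e' = 0) {x : V ≃ₗ[F] V}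
    (hx : x ∈ X) {α : Module.End F U} (hα : ∀ u, x (τ u e) = τ (α u) e') : Kr τ x := by
  obtain ⟨y, hy, hyy⟩ := exists_ns_perp h.f₂ H.two H.m3 he hee
  obtain ⟨u₀, -, hu₀, -⟩ := exists_iso h.f₁ H.two (S := (⊤ : Submodule F U)) (by rw [finrank_top]; exact H.d3)
  exact norm_ofO h H.two hp2 H.hX ⟨u₀, hu₀⟩ he he' hee hee' ⟨y, y, hy, hy, hyy⟩ (rad_krO H he hee) hx hα

/-- elements of `X` mapping `u ⊗ W` to `u' ⊗ W` -/
theorem normE [Finite F] (H : Hz h Om X Q) {p : ℕ} [hp : Fact p.Prime] [CharP F p] (hp2 : p ≠ 2) {u u' : U} (hu : u ≠ 0)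
    (hu' : u' ≠ 0) (huu : B₁ u u = 0) (huu' : B₁ u' u' = 0) {x : V ≃ₗ[F] V}
    (hx : x ∈ X) {β : Module.End F W} (hβ : ∀ w, x (τ u w) = τ u' (β w)) : Kr τ x :=
  (normD H.symm hp2 hu hu' huu huu' hx hβ).symm'

end H96.OoRad3
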