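import Mathlib
import Cfsg.Agent.Lib.H96.StN

set_option autoImplicit false
set_option linter.unusedSectionVars false
set_option linter.unusedVariables false
set_option linter.unusedSimpArgs false

/-!
Overgroups of the tensor product of two symplectic groups: a non-scalar coefficient gives everything.
-/

namespace H96.StOm

open Module QuadraticMap H17.OrthAbs H95.OGeo H95.OSie H96.StAlg H96.StBase H96.StN H48.QuadSplit

variable {F U W V : Type*} [Field F] [AddCommGroup U] [Module F U] [AddCommGroup W] [Module F W] [AddCommGroup V]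
  [Module F V] [FiniteDimensional F U] [FiniteDimensional F W]
variable {B₁ : LinearMap.BilinForm F U} {B₂ : LinearMap.BilinForm F W} {τ : U →ₗ[F] W →ₗ[F] V} {Q : QuadraticForm F V}
variable {X : Subgroup (V ≃ₗ[F] V)} {h : TS B₁ B₂ τ Q}

/-- the coefficients of an element attached to an isotropic line belong to the algebra -/
theorem star (hX : HX h X) (hm : 6 ≤ finrank F W) {w₁ w₂ : W} (h12 : B₂ w₁ w₂ = 0) (hw₁ : w₁ ≠ 0)
    (hw : w₂ ∉ Submodule.span F {w₁}) {a b c : Module.End F U} (hc : h.s₁.adj c = c)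
    (hmem : In X (K h a w₁ w₁ + K h b w₁ w₂ + K h (h.s₁.adj b) w₂ w₁ + K h c w₂ w₂)) :
    b ∈ NN hX hm ∧ c ∈ NN hX hm := by
  have h21 : B₂ w₂ w₁ = 0 := by rw [h.s₂.flip, h12, neg_zero]
  obtain ⟨w₃, h31, h32, -, h3, -⟩ := exists_perp3 B₂ hm w₁ w₂ w₂ (finrank_span2 w₁ w₂) (finrank_span2 w₁ w₂)
  have h13 : B₂ w₁ w₃ = 0 := by rw [h.s₂.flip, h31, neg_zero]
  have h23 : B₂ w₂ w₃ = 0 := by rw [h.s₂.flip, h32, neg_zero]
  have hw3 : w₃ ≠ 0 := by rintro rfl; exact h3 (Submodule.zero_mem _)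
  have n1 : w₂ ∉ Submodule.span F {w₃, w₁} := not_mem_swap hw h3
  have n2 : w₁ ∉ Submodule.span F {w₂, w₃} := by
    intro h4
    rw [Submodule.mem_span_pair] at h4
    obtain ⟨x, y, hxy⟩ := h4
    by_cases hy : y = 0
    · rw [hy, zero_smul, add_zero] at hxy
      have hx : x ≠ 0 := by rintro rfl; rw [zero_smul] at hxy; exact hw₁ hxy.symm
      apply hw
      rw [← hxy]
      exact Submodule.mem_span_singleton.mpr ⟨x⁻¹, by rw [smul_smul, inv_mul_cancel₀ hx, one_smul]⟩
    · apply h3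
      rw [Submodule.mem_span_pair]
      refine ⟨y⁻¹, -(y⁻¹ * x), ?_⟩
      rw [← hxy, smul_add, smul_smul, smul_smul, inv_mul_cancel₀ hy]
      module
  have n3 : w₂ ∉ Submodule.span F {w₁, w₃} := by rwa [Set.pair_comm]
  have n4 : w₃ ∉ Submodule.span F {w₂} := by
    intro h4
    exact h3 (Submodule.span_mono (by simp) h4)
  have n5 : w₃ ∉ Submodule.span F {w₁} := by
    intro h4
    exact h3 (Submodule.span_mono (by simp) h4)
  have hw₂ : w₂ ≠ 0 := by rintro rfl; exact hw (Submodule.zero_mem _)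
  -- first difference
  obtain ⟨g, hg, φ, hφ, e1, e2, e3⟩ := mover hX h23 h13 n1
  have m1 : In X (K h a (φ w₁) (φ w₁) + K h b (φ w₁) (φ w₂) + K h (h.s₁.adj b) (φ w₂) (φ w₁) + K h c (φ w₂) (φ w₂)) := by
    refine hmem.conj hg fun v => ?_
    simp only [LinearMap.add_apply, map_add, conjK h (hX.le hg) hφ]
  rw [e1, e3] at m1
  have m2 := m1.sub hmem (by
    intro v
    simp [K_apply, h.s₂.alt, h12, h21, h13, h31, h23, h32]) (by
    intro v
    simp [K_apply, h.s₂.alt, h12, h21, h13, h31, h23, h32])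
  obtain ⟨Ψ, hΨ⟩ : ∃ Ψ, Ψ = G h b w₁ w₃ + (K h c w₂ w₃ + K h c w₃ w₂ + K h c w₃ w₃) := ⟨_, rfl⟩
  have m3 : In X Ψ := by
    convert m2 using 1
    rw [hΨ, G]
    simp only [K_add_left, K_add_right]
    abel
  -- second difference
  obtain ⟨g', hg', φ', hφ', e1', e2', e3'⟩ := mover hX h12 h32 n2
  have m4 : In X (G h b (φ' w₁) (φ' w₃) + (K h c (φ' w₂) (φ' w₃) + K h c (φ' w₃) (φ' w₂) + K h c (φ' w₃) (φ' w₃))) := by
    refine m3.conj hg' fun v => ?_
    rw [hΨ]
    simp only [G, LinearMap.add_apply, map_add, conjK h (hX.le hg') hφ']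
  rw [e1', e2', e3'] at m4
  have m5 := m4.sub m3 (by
    intro v
    rw [hΨ]
    simp [K_apply, G_apply, h.s₂.alt, h12, h21, h13, h31, h23, h32]) (by
    intro v
    rw [hΨ]
    simp [K_apply, G_apply, h.s₂.alt, h12, h21, h13, h31, h23, h32])
  have m6 : In X (G h b w₂ w₃) := by
    convert m5 using 1
    rw [hΨ]
    simp only [G, K_add_left, K_add_right]
    abel
  have hb : ∀ y z, B₂ y z = 0 → In X (G h b y z) := fun y z hyz => allpairs hX hm h23 n4 hw₂ m6 hyz
  refine ⟨hb, ?_⟩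
  have m7 := m3.sub (hb w₁ w₃ h13) (by
    intro v
    rw [hΨ]
    simp [K_apply, G_apply, h.s₂.alt, h12, h21, h13, h31, h23, h32]) (by
    intro v
    simp [K_apply, G_apply, h.s₂.alt, h12, h21, h13, h31, h23, h32])
  rw [hΨ, add_sub_cancel_left] at m7
  obtain ⟨g'', hg'', φ'', hφ'', e1'', e2'', e3''⟩ := mover hX h21 h31 n3
  have m8 : In X (K h c (φ'' w₂) (φ'' w₃) + K h c (φ'' w₃) (φ'' w₂) + K h c (φ'' w₃) (φ'' w₃)) := by
    refine m7.conj hg'' fun v => ?_
    simp only [LinearMap.add_apply, map_add, conjK h (hX.le hg'') hφ'']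
  rw [e1'', e3''] at m8
  have m9 := m8.sub m7 (by
    intro v
    simp [K_apply, G_apply, h.s₂.alt, h12, h21, h13, h31, h23, h32]) (by
    intro v
    simp [K_apply, G_apply, h.s₂.alt, h12, h21, h13, h31, h23, h32])
  have m10 : In X (G h c w₁ w₃) := by
    convert m9 using 1
    simp only [G, hc, K_add_left, K_add_right]
    abel
  exact fun y z hyz => allpairs hX hm h13 n5 hw₁ m10 hyz

/-- the algebra is invariant under the transvections -/
lemma inv_NN (hX : HX h X) (hm : 6 ≤ finrank F W) : Inv B₁ (NN hX hm) := by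
  intro u c n hn w₁ w₂ h12
  obtain ⟨g, hg, e⟩ := hX.r₁ u c
  have hact : ∀ x y, g (τ x y) = τ ((1 + c • rho B₁ u u) x) y := by
    intro x y
    have h1 : K h.symm 1 u u (τ x y) = B₁ x u • τ u y := by
      have := kap_pure h.symm u y x
      rw [LinearMap.flip_apply] at this
      rw [K_apply, this, Module.End.one_apply, map_smul, LinearMap.smul_apply, LinearMap.flip_apply]
    rw [e, LinearMap.smul_apply, h1, LinearMap.add_apply, Module.End.one_apply, LinearMap.smul_apply, rho_apply,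
      map_add, LinearMap.add_apply, map_smul, map_smul, LinearMap.smul_apply, LinearMap.smul_apply]
  have hadj : h.s₁.adj (1 + c • rho B₁ u u) = 1 - c • rho B₁ u u := by
    rw [h.s₁.adj_add, h.s₁.adj_one, h.s₁.adj_smul, h.s₁.adj_rho, smul_neg, sub_eq_add_neg]
  have hadj' : h.s₁.adj (1 - c • rho B₁ u u) = 1 + c • rho B₁ u u := by
    rw [← hadj, h.s₁.adj_adj]
  have hkap : ∀ z v, kap h z (g⁻¹ v) = (1 - c • rho B₁ u u) (kap h z v) := by
    intro z v
    refine h.s₁.ext fun u' => ?_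
    rw [kap_left, ← hadj, h.s₁.adj_left]
    have h1 : polar Q (g⁻¹ v) (τ u' z) = polar Q v (g (τ u' z)) := by
      rw [← polar_map (hX.le hg) (g⁻¹ v)]
      congr 1
      exact g.apply_symm_apply v
    rw [h1, hact, kap_left]
  have hK : ∀ n y z v, g (K h n y z (g⁻¹ v)) = K h ((1 + c • rho B₁ u u) * n * (1 - c • rho B₁ u u)) y z v := by
    intro n y z v
    rw [K_apply, K_apply, hact, hkap]
    rfl
  refine (hn w₁ w₂ h12).conj hg fun v => ?_
  rw [G, LinearMap.add_apply, map_add, hK, hK, G, h.s₁.adj_mul, h.s₁.adj_mul, hadj, hadj', LinearMap.add_apply, mul_assoc,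
    mul_assoc]

/-- rank one coefficients are Siegel elements -/
lemma sie_of_rho (h : TS B₁ B₂ τ Q) (hX : HX h X) {a b : U} {w₁ w₂ : W} (h12 : B₂ w₁ w₂ = 0) (hG : In X (G h (rho B₁ a b) w₁ w₂)) :
    sie Q (τ b w₂) (τ a w₁) ∈ X := by
  have h21 : B₂ w₂ w₁ = 0 := by rw [h.s₂.flip, h12, neg_zero]
  obtain ⟨g, hg, e⟩ := hG
  have : sie Q (τ b w₂) (τ a w₁) = g := by
    ext v
    rw [e, G_apply, h.s₁.adj_rho, sie_apply (h.q0 _ _) (by rw [h.qp, h21, mul_zero]), h.q0, rho_apply, LinearMap.neg_apply,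
      rho_apply, kap_left, kap_left]
    simp only [map_neg, map_smul, LinearMap.neg_apply, LinearMap.smul_apply]
    module
  rw [this]; exact hg

/-- a non-scalar coefficient gives everything -/
theorem omega_of_nonscalar [FiniteDimensional F V] [Finite F] (hQ : ND Q) (hV : 7 ≤ finrank F V) (hX : HX h X)
    (hm : 6 ≤ finrank F W) (hd : 0 < finrank F U) (hex : (∃ c : F, c ≠ 0 ∧ c ≠ 1) ∨ 3 ≤ finrank F U) {n : Module.End F U} (hn : n ∈ NN hX hm)
    {u : U} (hu : n u ∉ Submodule.span F {u}) : ⁅O Q, O Q⁆ ≤ X := by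
  have h1 : ∀ a b, rho B₁ a b ∈ NN hX hm := all_of_nonscalar h.s₁ (inv_NN hX hm) hex hn hu
  have h2 : ∀ a b w₁ w₂, B₂ w₁ w₂ = 0 → sie Q (τ b w₂) (τ a w₁) ∈ X := fun a b w₁ w₂ h12 =>
    sie_of_rho h hX h12 (h1 a b w₁ w₂ h12)
  obtain ⟨x₀, hx₀⟩ : ∃ x : U, x ≠ 0 := by
    by_contra hcon
    push Not at hcon
    have : Subsingleton U := ⟨fun a b => by rw [hcon a, hcon b]⟩
    rw [finrank_zero_of_subsingleton] at hd
    omega
  obtain ⟨x₁, hx₁⟩ : ∃ y, B₁ x₀ y = 1 := by
    by_contra hcon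
    push Not at hcon
    apply hx₀
    apply h.s₁.nd
    intro y
    by_contra hy
    apply hcon ((B₁ x₀ y)⁻¹ • y)
    rw [map_smul, smul_eq_mul, inv_mul_cancel₀ hy]
  have h3 : ∀ a b w₁ w₂, polar Q (τ b w₂) (τ a w₁) = 0 → sie Q (τ b w₂) (τ a w₁) ∈ X := by
    intro a b w₁ w₂ hp
    obtain ⟨p, q, p1, p2, q1, q2, hpq⟩ := exists_hyp2 h hm w₁ w₂
    have p2' : B₂ w₂ p = 0 := by rw [h.s₂.flip, p2, neg_zero]
    have q1' : B₂ w₁ q = 0 := by rw [h.s₂.flip, q1, neg_zero]
    have q2' : B₂ w₂ q = 0 := by rw [h.s₂.flip, q2, neg_zero]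
    have hzt : polar Q (τ x₁ q) (τ a w₁) = 0 := by rw [h.qp, q1, mul_zero]
    have h4 := comm_stab (Q := Q) (u := τ b w₂) (y := τ x₀ p) (s := sie Q (τ x₁ q) (τ a w₁)) (h.q0 _ _)
      (by rw [h.qp, p2', mul_zero]) (h2 x₀ b p w₂ p2) (h2 a x₁ w₁ q q1') (sie_mem_O _ _ _) (by
        rw [sie_apply (h.q0 _ _) hzt, h.qp, q2', mul_zero, zero_smul, add_zero, hp, zero_smul, sub_zero, mul_zero,
          zero_smul, sub_zero])
    have h5 : sie Q (τ x₁ q) (τ a w₁) (τ x₀ p) - τ x₀ p = τ a w₁ := by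
      rw [sie_apply (h.q0 _ _) hzt, h.qp, hpq, hx₁, h.q0, h.qp, p1]
      simp
    rwa [h5] at h4
  have hfull : ∀ b w, b ≠ 0 → w ≠ 0 → Full Q X (τ b w) := by
    intro b w hb hw
    obtain ⟨b', hb'⟩ : ∃ y, B₁ b y = 1 := by
      by_contra hcon
      push Not at hcon
      apply hb
      apply h.s₁.nd
      intro y
      by_contra hy
      apply hcon ((B₁ b y)⁻¹ • y)
      rw [map_smul, smul_eq_mul, inv_mul_cancel₀ hy]
    obtain ⟨w', hw'⟩ : ∃ y, B₂ w y = 1 := by
      by_contra hcon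
      push Not at hcon
      apply hw
      apply h.s₂.nd
      intro y
      by_contra hy
      apply hcon ((B₂ w y)⁻¹ • y)
      rw [map_smul, smul_eq_mul, inv_mul_cancel₀ hy]
    refine ⟨h.q0 _ _, ?_⟩
    have hu0 : Q (τ b w) = 0 := h.q0 _ _
    let S : Submodule F V :=
      { carrier := {y | polar Q (τ b w) y = 0 ∧ ∀ c : F, sie Q (τ b w) (c • y) ∈ X}
        add_mem' := by
          rintro a b ⟨h1, h2⟩ ⟨h3, h4⟩
          refine ⟨by rw [p_add', h1, h3, add_zero], fun c => ?_⟩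
          rw [smul_add, ← sie_mul hu0 (by rw [p_smul', h1, mul_zero]) (by rw [p_smul', h3, mul_zero])]
          exact X.mul_mem (h2 c) (h4 c)
        zero_mem' := by
          refine ⟨p_zero' _ _, fun c => ?_⟩
          rw [smul_zero, sie_zero hu0]; exact X.one_mem
        smul_mem' := by
          rintro c a ⟨h1, h2⟩
          refine ⟨by rw [p_smul', h1, mul_zero], fun d => ?_⟩
          rw [smul_smul]; exact h2 _ }
    have hS : ∀ x t, polar Q (τ b w) (τ x t) = 0 → τ x t ∈ S := by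
      intro x t hxt
      refine ⟨hxt, fun c => ?_⟩
      have h4 := h3 (c • x) b t w (by rw [map_smul, LinearMap.smul_apply, p_smul', hxt, mul_zero])
      rwa [map_smul, LinearMap.smul_apply] at h4
    let T : V →ₗ[F] V := LinearMap.id - (bl Q (τ b w)).smulRight (τ b' w')
    have hT : ∀ v, T v = v - polar Q (τ b w) v • τ b' w' := fun v => rfl
    have hcomap : S.comap T = ⊤ := by
      apply h.span
      intro x t
      rw [Submodule.mem_comap, hT]
      have e1 : τ x t - polar Q (τ b w) (τ x t) • τ b' w' =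
          τ (x - B₁ b x • b') t + B₁ b x • τ b' (t - B₂ w t • w') := by
        rw [h.qp]
        simp only [map_sub, map_smul, LinearMap.sub_apply, LinearMap.smul_apply, smul_sub, smul_smul]
        abel
      rw [e1]
      refine S.add_mem (hS _ _ ?_) (S.smul_mem _ (hS _ _ ?_))
      · rw [h.qp, map_sub, map_smul, hb', smul_eq_mul, mul_one, sub_self, zero_mul]
      · rw [h.qp, map_sub, map_smul, hw', smul_eq_mul, mul_one, sub_self, mul_zero]
    intro y hy
    have h4 : y ∈ S.comap T := by rw [hcomap]; trivial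
    rw [Submodule.mem_comap, hT, hy, zero_smul, sub_zero] at h4
    have h5 := h4.2 1
    rwa [one_smul] at h5
  obtain ⟨p, q, -, -, -, -, hpq⟩ := exists_hyp2 h hm 0 0
  have hx₁0 : x₁ ≠ 0 := by rintro rfl; rw [map_zero] at hx₁; exact zero_ne_one hx₁
  have hp0 : p ≠ 0 := by rintro rfl; rw [map_zero, LinearMap.zero_apply] at hpq; exact zero_ne_one hpq
  have hq0 : q ≠ 0 := by rintro rfl; rw [map_zero] at hpq; exact zero_ne_one hpq
  exact omega_le_of_full hQ hV (hfull x₁ q hx₁0 hq0) (hfull x₀ p hx₀ hp0) (by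
    rw [h.qp, hpq, hx₁, mul_one]; exact one_ne_zero)

end H96.StOm
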