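import Mathlib
import Cfsg.Agent.Lib.H96.StOm

set_option autoImplicit false
set_option linter.unusedSectionVars false
set_option linter.unusedVariables false
set_option linter.unusedSimpArgs false

/-!
Overgroups of the tensor product of two symplectic groups: normalisers of the subspaces U ⊗ w.
-/

namespace H96.StNorm

open Module QuadraticMap H17.OrthAbs H95.OGeo H95.OSie H96.StAlg H96.StBase H96.StN H96.StOm H48.QuadSplit

variable {F U W V : Type*} [Field F] [AddCommGroup U] [Module F U] [AddCommGroup W] [Module F W] [AddCommGroup V]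
  [Module F V] [FiniteDimensional F U] [FiniteDimensional F W]
variable {B₁ : LinearMap.BilinForm F U} {B₂ : LinearMap.BilinForm F W} {τ : U →ₗ[F] W →ₗ[F] V} {Q : QuadraticForm F V}
variable {X : Subgroup (V ≃ₗ[F] V)} {h : TS B₁ B₂ τ Q}

lemma scalar_of_span {n : Module.End F U} (hn : ∀ u, n u ∈ Submodule.span F {u}) : ∃ c : F, n = c • (1 : Module.End F U) := by
  obtain ⟨a, ha⟩ := LinearMap.exists_eq_smul_id_of_forall_notLinearIndependent (f := n) (fun v hv => by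
    obtain ⟨c, hc⟩ := Submodule.mem_span_singleton.mp (hn v)
    rw [LinearIndependent.pair_iff] at hv
    have := hv c (-1) (by rw [hc]; simp)
    exact one_ne_zero (neg_eq_zero.mp this.2))
  exact ⟨a, ha⟩

lemma inv_polar {x : V ≃ₗ[F] V} (hx : x ∈ O Q) (v y : V) : polar Q (x⁻¹ v) y = polar Q v (x y) := by
  rw [← polar_map hx (x⁻¹ v)]
  congr 1
  exact x.apply_symm_apply v

/-- the second coefficient is a multiple of the first -/
theorem scal_pair (hX : HX h X) (hm : 6 ≤ finrank F W) (hsc : ∀ n ∈ NN hX hm, ∃ c : F, n = c • (1 : Module.End F U))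
    {g : V ≃ₗ[F] V} (hg : g ∈ X) {e w e' : W} {γ β : Module.End F U} (hγ : Function.Injective γ) (hU : ∃ u : U, u ≠ 0)
    (hact : ∀ u, g (τ u e) = τ (γ u) e' + τ (β u) w) (hwe : B₂ w e' = 0) (hw : w ≠ 0)
    (he' : e' ∉ Submodule.span F {w}) : ∃ c : F, β = c • γ := by
  have hkap : ∀ v, kap h e (g⁻¹ v) = h.s₁.adj γ (kap h e' v) + h.s₁.adj β (kap h w v) := by
    intro v
    refine h.s₁.ext fun u' => ?_
    rw [kap_left, inv_polar (hX.le hg), hact, p_add', map_add, LinearMap.add_apply, h.s₁.adj_left, h.s₁.adj_left,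
      kap_left, kap_left]
  have h1 : In X (K h (β * h.s₁.adj β) w w + K h (β * h.s₁.adj γ) w e' + K h (h.s₁.adj (β * h.s₁.adj γ)) e' w +
      K h (γ * h.s₁.adj γ) e' e') := by
    refine (hX.r₂ e 1).conj hg fun v => ?_
    rw [one_smul, K_apply, Module.End.one_apply, hkap, hact, h.s₁.adj_mul, h.s₁.adj_adj]
    simp only [LinearMap.add_apply, K_apply, map_add, Module.End.mul_apply]
    abel
  obtain ⟨h2, h3⟩ := star hX hm hwe hw he' (by rw [h.s₁.adj_mul, h.s₁.adj_adj]) h1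
  obtain ⟨c₁, hc₁⟩ := hsc _ h2
  obtain ⟨c₂, hc₂⟩ := hsc _ h3
  have hγ0 : γ ≠ 0 := by
    rintro rfl
    obtain ⟨u, hu⟩ := hU
    exact hu (hγ (by simp))
  have hc₂0 : c₂ ≠ 0 := by
    intro h0
    apply hγ0
    rw [h0, zero_smul] at hc₂
    have h4 : h.s₁.adj γ = 0 := by
      ext u
      apply hγ
      have := LinearMap.congr_fun hc₂ u
      rw [Module.End.mul_apply, LinearMap.zero_apply] at this
      rw [this, LinearMap.zero_apply, map_zero]
    rw [← h.s₁.adj_adj γ, h4]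
    exact h.s₁.adj_eq fun x y => by simp
  have h5 : h.s₁.adj γ * γ = c₂ • (1 : Module.End F U) := by
    ext u
    apply hγ
    have := LinearMap.congr_fun hc₂ (γ u)
    simp only [Module.End.mul_apply, LinearMap.smul_apply, Module.End.one_apply] at this ⊢
    rw [this, map_smul]
  have h6 : c₂ • β = c₁ • γ := by
    have h7 : β * (h.s₁.adj γ * γ) = c₂ • β := by rw [h5, mul_smul_comm, mul_one]
    rw [← h7, ← mul_assoc, hc₁, smul_mul_assoc, one_mul]
  refine ⟨c₂⁻¹ * c₁, ?_⟩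
  rw [mul_smul, ← h6, smul_smul, inv_mul_cancel₀ hc₂0, one_smul]

/-- `x` maps `U ⊗ f` to `U ⊗ f'` -/
def Mp (τ : U →ₗ[F] W →ₗ[F] V) (x : V ≃ₗ[F] V) (f f' : W) : Prop := ∃ α : Module.End F U, ∀ u, x (τ u f) = τ (α u) f'

lemma exists_one (h : TS B₁ B₂ τ Q) {w : W} (hw : w ≠ 0) : ∃ z, B₂ w z = 1 := by
  by_contra hcon
  push Not at hcon
  apply hw
  apply h.s₂.nd
  intro y
  by_contra hy
  apply hcon ((B₂ w y)⁻¹ • y)
  rw [map_smul, smul_eq_mul, inv_mul_cancel₀ hy]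

/-- functional separating `b` from the multiples of `a` -/
lemma exists_sep01 (h : TS B₁ B₂ τ Q) {a b : W} (hb : b ∉ Submodule.span F {a}) : ∃ z, B₂ a z = 0 ∧ B₂ b z = 1 := by
  obtain ⟨z, h1, h2⟩ := h.s₂.sep1 hb
  refine ⟨(B₂ b z)⁻¹ • z, ?_, ?_⟩
  · rw [map_smul, h1, smul_zero]
  · rw [map_smul, smul_eq_mul, inv_mul_cancel₀ h2]

lemma pure_eq_zero (h : TS B₁ B₂ τ Q) {w : W} (hw : w ≠ 0) {u : U} (hu : τ u w = 0) : u = 0 := by
  obtain ⟨z, hz⟩ := exists_one h hw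
  have h1 := kap_pure h z u w
  rw [hu, map_zero, hz, one_smul] at h1
  exact h1.symm

lemma Mp.inj (h : TS B₁ B₂ τ Q) {x : V ≃ₗ[F] V} {f f' : W} (hf : f ≠ 0) {α : Module.End F U}
    (hα : ∀ u, x (τ u f) = τ (α u) f') : Function.Injective α := by
  rw [injective_iff_map_eq_zero]
  intro u hu
  have h1 := hα u
  rw [hu, map_zero, LinearMap.zero_apply] at h1
  exact pure_eq_zero h hf ((map_eq_zero_iff x x.injective).mp h1)

lemma exists_inv {α : Module.End F U} (hα : Function.Injective α) : ∃ γ : Module.End F U, (∀ u, α (γ u) = u) ∧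
    (∀ u, γ (α u) = u) := by
  let e := LinearEquiv.ofInjectiveEndo α hα
  refine ⟨e.symm, fun u => ?_, fun u => ?_⟩
  · exact e.apply_symm_apply u
  · exact e.symm_apply_apply u

/-- vectors killed by the contractions with `w^⊥` -/
lemma mem_D (hQ : ND Q) (h : TS B₁ B₂ τ Q) {w z₀ : W} (hz₀ : B₂ w z₀ = 1) {v : V} (hv : ∀ z, B₂ w z = 0 → kap h z v = 0) :
    v = τ (kap h z₀ v) w := by
  rw [← sub_eq_zero]
  apply hQ
  have h1 : ∀ z, kap h z (v - τ (kap h z₀ v) w) = 0 := by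
    intro z
    rw [map_sub, kap_pure]
    have h2 := hv (z - B₂ w z • z₀) (by rw [map_sub, map_smul, hz₀, smul_eq_mul, mul_one, sub_self])
    rw [map_sub, map_smul, LinearMap.sub_apply, LinearMap.smul_apply] at h2
    exact h2
  intro y
  have h3 : bl Q (v - τ (kap h z₀ v) w) = 0 := by
    apply h.ext
    intro u z
    rw [bl_apply, ← kap_left h, h1, map_zero, LinearMap.zero_apply, LinearMap.zero_apply]
  have := LinearMap.congr_fun h3 y
  rwa [bl_apply, LinearMap.zero_apply] at this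

/-- the key step -/
theorem norm_aux (hQ : ND Q) (hX : HX h X) (hm : 6 ≤ finrank F W) (hU : ∃ u : U, u ≠ 0)
    (hsc : ∀ n ∈ NN hX hm, ∃ c : F, n = c • (1 : Module.End F U)) {x : V ≃ₗ[F] V} (hx : x ∈ X) {w : W} (hw : w ≠ 0)
    (hxw : Mp τ x w w) {e : W} (hwe : B₂ w e = 0) : ∃ e', Mp τ x⁻¹ e e' := by
  obtain ⟨α, hα⟩ := hxw
  obtain ⟨γ, hαγ, hγα⟩ := exists_inv (Mp.inj h hw hα)
  have hxx : ∀ v, x (x⁻¹ v) = v := fun v => x.apply_symm_apply v
  have hxx' : ∀ v, x⁻¹ (x v) = v := fun v => x.symm_apply_apply v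
  have hγw : ∀ u, x⁻¹ (τ u w) = τ (γ u) w := by
    intro u
    have h1 := hα (γ u)
    rw [hαγ] at h1
    rw [← h1, hxx']
  by_cases hew : e ∈ Submodule.span F {w}
  · obtain ⟨c, rfl⟩ := Submodule.mem_span_singleton.mp hew
    refine ⟨c • w, γ, fun u => ?_⟩
    rw [map_smul, map_smul, hγw, map_smul]
  have hew' : B₂ e w = 0 := by rw [h.s₂.flip, hwe, neg_zero]
  have hγinj : Function.Injective γ := fun a b hab => by
    have := congrArg α hab
    rwa [hαγ, hαγ] at this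
  -- the values of x⁻¹ on U ⊗ e are orthogonal to U ⊗ w
  have hkw : ∀ u, kap h w (x⁻¹ (τ u e)) = 0 := by
    intro u
    refine h.s₁.ext fun u' => ?_
    rw [kap_left, inv_polar (hX.le hx), hα, h.qp, hew', mul_zero, map_zero, LinearMap.zero_apply]
  -- scalars
  have hz : ∀ z, B₂ w z = 0 → ∃ c : F, ∀ u, kap h z (x⁻¹ (τ u e)) = c • γ u := by
    intro z hwz
    have hzw : B₂ z w = 0 := by rw [h.s₂.flip, hwz, neg_zero]
    obtain ⟨s, hs, hse⟩ := heis hX hwz 1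
    have hβ : ∀ u, (x * s * x⁻¹) (τ u e) = τ ((1 : Module.End F U) u) e +
        τ ((α ∘ₗ kap h z ∘ₗ (x⁻¹ : V ≃ₗ[F] V).toLinearMap ∘ₗ τ.flip e) u) w := by
      intro u
      have e1 : (α ∘ₗ kap h z ∘ₗ (x⁻¹ : V ≃ₗ[F] V).toLinearMap ∘ₗ τ.flip e) u = α (kap h z (x⁻¹ (τ u e))) := rfl
      rw [e1, LinearEquiv.mul_apply, LinearEquiv.mul_apply, hse, one_smul, LinearMap.add_apply, K_apply, K_apply, hkw, map_zero,
        map_zero, LinearMap.zero_apply, add_zero, map_add, hxx, Module.End.one_apply, Module.End.one_apply, hα]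
    obtain ⟨c, hc⟩ := scal_pair hX hm hsc (X.mul_mem (X.mul_mem hx hs) (X.inv_mem hx)) (γ := 1) (fun a b hab => hab) hU
      hβ hwe hw hew
    refine ⟨c, fun u => ?_⟩
    have h1 := LinearMap.congr_fun hc u
    have e1 : (α ∘ₗ kap h z ∘ₗ (x⁻¹ : V ≃ₗ[F] V).toLinearMap ∘ₗ τ.flip e) u = α (kap h z (x⁻¹ (τ u e))) := rfl
    rw [e1, LinearMap.smul_apply, Module.End.one_apply] at h1
    have h2 := congrArg γ h1
    rwa [hγα, map_smul] at h2
  -- the second vector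
  obtain ⟨x₀, hx₀⟩ := hU
  obtain ⟨x₁, hx₁⟩ := exists_one h.symm hx₀
  obtain ⟨e', he'⟩ : ∃ e', e' = kap h.symm x₁ (x⁻¹ (τ (α x₀) e)) := ⟨_, rfl⟩
  have he'z : ∀ z, B₂ e' z = B₁ (kap h z (x⁻¹ (τ (α x₀) e))) x₁ := by
    intro z
    rw [he', kap_left, kap_left]
    rfl
  have hcz : ∀ z, B₂ w z = 0 → ∀ u, kap h z (x⁻¹ (τ u e)) = B₂ e' z • γ u := by
    intro z hwz u
    obtain ⟨c, hc⟩ := hz z hwz
    rw [hc u, he'z, hc (α x₀), hγα, map_smul, LinearMap.smul_apply, hx₁, smul_eq_mul, mul_one]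
  obtain ⟨z₀, hz₀⟩ := exists_one h hw
  let β : Module.End F U := kap h z₀ ∘ₗ ((x⁻¹ : V ≃ₗ[F] V).toLinearMap ∘ₗ τ.flip e - τ.flip e' ∘ₗ γ)
  have hβ : ∀ u, β u = kap h z₀ (x⁻¹ (τ u e) - τ (γ u) e') := fun u => rfl
  have hact : ∀ u, x⁻¹ (τ u e) = τ (γ u) e' + τ (β u) w := by
    intro u
    have h1 := mem_D hQ h hz₀ (v := x⁻¹ (τ u e) - τ (γ u) e') (by
      intro z hwz
      rw [map_sub, kap_pure, hcz z hwz, sub_self])
    rw [hβ, ← h1]; abel
  have hwe' : B₂ w e' = 0 := by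
    rw [h.s₂.flip, he'z, hkw, map_zero, LinearMap.zero_apply, neg_zero]
  have he'w : e' ∉ Submodule.span F {w} := by
    intro h1
    obtain ⟨c, hc⟩ := Submodule.mem_span_singleton.mp h1
    obtain ⟨z, hz1, hz2⟩ := exists_sep01 h hew
    have h2 := hact x₀
    rw [← hc, map_smul, ← LinearMap.smul_apply, ← map_smul, ← LinearMap.add_apply, ← map_add] at h2
    have h3 := congrArg (fun v => kap h z (x v)) h2
    simp only [hxx, hα, kap_pure, hz1, hz2, zero_smul, one_smul] at h3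
    exact hx₀ h3
  obtain ⟨c, hc⟩ := scal_pair hX hm hsc (X.inv_mem hx) hγinj ⟨x₀, hx₀⟩ hact hwe' hw he'w
  refine ⟨e' + c • w, γ, fun u => ?_⟩
  rw [hact, hc, LinearMap.smul_apply, map_add, map_smul, map_smul, LinearMap.smul_apply]

theorem norm1 (hQ : ND Q) (hX : HX h X) (hm : 6 ≤ finrank F W) (hU : ∃ u : U, u ≠ 0)
    (hsc : ∀ n ∈ NN hX hm, ∃ c : F, n = c • (1 : Module.End F U)) {x : V ≃ₗ[F] V} (hx : x ∈ X) {w : W} (hw : w ≠ 0)
    (hxw : Mp τ x w w) {e : W} (hwe : B₂ w e = 0) : ∃ e', Mp τ x e e' := by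
  have h1 : Mp τ x⁻¹ w w := by
    obtain ⟨α, hα⟩ := hxw
    obtain ⟨γ, hαγ, hγα⟩ := exists_inv (Mp.inj h hw hα)
    refine ⟨γ, fun u => ?_⟩
    have h1 := hα (γ u)
    rw [hαγ] at h1
    rw [← h1]
    exact x.symm_apply_apply _
  have h2 := norm_aux hQ hX hm hU hsc (X.inv_mem hx) hw h1 hwe
  rwa [inv_inv] at h2

lemma Mp.act {g x : V ≃ₗ[F] V} {φ : W → W} (hφ : Act τ g φ) {f f' : W} (hx : Mp τ x f f') : Mp τ (g * x) f (φ f') := by
  obtain ⟨α, hα⟩ := hx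
  exact ⟨α, fun u => by rw [LinearEquiv.mul_apply, hα, hφ]⟩

lemma root_mem' (hX : HX h X) (w : W) (c : F) : ∃ g ∈ X, (∀ v, g v = v + (c • K h 1 w w) v) ∧
    Act τ g (fun y => y + (c * B₂ y w) • w) ∧ Act τ g⁻¹ (fun y => y - (c * B₂ y w) • w) := by
  obtain ⟨g, hg, e, hφ⟩ := root_mem hX w c
  refine ⟨g, hg, e, hφ, fun u y => ?_⟩
  rw [inv_of e (by
    intro v
    simp [K_apply, h.s₂.alt])]
  rw [LinearMap.smul_apply, K_apply, kap_pure]
  simp only [Module.End.one_apply, map_smul, LinearMap.smul_apply, map_sub, smul_smul]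

/-- transitivity of the second factor -/
lemma trans (hX : HX h X) {a b : W} (ha : a ≠ 0) (hb : b ≠ 0) : ∃ g ∈ X, ∃ φ ψ : W → W, Act τ g φ ∧ Act τ g⁻¹ ψ ∧
    φ a = b := by
  have step : ∀ a b : W, B₂ a b ≠ 0 → ∃ g ∈ X, ∃ φ ψ : W → W, Act τ g φ ∧ Act τ g⁻¹ ψ ∧ φ a = b := by
    intro a b hab
    obtain ⟨g, hg, e, hφ, hψ⟩ := root_mem' hX (b - a) (B₂ a b)⁻¹
    refine ⟨g, hg, _, _, hφ, hψ, ?_⟩
    change a + ((B₂ a b)⁻¹ * B₂ a (b - a)) • (b - a) = b
    rw [map_sub, h.s₂.alt, sub_zero, inv_mul_cancel₀ hab, one_smul]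
    abel
  by_cases hab : B₂ a b = 0
  · obtain ⟨f₁, h1⟩ := exists_one h ha
    obtain ⟨f₂, h2⟩ := exists_one h hb
    obtain ⟨f, hf1, hf2⟩ : ∃ f, B₂ a f ≠ 0 ∧ B₂ b f ≠ 0 := by
      by_cases h3 : B₂ b f₁ = 0
      · by_cases h4 : B₂ a f₂ = 0
        · refine ⟨f₁ + f₂, ?_, ?_⟩
          · rw [map_add, h1, h4, add_zero]; exact one_ne_zero
          · rw [map_add, h3, h2, zero_add]; exact one_ne_zero
        · exact ⟨f₂, h4, by rw [h2]; exact one_ne_zero⟩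
      · exact ⟨f₁, by rw [h1]; exact one_ne_zero, h3⟩
    obtain ⟨g, hg, φ, ψ, k1, k2, k3⟩ := step a f hf1
    obtain ⟨g', hg', φ', ψ', k1', k2', k3'⟩ := step f b (by rw [h.s₂.flip]; exact neg_ne_zero.mpr hf2)
    refine ⟨g' * g, X.mul_mem hg' hg, φ' ∘ φ, ψ ∘ ψ', ?_, ?_, ?_⟩
    · intro u y
      rw [LinearEquiv.mul_apply, k1, k1']; rfl
    · intro u y
      rw [mul_inv_rev, LinearEquiv.mul_apply, k2', k2]; rfl
    · rw [Function.comp_apply, k3, k3']
  · exact step a b hab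

/-- all the subspaces are mapped to such subspaces -/
theorem norm2 (hQ : ND Q) (hX : HX h X) (hm : 6 ≤ finrank F W) (hU : ∃ u : U, u ≠ 0)
    (hsc : ∀ n ∈ NN hX hm, ∃ c : F, n = c • (1 : Module.End F U)) {x : V ≃ₗ[F] V} (hx : x ∈ X) {w w' : W} (hw : w ≠ 0)
    (hw' : w' ≠ 0) (hxw : Mp τ x w w') (f : W) : ∃ f', Mp τ x f f' := by
  have f1 : ∀ a : W, finrank F (Submodule.span F {a}) ≤ 2 := fun a => by
    have := finrank_span2 (F := F) a a
    rwa [Set.pair_eq_singleton] at this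
  obtain ⟨e, e1, e2, -, e3, -⟩ := exists_perp3 B₂ hm w f f (f1 w) (f1 w)
  have he0 : e ≠ 0 := by rintro rfl; exact e3 (Submodule.zero_mem _)
  have hwe : B₂ w e = 0 := by rw [h.s₂.flip, e1, neg_zero]
  obtain ⟨g, hg, φ, ψ, k1, k2, k3⟩ := trans hX hw' hw
  have h1 := hxw.act k1
  rw [k3] at h1
  obtain ⟨e', he'⟩ := norm1 hQ hX hm hU hsc (X.mul_mem hg hx) hw h1 hwe
  have he'0 : e' ≠ 0 := by
    rintro rfl
    obtain ⟨α, hα⟩ := he'
    obtain ⟨u, hu⟩ := hU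
    have h2 := hα u
    rw [map_zero] at h2
    exact hu (pure_eq_zero h he0 ((map_eq_zero_iff (g * x) (g * x).injective).mp h2))
  obtain ⟨g', hg', φ', ψ', k1', k2', k3'⟩ := trans hX he'0 he0
  have h2 := he'.act k1'
  rw [k3'] at h2
  obtain ⟨f', hf'⟩ := norm1 hQ hX hm hU hsc (X.mul_mem hg' (X.mul_mem hg hx)) he0 h2 e2
  have h3 := (hf'.act k2').act k2
  have h4 : g⁻¹ * (g'⁻¹ * (g' * (g * x))) = x := by group
  rw [h4] at h3
  exact ⟨_, h3⟩

/-- tensor products of automorphisms -/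
def Kr (τ : U →ₗ[F] W →ₗ[F] V) (x : V ≃ₗ[F] V) : Prop :=
  ∃ (a : U ≃ₗ[F] U) (b : W ≃ₗ[F] W), ∀ u f, x (τ u f) = τ (a u) (b f)

theorem kr_of_mp (h : TS B₁ B₂ τ Q) (hU : ∃ u : U, u ≠ 0) (hW : ∃ w : W, w ≠ 0) {x : V ≃ₗ[F] V}
    (hx : ∀ f, ∃ f', Mp τ x f f') : Kr τ x := by
  obtain ⟨f₀, hf₀⟩ := hW
  obtain ⟨u₀, hu₀⟩ := hU
  obtain ⟨f₀', a, ha⟩ := hx f₀
  have hainj := Mp.inj h hf₀ ha
  obtain ⟨a', haa', ha'a⟩ := exists_inv hainj
  have hau₀ : a u₀ ≠ 0 := fun h0 => hu₀ (hainj (by rw [h0, map_zero]))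
  have hf₀' : f₀' ≠ 0 := by
    rintro rfl
    have h2 := ha u₀
    rw [map_zero] at h2
    exact hu₀ (pure_eq_zero h hf₀ ((map_eq_zero_iff x x.injective).mp h2))
  have key : ∀ f, ∃ f₁, ∀ u, x (τ u f) = τ (a u) f₁ := by
    intro f
    by_cases hf : f ∈ Submodule.span F {f₀}
    · obtain ⟨c, rfl⟩ := Submodule.mem_span_singleton.mp hf
      exact ⟨c • f₀', fun u => by rw [map_smul, map_smul, ha, map_smul]⟩
    obtain ⟨f', γ, hγ⟩ := hx f
    obtain ⟨f'', δ, hδ⟩ := hx (f + f₀)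
    have hf'0 : f' ∉ Submodule.span F {f₀'} := by
      intro h1
      obtain ⟨c, rfl⟩ := Submodule.mem_span_singleton.mp h1
      obtain ⟨z, hz1, hz2⟩ := exists_sep01 h hf
      have h2 : x (τ u₀ f) = x (τ (a' (c • γ u₀)) f₀) := by
        rw [ha, haa', hγ, map_smul, map_smul, LinearMap.smul_apply]
      have h3 := congrArg (kap h z) (x.injective h2)
      rw [kap_pure, kap_pure, hz1, hz2, zero_smul, one_smul] at h3
      exact hu₀ h3
    have hf0' : f₀' ∉ Submodule.span F {f'} := by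
      intro h1
      obtain ⟨c, hc⟩ := Submodule.mem_span_singleton.mp h1
      have hc0 : c ≠ 0 := by
        rintro rfl
        rw [zero_smul] at hc
        exact hf₀' hc.symm
      apply hf'0
      exact Submodule.mem_span_singleton.mpr ⟨c⁻¹, by rw [← hc, smul_smul, inv_mul_cancel₀ hc0, one_smul]⟩
    have hsum : ∀ u, τ (γ u) f' + τ (a u) f₀' = τ (δ u) f'' := by
      intro u
      rw [← hγ, ← ha, ← hδ, map_add, map_add]
    obtain ⟨z, hz1, hz2⟩ := exists_sep01 h hf'0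
    obtain ⟨z', hz1', hz2'⟩ := exists_sep01 h hf0'
    have e1 : ∀ u, γ u = B₂ f'' z • δ u := by
      intro u
      have h1 := congrArg (kap h z) (hsum u)
      rwa [map_add, kap_pure, kap_pure, kap_pure, hz1, hz2, zero_smul, one_smul, add_zero] at h1
    have e2 : ∀ u, a u = B₂ f'' z' • δ u := by
      intro u
      have h1 := congrArg (kap h z') (hsum u)
      rwa [map_add, kap_pure, kap_pure, kap_pure, hz1', hz2', zero_smul, one_smul, zero_add] at h1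
    have hc : B₂ f'' z' ≠ 0 := by
      intro h1
      apply hau₀
      rw [e2, h1, zero_smul]
    refine ⟨(B₂ f'' z * (B₂ f'' z')⁻¹) • f', fun u => ?_⟩
    rw [hγ, e1, e2, map_smul, map_smul, map_smul, LinearMap.smul_apply, LinearMap.smul_apply, smul_smul]
    congr 1
    rw [mul_assoc, inv_mul_cancel₀ hc, mul_one]
  obtain ⟨y₁, hy₁⟩ := exists_one h.symm hau₀
  let b : Module.End F W := kap h.symm y₁ ∘ₗ x.toLinearMap ∘ₗ τ u₀
  have hb : ∀ f, b f = kap h.symm y₁ (x (τ u₀ f)) := fun f => rfl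
  have hab : ∀ u f, x (τ u f) = τ (a u) (b f) := by
    intro u f
    obtain ⟨f₁, hf₁⟩ := key f
    have h1 : b f = f₁ := by
      rw [hb, hf₁]
      have := kap_pure h.symm y₁ f₁ (a u₀)
      rw [LinearMap.flip_apply] at this
      rw [this, hy₁, one_smul]
    rw [h1, hf₁]
  have hbinj : Function.Injective b := by
    rw [injective_iff_map_eq_zero]
    intro f hf
    have h1 := hab u₀ f
    rw [hf, map_zero] at h1
    exact pure_eq_zero h.symm hu₀ (u := f) ((map_eq_zero_iff x x.injective).mp h1)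
  exact ⟨LinearEquiv.ofInjectiveEndo a hainj, LinearEquiv.ofInjectiveEndo b hbinj, hab⟩

/-- the group of the tensor products -/
def KrG (h : TS B₁ B₂ τ Q) : Subgroup (V ≃ₗ[F] V) where
  carrier := {x | Kr τ x}
  mul_mem' := by
    rintro x y ⟨a, b, hab⟩ ⟨c, d, hcd⟩
    exact ⟨a * c, b * d, fun u f => by rw [LinearEquiv.mul_apply, hcd, hab]; rfl⟩
  one_mem' := ⟨1, 1, fun u f => rfl⟩
  inv_mem' := by
    rintro x ⟨a, b, hab⟩
    refine ⟨a⁻¹, b⁻¹, fun u f => ?_⟩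
    have h1 := hab (a⁻¹ u) (b⁻¹ f)
    have e1 : a (a⁻¹ u) = u := a.apply_symm_apply u
    have e2 : b (b⁻¹ f) = f := b.apply_symm_apply f
    rw [e1, e2] at h1
    rw [← h1]
    exact x.symm_apply_apply _

end H96.StNorm
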