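import Mathlib
import Cfsg.Agent.Lib.H96.StNorm
import Cfsg.Agent.Lib.H96.StFus

set_option autoImplicit false
set_option linter.unusedSectionVars false
set_option linter.unusedVariables false
set_option linter.unusedSimpArgs false

/-!
Overgroups of the tensor product of two symplectic groups: conclusion.
-/

namespace H96.StMain

open Module QuadraticMap H17.OrthAbs H95.OGeo H95.OSie H96.StAlg H96.StBase H96.StN H96.StOm H48.QuadSplit
  H96.StNorm H96.StFus

variable {F U W V : Type*} [Field F] [AddCommGroup U] [Module F U] [AddCommGroup W] [Module F W] [AddCommGroup V]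
  [Module F V] [FiniteDimensional F U] [FiniteDimensional F W]
variable {B₁ : LinearMap.BilinForm F U} {B₂ : LinearMap.BilinForm F W} {τ : U →ₗ[F] W →ₗ[F] V} {Q : QuadraticForm F V}
variable {X : Subgroup (V ≃ₗ[F] V)} {h : TS B₁ B₂ τ Q}

/-- conjugates of root elements in the tensor product group -/
theorem conj_root (hQ : ND Q) (h : TS B₁ B₂ τ Q) (hdm : finrank F U < finrank F W) (hU : ∃ u : U, u ≠ 0) {g r : V ≃ₗ[F] V} {e : W}
    (he : e ≠ 0) (hr : ∀ v, r v = v + K h 1 e e v) (hkr : Kr τ (g⁻¹ * r * g)) : ∃ w', w' ≠ 0 ∧ Mp τ g w' e := by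
  obtain ⟨a, b, hab⟩ := hkr
  have hgg : ∀ v, g (g⁻¹ v) = v := fun v => g.apply_symm_apply v
  have hgg' : ∀ v, g⁻¹ (g v) = v := fun v => g.symm_apply_apply v
  have hs : ∀ v, (g⁻¹ * r * g) v = v + g⁻¹ (τ (kap h e (g v)) e) := by
    intro v
    rw [LinearEquiv.mul_apply, LinearEquiv.mul_apply, hr, map_add, hgg', K_apply, Module.End.one_apply]
  by_cases ha : ∀ u, a u ∈ Submodule.span F {u}
  · obtain ⟨c, hc⟩ := scalar_of_span (n := a.toLinearMap) ha
    have hcu : ∀ u, a u = c • u := fun u => LinearMap.congr_fun hc u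
    obtain ⟨f, hf⟩ : ∃ f, c • b f ≠ f := by
      by_contra hcon
      push Not at hcon
      obtain ⟨z, hz⟩ := exists_one h.symm.symm he
      obtain ⟨u, hu⟩ := hU
      have h1 : (LinearMap.id : V →ₗ[F] V) = (g⁻¹ * r * g : V ≃ₗ[F] V).toLinearMap := by
        apply h.ext
        intro u f
        rw [LinearMap.id_apply, LinearEquiv.coe_coe, hab, hcu, map_smul, LinearMap.smul_apply, ← map_smul, hcon]
      have h2 := LinearMap.congr_fun h1 (g⁻¹ (τ u z))
      rw [LinearMap.id_apply, LinearEquiv.coe_coe, hs, hgg, kap_pure] at h2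
      have h3 : g⁻¹ (τ (B₂ z e • u) e) = 0 := by
        have := congrArg (fun v => v - g⁻¹ (τ u z)) h2
        simp only [sub_self, add_sub_cancel_left] at this
        exact this.symm
      have h4 := (map_eq_zero_iff g⁻¹ g⁻¹.injective).mp h3
      have h5 := pure_eq_zero h he h4
      have hze : B₂ z e = -1 := by
        rw [h.s₂.flip]
        rw [hz]
      rw [hze, neg_one_smul, neg_eq_zero] at h5
      exact hu h5
    refine ⟨c • b f - f, sub_ne_zero.mpr hf, kap h e ∘ₗ g.toLinearMap ∘ₗ τ.flip f, fun u => ?_⟩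
    have h1 := hab u f
    rw [hs, hcu] at h1
    have h2 : τ u (c • b f - f) = g⁻¹ (τ (kap h e (g (τ u f))) e) := by
      rw [map_sub, map_smul, ← LinearMap.smul_apply, ← map_smul, ← h1, add_sub_cancel_left]
    rw [h2, hgg]
    rfl
  · exfalso
    push Not at ha
    obtain ⟨u, hu⟩ := ha
    have hu0 : u ≠ 0 := by
      rintro rfl
      rw [map_zero] at hu
      exact hu (Submodule.zero_mem _)
    let L : W →ₗ[F] U := kap h e ∘ₗ g.toLinearMap ∘ₗ τ u
    have hker : LinearMap.ker L ≠ ⊥ := by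
      intro h0
      have h3 := L.finrank_range_add_finrank_ker
      rw [h0, finrank_bot, add_zero] at h3
      have h4 := Submodule.finrank_le (LinearMap.range L)
      omega
    obtain ⟨f, hf, hf0⟩ := Submodule.exists_mem_ne_zero_of_ne_bot hker
    have hf' : kap h e (g (τ u f)) = 0 := hf
    have h1 := hab u f
    rw [hs, hf', map_zero, LinearMap.zero_apply, map_zero, add_zero] at h1
    obtain ⟨y, hy1, hy2⟩ := exists_sep01 h.symm hu
    have e1 : ∀ u f, kap h.symm y (τ u f) = B₁ u y • f := by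
      intro u f
      have := kap_pure h.symm y f u
      rwa [LinearMap.flip_apply] at this
    have h2 := congrArg (kap h.symm y) h1
    rw [e1, e1, hy1, hy2, zero_smul, one_smul] at h2
    exact hf0 (b.injective (by rw [← h2, map_zero]))

/-- pure vectors -/
def Pu (τ : U →ₗ[F] W →ₗ[F] V) (v : V) : Prop := ∃ u w, v = τ u w

lemma exists_kap_zero (h : TS B₁ B₂ τ Q) (hdm : finrank F U < finrank F W) (v : V) : ∃ w : W, w ≠ 0 ∧ kap h w v = 0 := by
  let L : W →ₗ[F] U := (kap h).flip v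
  have hker : LinearMap.ker L ≠ ⊥ := by
    intro h0
    have h3 := L.finrank_range_add_finrank_ker
    rw [h0, finrank_bot, add_zero] at h3
    have h4 := Submodule.finrank_le (LinearMap.range L)
    omega
  obtain ⟨w, hw, hw0⟩ := Submodule.exists_mem_ne_zero_of_ne_bot hker
  exact ⟨w, hw0, hw⟩

/-- sums of two pure vectors that are pure -/
lemma par (h : TS B₁ B₂ τ Q) {a a' c : U} {b b' d : W} (hs : τ a b + τ a' b' = τ c d) (ha : a ≠ 0)
    (hb : b ∉ Submodule.span F {b'}) (hb' : b' ∉ Submodule.span F {b}) : a' ∈ Submodule.span F {a} := by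
  obtain ⟨z, hz1, hz2⟩ := exists_sep01 h hb
  obtain ⟨z', hz1', hz2'⟩ := exists_sep01 h hb'
  have e1 : a = B₂ d z • c := by
    have h1 := congrArg (kap h z) hs
    rwa [map_add, kap_pure, kap_pure, kap_pure, hz1, hz2, zero_smul, one_smul, add_zero] at h1
  have e2 : a' = B₂ d z' • c := by
    have h1 := congrArg (kap h z') hs
    rwa [map_add, kap_pure, kap_pure, kap_pure, hz1', hz2', zero_smul, one_smul, zero_add] at h1
  have hc : B₂ d z ≠ 0 := by
    intro h0
    apply ha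
    rw [e1, h0, zero_smul]
  rw [e2, e1]
  exact Submodule.mem_span_singleton.mpr ⟨B₂ d z' * (B₂ d z)⁻¹, by
    rw [smul_smul, mul_assoc, inv_mul_cancel₀ hc, mul_one]⟩

lemma span_symm {a b : W} (ha : a ≠ 0) (hb : b ∉ Submodule.span F {a}) : a ∉ Submodule.span F {b} := by
  intro hab
  obtain ⟨c, rfl⟩ := Submodule.mem_span_singleton.mp hab
  apply hb
  have hc : c ≠ 0 := by rintro rfl; exact ha (zero_smul _ _)
  exact Submodule.mem_span_singleton.mpr ⟨c⁻¹, by rw [smul_smul, inv_mul_cancel₀ hc, one_smul]⟩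

/-- maps preserving pure vectors -/
theorem mp_of_pure (h : TS B₁ B₂ τ Q) (hdm : finrank F U < finrank F W) (hU : ∃ u : U, u ≠ 0) {x : V ≃ₗ[F] V}
    (hx : ∀ u w, Pu τ (x (τ u w))) (hx' : ∀ u w, Pu τ (x⁻¹ (τ u w))) (f : W) : ∃ f', Mp τ x f f' := by
  have hxx : ∀ v, x (x⁻¹ v) = v := fun v => x.apply_symm_apply v
  have hxx' : ∀ v, x⁻¹ (x v) = v := fun v => x.symm_apply_apply v
  by_cases hf : f = 0
  · refine ⟨0, 0, fun u => ?_⟩
    rw [hf, map_zero, map_zero, map_zero]
  obtain ⟨u₁, hu₁⟩ := hU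
  obtain ⟨a₁, b₁, h1⟩ := hx u₁ f
  have hx1 : x (τ u₁ f) ≠ 0 := fun h0 => hu₁ (pure_eq_zero h hf ((map_eq_zero_iff x x.injective).mp h0))
  have ha₁ : a₁ ≠ 0 := by
    rintro rfl
    rw [map_zero, LinearMap.zero_apply] at h1
    exact hx1 h1
  have hb₁ : b₁ ≠ 0 := by
    rintro rfl
    rw [map_zero] at h1
    exact hx1 h1
  have key : ∀ u, ∃ u', x (τ u f) = τ u' b₁ := by
    intro u₂
    by_contra hcon
    push Not at hcon
    obtain ⟨a₂, b₂, h2⟩ := hx u₂ f
    have hb₂ : b₂ ∉ Submodule.span F {b₁} := by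
      intro h3
      obtain ⟨c, rfl⟩ := Submodule.mem_span_singleton.mp h3
      apply hcon (c • a₂)
      rw [h2, map_smul, map_smul, LinearMap.smul_apply]
    have hb₂' := span_symm hb₁ hb₂
    obtain ⟨a₃, b₃, h3⟩ := hx (u₁ + u₂) f
    rw [map_add, LinearMap.add_apply, map_add, h1, h2] at h3
    have h4 := par h h3 ha₁ hb₂' hb₂
    obtain ⟨c, hc⟩ := Submodule.mem_span_singleton.mp h4
    rw [← hc, map_smul, LinearMap.smul_apply, ← map_smul] at h2
    have hc0 : c ≠ 0 := by
      rintro rfl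
      apply hcon 0
      rw [h2, zero_smul, map_zero, map_zero, LinearMap.zero_apply]
    obtain ⟨b₄, hb₄⟩ : ∃ b₄, b₄ = c • b₂ := ⟨_, rfl⟩
    rw [← hb₄] at h2
    have hb₄' : b₄ ∉ Submodule.span F {b₁} := by
      intro h5
      apply hb₂
      have : b₂ = c⁻¹ • b₄ := by rw [hb₄, smul_smul, inv_mul_cancel₀ hc0, one_smul]
      rw [this]
      exact Submodule.smul_mem _ _ h5
    have hb₄0 : b₄ ≠ 0 := by rintro rfl; exact hb₄' (Submodule.zero_mem _)
    -- preimages of a₁ ⊗ b
    have claim : ∀ b, ∃ u', x⁻¹ (τ a₁ b) = τ u' f := by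
      intro b
      by_contra hcon'
      push Not at hcon'
      obtain ⟨p, q, hpq⟩ := hx' a₁ b
      have hq : q ∉ Submodule.span F {f} := by
        intro h5
        obtain ⟨c, rfl⟩ := Submodule.mem_span_singleton.mp h5
        apply hcon' (c • p)
        rw [hpq, map_smul, map_smul, LinearMap.smul_apply]
      have hq' := span_symm hf hq
      have hp : p ≠ 0 := by
        rintro rfl
        apply hcon' 0
        rw [hpq, map_zero, LinearMap.zero_apply, LinearMap.zero_apply]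
      have h5 : u₁ ∈ Submodule.span F {p} := by
        obtain ⟨s, t, hst⟩ := hx' a₁ (b + b₁)
        rw [map_add, map_add, hpq, ← h1, hxx'] at hst
        exact par h hst hp hq hq'
      have h6 : u₂ ∈ Submodule.span F {p} := by
        obtain ⟨s, t, hst⟩ := hx' a₁ (b + b₄)
        rw [map_add, map_add, hpq, ← h2, hxx'] at hst
        exact par h hst hp hq hq'
      obtain ⟨c₁, hc₁⟩ := Submodule.mem_span_singleton.mp h5
      obtain ⟨c₂, hc₂⟩ := Submodule.mem_span_singleton.mp h6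
      have hc₁0 : c₁ ≠ 0 := by
        rintro rfl
        rw [zero_smul] at hc₁
        exact hu₁ hc₁.symm
      have h7 : u₂ = (c₂ * c₁⁻¹) • u₁ := by
        rw [← hc₁, ← hc₂, smul_smul, mul_assoc, inv_mul_cancel₀ hc₁0, mul_one]
      rw [h7, map_smul, LinearMap.smul_apply, map_smul, h1, ← map_smul] at h2
      apply hb₄'
      have h8 := pure_eq_zero h.symm ha₁ (u := (c₂ * c₁⁻¹) • b₁ - b₄) (by
        rw [LinearMap.flip_apply, map_sub, h2, sub_self])
      rw [← sub_eq_zero.mp h8]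
      exact Submodule.smul_mem _ _ (Submodule.mem_span_singleton_self _)
    obtain ⟨z, hz⟩ := exists_one h hf
    let L : W →ₗ[F] U := kap h z ∘ₗ (x⁻¹ : V ≃ₗ[F] V).toLinearMap ∘ₗ τ a₁
    have hker : LinearMap.ker L ≠ ⊥ := by
      intro h0
      have h3 := L.finrank_range_add_finrank_ker
      rw [h0, finrank_bot, add_zero] at h3
      have h4 := Submodule.finrank_le (LinearMap.range L)
      omega
    obtain ⟨b, hb, hb0⟩ := Submodule.exists_mem_ne_zero_of_ne_bot hker
    have hb' : kap h z (x⁻¹ (τ a₁ b)) = 0 := hb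
    obtain ⟨u', hu'⟩ := claim b
    rw [hu', kap_pure, hz, one_smul] at hb'
    rw [hb', map_zero, LinearMap.zero_apply] at hu'
    have h5 := (map_eq_zero_iff x⁻¹ x⁻¹.injective).mp hu'
    exact hb0 (pure_eq_zero h.symm ha₁ (u := b) h5)
  obtain ⟨z, hz⟩ := exists_one h hb₁
  refine ⟨b₁, kap h z ∘ₗ x.toLinearMap ∘ₗ τ.flip f, fun u => ?_⟩
  obtain ⟨u', hu'⟩ := key u
  have h2 : (kap h z ∘ₗ x.toLinearMap ∘ₗ τ.flip f) u = kap h z (x (τ u f)) := rfl
  rw [h2, hu', kap_pure, hz, one_smul]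

/-- the dichotomy -/
theorem main [Finite F] [FiniteDimensional F V] (hQ : ND Q) (hX : HX h X) (hdm : finrank F U < finrank F W)
    (hd : 2 ≤ finrank F U) (hm : 6 ≤ finrank F W) (hV : 7 ≤ finrank F V)
    (hex : (∃ c : F, c ≠ 0 ∧ c ≠ 1) ∨ 3 ≤ finrank F U) : ⁅O Q, O Q⁆ ≤ X ∨ X ≤ KrG h := by
  classical
  by_cases hom : ⁅O Q, O Q⁆ ≤ X
  · exact Or.inl hom
  right
  have hU : ∃ u : U, u ≠ 0 := by
    obtain ⟨u, hu⟩ := (finrank_pos_iff_exists_ne_zero (R := F) (M := U)).mp (by omega)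
    exact ⟨u, hu⟩
  have hW : ∃ w : W, w ≠ 0 := by
    obtain ⟨u, hu⟩ := (finrank_pos_iff_exists_ne_zero (R := F) (M := W)).mp (by omega)
    exact ⟨u, hu⟩
  have hsc : ∀ n ∈ NN hX hm, ∃ c : F, n = c • (1 : Module.End F U) := by
    intro n hn
    apply scalar_of_span
    intro u
    by_contra hu
    exact hom (omega_of_nonscalar hQ hV hX hm (by omega) hex hn hu)
  have hfin : Finite (V ≃ₗ[F] V) := by
    have : Finite V := Module.finite_of_finite F
    exact Finite.of_injective (fun e : V ≃ₗ[F] V => (e : V → V)) DFunLike.coe_injective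
  obtain ⟨p, hp⟩ := CharP.exists F
  have hpp : Fact p.Prime := ⟨(CharP.char_is_prime_or_zero F p).resolve_right (by
    intro h0
    subst h0
    have := CharP.charP_to_charZero F
    exact not_finite F)⟩
  let H : Subgroup X := (KrG h).subgroupOf X
  -- the root elements are good
  have hgood : ∀ (e : W), e ≠ 0 → ∀ r : X, (∀ v, (r : V ≃ₗ[F] V) v = v + K h 1 e e v) → Good H p r := by
    intro e he r hr
    have hz : ∀ v, K h 1 e e (K h 1 e e v) = 0 := by
      intro v
      simp [K_apply, h.s₂.alt]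
    refine ⟨?_, ?_, ?_⟩
    · change Kr τ (r : V ≃ₗ[F] V)
      apply kr_of_mp h hU hW
      intro f
      refine ⟨f + B₂ f e • e, 1, fun u => ?_⟩
      rw [hr, K_apply, kap_pure]
      simp only [Module.End.one_apply, map_smul, LinearMap.smul_apply, map_add]
    · have hpow : ∀ k : ℕ, ∀ v, ((r : V ≃ₗ[F] V) ^ k) v = v + (k : F) • K h 1 e e v := by
        intro k
        induction k with
        | zero => intro v; simp
        | succ k ih =>
          intro v
          rw [pow_succ, LinearEquiv.mul_apply, hr, ih, map_add, hz]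
          push_cast
          module
      have hr1 : r ^ p = 1 := by
        apply Subtype.ext
        rw [SubmonoidClass.coe_pow]
        ext v
        rw [hpow, CharP.cast_eq_zero, zero_smul, add_zero]
        rfl
      rintro ⟨y, hy⟩
      obtain ⟨n, rfl⟩ := Subgroup.mem_zpowers_iff.mp hy
      refine ⟨1, Subtype.ext ?_⟩
      change (r ^ n) ^ p ^ 1 = 1
      rw [pow_one, ← zpow_natCast, ← zpow_mul, mul_comm, zpow_mul, zpow_natCast, hr1, one_zpow]
    · intro g hg
      obtain ⟨w', hw', hmp⟩ := conj_root hQ h hdm hU he hr (g := (g : V ≃ₗ[F] V)) hg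
      exact kr_of_mp h hU hW (norm2 hQ hX hm hU hsc g.2 hw' he hmp)
  -- X preserves the pure vectors
  have hpure : ∀ x ∈ X, ∀ u w, Pu τ (x (τ u w)) := by
    intro x hx u₀ w₀
    by_cases hw₀ : w₀ = 0
    · exact ⟨0, 0, by rw [hw₀]; simp⟩
    obtain ⟨w, hw, hwv⟩ := exists_kap_zero h hdm (x (τ u₀ w₀))
    obtain ⟨t, ht, htv⟩ := hX.r₂ w 1
    obtain ⟨s, hs, hsv⟩ := hX.r₂ w₀ 1
    rw [one_smul] at htv hsv
    let C : Subgroup X := (MulAction.stabilizer (V ≃ₗ[F] V) (x (τ u₀ w₀))).subgroupOf X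
    have htC : (⟨t, ht⟩ : X) ∈ C := by
      change t (x (τ u₀ w₀)) = x (τ u₀ w₀)
      rw [htv, K_apply, hwv]
      simp
    have hsC : (⟨x, hx⟩ : X) * ⟨s, hs⟩ * (⟨x, hx⟩ : X)⁻¹ ∈ C := by
      change x (s (x⁻¹ (x (τ u₀ w₀)))) = x (τ u₀ w₀)
      have : x⁻¹ (x (τ u₀ w₀)) = τ u₀ w₀ := x.symm_apply_apply _
      rw [this, hsv, K_apply, kap_pure, h.s₂.alt]
      simp
    obtain ⟨c, hc, hcx⟩ := fusion (hgood w hw ⟨t, ht⟩ htv) (hgood w₀ hw₀ ⟨s, hs⟩ hsv) htC hsC
    obtain ⟨a, b, hab⟩ : Kr τ ((c : V ≃ₗ[F] V) * x) := hcx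
    have h1 := hab u₀ w₀
    rw [LinearEquiv.mul_apply] at h1
    have h2 : (c : V ≃ₗ[F] V) (x (τ u₀ w₀)) = x (τ u₀ w₀) := hc
    rw [h2] at h1
    exact ⟨_, _, h1⟩
  intro x hx
  exact kr_of_mp h hU hW (fun f => mp_of_pure h hdm hU (hpure x hx) (hpure x⁻¹ (X.inv_mem hx)) f)

end H96.StMain
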