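import Mathlib
import Cfsg.Agent.Lib.H97.AschPosH
import Cfsg.Agent.Lib.H94.Transv

set_option autoImplicit false
set_option linter.unusedSectionVars false

/-!
Overgroups of tensor products: the general linear case.
-/

namespace H96.TenMax

open Module Cfsg Cfsg.Geo Matrix H97.AschPosE H97.AschPosH H94.Transv
open scoped Kronecker

variable {d m : ℕ} {F : Type*} [Field F]

/-- contraction with a functional of the second factor -/
def ctr (f : Fin m → F) : (Fin d × Fin m → F) →ₗ[F] (Fin d → F) where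
  toFun v i := ∑ j, f j * v (i, j)
  map_add' v w := by ext i; simp [mul_add, Finset.sum_add_distrib]
  map_smul' c v := by ext i; simp [Finset.mul_sum, mul_left_comm]

lemma ctr_apply (f : Fin m → F) (v : Fin d × Fin m → F) (i : Fin d) : ctr f v i = ∑ j, f j * v (i, j) := rfl

lemma ctr_pv (f : Fin m → F) (u : Fin d → F) (w : Fin m → F) : ctr f (pv u w) = (f ⬝ᵥ w) • u := by
  ext i
  rw [ctr_apply, Pi.smul_apply, smul_eq_mul, dotProduct, Finset.sum_mul]
  refine Finset.sum_congr rfl (fun j _ => ?_)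
  simp only [pv]; ring

lemma ctr_add (f g : Fin m → F) (v : Fin d × Fin m → F) : ctr (f + g) v = ctr f v + ctr g v := by
  ext i; simp [ctr_apply, add_mul, Finset.sum_add_distrib]

lemma ctr_smul (c : F) (f : Fin m → F) (v : Fin d × Fin m → F) : ctr (c • f) v = c • ctr f v := by
  ext i; simp [ctr_apply, Finset.mul_sum, mul_assoc]

lemma ctr_single (j : Fin m) (v : Fin d × Fin m → F) (i : Fin d) : ctr (Pi.single j 1) v i = v (i, j) := by
  rw [ctr_apply, Finset.sum_eq_single j]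
  · simp
  · intro b _ hb; rw [Pi.single_eq_of_ne hb, zero_mul]
  · intro h; exact absurd (Finset.mem_univ _) h

/-- `u ↦ u ⊗ w` -/
def pvL (w : Fin m → F) : (Fin d → F) →ₗ[F] (Fin d × Fin m → F) where
  toFun u := pv u w
  map_add' u u' := pv_add_left u u' w
  map_smul' c u := pv_smul_left c u w

lemma pvL_apply (w : Fin m → F) (u : Fin d → F) : pvL w u = pv u w := rfl

lemma pv_eq_zero {u : Fin d → F} {w : Fin m → F} (hw : w ≠ 0) (h : pv u w = 0) : u = 0 := by
  obtain ⟨j, hj⟩ := Function.ne_iff.mp hw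
  funext i
  have := congrFun h (i, j)
  change u i * w j = 0 at this
  exact (mul_eq_zero.mp this).resolve_right hj

lemma pvL_injective {w : Fin m → F} (hw : w ≠ 0) : Function.Injective (pvL (d := d) w) := by
  rw [injective_iff_map_eq_zero]
  intro u hu
  exact pv_eq_zero hw hu

/-- the subspace U ⊗ w -/
def Dw (d : ℕ) (w : Fin m → F) : Submodule F (Fin d × Fin m → F) := LinearMap.range (pvL (d := d) w)

lemma mem_Dw {w : Fin m → F} {v : Fin d × Fin m → F} : v ∈ Dw d w ↔ ∃ u, v = pv u w := by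
  constructor
  · rintro ⟨u, rfl⟩; exact ⟨u, rfl⟩
  · rintro ⟨u, rfl⟩; exact ⟨u, rfl⟩

lemma finrank_Dw {w : Fin m → F} (hw : w ≠ 0) : finrank F (Dw d w) = d := by
  rw [Dw, LinearMap.finrank_range_of_inj (pvL_injective hw), finrank_fintype_fun_eq_card, Fintype.card_fin]

lemma Dw_smul {w : Fin m → F} {c : F} (hc : c ≠ 0) : Dw d (c • w) = Dw d w := by
  ext v
  rw [mem_Dw, mem_Dw]
  constructor
  · rintro ⟨u, rfl⟩; exact ⟨c • u, by rw [pv_smul_right, pv_smul_left]⟩
  · rintro ⟨u, rfl⟩; exact ⟨c⁻¹ • u, by rw [pv_smul_right, pv_smul_left, smul_smul, mul_inv_cancel₀ hc, one_smul]⟩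

/-- different standard subspaces meet trivially -/
lemma Dw_inter {w w' : Fin m → F} {v : Fin d × Fin m → F} (h0 : v ≠ 0) (h1 : v ∈ Dw d w) (h2 : v ∈ Dw d w') :
    Dw d w = Dw d w' := by
  obtain ⟨u, rfl⟩ := mem_Dw.mp h1
  obtain ⟨u', he⟩ := mem_Dw.mp h2
  obtain ⟨⟨i, j⟩, hij⟩ := Function.ne_iff.mp h0
  change u i * w j ≠ 0 at hij
  have hu : u i ≠ 0 := left_ne_zero_of_mul hij
  have hw : w = (u' i / u i) • w' := by
    funext k
    have := congrFun he (i, k)
    change u i * w k = u' i * w' k at this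
    rw [Pi.smul_apply, smul_eq_mul]
    field_simp
    linear_combination this
  have hc : u' i / u i ≠ 0 := by
    intro h
    rw [h, zero_smul] at hw
    rw [hw] at hij
    exact hij (by simp)
  rw [hw, Dw_smul hc]

/-- the endomorphism `1 ⊗ (w f)` -/
def Rm (d : ℕ) (w f : Fin m → F) : Matrix (Fin d × Fin m) (Fin d × Fin m) F :=
  (1 : Matrix (Fin d) (Fin d) F) ⊗ₖ vecMulVec w f

lemma kron_vmv (n : Matrix (Fin d) (Fin d) F) (w f : Fin m → F) (v : Fin d × Fin m → F) :
    (n ⊗ₖ vecMulVec w f) *ᵥ v = pv (n *ᵥ ctr f v) w := by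
  ext ⟨i, j⟩
  simp only [mulVec, dotProduct, pv, Matrix.kroneckerMap_apply, vecMulVec_apply, ctr_apply]
  rw [Fintype.sum_prod_type, Finset.sum_mul]
  refine Finset.sum_congr rfl (fun a _ => ?_)
  rw [Finset.mul_sum, Finset.sum_mul]
  refine Finset.sum_congr rfl (fun b _ => by ring)

lemma Rm_mulVec (w f : Fin m → F) (v : Fin d × Fin m → F) : Rm d w f *ᵥ v = pv (ctr f v) w := by
  rw [Rm, kron_vmv, Matrix.one_mulVec]

/-- the root element -/
def rGL (d : ℕ) (w f : Fin m → F) (h : f ⬝ᵥ w = 0) : GL (Fin d × Fin m) F := kGL 1 (tGL w f h)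

lemma rGL_val (w f : Fin m → F) (h : f ⬝ᵥ w = 0) : (rGL d w f h : Matrix (Fin d × Fin m) (Fin d × Fin m) F) = 1 + Rm d w f := by
  change (1 : Matrix (Fin d) (Fin d) F) ⊗ₖ (1 + vecMulVec w f) = _
  rw [Matrix.kronecker_add, Matrix.one_kronecker_one, Rm]

lemma rGL_mulVec (w f : Fin m → F) (h : f ⬝ᵥ w = 0) (v : Fin d × Fin m → F) :
    (rGL d w f h : Matrix (Fin d × Fin m) (Fin d × Fin m) F) *ᵥ v = v + pv (ctr f v) w := by
  rw [rGL_val, Matrix.add_mulVec, Matrix.one_mulVec, Rm_mulVec]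

/-- X contains all special elements of the tensor product group -/
def HasK (X : Subgroup (GL (Fin d × Fin m) F)) : Prop :=
  kroneckerSubgroup d m F ⊓ specialLinear (Fin d × Fin m) F ≤ X

variable {X : Subgroup (GL (Fin d × Fin m) F)}

lemma HasK.kron (hX : HasK X) (a : GL (Fin d) F) (b : GL (Fin m) F) (ha : (a : Matrix (Fin d) (Fin d) F).det = 1)
    (hb : (b : Matrix (Fin m) (Fin m) F).det = 1) : kGL a b ∈ X := by
  apply hX
  refine ⟨⟨a, b, rfl⟩, (mem_specialLinear_iff _).mpr ?_⟩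
  change ((a : Matrix (Fin d) (Fin d) F) ⊗ₖ (b : Matrix (Fin m) (Fin m) F)).det = 1
  rw [Matrix.det_kronecker, ha, hb, one_pow, one_pow, one_mul]

lemma HasK.root (hX : HasK X) (w f : Fin m → F) (h : f ⬝ᵥ w = 0) : rGL d w f h ∈ X :=
  hX.kron _ _ (by rw [Units.val_one, Matrix.det_one]) (det_tm w f h)

lemma kGL_mulVec (a : GL (Fin d) F) (b : GL (Fin m) F) (u : Fin d → F) (w : Fin m → F) :
    (kGL a b : Matrix (Fin d × Fin m) (Fin d × Fin m) F) *ᵥ pv u w =
      pv ((a : Matrix (Fin d) (Fin d) F) *ᵥ u) ((b : Matrix (Fin m) (Fin m) F) *ᵥ w) := kron_pv _ _ _ _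

lemma vecMul_pv (A : Matrix (Fin d) (Fin d) F) (B : Matrix (Fin m) (Fin m) F) (x : Fin d → F) (y : Fin m → F) :
    (pv x y) ᵥ* (A ⊗ₖ B) = pv (x ᵥ* A) (y ᵥ* B) := by
  ext ⟨a, b⟩
  simp only [vecMul, dotProduct, pv, Matrix.kroneckerMap_apply]
  rw [Fintype.sum_prod_type, Finset.sum_mul_sum]
  refine Finset.sum_congr rfl (fun i _ => Finset.sum_congr rfl (fun k _ => ?_))
  ring

lemma kGL_vecMul (a : GL (Fin d) F) (b : GL (Fin m) F) (u : Fin d → F) (w : Fin m → F) :
    pv u w ᵥ* (((kGL a b)⁻¹ : GL (Fin d × Fin m) F) : Matrix (Fin d × Fin m) (Fin d × Fin m) F) =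
      pv (u ᵥ* ((a⁻¹ : GL (Fin d) F) : Matrix (Fin d) (Fin d) F)) (w ᵥ* ((b⁻¹ : GL (Fin m) F) : Matrix (Fin m) (Fin m) F)) :=
  vecMul_pv _ _ _ _

lemma pv_dot (φ u : Fin d → F) (k w : Fin m → F) : pv φ k ⬝ᵥ pv u w = (φ ⬝ᵥ u) * (k ⬝ᵥ w) := by
  simp only [dotProduct, pv]
  rw [Fintype.sum_prod_type, Finset.sum_mul_sum]
  refine Finset.sum_congr rfl (fun i _ => Finset.sum_congr rfl (fun k _ => ?_))
  ring

lemma det_inv_tGL {κ : Type} [Fintype κ] [DecidableEq κ] (v φ : κ → F) (h : φ ⬝ᵥ v = 0) :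
    ((tGL v φ h : GL κ F) : Matrix κ κ F).det = 1 := det_tm v φ h

/-! ### from a pure transvection to the special linear group -/

/-- all pure transvections with a given pure centre -/
def PP (X : Subgroup (GL (Fin d × Fin m) F)) (u : Fin d → F) (w : Fin m → F) : Prop :=
  ∀ (θ : Fin d → F) (k : Fin m → F), θ ⬝ᵥ u = 0 → k ⬝ᵥ w = 0 → HasT X (pv u w) (pv θ k)

lemma exists_dual2 {κ : Type} [Fintype κ] [DecidableEq κ] {f g : κ → F} (h : g ∉ Submodule.span F {f}) :
    ∃ z : κ → F, f ⬝ᵥ z = 0 ∧ g ⬝ᵥ z = 1 := by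
  obtain ⟨z, h1, h2⟩ := exists_functional h
  exact ⟨z, by rw [dotProduct_comm]; exact h1, by rw [dotProduct_comm]; exact h2⟩

/-- a nonzero vector in the kernel of few functionals -/
lemma exists_ker {κ : Type} [Fintype κ] [DecidableEq κ] {V' : Type*} [AddCommGroup V'] [Module F V'] [FiniteDimensional F V']
    (L : (κ → F) →ₗ[F] V') (h : finrank F V' < Fintype.card κ) : ∃ v, v ≠ 0 ∧ L v = 0 := by
  have h1 := L.finrank_range_add_finrank_ker
  rw [finrank_fintype_fun_eq_card] at h1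
  have h2 := Submodule.finrank_le (LinearMap.range L)
  have h3 : 0 < finrank F (LinearMap.ker L) := by omega
  obtain ⟨⟨v, hv⟩, h0⟩ := (finrank_pos_iff_exists_ne_zero (R := F)).mp h3
  exact ⟨v, fun h => h0 (Subtype.ext h), hv⟩

/-- a functional -/
def dl {κ : Type} [Fintype κ] (f : κ → F) : (κ → F) →ₗ[F] F where
  toFun v := f ⬝ᵥ v
  map_add' v w := dotProduct_add _ _ _
  map_smul' c v := dotProduct_smul _ _ _

/-- two functionals -/
def two (f g : Fin m → F) : (Fin m → F) →ₗ[F] (Fin 2 → F) where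
  toFun v := ![f ⬝ᵥ v, g ⬝ᵥ v]
  map_add' v w := by ext i; fin_cases i <;> simp [dotProduct_add]
  map_smul' c v := by ext i; fin_cases i <;> simp [dotProduct_smul]

lemma exists_perp2 (hm : 3 ≤ m) (f g : Fin m → F) : ∃ v : Fin m → F, v ≠ 0 ∧ f ⬝ᵥ v = 0 ∧ g ⬝ᵥ v = 0 := by
  obtain ⟨v, hv, h⟩ := exists_ker (two f g) (by rw [finrank_fintype_fun_eq_card, Fintype.card_fin, Fintype.card_fin]; omega)
  exact ⟨v, hv, congrFun h 0, congrFun h 1⟩

/-- a functional perpendicular to `w` outside a line -/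
lemma exists_out (hm : 3 ≤ m) {w : Fin m → F} (f : Fin m → F) :
    ∃ k : Fin m → F, k ⬝ᵥ w = 0 ∧ k ∉ Submodule.span F {f} := by
  by_contra hcon
  push Not at hcon
  have h1 : (LinearMap.ker (two w w)) ≤ Submodule.span F {f} := by
    intro k hk
    apply hcon
    rw [dotProduct_comm]
    exact congrFun hk 0
  have h2 := (two w w).finrank_range_add_finrank_ker
  rw [finrank_fintype_fun_eq_card, Fintype.card_fin] at h2
  have h3 : finrank F (LinearMap.range (two w w)) ≤ 1 := by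
    have h4 : LinearMap.range (two w w) ≤ Submodule.span F {![1, 1]} := by
      rintro _ ⟨v, rfl⟩
      refine Submodule.mem_span_singleton.mpr ⟨w ⬝ᵥ v, ?_⟩
      ext i; fin_cases i <;> simp [two]
    exact (Submodule.finrank_mono h4).trans (finrank_span_le_card _ |>.trans (by simp))
  have h4 := (Submodule.finrank_mono h1).trans (finrank_span_le_card (R := F) ({f} : Set (Fin m → F)))
  simp at h4
  omega

lemma span_cases {κ : Type} [Fintype κ] {f g : κ → F} (h : g ∈ Submodule.span F {f}) : ∃ c : F, g = c • f := by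
  obtain ⟨c, hc⟩ := Submodule.mem_span_singleton.mp h
  exact ⟨c, hc.symm⟩

lemma pv_sub_right (u : Fin d → F) (w w' : Fin m → F) : pv u (w - w') = pv u w - pv u w' := by
  ext p; simp only [pv, Pi.sub_apply]; ring

lemma pv_sub_left (u u' : Fin d → F) (w : Fin m → F) : pv (u - u') w = pv u w - pv u' w := by
  ext p; simp only [pv, Pi.sub_apply]; ring

/-- changing the functional in the second factor -/
lemma step_right (hm : 3 ≤ m) (hX : HasK X) {u φ : Fin d → F} {w h : Fin m → F} (h0 : h ≠ 0)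
    (hT : HasT X (pv u w) (pv φ h)) {k : Fin m → F} (hk : k ⬝ᵥ w = 0) : HasT X (pv u w) (pv φ k) := by
  have key : ∀ k : Fin m → F, k ⬝ᵥ w = 0 → k ∉ Submodule.span F {h} → HasT X (pv u w) (pv φ k) := by
    intro k hk hkh
    have hhk : h ∉ Submodule.span F {k} := by
      intro h1
      obtain ⟨c, hc⟩ := span_cases h1
      apply hkh
      have hc0 : c ≠ 0 := by rintro rfl; rw [zero_smul] at hc; exact h0 hc
      rw [hc]
      exact Submodule.mem_span_singleton.mpr ⟨c⁻¹, by rw [smul_smul, inv_mul_cancel₀ hc0, one_smul]⟩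
    obtain ⟨z, hz1, hz2⟩ := exists_dual2 hhk
    have h1 := hT.conj (hX.kron 1 (tGL z k hz1) (by rw [Units.val_one, Matrix.det_one]) (det_tm _ _ hz1))
    rw [kGL_mulVec, kGL_vecMul, inv_one, Units.val_one, Matrix.one_mulVec, Matrix.vecMul_one, tGL_val, tGL_inv_val,
      tm_mulVec, hk, zero_smul, add_zero, vecMul_tm, hz2, one_smul] at h1
    have h2 := hT.sub_right h1
    rw [← pv_sub_right] at h2
    simpa using h2
  by_cases hkh : k ∈ Submodule.span F {h}
  · obtain ⟨k', hk1, hk2⟩ := exists_out hm (w := w) h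
    have h3 : k - k' ∉ Submodule.span F {h} := by
      intro h4
      apply hk2
      have : k' = k - (k - k') := by abel
      rw [this]
      exact Submodule.sub_mem _ hkh h4
    have h4 := (key (k - k') (by rw [sub_dotProduct, hk, hk1, sub_zero]) h3).add_right (key k' hk1 hk2)
    rw [← pv_add_right, sub_add_cancel] at h4
    exact h4
  · exact key k hk hkh

lemma exists_out' (hd : 3 ≤ d) {w : Fin d → F} (f : Fin d → F) :
    ∃ k : Fin d → F, k ⬝ᵥ w = 0 ∧ k ∉ Submodule.span F {f} := exists_out hd f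

/-- changing the functional in the first factor -/
lemma step_left (hX : HasK X) {u φ : Fin d → F} {w h : Fin m → F} (h0 : φ ≠ 0)
    (hT : HasT X (pv u w) (pv φ h)) {θ : Fin d → F} (hk : θ ⬝ᵥ u = 0) (hkh : θ ∉ Submodule.span F {φ}) :
    HasT X (pv u w) (pv θ h) := by
  have hhk : φ ∉ Submodule.span F {θ} := by
    intro h1
    obtain ⟨c, hc⟩ := span_cases h1
    apply hkh
    have hc0 : c ≠ 0 := by rintro rfl; rw [zero_smul] at hc; exact h0 hc
    rw [hc]
    exact Submodule.mem_span_singleton.mpr ⟨c⁻¹, by rw [smul_smul, inv_mul_cancel₀ hc0, one_smul]⟩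
  obtain ⟨z, hz1, hz2⟩ := exists_dual2 hhk
  have h1 := hT.conj (hX.kron (tGL z θ hz1) 1 (det_tm _ _ hz1) (by rw [Units.val_one, Matrix.det_one]))
  rw [kGL_mulVec, kGL_vecMul, inv_one, Units.val_one, Matrix.one_mulVec, Matrix.vecMul_one, tGL_val, tGL_inv_val,
    tm_mulVec, hk, zero_smul, add_zero, vecMul_tm, hz2, one_smul] at h1
  have h2 := hT.sub_right h1
  rw [← pv_sub_left] at h2
  simpa using h2

lemma PP_of (hm : 3 ≤ m) (hX : HasK X) {u φ : Fin d → F} {w h : Fin m → F} (hφ0 : φ ≠ 0) (h0 : h ≠ 0)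
    (hT : HasT X (pv u w) (pv φ h)) : PP X u w := by
  intro θ k hθ hk
  have h1 := step_right hm hX h0 hT hk
  by_cases hs : θ ∈ Submodule.span F {φ}
  · obtain ⟨c, rfl⟩ := span_cases hs
    have h2 := step_right hm hX h0 hT (k := c • k) (by rw [smul_dotProduct, hk, smul_zero])
    rw [pv_smul_right] at h2
    rw [pv_smul_left]
    exact h2
  · exact step_left hX hφ0 h1 hθ hs

lemma PP_smul {u : Fin d → F} {w : Fin m → F} (h : PP X u w) {c : F} (hc : c ≠ 0) : PP X u (c • w) := by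
  intro θ k hθ hk
  rw [pv_smul_right, hasT_smul_iff hc, ← pv_smul_right]
  apply h _ _ hθ
  rw [dotProduct_smul, smul_eq_mul] at hk
  rw [smul_dotProduct, smul_eq_mul, hk]

lemma PP_smul' {u : Fin d → F} {w : Fin m → F} (h : PP X u w) {c : F} (hc : c ≠ 0) : PP X (c • u) w := by
  intro θ k hθ hk
  rw [pv_smul_left, hasT_smul_iff hc, ← pv_smul_left]
  apply h _ _ _ hk
  rw [dotProduct_smul, smul_eq_mul] at hθ
  rw [smul_dotProduct, smul_eq_mul, hθ]

lemma PP_conj (hX : HasK X) {u : Fin d → F} {w : Fin m → F} (h : PP X u w) (a : GL (Fin d) F) (b : GL (Fin m) F)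
    (ha : (a : Matrix (Fin d) (Fin d) F).det = 1) (hb : (b : Matrix (Fin m) (Fin m) F).det = 1) :
    PP X ((a : Matrix (Fin d) (Fin d) F) *ᵥ u) ((b : Matrix (Fin m) (Fin m) F) *ᵥ w) := by
  intro θ k hθ hk
  have h1 := (h (θ ᵥ* (a : Matrix (Fin d) (Fin d) F)) (k ᵥ* (b : Matrix (Fin m) (Fin m) F))
    (by rw [← dotProduct_mulVec, hθ]) (by rw [← dotProduct_mulVec, hk])).conj (hX.kron a b ha hb)
  rw [kGL_mulVec, kGL_vecMul, vecMul_vecMul, vecMul_vecMul, ← Units.val_mul, ← Units.val_mul, mul_inv_cancel,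
    mul_inv_cancel, Units.val_one, Units.val_one, vecMul_one, vecMul_one] at h1
  exact h1

/-- a vector outside the span is an image under a transvection -/
lemma exists_tr {κ : Type} [Fintype κ] [DecidableEq κ] {u u' : κ → F} (hu : u ≠ 0) (h : u' ∉ Submodule.span F {u}) :
    ∃ b : GL κ F, (b : Matrix κ κ F).det = 1 ∧ (b : Matrix κ κ F) *ᵥ u = u' := by
  have h1 : u ∉ Submodule.span F {u' - u} := by
    intro h1
    obtain ⟨c, hc⟩ := span_cases h1
    have hc0 : c ≠ 0 := by rintro rfl; rw [zero_smul] at hc; exact hu hc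
    apply h
    refine Submodule.mem_span_singleton.mpr ⟨1 + c⁻¹, ?_⟩
    have h2 : c⁻¹ • u = u' - u := by
      conv_lhs => rw [hc]
      rw [smul_smul, inv_mul_cancel₀ hc0, one_smul]
    rw [add_smul, one_smul, h2]
    abel
  obtain ⟨φ, h2, h3⟩ := exists_functional h1
  refine ⟨tGL (u' - u) φ h2, det_tm _ _ h2, ?_⟩
  rw [tGL_val, tm_mulVec, h3, one_smul]
  abel

lemma PP_all (hX : HasK X) {u : Fin d → F} {w : Fin m → F} (hu : u ≠ 0) (hw : w ≠ 0) (h : PP X u w)
    {u' : Fin d → F} {w' : Fin m → F} (hu' : u' ≠ 0) (hw' : w' ≠ 0) : PP X u' w' := by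
  have h1 : PP X u' w := by
    by_cases hs : u' ∈ Submodule.span F {u}
    · obtain ⟨c, rfl⟩ := span_cases hs
      exact PP_smul' h (by rintro rfl; rw [zero_smul] at hu'; exact hu' rfl)
    · obtain ⟨a, ha, rfl⟩ := exists_tr hu hs
      have := PP_conj hX h a 1 ha (by rw [Units.val_one, Matrix.det_one])
      rwa [Units.val_one, Matrix.one_mulVec] at this
  by_cases hs : w' ∈ Submodule.span F {w}
  · obtain ⟨c, rfl⟩ := span_cases hs
    exact PP_smul h1 (by rintro rfl; rw [zero_smul] at hw'; exact hw' rfl)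
  · obtain ⟨a, ha, rfl⟩ := exists_tr hw hs
    have := PP_conj hX h1 1 a (by rw [Units.val_one, Matrix.det_one]) ha
    rwa [Units.val_one, Matrix.one_mulVec] at this

/-- a pure transvection forces the whole special linear group -/
theorem sl_of_pure (hd : 2 ≤ d) (hm : 3 ≤ m) (hX : HasK X) {u φ : Fin d → F} {w h : Fin m → F} (hu : u ≠ 0) (hw : w ≠ 0)
    (hφ0 : φ ≠ 0) (h0 : h ≠ 0) (hT : HasT X (pv u w) (pv φ h)) : specialLinear (Fin d × Fin m) F ≤ X := by
  have hP : ∀ (u : Fin d → F) (w : Fin m → F), u ≠ 0 → w ≠ 0 → PP X u w :=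
    fun u' w' hu' hw' => PP_all hX hu hw (PP_of hm hX hφ0 h0 hT) hu' hw'
  -- functionals killing the second factor
  have h1 : ∀ (u : Fin d → F) (w : Fin m → F) (φ : Fin d → F) (k : Fin m → F), u ≠ 0 → w ≠ 0 → k ⬝ᵥ w = 0 →
      HasT X (pv u w) (pv φ k) := by
    intro u w φ k hu hw hk
    by_cases hφu : φ ⬝ᵥ u = 0
    · exact hP u w hu hw φ k hφu hk
    obtain ⟨u₂, hu₂, hφ₂⟩ : ∃ u₂ : Fin d → F, u₂ ≠ 0 ∧ φ ⬝ᵥ u₂ = 0 := by
      obtain ⟨v, hv, h⟩ := exists_ker (dl φ) (by rw [finrank_self, Fintype.card_fin]; omega)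
      exact ⟨v, hv, h⟩
    have hu2 : u₂ ∉ Submodule.span F {u} := by
      intro hs
      obtain ⟨c, rfl⟩ := span_cases hs
      rw [dotProduct_smul, smul_eq_mul] at hφ₂
      rcases mul_eq_zero.mp hφ₂ with h3 | h3
      · rw [h3, zero_smul] at hu₂; exact hu₂ rfl
      · exact hφu h3
    obtain ⟨θ, hθ1, hθ2⟩ := exists_functional hu2
    obtain ⟨w₂, hw1, hw2⟩ := exists_out hm (w := k) w
    obtain ⟨l, hl1, hl2⟩ := exists_functional hw2
    have hw20 : w₂ ≠ 0 := by rintro rfl; exact hw2 (Submodule.zero_mem _)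
    have h3 := hP u w hu hw θ l hθ1 hl1
    have h4 := hP u₂ w₂ hu₂ hw20 φ k hφ₂ (by rw [dotProduct_comm]; exact hw1)
    have h5 := h3.comm_left h4 (by rw [pv_dot, hk, mul_zero])
    rw [pv_dot, hθ2, hl2, mul_one, one_smul] at h5
    exact h5
  -- functionals killing the first factor
  have h2 : ∀ (u : Fin d → F) (w : Fin m → F) (φ : Fin d → F) (k : Fin m → F), u ≠ 0 → w ≠ 0 → φ ⬝ᵥ u = 0 →
      HasT X (pv u w) (pv φ k) := by
    intro u w φ k hu hw hφ
    by_cases hkw : k ⬝ᵥ w = 0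
    · exact h1 u w φ k hu hw hkw
    obtain ⟨w₂, hw1, hw2⟩ := exists_out hm (w := k) w
    obtain ⟨l, hl1, hl2⟩ := exists_functional hw2
    have hw20 : w₂ ≠ 0 := by rintro rfl; exact hw2 (Submodule.zero_mem _)
    obtain ⟨θ, hθ⟩ : ∃ θ : Fin d → F, θ ⬝ᵥ u = 1 := by
      obtain ⟨θ, -, h⟩ := exists_functional (v := (0 : Fin d → F)) (w := u) (by
        rw [Submodule.span_zero_singleton, Submodule.mem_bot]; exact hu)
      exact ⟨θ, h⟩
    have h3 := h1 u w θ l hu hw hl1
    have h4 := h1 u w₂ φ k hu hw20 (by rw [dotProduct_comm]; exact hw1)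
    have h5 := h3.comm_left h4 (by rw [pv_dot, hφ, zero_mul])
    rw [pv_dot, hθ, hl2, mul_one, one_smul] at h5
    exact h5
  -- pure vectors are full centres
  have hfull : ∀ (u : Fin d → F) (w : Fin m → F), u ≠ 0 → w ≠ 0 → Full X (pv u w) := by
    intro u w hu hw ψ hψ
    obtain ⟨k₀, hk₀⟩ : ∃ θ : Fin m → F, θ ⬝ᵥ w = 1 := by
      obtain ⟨θ, -, h⟩ := exists_functional (v := (0 : Fin m → F)) (w := w) (by
        rw [Submodule.span_zero_singleton, Submodule.mem_bot]; exact hw)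
      exact ⟨θ, h⟩
    have hdec : ψ = (∑ j, pv (fun i => ψ (i, j)) (Pi.single j 1 - w j • k₀)) + pv (fun i => ∑ j, w j * ψ (i, j)) k₀ := by
      ext ⟨i, j⟩
      rw [Pi.add_apply, Finset.sum_apply]
      simp only [pv, Pi.sub_apply, Pi.smul_apply, smul_eq_mul, mul_sub, Finset.sum_sub_distrib]
      rw [Finset.sum_eq_single j (fun b _ hb => by rw [Pi.single_eq_of_ne hb.symm, mul_zero])
        (fun h => absurd (Finset.mem_univ _) h), Pi.single_eq_same, mul_one, Finset.sum_mul]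
      have : ∑ x, ψ (i, x) * (w x * k₀ j) = ∑ x, w x * ψ (i, x) * k₀ j := Finset.sum_congr rfl (fun x _ => by ring)
      rw [this]; ring
    have hsum : ∀ s : Finset (Fin m), HasT X (pv u w) (∑ j ∈ s, pv (fun i => ψ (i, j)) (Pi.single j 1 - w j • k₀)) := by
      intro s
      induction s using Finset.induction_on with
      | empty => rw [Finset.sum_empty]; exact HasT.zero_right _
      | insert a s ha ih =>
        rw [Finset.sum_insert ha]
        refine HasT.add_right (h1 u w _ _ hu hw ?_) ih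
        rw [sub_dotProduct, smul_dotProduct, hk₀, single_one_dotProduct, smul_eq_mul, mul_one, sub_self]
    rw [hdec]
    refine HasT.add_right (hsum _) (h2 u w _ _ hu hw ?_)
    have h5 : (fun i => ∑ j, w j * ψ (i, j)) ⬝ᵥ u = ψ ⬝ᵥ pv u w := by
      simp only [dotProduct, pv, Fintype.sum_prod_type, Finset.sum_mul]
      exact Finset.sum_congr rfl (fun i _ => Finset.sum_congr rfl (fun j _ => by ring))
    rw [h5, hψ]
  apply specialLinear_le_of_full
  rw [eq_top_iff]
  intro v _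
  have hv : v = ∑ p, v p • (Pi.single p 1 : Fin d × Fin m → F) := by
    ext p; simp [Finset.sum_apply, Pi.single_apply]
  rw [hv]
  refine Submodule.sum_mem _ (fun p _ => Submodule.smul_mem _ _ ?_)
  have := hfull (Pi.single p.1 1) (Pi.single p.2 1) (by simp) (by simp)
  rw [pv_single] at this
  exact this

end H96.TenMax
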