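import Mathlib
import Cfsg.Agent.Lib.H96.TenMax

set_option autoImplicit false
set_option linter.unusedSectionVars false
set_option linter.unusedVariables false

/-!
Overgroups of tensor products: unipotent radicals.
-/

namespace H96.TenMax2

open Module Cfsg Cfsg.Geo Matrix H97.AschPosE H97.AschPosH H94.Transv H96.TenMax
open scoped Kronecker

variable {d m : ℕ} {F : Type*} [Field F] {X : Subgroup (GL (Fin d × Fin m) F)}

/-- the matrix A is the matrix of an element of X -/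
def In {κ : Type} [Fintype κ] [DecidableEq κ] (X : Subgroup (GL κ F)) (A : Matrix κ κ F) : Prop :=
  ∃ g ∈ X, (g : Matrix κ κ F) = A

section Gen
variable {κ : Type} [Fintype κ] [DecidableEq κ] {X : Subgroup (GL κ F)}

lemma In.mul {A B : Matrix κ κ F} (hA : In X A) (hB : In X B) : In X (A * B) := by
  obtain ⟨g, hg, rfl⟩ := hA
  obtain ⟨h, hh, rfl⟩ := hB
  exact ⟨g * h, X.mul_mem hg hh, rfl⟩

lemma inv_val_of {g : GL κ F} {N : Matrix κ κ F} (hN : N * N = 0) (h : (g : Matrix κ κ F) = 1 + N) :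
    ((g⁻¹ : GL κ F) : Matrix κ κ F) = 1 - N := by
  have h1 : (g : Matrix κ κ F) * (1 - N) = 1 := by
    rw [h, add_mul, one_mul, mul_sub, mul_one, hN, sub_zero, sub_add_cancel]
  calc ((g⁻¹ : GL κ F) : Matrix κ κ F) = ((g⁻¹ : GL κ F) : Matrix κ κ F) * ((g : Matrix κ κ F) * (1 - N)) := by rw [h1, mul_one]
    _ = 1 - N := by rw [← mul_assoc, ← Units.val_mul, inv_mul_cancel, Units.val_one, one_mul]

lemma In.neg {N : Matrix κ κ F} (hN : N * N = 0) (h : In X (1 + N)) : In X (1 - N) := by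
  obtain ⟨g, hg, e⟩ := h
  exact ⟨g⁻¹, X.inv_mem hg, inv_val_of hN e⟩

lemma In.sub {N N' : Matrix κ κ F} (hN' : N' * N' = 0) (hNN : N * N' = 0) (h : In X (1 + N)) (h' : In X (1 + N')) :
    In X (1 + (N - N')) := by
  have h1 := h.mul (h'.neg hN')
  have e : (1 + N) * (1 - N') = 1 + (N - N') := by
    rw [add_mul, one_mul, mul_sub, mul_one, hNN]; abel
  rwa [e] at h1

lemma In.conj {N : Matrix κ κ F} (h : In X (1 + N)) {g : GL κ F} (hg : g ∈ X) :
    In X (1 + (g : Matrix κ κ F) * N * ((g⁻¹ : GL κ F) : Matrix κ κ F)) := by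
  obtain ⟨x, hx, e⟩ := h
  refine ⟨g * x * g⁻¹, X.mul_mem (X.mul_mem hg hx) (X.inv_mem hg), ?_⟩
  rw [Units.val_mul, Units.val_mul, e, mul_add, mul_one, add_mul, ← Units.val_mul g, mul_inv_cancel, Units.val_one]

/-- commutator of two quadratic elements with `N N' = 0` -/
lemma In.comm {N N' : Matrix κ κ F} (hN : N * N = 0) (hN' : N' * N' = 0) (hNN : N * N' = 0) (h : In X (1 + N))
    (h' : In X (1 + N')) : In X (1 + N' * N) := by
  have h1 := ((h'.mul h).mul (h'.neg hN')).mul (h.neg hN)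
  have e : (1 + N') * (1 + N) * (1 - N') * (1 - N) = 1 + N' * N := by
    have e1 : (1 + N') * (1 + N) = 1 + N + N' + N' * N := by rw [add_mul, one_mul, mul_add, mul_one]; abel
    have e2 : (1 + N + N' + N' * N) * (1 - N') = 1 + N + N' * N := by
      simp only [add_mul, mul_sub, mul_one, one_mul, hNN, hN', mul_assoc, mul_zero, sub_zero]
      abel
    have e3 : (1 + N + N' * N) * (1 - N) = 1 + N' * N := by
      simp only [add_mul, mul_sub, mul_one, one_mul, hN, mul_assoc, mul_zero, sub_zero]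
      abel
    rw [e1, e2, e3]
  rwa [e] at h1

lemma exists_nonEig {n : Matrix κ κ F} (h : ∀ c : F, n ≠ c • (1 : Matrix κ κ F)) :
    ∃ u : κ → F, n *ᵥ u ∉ Submodule.span F {u} := by
  by_contra hcon
  push Not at hcon
  have h1 : ∀ u : κ → F, ∃ c : F, n *ᵥ u = c • u := fun u => span_cases (hcon u)
  rcases isEmpty_or_nonempty κ with hE | ⟨⟨i₀⟩⟩
  · apply h 0
    ext i; exact (hE.false i).elim
  choose c hc using h1
  have key : ∀ i, c (Pi.single i 1) = c (Pi.single i₀ 1) := by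
    intro i
    by_cases hi : i = i₀
    · rw [hi]
    have h2 := hc (Pi.single i 1 + Pi.single i₀ 1)
    rw [Matrix.mulVec_add, hc, hc] at h2
    have h3 := congrFun h2 i
    have h4 := congrFun h2 i₀
    simp [Pi.single_apply, hi, Ne.symm hi] at h3 h4
    rw [h3, h4]
  apply h (c (Pi.single i₀ 1))
  apply Matrix.ext_of_mulVec_single
  intro i
  rw [hc, key, Matrix.smul_mulVec, Matrix.one_mulVec]

end Gen

lemma mat_ext_pv {A B : Matrix (Fin d × Fin m) (Fin d × Fin m) F} (h : ∀ u y, A *ᵥ pv u y = B *ᵥ pv u y) : A = B := by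
  apply Matrix.ext_of_mulVec_single
  intro p
  have := h (Pi.single p.1 1) (Pi.single p.2 1)
  rw [pv_single] at this
  exact this

/-- endomorphisms with image in U ⊗ w -/
def NW (n : Fin m → Matrix (Fin d) (Fin d) F) (w : Fin m → F) : Matrix (Fin d × Fin m) (Fin d × Fin m) F :=
  Matrix.of fun p p' => n p'.2 p.1 p'.1 * w p.2

/-- the component at y -/
def nu (n : Fin m → Matrix (Fin d) (Fin d) F) (y : Fin m → F) : Matrix (Fin d) (Fin d) F := ∑ j, y j • n j

lemma nu_single (n : Fin m → Matrix (Fin d) (Fin d) F) (j : Fin m) : nu n (Pi.single j 1) = n j := by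
  rw [nu, Finset.sum_eq_single j]
  · simp
  · intro b _ hb; rw [Pi.single_eq_of_ne hb, zero_smul]
  · intro h; exact absurd (Finset.mem_univ _) h

lemma NW_pv (n : Fin m → Matrix (Fin d) (Fin d) F) (w : Fin m → F) (u : Fin d → F) (y : Fin m → F) :
    NW n w *ᵥ pv u y = pv (nu n y *ᵥ u) w := by
  ext ⟨i, j⟩
  simp only [mulVec, dotProduct, pv, NW, Matrix.of_apply, nu, Matrix.sum_apply, Matrix.smul_apply, smul_eq_mul]
  rw [Fintype.sum_prod_type, Finset.sum_mul]
  refine Finset.sum_congr rfl (fun a _ => ?_)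
  rw [Finset.sum_mul, Finset.sum_mul]
  refine Finset.sum_congr rfl (fun b _ => by ring)

lemma NW_mul (n n' : Fin m → Matrix (Fin d) (Fin d) F) {w : Fin m → F} (h : nu n w = 0) : NW n w * NW n' w = 0 := by
  apply mat_ext_pv
  intro u y
  rw [← Matrix.mulVec_mulVec, NW_pv, NW_pv, h, Matrix.zero_mulVec, Matrix.zero_mulVec]
  ext p; simp [pv]

lemma vmv_pv (n : Matrix (Fin d) (Fin d) F) (w k : Fin m → F) (u : Fin d → F) (y : Fin m → F) :
    (n ⊗ₖ vecMulVec w k) *ᵥ pv u y = pv ((k ⬝ᵥ y) • (n *ᵥ u)) w := by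
  rw [kron_vmv, ctr_pv, Matrix.mulVec_smul]

lemma nu_sub_smul (n : Fin m → Matrix (Fin d) (Fin d) F) (y z : Fin m → F) (c : F) :
    nu n (y - c • z) = nu n y - c • nu n z := by
  simp only [nu, Pi.sub_apply, Pi.smul_apply, sub_smul, smul_eq_mul, Finset.sum_sub_distrib, Finset.smul_sum, mul_smul]

lemma tGL_inv_mulVec {κ : Type} [Fintype κ] [DecidableEq κ] (v φ x : κ → F) (h : φ ⬝ᵥ v = 0) :
    (((tGL v φ h)⁻¹ : GL κ F) : Matrix κ κ F) *ᵥ x = x - (φ ⬝ᵥ x) • v := by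
  rw [tGL_inv_val, tm_mulVec, neg_dotProduct, neg_smul, sub_eq_add_neg]

/-- the basic commutator -/
lemma comm_step (hX : HasK X) {w : Fin m → F} {n : Fin m → Matrix (Fin d) (Fin d) F} (hν : nu n w = 0)
    (hmem : In X (1 + NW n w)) {z k : Fin m → F} (hkz : k ⬝ᵥ z = 0) (hkw : k ⬝ᵥ w = 0) :
    In X (1 + nu n z ⊗ₖ vecMulVec w k) := by
  have hg := hX.kron (1 : GL (Fin d) F) (tGL z k hkz) (by rw [Units.val_one, Matrix.det_one]) (det_tm _ _ hkz)
  have h1 := hmem.conj hg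
  have e : (kGL (1 : GL (Fin d) F) (tGL z k hkz) : Matrix (Fin d × Fin m) (Fin d × Fin m) F) * NW n w *
      (((kGL (1 : GL (Fin d) F) (tGL z k hkz))⁻¹ : GL (Fin d × Fin m) F) : Matrix (Fin d × Fin m) (Fin d × Fin m) F) =
      NW n w - nu n z ⊗ₖ vecMulVec w k := by
    apply mat_ext_pv
    intro u y
    have e1 : (((kGL (1 : GL (Fin d) F) (tGL z k hkz))⁻¹ : GL (Fin d × Fin m) F) : Matrix (Fin d × Fin m) (Fin d × Fin m) F) *ᵥ
        pv u y = pv u (y - (k ⬝ᵥ y) • z) := by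
      have := kron_pv (((1 : GL (Fin d) F)⁻¹ : GL (Fin d) F) : Matrix (Fin d) (Fin d) F)
        (((tGL z k hkz)⁻¹ : GL (Fin m) F) : Matrix (Fin m) (Fin m) F) u y
      rw [inv_one, Units.val_one, Matrix.one_mulVec, tGL_inv_mulVec] at this
      exact this
    rw [← Matrix.mulVec_mulVec, ← Matrix.mulVec_mulVec, e1, NW_pv, kGL_mulVec, Units.val_one, Matrix.one_mulVec, tGL_val,
      tm_mulVec, hkw, zero_smul, add_zero, Matrix.sub_mulVec, NW_pv, vmv_pv, nu_sub_smul, Matrix.sub_mulVec,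
      Matrix.smul_mulVec, pv_sub_left]
  rw [e] at h1
  have h2 : (NW n w - nu n z ⊗ₖ vecMulVec w k) = NW (fun j => n j - k j • nu n z) w := by
    apply mat_ext_pv
    intro u y
    rw [Matrix.sub_mulVec, NW_pv, NW_pv, vmv_pv, ← pv_sub_left]
    congr 1
    have : nu (fun j => n j - k j • nu n z) y = nu n y - (k ⬝ᵥ y) • nu n z := by
      simp only [nu, smul_sub, Finset.sum_sub_distrib]
      congr 1
      rw [dotProduct, Finset.sum_smul]
      exact Finset.sum_congr rfl (fun j _ => by rw [smul_smul, mul_comm])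
    rw [this, Matrix.sub_mulVec, Matrix.smul_mulVec]
  have h3 : nu (fun j => n j - k j • nu n z) w = 0 := by
    have : nu (fun j => n j - k j • nu n z) w = nu n w - (k ⬝ᵥ w) • nu n z := by
      simp only [nu, smul_sub, Finset.sum_sub_distrib]
      congr 1
      rw [dotProduct, Finset.sum_smul]
      exact Finset.sum_congr rfl (fun j _ => by rw [smul_smul, mul_comm])
    rw [this, hν, hkw, zero_smul, sub_zero]
  have h4 := hmem.sub (by rw [h2]; exact NW_mul _ _ h3) (by rw [h2]; exact NW_mul _ _ hν) h1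
  rwa [sub_sub_cancel] at h4

lemma vmv_mul {w k : Fin m → F} (hk : k ⬝ᵥ w = 0) (n n' : Matrix (Fin d) (Fin d) F) :
    (n ⊗ₖ vecMulVec w k) * (n' ⊗ₖ vecMulVec w k) = 0 := by
  rw [← Matrix.mul_kronecker_mul, vecMulVec_mul_vecMulVec, hk, zero_smul, vecMulVec_zero, Matrix.kronecker_zero]

lemma sub_kron (n n' : Matrix (Fin d) (Fin d) F) (B : Matrix (Fin m) (Fin m) F) :
    (n - n') ⊗ₖ B = n ⊗ₖ B - n' ⊗ₖ B := by
  ext ⟨i, j⟩ ⟨i', j'⟩
  simp only [Matrix.kroneckerMap_apply, Matrix.sub_apply, sub_mul]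

lemma InN_sub {w k : Fin m → F} (hk : k ⬝ᵥ w = 0) {n n' : Matrix (Fin d) (Fin d) F}
    (h : In X (1 + n ⊗ₖ vecMulVec w k)) (h' : In X (1 + n' ⊗ₖ vecMulVec w k)) :
    In X (1 + (n - n') ⊗ₖ vecMulVec w k) := by
  have h1 := h.sub (vmv_mul hk n' n') (vmv_mul hk n n') h'
  rwa [← sub_kron] at h1

lemma InN_conj (hX : HasK X) {w k : Fin m → F} {n : Matrix (Fin d) (Fin d) F}
    (h : In X (1 + n ⊗ₖ vecMulVec w k)) (a : GL (Fin d) F) (ha : (a : Matrix (Fin d) (Fin d) F).det = 1) :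
    In X (1 + ((a : Matrix (Fin d) (Fin d) F) * n * ((a⁻¹ : GL (Fin d) F) : Matrix (Fin d) (Fin d) F)) ⊗ₖ vecMulVec w k) := by
  have h1 := h.conj (hX.kron a (1 : GL (Fin m) F) ha (by rw [Units.val_one, Matrix.det_one]))
  have e : (kGL a (1 : GL (Fin m) F) : Matrix (Fin d × Fin m) (Fin d × Fin m) F) * (n ⊗ₖ vecMulVec w k) *
      (((kGL a (1 : GL (Fin m) F))⁻¹ : GL (Fin d × Fin m) F) : Matrix (Fin d × Fin m) (Fin d × Fin m) F) =
      ((a : Matrix (Fin d) (Fin d) F) * n * ((a⁻¹ : GL (Fin d) F) : Matrix (Fin d) (Fin d) F)) ⊗ₖ vecMulVec w k := by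
    change ((a : Matrix (Fin d) (Fin d) F) ⊗ₖ (1 : Matrix (Fin m) (Fin m) F)) * (n ⊗ₖ vecMulVec w k) *
      (((a⁻¹ : GL (Fin d) F) : Matrix (Fin d) (Fin d) F) ⊗ₖ (((1 : GL (Fin m) F)⁻¹ : GL (Fin m) F) : Matrix (Fin m) (Fin m) F)) = _
    rw [inv_one, Units.val_one, ← Matrix.mul_kronecker_mul, ← Matrix.mul_kronecker_mul, one_mul, mul_one]
  rwa [e] at h1

lemma hasT_of_InN {u φ : Fin d → F} {w k : Fin m → F} (hk : k ⬝ᵥ w = 0)
    (h : In X (1 + vecMulVec u φ ⊗ₖ vecMulVec w k)) : HasT X (pv u w) (pv φ k) := by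
  refine ⟨by rw [pv_dot, hk, mul_zero], ?_⟩
  obtain ⟨g, hg, e⟩ := h
  refine ⟨g, hg, ?_⟩
  rw [e, tm]
  congr 1
  ext ⟨i, j⟩ ⟨i', j'⟩
  simp only [Matrix.kroneckerMap_apply, vecMulVec_apply, pv]
  ring

/-- a non-scalar component forces the special linear group -/
theorem sl_of_nonscalar [Fintype F] (hd : 2 ≤ d) (hm : 3 ≤ m) (hex : ¬ (d = 2 ∧ Fintype.card F = 2)) (hX : HasK X)
    {w : Fin m → F} (hw : w ≠ 0) {n : Matrix (Fin d) (Fin d) F} (hn : ∀ c : F, n ≠ c • (1 : Matrix (Fin d) (Fin d) F))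
    {k : Fin m → F} (hk0 : k ≠ 0) (hk : k ⬝ᵥ w = 0) (hall : ∀ c : F, In X (1 + n ⊗ₖ vecMulVec w (c • k))) :
    specialLinear (Fin d × Fin m) F ≤ X := by
  classical
  obtain ⟨u, hu⟩ := exists_nonEig hn
  obtain ⟨φ, hφ1, hφ2⟩ := exists_functional hu
  have hu0 : u ≠ 0 := by
    rintro rfl
    rw [Matrix.mulVec_zero] at hu
    exact hu (Submodule.zero_mem _)
  have hφ0 : φ ≠ 0 := by
    rintro rfl
    rw [zero_dotProduct] at hφ2
    exact zero_ne_one hφ2
  have hPnP : ∀ ψ : Fin d → F, vecMulVec u ψ * n * vecMulVec u φ = (ψ ⬝ᵥ (n *ᵥ u)) • vecMulVec u φ := by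
    intro ψ
    rw [vecMulVec_mul, vecMulVec_mul_vecMulVec, ← dotProduct_mulVec, vecMulVec_smul]
  have hPP : ∀ ψ χ : Fin d → F, ψ ⬝ᵥ u = 0 → vecMulVec u ψ * vecMulVec u χ = 0 := by
    intro ψ χ h
    rw [vecMulVec_mul_vecMulVec, h, zero_smul, vecMulVec_zero]
  -- the first commutator
  have hD : ∀ c e : F, In X (1 + (c • (vecMulVec u φ * n) - c • (n * vecMulVec u φ) - (c ^ 2) • vecMulVec u φ) ⊗ₖ
      vecMulVec w (e • k)) := by
    intro c e
    have hcφ : (c • φ) ⬝ᵥ u = 0 := by rw [smul_dotProduct, hφ1, smul_zero]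
    have h1 := InN_sub (by rw [smul_dotProduct, hk, smul_zero]) (InN_conj hX (hall e) (tGL u (c • φ) hcφ) (det_tm _ _ hcφ))
      (hall e)
    have e1 : ((tGL u (c • φ) hcφ : GL (Fin d) F) : Matrix (Fin d) (Fin d) F) * n *
        (((tGL u (c • φ) hcφ)⁻¹ : GL (Fin d) F) : Matrix (Fin d) (Fin d) F) - n =
        c • (vecMulVec u φ * n) - c • (n * vecMulVec u φ) - (c ^ 2) • vecMulVec u φ := by
      rw [tGL_val, tGL_inv_val, tm, tm, vecMulVec_smul, vecMulVec_neg, vecMulVec_smul]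
      have e2 : (1 + c • vecMulVec u φ) * n * (1 + -(c • vecMulVec u φ)) =
          n + c • (vecMulVec u φ * n) - c • (n * vecMulVec u φ) - (c * c) • (vecMulVec u φ * n * vecMulVec u φ) := by
        rw [add_mul, one_mul, mul_add, mul_one, smul_mul_assoc, mul_neg, add_mul, mul_smul_comm, smul_mul_assoc,
          mul_smul_comm, smul_smul]
        abel
      rw [e2, hPnP, hφ2, one_smul, pow_two]
      abel
    rwa [e1] at h1
  by_cases hF : 2 < Fintype.card F
  · -- a scalar different from 0 and 1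
    obtain ⟨c, hc0, hc1⟩ : ∃ c : F, c ≠ 0 ∧ c ≠ 1 := by
      by_contra hcon
      push Not at hcon
      have h1 : (Finset.univ : Finset F) ⊆ {0, 1} := by
        intro x _
        by_cases hx : x = 0
        · simp [hx]
        · simp [hcon x hx]
      have h2 := Finset.card_le_card h1
      rw [Finset.card_univ] at h2
      have h3 : ({0, 1} : Finset F).card ≤ 2 := Finset.card_le_two
      omega
    have h1 := hD c 1
    have h2 := hD 1 c
    have e2 : (((1 : F) • (vecMulVec u φ * n) - (1 : F) • (n * vecMulVec u φ) - ((1 : F) ^ 2) • vecMulVec u φ) ⊗ₖ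
        vecMulVec w (c • k)) = ((c • (vecMulVec u φ * n) - c • (n * vecMulVec u φ) - c • vecMulVec u φ) ⊗ₖ
        vecMulVec w k) := by
      rw [one_smul, one_smul, one_pow, one_smul, vecMulVec_smul, Matrix.kronecker_smul, ← Matrix.smul_kronecker, smul_sub,
        smul_sub]
    rw [e2] at h2
    rw [one_smul] at h1
    have h3 := InN_sub hk h1 h2
    have e3 : (c • (vecMulVec u φ * n) - c • (n * vecMulVec u φ) - c ^ 2 • vecMulVec u φ) -
        (c • (vecMulVec u φ * n) - c • (n * vecMulVec u φ) - c • vecMulVec u φ) = vecMulVec u ((c - c ^ 2) • φ) := by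
      rw [vecMulVec_smul, sub_smul]; abel
    rw [e3] at h3
    have hcc : c - c ^ 2 ≠ 0 := by
      have : c - c ^ 2 = c * (1 - c) := by ring
      rw [this]
      exact mul_ne_zero hc0 (sub_ne_zero.mpr (Ne.symm hc1))
    exact sl_of_pure hd hm hX hu0 hw (smul_ne_zero hcc hφ0) hk0 (hasT_of_InN hk h3)
  · have hF2 : Fintype.card F = 2 := by
      have := Fintype.one_lt_card (α := F)
      omega
    have hd3 : 3 ≤ d := by
      by_contra h
      exact hex ⟨by omega, hF2⟩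
    obtain ⟨φ₂, h20, h21, h22⟩ := exists_perp2 hd3 u (n *ᵥ u)
    rw [dotProduct_comm] at h21 h22
    have h1 := hD 1 1
    rw [one_smul F k] at h1
    have h2 := InN_sub hk (InN_conj hX h1 (tGL u φ₂ h21) (det_tm _ _ h21)) h1
    have e1 : ((tGL u φ₂ h21 : GL (Fin d) F) : Matrix (Fin d) (Fin d) F) *
        ((1 : F) • (vecMulVec u φ * n) - (1 : F) • (n * vecMulVec u φ) - ((1 : F) ^ 2) • vecMulVec u φ) *
        (((tGL u φ₂ h21)⁻¹ : GL (Fin d) F) : Matrix (Fin d) (Fin d) F) -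
        ((1 : F) • (vecMulVec u φ * n) - (1 : F) • (n * vecMulVec u φ) - ((1 : F) ^ 2) • vecMulVec u φ) =
        vecMulVec u (-φ₂) := by
      have e2 : vecMulVec u φ₂ * ((1 : F) • (vecMulVec u φ * n) - (1 : F) • (n * vecMulVec u φ) - ((1 : F) ^ 2) • vecMulVec u φ) = 0 := by
        rw [one_smul, one_smul, one_pow, one_smul, mul_sub, mul_sub, ← mul_assoc, ← mul_assoc, hPP _ _ h21, zero_mul, hPnP, h22,
          zero_smul, sub_zero, sub_zero]
      have e3 : ((1 : F) • (vecMulVec u φ * n) - (1 : F) • (n * vecMulVec u φ) - ((1 : F) ^ 2) • vecMulVec u φ) * vecMulVec u φ₂ = vecMulVec u φ₂ := by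
        rw [one_smul, one_smul, one_pow, one_smul, sub_mul, sub_mul, mul_assoc n, hPP _ _ hφ1, mul_zero, sub_zero, sub_zero,
          vecMulVec_mul, vecMulVec_mul_vecMulVec, ← dotProduct_mulVec, hφ2, one_smul]
      rw [tGL_val, tGL_inv_val, tm, tm, add_mul, one_mul, e2, add_zero, vecMulVec_neg, mul_add, mul_one, mul_neg, e3]
      abel
    rw [e1] at h2
    exact sl_of_pure hd hm hX hu0 hw (neg_ne_zero.mpr h20) hk0 (hasT_of_InN hk h2)

/-- the unipotent radical of the stabiliser of U ⊗ w -/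
theorem step1 [Fintype F] (hd : 2 ≤ d) (hm : 3 ≤ m) (hex : ¬ (d = 2 ∧ Fintype.card F = 2)) (hX : HasK X)
    (hns : ¬ specialLinear (Fin d × Fin m) F ≤ X) {w : Fin m → F} (hw : w ≠ 0) {n : Fin m → Matrix (Fin d) (Fin d) F}
    (hν : nu n w = 0) (hmem : In X (1 + NW n w)) : ∃ f : Fin m → F, ∀ j, n j = f j • (1 : Matrix (Fin d) (Fin d) F) := by
  by_contra hcon
  have h1 : ∃ j, ∀ c : F, n j ≠ c • (1 : Matrix (Fin d) (Fin d) F) := by
    by_contra h
    push Not at h
    choose f hf using h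
    exact hcon ⟨f, hf⟩
  obtain ⟨j, hj⟩ := h1
  obtain ⟨k, hk0, hk1, hk2⟩ := exists_perp2 hm w (Pi.single j 1)
  rw [dotProduct_comm] at hk1 hk2
  apply hns
  refine sl_of_nonscalar hd hm hex hX hw hj hk0 hk1 (fun c => ?_)
  have := comm_step hX hν hmem (z := Pi.single j 1) (k := c • k) (by rw [smul_dotProduct, hk2, smul_zero])
    (by rw [smul_dotProduct, hk1, smul_zero])
  rwa [nu_single] at this

end H96.TenMax2
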