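import Mathlib
import Cfsg.Agent.Lib.H96.TenMax2
import Cfsg.Agent.Lib.H97.AschTensor

set_option autoImplicit false
set_option linter.unusedSectionVars false
set_option linter.unusedVariables false

/-!
Overgroups of tensor products: the geometry of the subspaces U ⊗ w.
-/

namespace H96.TenMax3

open Module Cfsg Cfsg.Geo Matrix H97.AschPosE H97.AschPosH H94.Transv H96.TenMax H96.TenMax2
open scoped Kronecker

variable {d m : ℕ} {F : Type*} [Field F] {X : Subgroup (GL (Fin d × Fin m) F)}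

/-! ### the transposed group -/

/-- transposition of an invertible matrix -/
def trGL {κ : Type} [Fintype κ] [DecidableEq κ] (g : GL κ F) : GL κ F where
  val := (g : Matrix κ κ F)ᵀ
  inv := ((g⁻¹ : GL κ F) : Matrix κ κ F)ᵀ
  val_inv := by rw [← Matrix.transpose_mul, ← Units.val_mul, inv_mul_cancel, Units.val_one, Matrix.transpose_one]
  inv_val := by rw [← Matrix.transpose_mul, ← Units.val_mul, mul_inv_cancel, Units.val_one, Matrix.transpose_one]

lemma trGL_mul {κ : Type} [Fintype κ] [DecidableEq κ] (g h : GL κ F) : trGL (g * h) = trGL h * trGL g :=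
  Units.ext (Matrix.transpose_mul _ _)

lemma trGL_trGL {κ : Type} [Fintype κ] [DecidableEq κ] (g : GL κ F) : trGL (trGL g) = g :=
  Units.ext (Matrix.transpose_transpose _)

lemma trGL_inv {κ : Type} [Fintype κ] [DecidableEq κ] (g : GL κ F) : trGL g⁻¹ = (trGL g)⁻¹ := Units.ext rfl

/-- the transposed group -/
def Xd {κ : Type} [Fintype κ] [DecidableEq κ] (X : Subgroup (GL κ F)) : Subgroup (GL κ F) where
  carrier := {g | trGL g ∈ X}
  mul_mem' := by
    intro a b ha hb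
    change trGL (a * b) ∈ X
    rw [trGL_mul]; exact X.mul_mem hb ha
  one_mem' := by
    change trGL 1 ∈ X
    have : trGL (1 : GL κ F) = 1 := Units.ext Matrix.transpose_one
    rw [this]; exact X.one_mem
  inv_mem' := by
    intro a ha
    change trGL a⁻¹ ∈ X
    rw [trGL_inv]; exact X.inv_mem ha

lemma In_Xd {κ : Type} [Fintype κ] [DecidableEq κ] {X : Subgroup (GL κ F)} {A : Matrix κ κ F} (h : In X Aᵀ) : In (Xd X) A := by
  obtain ⟨g, hg, e⟩ := h
  refine ⟨trGL g, ?_, ?_⟩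
  · change trGL (trGL g) ∈ X
    rwa [trGL_trGL]
  · change (g : Matrix κ κ F)ᵀ = A
    rw [e, Matrix.transpose_transpose]

lemma HasK_Xd (hX : HasK X) : HasK (Xd X) := by
  rintro g ⟨⟨a, b, hab⟩, hg⟩
  apply hX
  refine ⟨⟨trGL a, trGL b, ?_⟩, ?_⟩
  · change (g : Matrix (Fin d × Fin m) (Fin d × Fin m) F)ᵀ = _
    rw [hab]
    rfl
  · have hg' : g ∈ specialLinear (Fin d × Fin m) F := hg
    rw [mem_specialLinear_iff] at hg'
    refine (mem_specialLinear_iff _).mpr ?_
    change ((g : Matrix (Fin d × Fin m) (Fin d × Fin m) F)ᵀ).det = 1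
    rw [Matrix.det_transpose, hg']

lemma sl_Xd {κ : Type} [Fintype κ] [DecidableEq κ] {X : Subgroup (GL κ F)} (h : specialLinear κ F ≤ Xd X) :
    specialLinear κ F ≤ X := by
  intro g hg
  have h1 : trGL g ∈ Xd X := by
    apply h
    rw [mem_specialLinear_iff] at hg ⊢
    change ((g : Matrix κ κ F)ᵀ).det = 1
    rw [Matrix.det_transpose, hg]
  change trGL (trGL g) ∈ X at h1
  rwa [trGL_trGL] at h1

/-- endomorphisms killing `U ⊗ ker f` -/
def NWd (n : Fin m → Matrix (Fin d) (Fin d) F) (f : Fin m → F) : Matrix (Fin d × Fin m) (Fin d × Fin m) F :=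
  Matrix.of fun p p' => n p.2 p.1 p'.1 * f p'.2

lemma NWd_mulVec (n : Fin m → Matrix (Fin d) (Fin d) F) (f : Fin m → F) (v : Fin d × Fin m → F) (i : Fin d) (j : Fin m) :
    (NWd n f *ᵥ v) (i, j) = (n j *ᵥ ctr f v) i := by
  simp only [mulVec, dotProduct, NWd, Matrix.of_apply, ctr_apply]
  rw [Fintype.sum_prod_type]
  refine Finset.sum_congr rfl (fun a _ => ?_)
  rw [Finset.mul_sum]
  exact Finset.sum_congr rfl (fun b _ => by ring)

theorem step1_dual [Fintype F] (hd : 2 ≤ d) (hm : 3 ≤ m) (hex : ¬ (d = 2 ∧ Fintype.card F = 2)) (hX : HasK X)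
    (hns : ¬ specialLinear (Fin d × Fin m) F ≤ X) {f : Fin m → F} (hf : f ≠ 0) {n : Fin m → Matrix (Fin d) (Fin d) F}
    (hν : nu n f = 0) (hmem : In X (1 + NWd n f)) : ∃ c : Fin m → F, ∀ j, n j = c j • (1 : Matrix (Fin d) (Fin d) F) := by
  obtain ⟨c, hc⟩ := step1 hd hm hex (HasK_Xd hX) (fun h => hns (sl_Xd h)) hf (n := fun j => (n j)ᵀ) (by
    have : nu (fun j => (n j)ᵀ) f = (nu n f)ᵀ := by
      simp only [nu, Matrix.transpose_sum, Matrix.transpose_smul]
    rw [this, hν, Matrix.transpose_zero]) (In_Xd (by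
      have : (1 + NW (fun j => (n j)ᵀ) f : Matrix (Fin d × Fin m) (Fin d × Fin m) F)ᵀ = 1 + NWd n f := by
        rw [Matrix.transpose_add, Matrix.transpose_one]
        rfl
      rw [this]; exact hmem))
  refine ⟨c, fun j => ?_⟩
  have := congrArg Matrix.transpose (hc j)
  rwa [Matrix.transpose_transpose, Matrix.transpose_smul, Matrix.transpose_one] at this

/-! ### membership in U ⊗ w -/

lemma exists_one {κ : Type} [Fintype κ] [DecidableEq κ] {w : κ → F} (hw : w ≠ 0) : ∃ θ : κ → F, θ ⬝ᵥ w = 1 := by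
  obtain ⟨θ, -, h⟩ := exists_functional (v := (0 : κ → F)) (w := w) (by
    rw [Submodule.span_zero_singleton, Submodule.mem_bot]; exact hw)
  exact ⟨θ, h⟩

lemma mem_Dw_iff {w : Fin m → F} (hw : w ≠ 0) {v : Fin d × Fin m → F} :
    v ∈ Dw d w ↔ ∀ f : Fin m → F, f ⬝ᵥ w = 0 → ctr f v = 0 := by
  constructor
  · intro h f hf
    obtain ⟨u, rfl⟩ := mem_Dw.mp h
    rw [ctr_pv, hf, zero_smul]
  · intro h
    obtain ⟨k₀, hk₀⟩ := exists_one hw
    refine mem_Dw.mpr ⟨ctr k₀ v, ?_⟩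
    ext ⟨i, j⟩
    have h1 := h (Pi.single j 1 + (-(w j)) • k₀) (by
      rw [add_dotProduct, smul_dotProduct, hk₀, single_one_dotProduct, smul_eq_mul, mul_one, add_neg_cancel])
    rw [ctr_add, ctr_smul] at h1
    have h2 := congrFun h1 i
    rw [Pi.add_apply, Pi.smul_apply, ctr_single, smul_eq_mul, Pi.zero_apply] at h2
    change v (i, j) = ctr k₀ v i * w j
    linear_combination h2

/-- the family of images of the subspaces U ⊗ w -/
def IsD (X : Subgroup (GL (Fin d × Fin m) F)) (D : Submodule F (Fin d × Fin m → F)) : Prop :=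
  ∃ g ∈ X, ∃ w : Fin m → F, w ≠ 0 ∧ D = (Dw d w).map (Matrix.toLin' (g : Matrix (Fin d × Fin m) (Fin d × Fin m) F))

lemma toLin_inj {κ : Type} [Fintype κ] [DecidableEq κ] (g : GL κ F) : Function.Injective (Matrix.toLin' (g : Matrix κ κ F)) := by
  intro x y h
  rw [Matrix.toLin'_apply, Matrix.toLin'_apply] at h
  have h1 := congrArg (fun z => ((g⁻¹ : GL κ F) : Matrix κ κ F) *ᵥ z) h
  simp only [Matrix.mulVec_mulVec] at h1
  rwa [← Units.val_mul, inv_mul_cancel, Units.val_one, Matrix.one_mulVec, Matrix.one_mulVec] at h1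

lemma inv_cancel_left {κ : Type} [Fintype κ] [DecidableEq κ] (g : GL κ F) (x : κ → F) :
    ((g⁻¹ : GL κ F) : Matrix κ κ F) *ᵥ ((g : Matrix κ κ F) *ᵥ x) = x := by
  rw [Matrix.mulVec_mulVec, ← Units.val_mul, inv_mul_cancel, Units.val_one, Matrix.one_mulVec]

lemma inv_cancel_right {κ : Type} [Fintype κ] [DecidableEq κ] (g : GL κ F) (x : κ → F) :
    (g : Matrix κ κ F) *ᵥ (((g⁻¹ : GL κ F) : Matrix κ κ F) *ᵥ x) = x := by
  rw [Matrix.mulVec_mulVec, ← Units.val_mul, mul_inv_cancel, Units.val_one, Matrix.one_mulVec]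

lemma IsD.finrank {D : Submodule F (Fin d × Fin m → F)} (h : IsD X D) : finrank F D = d := by
  obtain ⟨g, -, w, hw, rfl⟩ := h
  rw [← (Submodule.equivMapOfInjective _ (toLin_inj g) (Dw d w)).finrank_eq, finrank_Dw hw]

lemma IsD.map {D : Submodule F (Fin d × Fin m → F)} (h : IsD X D) {g : GL (Fin d × Fin m) F} (hg : g ∈ X) :
    IsD X (D.map (Matrix.toLin' (g : Matrix (Fin d × Fin m) (Fin d × Fin m) F))) := by
  obtain ⟨g', hg', w, hw, rfl⟩ := h
  refine ⟨g * g', X.mul_mem hg hg', w, hw, ?_⟩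
  rw [Units.val_mul, Matrix.toLin'_mul, Submodule.map_comp]

lemma IsD.std {w : Fin m → F} (hw : w ≠ 0) : IsD X (Dw d w) :=
  ⟨1, X.one_mem, w, hw, by rw [Units.val_one, Matrix.toLin'_one, Submodule.map_id]⟩

lemma eq_of_le_D {D D' : Submodule F (Fin d × Fin m → F)} (hD : IsD X D) (hD' : IsD X D') (h : D ≤ D') : D = D' :=
  Submodule.eq_of_le_of_finrank_eq h (by rw [hD.finrank, hD'.finrank])

/-- members of the family inside U ⊗ ker f are standard -/
theorem claimA [Fintype F] (hd : 2 ≤ d) (hm : 3 ≤ m) (hex : ¬ (d = 2 ∧ Fintype.card F = 2)) (hX : HasK X)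
    (hns : ¬ specialLinear (Fin d × Fin m) F ≤ X) {D : Submodule F (Fin d × Fin m → F)} (hD : IsD X D) {f : Fin m → F}
    (hf : f ≠ 0) (hDf : ∀ v ∈ D, ctr f v = 0) : ∃ w' : Fin m → F, w' ≠ 0 ∧ D = Dw d w' := by
  have hD0 := hD
  obtain ⟨g, hg, w, hw, hDeq⟩ := hD
  obtain ⟨w₀, hw₀, hfw, -⟩ := exists_perp2 hm f f
  have hmemD : ∀ u, (g : Matrix (Fin d × Fin m) (Fin d × Fin m) F) *ᵥ pv u w ∈ D := by
    intro u
    rw [hDeq]
    exact ⟨pv u w, mem_Dw.mpr ⟨u, rfl⟩, Matrix.toLin'_apply _ _⟩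
  by_contra hcon
  push Not at hcon
  -- every root element of D kills U ⊗ w₀
  have key : ∀ f' : Fin m → F, f' ⬝ᵥ w = 0 → ∀ u : Fin d → F,
      ctr f' (((g⁻¹ : GL (Fin d × Fin m) F) : Matrix (Fin d × Fin m) (Fin d × Fin m) F) *ᵥ pv u w₀) = 0 := by
    intro f' hf'
    obtain ⟨N', hN'⟩ : ∃ N', N' = (g : Matrix (Fin d × Fin m) (Fin d × Fin m) F) * Rm d w f' *
      ((g⁻¹ : GL (Fin d × Fin m) F) : Matrix (Fin d × Fin m) (Fin d × Fin m) F) := ⟨_, rfl⟩
    have hN'v : ∀ v, N' *ᵥ v = (g : Matrix (Fin d × Fin m) (Fin d × Fin m) F) *ᵥ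
        pv (ctr f' (((g⁻¹ : GL (Fin d × Fin m) F) : Matrix (Fin d × Fin m) (Fin d × Fin m) F) *ᵥ v)) w := by
      intro v
      rw [hN', ← Matrix.mulVec_mulVec, ← Matrix.mulVec_mulVec, Rm_mulVec]
    have hN'D : ∀ v, N' *ᵥ v ∈ D := fun v => by rw [hN'v]; exact hmemD _
    have hmem' : In X (1 + N') := by
      rw [hN']
      exact In.conj ⟨_, hX.root w f' hf', rGL_val _ _ _⟩ hg
    have hmem : In X (1 + Rm d w₀ f) := ⟨_, hX.root w₀ f hfw, rGL_val _ _ _⟩
    have hRR : ∀ (w f : Fin m → F), f ⬝ᵥ w = 0 → Rm d w f * Rm d w f = (0 : Matrix (Fin d × Fin m) (Fin d × Fin m) F) := by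
      intro w f h
      exact vmv_mul h 1 1
    have hN'2 : N' * N' = 0 := by
      rw [hN']
      have e1 : ((g⁻¹ : GL (Fin d × Fin m) F) : Matrix (Fin d × Fin m) (Fin d × Fin m) F) *
        (g : Matrix (Fin d × Fin m) (Fin d × Fin m) F) = 1 := Units.inv_mul g
      calc _ = (g : Matrix (Fin d × Fin m) (Fin d × Fin m) F) * (Rm d w f' *
            (((g⁻¹ : GL (Fin d × Fin m) F) : Matrix (Fin d × Fin m) (Fin d × Fin m) F) *
            (g : Matrix (Fin d × Fin m) (Fin d × Fin m) F)) * Rm d w f') *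
            ((g⁻¹ : GL (Fin d × Fin m) F) : Matrix (Fin d × Fin m) (Fin d × Fin m) F) := by simp only [mul_assoc]
        _ = 0 := by rw [e1, mul_one, hRR w f' hf', mul_zero, zero_mul]
    have hNN : Rm d w₀ f * N' = 0 := by
      apply mat_ext_pv
      intro u y
      rw [← Matrix.mulVec_mulVec, Rm_mulVec, hDf _ (hN'D _), Matrix.zero_mulVec]
      ext p; simp [pv]
    have hc := hmem.comm (hRR w₀ f hfw) hN'2 hNN hmem'
    -- the product in dual form
    let n : Fin m → Matrix (Fin d) (Fin d) F := fun j => Matrix.of fun i i' => (N' *ᵥ pv (Pi.single i' 1) w₀) (i, j)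
    have hsum : ∀ u : Fin d → F, ∀ i j, (n j *ᵥ u) i = (N' *ᵥ pv u w₀) (i, j) := by
      intro u i j
      have h1 : pv u w₀ = ∑ i', u i' • pv (Pi.single i' (1 : F)) w₀ := by
        ext ⟨a, b⟩
        rw [Finset.sum_apply]
        simp [pv, Pi.single_apply]
      rw [h1, Matrix.mulVec_sum, Finset.sum_apply, mulVec, dotProduct]
      refine Finset.sum_congr rfl (fun i' _ => ?_)
      rw [Matrix.mulVec_smul, Pi.smul_apply, smul_eq_mul, mul_comm]
      rfl
    have hprod : N' * Rm d w₀ f = NWd n f := by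
      apply Matrix.ext_of_mulVec_single
      intro p
      rw [← Matrix.mulVec_mulVec, Rm_mulVec]
      ext ⟨i, j⟩
      rw [NWd_mulVec, hsum]
    have hnu : nu n f = 0 := by
      ext i i'
      have h1 := congrFun (hDf _ (hN'D (pv (Pi.single i' 1) w₀))) i
      rw [ctr_apply] at h1
      rw [nu, Matrix.sum_apply]
      exact h1
    rw [hprod] at hc
    obtain ⟨c, hcn⟩ := step1_dual hd hm hex hX hns hf hnu hc
    have hN'u : ∀ u, N' *ᵥ pv u w₀ = pv u c := by
      intro u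
      ext ⟨i, j⟩
      rw [← hsum, hcn, Matrix.smul_mulVec, Matrix.one_mulVec, Pi.smul_apply, smul_eq_mul, mul_comm]
      rfl
    have hc0 : c = 0 := by
      by_contra hc0
      apply hcon c hc0
      symm
      apply eq_of_le_D (X := X) (IsD.std hc0) hD0
      intro v hv
      obtain ⟨u, rfl⟩ := mem_Dw.mp hv
      rw [← hN'u]
      exact hN'D _
    intro u
    have h1 := hN'u u
    rw [hc0, hN'v] at h1
    have h2 : pv u (0 : Fin m → F) = 0 := by ext p; simp [pv]
    rw [h2] at h1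
    have h3 := congrArg (fun z => ((g⁻¹ : GL (Fin d × Fin m) F) : Matrix (Fin d × Fin m) (Fin d × Fin m) F) *ᵥ z) h1
    simp only [inv_cancel_left, Matrix.mulVec_zero] at h3
    exact pv_eq_zero hw h3
  apply hcon w₀ hw₀
  symm
  apply eq_of_le_D (X := X) (IsD.std hw₀) hD0
  intro v hv
  obtain ⟨u, rfl⟩ := mem_Dw.mp hv
  have h1 := (mem_Dw_iff (d := d) hw).mpr (fun f' hf' => key f' hf' u)
  rw [hDeq]
  exact ⟨_, h1, by rw [Matrix.toLin'_apply, inv_cancel_right]⟩

end H96.TenMax3
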