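import Mathlib
import Cfsg.Agent.Lib.H96.TenMax3

set_option autoImplicit false
set_option linter.unusedSectionVars false
set_option linter.unusedVariables false

/-!
Overgroups of tensor products: conclusion in the general linear case.
-/

namespace H96.TenMax4

open Module Cfsg Cfsg.Geo Matrix H97.AschPosE H97.AschPosH H94.Transv H96.TenMax H96.TenMax2 H96.TenMax3
open scoped Kronecker

variable {d m : ℕ} {F : Type*} [Field F] {X : Subgroup (GL (Fin d × Fin m) F)}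

/-- contraction as a linear map in the functional -/
def ctrL (v : Fin d × Fin m → F) : (Fin m → F) →ₗ[F] (Fin d → F) where
  toFun f := ctr f v
  map_add' f g := ctr_add f g v
  map_smul' c f := ctr_smul c f v

lemma rGL_fix {w f : Fin m → F} (h : f ⬝ᵥ w = 0) {v : Fin d × Fin m → F} (hv : ctr f v = 0) :
    (rGL d w f h : Matrix (Fin d × Fin m) (Fin d × Fin m) F) *ᵥ v = v := by
  rw [rGL_mulVec, hv]
  ext p; simp [pv]

lemma ctr_Dw {w f : Fin m → F} (h : f ⬝ᵥ w = 0) {v : Fin d × Fin m → F} (hv : v ∈ Dw d w) : ctr f v = 0 := by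
  obtain ⟨u, rfl⟩ := mem_Dw.mp hv
  rw [ctr_pv, h, zero_smul]

/-- a non-standard member gives two different members with non-zero intersection -/
theorem exists_pair [Fintype F] (hd : 2 ≤ d) (hdm : d < m) (hex : ¬ (d = 2 ∧ Fintype.card F = 2)) (hX : HasK X)
    (hns : ¬ specialLinear (Fin d × Fin m) F ≤ X) {D : Submodule F (Fin d × Fin m → F)} (hD : IsD X D)
    (hnst : ∀ w' : Fin m → F, w' ≠ 0 → D ≠ Dw d w') : ∃ D₁ D₂, IsD X D₁ ∧ IsD X D₂ ∧ D₁ ≠ D₂ ∧ D₁ ⊓ D₂ ≠ ⊥ := by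
  have h1 := hD.finrank
  obtain ⟨⟨v, hv⟩, hv0⟩ := (finrank_pos_iff_exists_ne_zero (R := F) (M := D)).mp (by omega)
  have hv0' : v ≠ 0 := fun h => hv0 (Subtype.ext h)
  obtain ⟨f, hf, hfv⟩ := exists_ker (ctrL v) (by rw [finrank_fintype_fun_eq_card, Fintype.card_fin, Fintype.card_fin]; exact hdm)
  change ctr f v = 0 at hfv
  have h2 : ∃ v' ∈ D, ctr f v' ≠ 0 := by
    by_contra hcon
    push Not at hcon
    obtain ⟨w', hw', he⟩ := claimA hd (by omega) hex hX hns hD hf hcon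
    exact hnst w' hw' he
  obtain ⟨v', hv'D, hv'⟩ := h2
  obtain ⟨w₀, hw₀, hfw, -⟩ := exists_perp2 (by omega) f f
  by_cases hD' : D.map (Matrix.toLin' (rGL d w₀ f hfw : Matrix (Fin d × Fin m) (Fin d × Fin m) F)) = D
  · refine ⟨D, Dw d w₀, hD, IsD.std hw₀, hnst w₀ hw₀, ?_⟩
    intro h3
    have h4 : pv (ctr f v') w₀ ∈ D ⊓ Dw d w₀ := by
      refine ⟨?_, mem_Dw.mpr ⟨_, rfl⟩⟩
      have h5 : (rGL d w₀ f hfw : Matrix (Fin d × Fin m) (Fin d × Fin m) F) *ᵥ v' ∈ D := by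
        rw [← hD']
        exact ⟨v', hv'D, Matrix.toLin'_apply _ _⟩
      rw [rGL_mulVec] at h5
      have := Submodule.sub_mem _ h5 hv'D
      rwa [add_sub_cancel_left] at this
    rw [h3, Submodule.mem_bot] at h4
    exact hv' (pv_eq_zero hw₀ h4)
  · refine ⟨D, _, hD, hD.map (hX.root w₀ f hfw), Ne.symm hD', ?_⟩
    intro h3
    have h4 : v ∈ D ⊓ D.map (Matrix.toLin' (rGL d w₀ f hfw : Matrix (Fin d × Fin m) (Fin d × Fin m) F)) :=
      ⟨hv, v, hv, by rw [Matrix.toLin'_apply, rGL_fix hfw hfv]⟩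
    rw [h3, Submodule.mem_bot] at h4
    exact hv0' h4

/-- root elements at `w` move the members meeting U ⊗ w non-trivially -/
theorem claimB [Fintype F] (hd : 2 ≤ d) (hdm : d < m) (hex : ¬ (d = 2 ∧ Fintype.card F = 2)) (hX : HasK X)
    (hns : ¬ specialLinear (Fin d × Fin m) F ≤ X) {D : Submodule F (Fin d × Fin m → F)} (hD : IsD X D)
    {w : Fin m → F} (hw : w ≠ 0) (hne : D ≠ Dw d w) (hint : Dw d w ⊓ D ≠ ⊥) {f : Fin m → F} (hf : f ≠ 0)
    (hfw : f ⬝ᵥ w = 0) : D.map (Matrix.toLin' (rGL d w f hfw : Matrix (Fin d × Fin m) (Fin d × Fin m) F)) ≠ D := by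
  classical
  intro hDt
  have hnst : ∀ w' : Fin m → F, w' ≠ 0 → D ≠ Dw d w' := by
    intro w' hw' he
    obtain ⟨x, hx, hx0⟩ := Submodule.exists_mem_ne_zero_of_ne_bot hint
    rw [he] at hx
    exact hne (he.trans (Dw_inter hx0 hx.1 hx.2).symm)
  obtain ⟨v₀, hv₀D, hv₀⟩ : ∃ v' ∈ D, ctr f v' ≠ 0 := by
    by_contra hcon
    push Not at hcon
    obtain ⟨w', hw', he⟩ := claimA hd (by omega) hex hX hns hD hf hcon
    exact hnst w' hw' he
  obtain ⟨g, hg, w', hw', hDeq⟩ := hD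
  obtain ⟨s, hsdef⟩ : ∃ s : GL (Fin d × Fin m) F, s = g⁻¹ * rGL d w f hfw * g := ⟨_, rfl⟩
  have hsX : s ∈ X := by
    rw [hsdef]; exact X.mul_mem (X.mul_mem (X.inv_mem hg) (hX.root w f hfw)) hg
  -- s = 1 + ρ
  obtain ⟨ρ, hρ⟩ : ∃ ρ : Matrix (Fin d × Fin m) (Fin d × Fin m) F, ρ = ((g⁻¹ : GL (Fin d × Fin m) F) : Matrix (Fin d × Fin m) (Fin d × Fin m) F) *
    Rm d w f * (g : Matrix (Fin d × Fin m) (Fin d × Fin m) F) := ⟨_, rfl⟩
  have hsρ : (s : Matrix (Fin d × Fin m) (Fin d × Fin m) F) = 1 + ρ := by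
    rw [hsdef, Units.val_mul, Units.val_mul, rGL_val, mul_add, mul_one, add_mul, ← Units.val_mul, inv_mul_cancel,
      Units.val_one, hρ]
  have hsv : ∀ v, (s : Matrix (Fin d × Fin m) (Fin d × Fin m) F) *ᵥ v = v + ρ *ᵥ v := by
    intro v; rw [hsρ, Matrix.add_mulVec, Matrix.one_mulVec]
  have hρv : ∀ v, ρ *ᵥ v = ((g⁻¹ : GL (Fin d × Fin m) F) : Matrix (Fin d × Fin m) (Fin d × Fin m) F) *ᵥ
      pv (ctr f ((g : Matrix (Fin d × Fin m) (Fin d × Fin m) F) *ᵥ v)) w := by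
    intro v
    rw [hρ, ← Matrix.mulVec_mulVec, ← Matrix.mulVec_mulVec, Rm_mulVec]
  have hρ2 : ∀ v, ρ *ᵥ (ρ *ᵥ v) = 0 := by
    intro v
    rw [hρv (ρ *ᵥ v), hρv v, inv_cancel_right, ctr_pv, hfw, zero_smul]
    have : pv (0 : Fin d → F) w = 0 := by ext p; simp [pv]
    rw [this, Matrix.mulVec_zero]
  -- s preserves U ⊗ w'
  have hsmap : (Dw d w').map (Matrix.toLin' (s : Matrix (Fin d × Fin m) (Fin d × Fin m) F)) = Dw d w' := by
    rw [hDeq, ← Submodule.map_comp, ← Matrix.toLin'_mul, ← Units.val_mul] at hDt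
    have h1 := congrArg (fun D => D.map (Matrix.toLin' ((g⁻¹ : GL (Fin d × Fin m) F) : Matrix (Fin d × Fin m) (Fin d × Fin m) F))) hDt
    simp only [← Submodule.map_comp, ← Matrix.toLin'_mul, ← Units.val_mul] at h1
    rw [inv_mul_cancel, Units.val_one, Matrix.toLin'_one, Submodule.map_id, ← mul_assoc, ← hsdef] at h1
    exact h1
  have hsD : ∀ v ∈ Dw d w', (s : Matrix (Fin d × Fin m) (Fin d × Fin m) F) *ᵥ v ∈ Dw d w' := by
    intro v hv
    rw [← hsmap]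
    exact ⟨v, hv, Matrix.toLin'_apply _ _⟩
  have hsD' : ∀ v ∈ Dw d w', ((s⁻¹ : GL (Fin d × Fin m) F) : Matrix (Fin d × Fin m) (Fin d × Fin m) F) *ᵥ v ∈ Dw d w' := by
    intro v hv
    rw [← hsmap] at hv
    obtain ⟨x, hx, rfl⟩ := hv
    rw [Matrix.toLin'_apply, inv_cancel_left]
    exact hx
  -- the action on U
  obtain ⟨k₀, hk₀⟩ := exists_one hw'
  let α : (Fin d → F) →ₗ[F] (Fin d → F) := ctr k₀ ∘ₗ Matrix.toLin' (s : Matrix (Fin d × Fin m) (Fin d × Fin m) F) ∘ₗ pvL w'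
  have hα : ∀ u, (s : Matrix (Fin d × Fin m) (Fin d × Fin m) F) *ᵥ pv u w' = pv (α u) w' := by
    intro u
    obtain ⟨u', hu'⟩ := mem_Dw.mp (hsD _ (mem_Dw.mpr ⟨u, rfl⟩))
    have : α u = u' := by
      change ctr k₀ (Matrix.toLin' (s : Matrix (Fin d × Fin m) (Fin d × Fin m) F) (pv u w')) = u'
      rw [Matrix.toLin'_apply, hu', ctr_pv, hk₀, one_smul]
    rw [this, hu']
  have hgD : ∀ u, (g : Matrix (Fin d × Fin m) (Fin d × Fin m) F) *ᵥ pv u w' ∈ D := by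
    intro u
    rw [hDeq]
    exact ⟨pv u w', mem_Dw.mpr ⟨u, rfl⟩, Matrix.toLin'_apply _ _⟩
  -- a vector u₂ moved by s
  obtain ⟨u₂, hu₂⟩ : ∃ u₂ : Fin d → F, ρ *ᵥ pv u₂ w' ≠ 0 := by
    rw [hDeq] at hv₀D
    obtain ⟨x, hx, rfl⟩ := hv₀D
    obtain ⟨u, rfl⟩ := mem_Dw.mp hx
    refine ⟨u, ?_⟩
    intro h
    rw [hρv] at h
    have h3 := congrArg (fun z => (g : Matrix (Fin d × Fin m) (Fin d × Fin m) F) *ᵥ z) h
    simp only [inv_cancel_right, Matrix.mulVec_zero] at h3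
    apply hv₀
    rw [Matrix.toLin'_apply]
    exact pv_eq_zero hw h3
  -- the action on U is not scalar
  obtain ⟨u₁, hu₁⟩ : ∃ u : Fin d → F, α u ∉ Submodule.span F {u} := by
    obtain ⟨u, hu⟩ := exists_nonEig (n := LinearMap.toMatrix' α) (by
      intro c hc
      have hαc : ∀ u, α u = c • u := by
        intro u
        rw [← LinearMap.toMatrix'_mulVec, hc, Matrix.smul_mulVec, Matrix.one_mulVec]
      have h1 : ∀ u, ρ *ᵥ pv u w' = (c - 1) • pv u w' := by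
        intro u
        have h2 := hα u
        rw [hsv, hαc, pv_smul_left] at h2
        rw [sub_smul, one_smul, ← h2]; abel
      have h2 := hρ2 (pv u₂ w')
      rw [h1, Matrix.mulVec_smul, h1, smul_smul] at h2
      have h3 : pv u₂ w' ≠ 0 := by
        intro h; rw [h, Matrix.mulVec_zero] at hu₂; exact hu₂ rfl
      have h4 : (c - 1) * (c - 1) = 0 := (smul_eq_zero.mp h2).resolve_right h3
      have h5 : c - 1 = 0 := mul_self_eq_zero.mp h4
      rw [h1, h5, zero_smul] at hu₂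
      exact hu₂ rfl)
    exact ⟨u, by rwa [LinearMap.toMatrix'_mulVec] at hu⟩
  -- the action on functionals
  have hrel : ∀ f₀ : Fin m → F, f₀ ⬝ᵥ w' = 0 → ∃ f₁ : Fin m → F, ∀ v, α (ctr f₀ v) =
      ctr f₁ ((s : Matrix (Fin d × Fin m) (Fin d × Fin m) F) *ᵥ v) := by
    intro f₀ hf₀
    obtain ⟨N₀, hN₀⟩ : ∃ N₀, N₀ = (s : Matrix (Fin d × Fin m) (Fin d × Fin m) F) * Rm d w' f₀ *
      ((s⁻¹ : GL (Fin d × Fin m) F) : Matrix (Fin d × Fin m) (Fin d × Fin m) F) := ⟨_, rfl⟩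
    have hN₀v : ∀ v, N₀ *ᵥ v = pv (α (ctr f₀ (((s⁻¹ : GL (Fin d × Fin m) F) : Matrix (Fin d × Fin m) (Fin d × Fin m) F) *ᵥ v))) w' := by
      intro v
      rw [hN₀, ← Matrix.mulVec_mulVec, ← Matrix.mulVec_mulVec, Rm_mulVec, hα]
    have hmem : In X (1 + N₀) := by
      rw [hN₀]
      exact In.conj ⟨_, hX.root w' f₀ hf₀, rGL_val _ _ _⟩ hsX
    let n : Fin m → Matrix (Fin d) (Fin d) F := fun j => Matrix.of fun i i' =>
      α (ctr f₀ (((s⁻¹ : GL (Fin d × Fin m) F) : Matrix (Fin d × Fin m) (Fin d × Fin m) F) *ᵥ Pi.single (i', j) 1)) i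
    have hNW : N₀ = NW n w' := by
      apply Matrix.ext_of_mulVec_single
      intro p
      rw [hN₀v]
      ext ⟨i, j⟩
      have e1 : (NW n w' *ᵥ Pi.single p 1) (i, j) = NW n w' (i, j) p := by
        rw [Matrix.mulVec_single_one]; rfl
      rw [e1]
      rfl
    have hnu : nu n w' = 0 := by
      apply Matrix.ext_of_mulVec_single
      intro i
      rw [Matrix.zero_mulVec]
      apply pv_eq_zero hw'
      rw [← NW_pv, ← hNW, hN₀v, ctr_Dw hf₀ (hsD' _ (mem_Dw.mpr ⟨_, rfl⟩)), map_zero]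
      ext p; simp [pv]
    rw [hNW] at hmem
    obtain ⟨f₁, hf₁⟩ := step1 hd (by omega) hex hX hns hw' hnu hmem
    refine ⟨f₁, fun v => ?_⟩
    have h1 : N₀ = Rm d w' f₁ := by
      rw [hNW]
      apply mat_ext_pv
      intro u y
      rw [NW_pv, Rm_mulVec, ctr_pv]
      congr 1
      have : nu n y = (f₁ ⬝ᵥ y) • (1 : Matrix (Fin d) (Fin d) F) := by
        rw [nu, dotProduct, Finset.sum_smul]
        exact Finset.sum_congr rfl (fun j _ => by rw [hf₁, smul_smul, mul_comm])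
      rw [this, Matrix.smul_mulVec, Matrix.one_mulVec]
    have h2 := hN₀v ((s : Matrix (Fin d × Fin m) (Fin d × Fin m) F) *ᵥ v)
    rw [h1, Rm_mulVec, inv_cancel_left] at h2
    exact (pvL_injective hw' h2).symm
  -- dimension count
  let T : Submodule F (Fin d × Fin m → F) := LinearMap.range (Matrix.toLin' ρ)
  have hT : finrank F T ≤ d := by
    have h1 : T ≤ (Dw d w).map (Matrix.toLin' ((g⁻¹ : GL (Fin d × Fin m) F) : Matrix (Fin d × Fin m) (Fin d × Fin m) F)) := by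
      rintro _ ⟨v, rfl⟩
      rw [Matrix.toLin'_apply, hρv]
      exact ⟨_, mem_Dw.mpr ⟨_, rfl⟩, Matrix.toLin'_apply _ _⟩
    refine (Submodule.finrank_mono h1).trans ?_
    rw [← (Submodule.equivMapOfInjective _ (toLin_inj g⁻¹) (Dw d w)).finrank_eq, finrank_Dw hw]
  let q := (Dw d w').mkQ
  let Θ : (Fin m → F) →ₗ[F] ((Fin d × Fin m → F) ⧸ Dw d w') :=
    { toFun := fun y => q (ρ *ᵥ pv u₁ y)
      map_add' := fun y z => by rw [pv_add_right, Matrix.mulVec_add, map_add]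
      map_smul' := fun c y => by rw [pv_smul_right, Matrix.mulVec_smul, map_smul]; rfl }
  have hΘ : ∀ y, Θ y = q (ρ *ᵥ pv u₁ y) := fun y => rfl
  have hker : LinearMap.ker Θ ≤ Submodule.span F {w'} := by
    intro y hy
    rw [LinearMap.mem_ker, hΘ, Submodule.mkQ_apply, Submodule.Quotient.mk_eq_zero] at hy
    by_contra hyw
    obtain ⟨f₀, hf₀, hf₀y⟩ := exists_functional hyw
    obtain ⟨f₁, hf₁⟩ := hrel f₀ hf₀
    -- f₁ kills w'
    have h1 : f₁ ⬝ᵥ w' = 0 := by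
      obtain ⟨i, hi⟩ : ∃ u : Fin d → F, α u ≠ 0 := ⟨u₁, fun h => hu₁ (by rw [h]; exact Submodule.zero_mem _)⟩
      have h2 := hf₁ (pv i w')
      rw [ctr_pv, hf₀, zero_smul, map_zero, hα, ctr_pv] at h2
      exact (smul_eq_zero.mp h2.symm).resolve_right hi
    have h2 := hf₁ (pv u₁ y)
    rw [ctr_pv, hf₀y, one_smul, hsv, map_add, ctr_pv, ctr_Dw h1 hy, add_zero] at h2
    exact hu₁ (by rw [h2]; exact Submodule.smul_mem _ _ (Submodule.mem_span_singleton_self _))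
  have h1 := Θ.finrank_range_add_finrank_ker
  rw [finrank_fintype_fun_eq_card, Fintype.card_fin] at h1
  have h2 : finrank F (LinearMap.ker Θ) ≤ 1 :=
    (Submodule.finrank_mono hker).trans (by rw [finrank_span_singleton hw'])
  have h3 := (q.domRestrict T).finrank_range_add_finrank_ker
  have h4 : LinearMap.range Θ ≤ LinearMap.range (q.domRestrict T) := by
    rintro _ ⟨y, rfl⟩
    exact ⟨⟨ρ *ᵥ pv u₁ y, ⟨pv u₁ y, Matrix.toLin'_apply _ _⟩⟩, rfl⟩
  have h5 := Submodule.finrank_mono h4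
  have h6 : 0 < finrank F (LinearMap.ker (q.domRestrict T)) := by
    have hmemT : ρ *ᵥ pv u₂ w' ∈ T := ⟨pv u₂ w', Matrix.toLin'_apply _ _⟩
    have hnb : LinearMap.ker (q.domRestrict T) ≠ ⊥ := by
      rw [Submodule.ne_bot_iff]
      refine ⟨⟨ρ *ᵥ pv u₂ w', hmemT⟩, ?_, fun h => hu₂ (congrArg Subtype.val h)⟩
      rw [LinearMap.mem_ker, LinearMap.domRestrict_apply, Submodule.mkQ_apply, Submodule.Quotient.mk_eq_zero]
      have h7 := hsv (pv u₂ w')
      rw [hα] at h7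
      refine mem_Dw.mpr ⟨α u₂ - u₂, ?_⟩
      rw [pv_sub_left, h7]
      abel
    exact Nat.pos_of_ne_zero (fun h => hnb (Submodule.finrank_eq_zero.mp h))
  omega

/-- no two different members meet non-trivially -/
theorem no_pair [Fintype F] (hd : 2 ≤ d) (hdm : d < m) (hex : ¬ (d = 2 ∧ Fintype.card F = 2)) (hX : HasK X)
    (hns : ¬ specialLinear (Fin d × Fin m) F ≤ X) {D₁ D₂ : Submodule F (Fin d × Fin m → F)} (hD₁ : IsD X D₁)
    (hD₂ : IsD X D₂) (hne : D₁ ≠ D₂) (hint : D₁ ⊓ D₂ ≠ ⊥) : False := by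
  classical
  let P : ℕ → Prop := fun k => ∃ D₁ D₂, IsD X D₁ ∧ IsD X D₂ ∧ D₁ ≠ D₂ ∧ finrank F ↥(D₁ ⊓ D₂) = k
  have hle : ∀ D₁ D₂ : Submodule F (Fin d × Fin m → F), IsD X D₁ → finrank F ↥(D₁ ⊓ D₂) ≤ d := by
    intro D₁ D₂ h
    exact (Submodule.finrank_mono inf_le_left).trans h.finrank.le
  have hP0 : P (finrank F ↥(D₁ ⊓ D₂)) := ⟨D₁, D₂, hD₁, hD₂, hne, rfl⟩
  have hpos : 0 < finrank F ↥(D₁ ⊓ D₂) := Module.finrank_pos_iff.mpr ((Submodule.nontrivial_iff_ne_bot).mpr hint)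
  have hk := Nat.findGreatest_spec (P := P) (hle D₁ D₂ hD₁) hP0
  have hkpos : finrank F ↥(D₁ ⊓ D₂) ≤ Nat.findGreatest P d := Nat.le_findGreatest (hle D₁ D₂ hD₁) hP0
  have hmax : ∀ D₁ D₂, IsD X D₁ → IsD X D₂ → D₁ ≠ D₂ → finrank F ↥(D₁ ⊓ D₂) ≤ Nat.findGreatest P d := by
    intro D₁ D₂ h1 h2 h3
    exact Nat.le_findGreatest (hle D₁ D₂ h1) ⟨D₁, D₂, h1, h2, h3, rfl⟩
  obtain ⟨k, hkdef⟩ : ∃ k, k = Nat.findGreatest P d := ⟨_, rfl⟩
  rw [← hkdef] at hk hkpos hmax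
  clear hkdef hP0
  obtain ⟨E₁, E₂, hE₁, hE₂, hEne, hEk⟩ := hk
  -- normalise the first one
  obtain ⟨g, hg, w, hw, rfl⟩ := hE₁
  obtain ⟨D, hDdef⟩ : ∃ D, D = E₂.map (Matrix.toLin' ((g⁻¹ : GL (Fin d × Fin m) F) : Matrix (Fin d × Fin m) (Fin d × Fin m) F)) := ⟨_, rfl⟩
  have hE₂D : E₂ = D.map (Matrix.toLin' (g : Matrix (Fin d × Fin m) (Fin d × Fin m) F)) := by
    rw [hDdef, ← Submodule.map_comp, ← Matrix.toLin'_mul, ← Units.val_mul, mul_inv_cancel, Units.val_one,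
      Matrix.toLin'_one, Submodule.map_id]
  have hD : IsD X D := by rw [hDdef]; exact hE₂.map (X.inv_mem hg)
  have hneD : D ≠ Dw d w := by
    rintro rfl
    exact hEne hE₂D.symm
  have hfr : finrank F ↥(Dw d w ⊓ D) = k := by
    rw [hE₂D, ← Submodule.map_inf _ (toLin_inj g)] at hEk
    rw [(Submodule.equivMapOfInjective _ (toLin_inj g) (Dw d w ⊓ D)).finrank_eq, hEk]
  have hintD : Dw d w ⊓ D ≠ ⊥ := by
    intro h
    rw [h, finrank_bot] at hfr
    omega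
  -- the trace on U
  let E' : Submodule F (Fin d → F) := D.comap (pvL w)
  have hE'pos : 0 < finrank F E' := by
    obtain ⟨x, hx, hx0⟩ := Submodule.exists_mem_ne_zero_of_ne_bot hintD
    obtain ⟨u, rfl⟩ := mem_Dw.mp hx.1
    refine (finrank_pos_iff_exists_ne_zero (R := F)).mpr ?_
    refine ⟨⟨u, hx.2⟩, ?_⟩
    intro h
    have hu : u = 0 := congrArg Subtype.val h
    rw [hu] at hx0
    apply hx0
    ext p; simp [pv]
  -- a vector of D outside U ⊗ w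
  obtain ⟨v, hvD, hvw⟩ : ∃ v ∈ D, v ∉ Dw d w := by
    by_contra hcon
    push Not at hcon
    exact hneD (eq_of_le_D hD (IsD.std hw) hcon)
  -- a root element
  let Λ : (Fin m → F) →ₗ[F] (F × ((Fin d → F) ⧸ E')) := (dl w).prod (E'.mkQ ∘ₗ ctrL v)
  obtain ⟨f, hf0, hfΛ⟩ := exists_ker Λ (by
    rw [finrank_prod, finrank_self, Fintype.card_fin]
    have := Submodule.finrank_quotient_add_finrank E'
    rw [finrank_fintype_fun_eq_card, Fintype.card_fin] at this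
    omega)
  have hfw : f ⬝ᵥ w = 0 := by
    rw [dotProduct_comm]
    exact congrArg Prod.fst hfΛ
  have hfv : pv (ctr f v) w ∈ D := by
    have h1 : E'.mkQ (ctr f v) = 0 := congrArg Prod.snd hfΛ
    rw [Submodule.mkQ_apply, Submodule.Quotient.mk_eq_zero] at h1
    exact h1
  have hB := claimB hd hdm hex hX hns hD hw hneD hintD hf0 hfw
  obtain ⟨D', hD'def⟩ : ∃ D', D' = D.map (Matrix.toLin' (rGL d w f hfw : Matrix (Fin d × Fin m) (Fin d × Fin m) F)) := ⟨_, rfl⟩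
  rw [← hD'def] at hB
  have hD' : IsD X D' := by rw [hD'def]; exact hD.map (hX.root w f hfw)
  have h1 : Dw d w ⊓ D ≤ D ⊓ D' := by
    intro x hx
    refine ⟨hx.2, ?_⟩
    rw [hD'def]
    exact ⟨x, hx.2, by rw [Matrix.toLin'_apply, rGL_fix hfw (ctr_Dw hfw hx.1)]⟩
  have h2 : Dw d w ⊓ D = D ⊓ D' := Submodule.eq_of_le_of_finrank_le h1 (by
    rw [hfr]; exact hmax D D' hD hD' (Ne.symm hB))
  have h3 : v + pv (ctr f v) w ∈ D ⊓ D' := by
    refine ⟨Submodule.add_mem _ hvD hfv, ?_⟩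
    rw [hD'def]
    exact ⟨v, hvD, by rw [Matrix.toLin'_apply, rGL_mulVec]⟩
  rw [← h2] at h3
  apply hvw
  have h4 := Submodule.sub_mem _ h3.1 (mem_Dw.mpr ⟨ctr f v, rfl⟩)
  rwa [add_sub_cancel_right] at h4

/-- matrices preserving all the subspaces U ⊗ w -/
lemma kron_one_of_pres (hm : 0 < m) {T : Matrix (Fin d × Fin m) (Fin d × Fin m) F}
    (hT : ∀ w : Fin m → F, w ≠ 0 → ∀ v ∈ Dw d w, T *ᵥ v ∈ Dw d w) :
    ∃ Y : Matrix (Fin d) (Fin d) F, T = Y ⊗ₖ (1 : Matrix (Fin m) (Fin m) F) := by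
  let j₀ : Fin m := ⟨0, hm⟩
  have h1 : ∀ (j : Fin m) (u : Fin d → F), ∃ u', T *ᵥ pv u (Pi.single j 1) = pv u' (Pi.single j (1 : F)) := by
    intro j u
    obtain ⟨u', hu'⟩ := mem_Dw.mp (hT (Pi.single j 1) (by simp) _ (mem_Dw.mpr ⟨u, rfl⟩))
    exact ⟨u', hu'⟩
  choose τ hτ using h1
  have h2 : ∀ j u, τ j u = τ j₀ u := by
    intro j u
    by_cases hj : j = j₀
    · rw [hj]
    have hw : (Pi.single j (1 : F) + Pi.single j₀ 1 : Fin m → F) ≠ 0 := by
      intro h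
      have := congrFun h j
      simp [Pi.single_eq_of_ne hj] at this
    obtain ⟨u', hu'⟩ := mem_Dw.mp (hT _ hw _ (mem_Dw.mpr ⟨u, rfl⟩))
    rw [pv_add_right, Matrix.mulVec_add, hτ, hτ, pv_add_right] at hu'
    have e1 : τ j u = u' := by
      ext i
      have := congrFun hu' (i, j)
      simpa [pv, Pi.single_eq_of_ne hj] using this
    have e2 : τ j₀ u = u' := by
      ext i
      have := congrFun hu' (i, j₀)
      simpa [pv, Pi.single_eq_of_ne (Ne.symm hj)] using this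
    rw [e1, e2]
  refine ⟨Matrix.of fun i i' => τ j₀ (Pi.single i' 1) i, ?_⟩
  apply Matrix.ext_of_mulVec_single
  rintro ⟨i', j⟩
  rw [← pv_single, hτ, h2, kron_pv, Matrix.one_mulVec]
  congr 1
  ext i
  rw [Matrix.mulVec_single_one]
  rfl

/-- the dichotomy for overgroups of tensor products -/
theorem main [Fintype F] (hd : 2 ≤ d) (hdm : d < m) (hex : ¬ (d = 2 ∧ Fintype.card F = 2)) (hX : HasK X) :
    specialLinear (Fin d × Fin m) F ≤ X ∨ X ≤ kroneckerSubgroup d m F := by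
  classical
  by_cases hns : specialLinear (Fin d × Fin m) F ≤ X
  · exact Or.inl hns
  right
  have hstd : ∀ D, IsD X D → ∃ w : Fin m → F, w ≠ 0 ∧ D = Dw d w := by
    intro D hD
    by_contra hcon
    push Not at hcon
    obtain ⟨D₁, D₂, h1, h2, h3, h4⟩ := exists_pair hd hdm hex hX hns hD hcon
    exact no_pair hd hdm hex hX hns h1 h2 h3 h4
  have hne : Nonempty (Fin d × Fin m) := ⟨(⟨0, by omega⟩, ⟨0, by omega⟩)⟩
  intro g hg
  have hgD : ∀ w : Fin m → F, w ≠ 0 → ∃ w' : Fin m → F, w' ≠ 0 ∧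
      (Dw d w).map (Matrix.toLin' (g : Matrix (Fin d × Fin m) (Fin d × Fin m) F)) = Dw d w' :=
    fun w hw => hstd _ ((IsD.std hw).map hg)
  have hgD' : ∀ w : Fin m → F, w ≠ 0 → ∃ w' : Fin m → F, w' ≠ 0 ∧
      (Dw d w').map (Matrix.toLin' (g : Matrix (Fin d × Fin m) (Fin d × Fin m) F)) = Dw d w := by
    intro w hw
    obtain ⟨w', hw', h⟩ := hstd _ ((IsD.std hw).map (X.inv_mem hg))
    refine ⟨w', hw', ?_⟩
    rw [← h, ← Submodule.map_comp, ← Matrix.toLin'_mul, ← Units.val_mul, mul_inv_cancel, Units.val_one,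
      Matrix.toLin'_one, Submodule.map_id]
  have hcr : ∀ X : Matrix (Fin d × Fin m) (Fin d × Fin m) F, H97.AschUnits.cr (Equiv.refl _) (1 : GL (Fin d × Fin m) F) X = X := by
    intro X
    rw [H97.AschUnits.cr_apply, inv_one, Units.val_one, mul_one, one_mul]
    rfl
  have h1 := H97.AschTensor.normalizer_tensor (Equiv.refl (Fin d × Fin m)) (1 : GL (Fin d × Fin m) F) g (by
    intro Y
    have h2 := kron_one_of_pres (T := (g : Matrix (Fin d × Fin m) (Fin d × Fin m) F) * (Y ⊗ₖ (1 : Matrix (Fin m) (Fin m) F)) *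
      ((g⁻¹ : GL (Fin d × Fin m) F) : Matrix (Fin d × Fin m) (Fin d × Fin m) F)) (by omega) (by
        intro w hw v hv
        obtain ⟨w', hw', he⟩ := hgD' w hw
        rw [← he] at hv
        obtain ⟨x, hx, rfl⟩ := hv
        obtain ⟨u, rfl⟩ := mem_Dw.mp hx
        rw [Matrix.toLin'_apply, ← Matrix.mulVec_mulVec, inv_cancel_left, ← Matrix.mulVec_mulVec, kron_pv, Matrix.one_mulVec,
          ← he]
        exact ⟨_, mem_Dw.mpr ⟨_, rfl⟩, Matrix.toLin'_apply _ _⟩)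
    obtain ⟨Y', hY'⟩ := h2
    exact ⟨Y', by rw [hcr, hcr, hY']⟩)
  obtain ⟨a, b, hab⟩ := (H97.AschTensor.mem_tensorProductSubgroup_iff _ _ g).mp h1
  exact ⟨a, b, by rw [hab, hcr]⟩

end H96.TenMax4
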