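import Mathlib
import Cfsg.Agent.Lib.H96.StMain
import Cfsg.Agent.Lib.H95.OBridge
import Cfsg.Agent.Lib.H97.AschTensor
import Cfsg.Agent.Lib.H97.AschLinear
import Cfsg.Agent.Lib.H96.TenMax4

set_option autoImplicit false
set_option linter.unusedSectionVars false
set_option linter.unusedVariables false
set_option linter.unusedSimpArgs false

/-!
The stabiliser of a tensor product of two symplectic forms in the orthogonal group.
-/

namespace H96.StFin

open Module QuadraticMap H17.OrthAbs H95.OGeo H95.OSie H96.StAlg H96.StBase H96.StN H96.StOm H48.QuadSplit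
  H96.StNorm H96.StFus H96.StMain

section abs

variable {F U W V : Type*} [Field F] [AddCommGroup U] [Module F U] [AddCommGroup W] [Module F W] [AddCommGroup V]
  [Module F V] [FiniteDimensional F U] [FiniteDimensional F W]
variable {B₁ : LinearMap.BilinForm F U} {B₂ : LinearMap.BilinForm F W} {τ : U →ₗ[F] W →ₗ[F] V} {Q : QuadraticForm F V}
variable {X : Subgroup (V ≃ₗ[F] V)} {h : TS B₁ B₂ τ Q}

/-- the identity is a combination of the basic self-adjoint endomorphisms -/
lemma one_mem {B : LinearMap.BilinForm F U} (hB : Sp B) (S : Submodule F (Module.End F U))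
    (hS : ∀ a b, rho B a b - rho B b a ∈ S) : (1 : Module.End F U) ∈ S := by
  classical
  let b := Module.finBasis F U
  have h1 : ∀ i, ∃ y, ∀ x, B x y = b.coord i x := fun i => hB.repr (b.coord i)
  choose y hy using h1
  have hsum : ∀ x, x = ∑ i, B x (y i) • b i := by
    intro x
    conv_lhs => rw [← b.sum_repr x]
    exact Finset.sum_congr rfl (fun i _ => by rw [hy]; rfl)
  have key : ∀ s : Finset (Fin (finrank F U)), ∑ i ∈ s, ∑ k ∈ s, B (y i) (y k) • rho B (b i) (b k) ∈ S := by
    intro s
    induction s using Finset.induction_on with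
    | empty => simp
    | insert a s ha ih =>
      rw [Finset.sum_insert ha, Finset.sum_insert ha, hB.alt, zero_smul, zero_add]
      have h2 : ∑ i ∈ s, ∑ k ∈ insert a s, B (y i) (y k) • rho B (b i) (b k) =
          ∑ i ∈ s, B (y i) (y a) • rho B (b i) (b a) + ∑ i ∈ s, ∑ k ∈ s, B (y i) (y k) • rho B (b i) (b k) := by
        rw [← Finset.sum_add_distrib]
        exact Finset.sum_congr rfl (fun i _ => by rw [Finset.sum_insert ha])
      rw [h2, ← add_assoc, ← Finset.sum_add_distrib]
      refine S.add_mem (S.sum_mem fun i _ => ?_) ih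
      rw [hB.flip (y i) (y a), neg_smul, ← sub_eq_add_neg, ← smul_sub]
      exact S.smul_mem _ (hS _ _)
  have h3 := key Finset.univ
  convert h3 using 1
  ext x
  rw [Module.End.one_apply, LinearMap.sum_apply]
  conv_lhs => rw [hsum x]
  refine Finset.sum_congr rfl (fun i _ => ?_)
  rw [LinearMap.sum_apply]
  simp only [LinearMap.smul_apply, rho_apply, smul_smul]
  rw [← Finset.sum_smul]
  congr 1
  conv_lhs => rw [hsum (y i)]
  simp only [map_sum, map_smul, smul_eq_mul]

/-- the root elements belong to the derived group -/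
theorem root_omega [FiniteDimensional F V] [Finite F] (h : TS B₁ B₂ τ Q) (hQ : ND Q) (hV : 9 ≤ finrank F V) (w : W) (c : F) :
    In ⁅O Q, O Q⁆ (c • K h 1 w w) := by
  let S : Submodule F (Module.End F U) :=
    { carrier := {n | ∀ c : F, In ⁅O Q, O Q⁆ (c • K h n w w)}
      add_mem' := by
        intro n n' hn hn' c
        rw [K_add, smul_add]
        refine (hn c).mul (hn' c) fun v => ?_
        simp [K_apply, h.s₂.alt]
      zero_mem' := by
        intro c
        have : c • K h 0 w w = 0 := by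
          ext v
          simp [K_apply]
        rw [this]
        exact In.zero
      smul_mem' := by
        intro d n hn c
        rw [K_smul, smul_smul]
        exact hn _ }
  have h1 : (1 : Module.End F U) ∈ S := by
    apply one_mem h.s₁
    intro a b c
    have hp : polar Q (τ (c • b) w) (τ a w) = 0 := by rw [h.qp, h.s₂.alt, mul_zero]
    refine ⟨_, sie_mem_omega hQ hV (h.q0 _ _) hp, fun v => ?_⟩
    rw [sie_apply (h.q0 _ _) hp, h.q0, LinearMap.smul_apply, K_apply, LinearMap.sub_apply, rho_apply, rho_apply, kap_left,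
      kap_left]
    simp only [map_sub, map_smul, LinearMap.sub_apply, LinearMap.smul_apply, p_smul']
    module
  exact h1 c

/-- the hypothesis for overgroups of the stabiliser -/
theorem hx_of [FiniteDimensional F V] [Finite F] (h : TS B₁ B₂ τ Q) (hQ : ND Q) (hV : 9 ≤ finrank F V)
    (hU : ∃ u : U, u ≠ 0) (hW : ∃ w : W, w ≠ 0) (h1 : KrG h ⊓ ⁅O Q, O Q⁆ ≤ X) (h2 : X ≤ ⁅O Q, O Q⁆) : HX h X where
  le := h2.trans (omega_le_O Q)
  r₂ := by
    intro w c
    obtain ⟨g, hg, e⟩ := root_omega h hQ hV w c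
    refine ⟨g, h1 ⟨?_, hg⟩, e⟩
    apply kr_of_mp h hU hW
    intro f
    refine ⟨f + (c * B₂ f w) • w, 1, fun u => ?_⟩
    rw [e, LinearMap.smul_apply, K_apply, kap_pure]
    simp only [Module.End.one_apply, map_smul, LinearMap.smul_apply, map_add, smul_smul]
  r₁ := by
    intro u c
    obtain ⟨g, hg, e⟩ := root_omega h.symm hQ hV u c
    refine ⟨g, h1 ⟨?_, hg⟩, e⟩
    apply kr_of_mp h hU hW
    intro f
    refine ⟨f, 1 + c • rho B₁ u u, fun x => ?_⟩
    have h3 : K h.symm 1 u u (τ x f) = B₁ x u • τ u f := by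
      have := kap_pure h.symm u f x
      rw [LinearMap.flip_apply] at this
      rw [K_apply, this, Module.End.one_apply, map_smul, LinearMap.smul_apply, LinearMap.flip_apply]
    rw [e, LinearMap.smul_apply, h3, LinearMap.add_apply, Module.End.one_apply, LinearMap.smul_apply, rho_apply,
      map_add, LinearMap.add_apply, map_smul, map_smul, LinearMap.smul_apply, LinearMap.smul_apply]

lemma exists_not_span {M : Type*} [AddCommGroup M] [Module F M] [FiniteDimensional F M] (x : M) (hM : 2 ≤ finrank F M) :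
    ∃ y, y ∉ Submodule.span F {x} := by
  classical
  by_contra hcon
  push Not at hcon
  have h1 : (⊤ : Submodule F M) ≤ Submodule.span F {x} := fun y _ => hcon y
  have h2 := Submodule.finrank_mono h1
  rw [finrank_top] at h2
  have h3 : finrank F (Submodule.span F ({x} : Set M)) ≤ 1 := by
    have h4 := finrank_span_finset_le_card (R := F) ({x} : Finset M)
    rw [Finset.coe_singleton, Finset.card_singleton] at h4
    exact h4
  omega

/-- a root element outside the tensor product group -/
theorem proper [FiniteDimensional F V] [Finite F] (h : TS B₁ B₂ τ Q) (hQ : ND Q) (hV : 9 ≤ finrank F V)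
    (hd : 2 ≤ finrank F U) (hm : 6 ≤ finrank F W) : ∃ g ∈ ⁅O Q, O Q⁆, g ∉ KrG h := by
  obtain ⟨u, hu⟩ : ∃ u : U, u ≠ 0 := by
    obtain ⟨u, hu⟩ := (finrank_pos_iff_exists_ne_zero (R := F) (M := U)).mp (by omega)
    exact ⟨u, hu⟩
  have hm0 : 0 < finrank F W := by omega
  obtain ⟨w₁, hw₁⟩ := (finrank_pos_iff_exists_ne_zero (R := F) (M := W)).mp hm0
  obtain ⟨w₂, hw₂⟩ := exists_not_span (F := F) w₁ (by omega)
  have hw₂' := span_symm hw₁ hw₂
  obtain ⟨u', hu'⟩ := exists_not_span (F := F) u hd
  have hu'0 : u' ≠ 0 := by rintro rfl; exact hu' (Submodule.zero_mem _)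
  have hp : polar Q (τ u w₁) (τ u w₂) = 0 := by rw [h.qp, h.s₁.alt, zero_mul]
  refine ⟨sie Q (τ u w₁) (τ u w₂), sie_mem_omega hQ hV (h.q0 _ _) hp, ?_⟩
  rintro ⟨a, b, hab⟩
  have hs : ∀ x y, sie Q (τ u w₁) (τ u w₂) (τ x y) = τ x y + B₁ x u • τ u (B₂ y w₁ • w₂ - B₂ y w₂ • w₁) := by
    intro x y
    rw [sie_apply (h.q0 _ _) hp, h.q0, h.qp, h.qp]
    simp only [map_sub, map_smul, smul_sub, smul_smul]
    module
  -- vectors fixed
  obtain ⟨t, ht1, ht2, -, ht3, -⟩ := exists_perp3 B₂ hm w₁ w₂ w₂ (finrank_span2 w₁ w₁) (finrank_span2 w₁ w₁)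
  have ht0 : t ≠ 0 := by rintro rfl; exact ht3 (Submodule.zero_mem _)
  have hfix : ∀ x, τ (a x) (b t) = τ x t := by
    intro x
    rw [← hab, hs, ht1, ht2]
    simp
  -- b t is a multiple of t and a is a scalar
  have hspan : ∀ x, a x ∈ Submodule.span F {x} := by
    intro x
    by_contra hx
    obtain ⟨y, hy1, hy2⟩ := exists_sep01 h.symm hx
    have e1 : ∀ u f, kap h.symm y (τ u f) = B₁ u y • f := by
      intro u f
      have := kap_pure h.symm y f u
      rwa [LinearMap.flip_apply] at this
    have h2 := congrArg (kap h.symm y) (hfix x)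
    rw [e1, e1, hy1, hy2, zero_smul, one_smul] at h2
    exact ht0 (b.injective (by rw [h2, map_zero]))
  obtain ⟨c, hc⟩ := scalar_of_span (n := a.toLinearMap) hspan
  have hcu : ∀ u, a u = c • u := fun u => LinearMap.congr_fun hc u
  -- fixed vectors on u ⊗ W
  have h1 : ∀ y, c • b y = y := by
    intro y
    have h2 := hab u y
    rw [hs, h.s₁.alt, zero_smul, add_zero, hcu, map_smul, LinearMap.smul_apply, ← map_smul] at h2
    have h3 := pure_eq_zero h.symm hu (u := c • b y - y) (by
      rw [LinearMap.flip_apply, map_sub, ← h2, sub_self])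
    exact sub_eq_zero.mp h3
  -- contradiction
  obtain ⟨x, hx⟩ : ∃ x, B₁ x u ≠ 0 := by
    by_contra hcon
    push Not at hcon
    apply hu
    apply h.s₁.nd
    intro y
    rw [h.s₁.flip, hcon, neg_zero]
  obtain ⟨z, hz1, hz2⟩ := exists_sep01 h hw₂'
  have h2 := hab x z
  have e3 : τ (a x) (b z) = τ x z := by rw [hcu, map_smul, LinearMap.smul_apply, ← map_smul, h1]
  rw [hs, e3] at h2
  have h3 : B₁ x u • τ u (B₂ z w₁ • w₂ - B₂ z w₂ • w₁) = 0 := by
    have := congrArg (fun v => v - τ x z) h2
    simpa using this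
  have h4 := (smul_eq_zero.mp h3).resolve_left hx
  have h5 : B₂ z w₁ • w₂ - B₂ z w₂ • w₁ = 0 := pure_eq_zero h.symm hu (by rw [LinearMap.flip_apply]; exact h4)
  have e1 : B₂ z w₁ = -1 := by rw [h.s₂.flip, hz2]
  have e2 : B₂ z w₂ = 0 := by rw [h.s₂.flip, hz1, neg_zero]
  rw [e1, e2, zero_smul, sub_zero, neg_one_smul, neg_eq_zero] at h5
  apply hw₂
  rw [h5]
  exact Submodule.zero_mem _

end abs

end H96.StFin
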