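import Mathlib
import Cfsg.Agent.Lib.H96.StFin

set_option autoImplicit false
set_option linter.unusedSectionVars false
set_option linter.unusedVariables false
set_option linter.unusedSimpArgs false

/-!
The stabiliser of a tensor product of two symplectic forms in the orthogonal group: translation.
-/

namespace H96.StBr

open Module QuadraticMap H17.OrthAbs H95.OGeo H95.OSie H96.StAlg H96.StBase H96.StN H96.StOm H48.QuadSplit
  H96.StNorm H96.StFus H96.StMain H96.StFin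
open Cfsg Cfsg.Geo Matrix H95.Bridge H95.OBridge H97.AschPosE H97.AschUnits
open scoped Kronecker

variable {ι : Type} [Fintype ι] [DecidableEq ι] {F : Type*} [Field F] {n₁ n₂ : ℕ}

/-- the tensor map -/
noncomputable def tm (e : ι ≃ Fin n₁ × Fin n₂) (P : GL ι F) : (Fin n₁ → F) →ₗ[F] (Fin n₂ → F) →ₗ[F] (ι → F) :=
  LinearMap.mk₂ F (fun x y => (P : Matrix ι ι F) *ᵥ (pv x y ∘ e))
    (fun x x' y => by rw [pv_add_left, ← Matrix.mulVec_add]; rfl)
    (fun c x y => by rw [pv_smul_left, ← Matrix.mulVec_smul]; rfl)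
    (fun x y y' => by rw [pv_add_right, ← Matrix.mulVec_add]; rfl)
    (fun c x y => by rw [pv_smul_right, ← Matrix.mulVec_smul]; rfl)

lemma tm_apply (e : ι ≃ Fin n₁ × Fin n₂) (P : GL ι F) (x : Fin n₁ → F) (y : Fin n₂ → F) :
    tm e P x y = (P : Matrix ι ι F) *ᵥ (pv x y ∘ e) := rfl

lemma tm_span (e : ι ≃ Fin n₁ × Fin n₂) (P : GL ι F) (S : Submodule F (ι → F)) (hS : ∀ u w, tm e P u w ∈ S) : S = ⊤ := by
  rw [eq_top_iff]
  intro v _
  obtain ⟨x, hx⟩ : ∃ x : Fin n₁ × Fin n₂ → F, x = (((P⁻¹ : GL ι F) : Matrix ι ι F) *ᵥ v) ∘ e.symm := ⟨_, rfl⟩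
  have h1 : v = (P : Matrix ι ι F) *ᵥ (x ∘ e) := by
    rw [hx, Function.comp_assoc, Equiv.symm_comp_self, Function.comp_id, Matrix.mulVec_mulVec, ← Units.val_mul,
      mul_inv_cancel, Units.val_one, Matrix.one_mulVec]
  let L : (Fin n₁ × Fin n₂ → F) →ₗ[F] (ι → F) :=
    (Matrix.toLin' (P : Matrix ι ι F)) ∘ₗ (LinearMap.funLeft F F e)
  have hL : ∀ x, L x = (P : Matrix ι ι F) *ᵥ (x ∘ e) := fun x => rfl
  have h2 : (⊤ : Submodule F (Fin n₁ × Fin n₂ → F)) ≤ S.comap L := by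
    rw [← (Pi.basisFun F (Fin n₁ × Fin n₂)).span_eq, Submodule.span_le]
    rintro _ ⟨⟨i, j⟩, rfl⟩
    rw [Pi.basisFun_apply, ← pv_single]
    exact hS _ _
  rw [h1, ← hL]
  exact h2 trivial

lemma fog_pv (G₁ : Matrix (Fin n₁) (Fin n₁) F) (G₂ : Matrix (Fin n₂) (Fin n₂) F) (u u' : Fin n₁ → F) (w w' : Fin n₂ → F) :
    formOfGram id (G₁ ⊗ₖ G₂) (pv u w) (pv u' w') = formOfGram id G₁ u u' * formOfGram id G₂ w w' := by
  simp only [formOfGram, Fintype.sum_prod_type, Matrix.kroneckerMap_apply, id, pv, Finset.sum_mul_sum]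
  refine Finset.sum_congr rfl fun i _ => ?_
  refine Finset.sum_congr rfl fun j _ => ?_
  refine Finset.sum_congr rfl fun k _ => Finset.sum_congr rfl fun l _ => ?_
  ring

/-- the bilinear form attached to a two-argument form -/
noncomputable def bf {κ : Type} {f : (κ → F) → (κ → F) → F} (hf : IsBilinearForm f) : LinearMap.BilinForm F (κ → F) :=
  LinearMap.mk₂ F f hf.add_left hf.smul_left hf.add_right hf.smul_right

lemma bf_apply {κ : Type} {f : (κ → F) → (κ → F) → F} (hf : IsBilinearForm f) (x y : κ → F) : bf hf x y = f x y := rfl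

lemma fog_gram {κ : Type} [Fintype κ] [DecidableEq κ] {f : (κ → F) → (κ → F) → F} (hf : IsBilinearForm f) (x y : κ → F) :
    formOfGram id (gramMatrix f) x y = f x y := by
  have h1 : bf hf x y = (Matrix.toBilin' (LinearMap.BilinForm.toMatrix' (bf hf))) x y := by
    rw [Matrix.toBilin'_toMatrix']
  rw [← bf_apply hf, h1, Matrix.toBilin'_apply]
  rfl

/-- the tensor structure -/
theorem ts_of (Q : QuadraticForm F (ι → F)) (e : ι ≃ Fin n₁ × Fin n₂) (P : GL ι F)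
    {f₁ : (Fin n₁ → F) → (Fin n₁ → F) → F} {f₂ : (Fin n₂ → F) → (Fin n₂ → F) → F} (hf₁ : IsSymplecticForm f₁)
    (hf₂ : IsSymplecticForm f₂) (hT : IsTensorFormStructure id (QuadraticMap.polar Q) f₁ f₂ e P)
    (hpure : ∀ (x₁ : Fin n₁ → F) (x₂ : Fin n₂ → F), Q ((P : Matrix ι ι F) *ᵥ ((fun a : Fin n₁ × Fin n₂ => x₁ a.1 * x₂ a.2) ∘ e)) = 0) :
    ∃ c : F, TS (c • bf hf₁.bilinear) (bf hf₂.bilinear) (tm e P) Q := by
  obtain ⟨c, hc, hT⟩ := hT
  refine ⟨c, ⟨⟨?_, ?_⟩, ⟨?_, ?_⟩, tm_span e P, fun u w => hpure u w, ?_⟩⟩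
  · intro x
    rw [LinearMap.smul_apply, LinearMap.smul_apply, bf_apply, hf₁.alternating, smul_zero]
  · intro x hx
    by_contra hx0
    obtain ⟨y, hy⟩ := (hf₁.nondegenerate x hx0).2
    have h1 := hx y
    rw [LinearMap.smul_apply, LinearMap.smul_apply, bf_apply, smul_eq_mul] at h1
    exact (mul_ne_zero hc hy) h1
  · intro x
    rw [bf_apply, hf₂.alternating]
  · intro x hx
    by_contra hx0
    obtain ⟨y, hy⟩ := (hf₂.nondegenerate x hx0).2
    exact hy (hx y)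
  · intro u w u' w'
    rw [tm_apply, tm_apply, hT, fog_pv, fog_gram hf₁.bilinear, fog_gram hf₂.bilinear, LinearMap.smul_apply,
      LinearMap.smul_apply, bf_apply, bf_apply, smul_eq_mul]
    ring

lemma cr_mulVec (e : ι ≃ Fin n₁ × Fin n₂) (P : GL ι F) (X : Matrix (Fin n₁ × Fin n₂) (Fin n₁ × Fin n₂) F)
    (x : Fin n₁ × Fin n₂ → F) : cr e P X *ᵥ ((P : Matrix ι ι F) *ᵥ (x ∘ e)) = (P : Matrix ι ι F) *ᵥ ((X *ᵥ x) ∘ e) := by
  rw [cr_apply, Matrix.mulVec_mulVec, mul_assoc, ← Units.val_mul, inv_mul_cancel, Units.val_one, mul_one,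
    ← Matrix.mulVec_mulVec]
  congr 1
  ext i
  simp only [mulVec, dotProduct, Function.comp_apply, Matrix.submatrix_apply]
  exact e.sum_comp (fun j => X (e i) j * x j)

/-- membership in the stabiliser -/
theorem mem_tensor_iff {B₁ : LinearMap.BilinForm F (Fin n₁ → F)} {B₂ : LinearMap.BilinForm F (Fin n₂ → F)} {Q : QuadraticForm F (ι → F)}
    (e : ι ≃ Fin n₁ × Fin n₂) (P : GL ι F) (h : TS B₁ B₂ (tm e P) Q) (g : GL ι F) :
    g ∈ tensorProductSubgroup n₁ n₂ e P ↔ toEq ι F g ∈ KrG h := by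
  rw [H97.AschTensor.mem_tensorProductSubgroup_iff]
  constructor
  · rintro ⟨a, b, hab⟩
    refine ⟨toEq _ F a, toEq _ F b, fun u f => ?_⟩
    rw [toEq_apply, tm_apply, hab, cr_mulVec, kron_pv, tm_apply, toEq_apply, toEq_apply]
  · rintro ⟨a, b, hab⟩
    refine ⟨(toEq _ F).symm a, (toEq _ F).symm b, ?_⟩
    apply Matrix.toLin'.injective
    apply h.ext
    intro u w
    have h1 := hab u w
    rw [toEq_apply] at h1
    rw [Matrix.toLin'_apply, Matrix.toLin'_apply, h1, tm_apply e P u w, cr_mulVec, kron_pv, tm_apply, toEq_symm_mulVec,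
      toEq_symm_mulVec]

theorem tensor_maximal [Fintype F] (hn : 13 ≤ Fintype.card ι) (Q : (ι → F) → F) (hQ : IsNondegenerateQuadraticForm Q)
    (h12 : n₁ < n₂) (hex : ¬ (Fintype.card F = 2 ∧ n₁ = 2)) (e : ι ≃ Fin n₁ × Fin n₂) (P : GL ι F)
    (f₁ : (Fin n₁ → F) → (Fin n₁ → F) → F) (f₂ : (Fin n₂ → F) → (Fin n₂ → F) → F)
    (hf₁ : IsSymplecticForm f₁) (hf₂ : IsSymplecticForm f₂) (hT : IsTensorFormStructure id (QuadraticMap.polar Q) f₁ f₂ e P)
    (hpure : (∀ (x₁ : Fin n₁ → F) (x₂ : Fin n₂ → F), Q ((P : Matrix ι ι F) *ᵥ ((fun a : Fin n₁ × Fin n₂ => x₁ a.1 * x₂ a.2) ∘ e)) = 0)) :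
    IsMaximalIn (omegaGL Q) (tensorProductSubgroup n₁ n₂ e P ⊓ omegaGL Q) := by
  obtain ⟨Q, rfl, hND⟩ := exists_quad hQ
  obtain ⟨c, h⟩ := ts_of Q e P hf₁ hf₂ hT hpure
  have hcard := Fintype.card_congr e
  rw [Fintype.card_prod, Fintype.card_fin, Fintype.card_fin] at hcard
  have hev1 := H97.AschLinear.even_of_symplectic hf₁
  have hev2 := H97.AschLinear.even_of_symplectic hf₂
  rw [Fintype.card_fin] at hev1 hev2
  have hn₁ : 2 ≤ n₁ := by
    obtain ⟨k, hk⟩ := hev1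
    by_contra hlt
    have : n₁ = 0 := by omega
    rw [this, zero_mul] at hcard
    omega
  have hn₂ : 6 ≤ n₂ := by
    obtain ⟨k, hk⟩ := hev2
    by_contra hlt
    have h1 : n₂ ≤ 4 := by omega
    have h2 : n₁ * n₂ ≤ 3 * 4 := Nat.mul_le_mul (by omega) h1
    omega
  have hfd : finrank F (Fin n₁ → F) = n₁ := by rw [finrank_fintype_fun_eq_card, Fintype.card_fin]
  have hfm : finrank F (Fin n₂ → F) = n₂ := by rw [finrank_fintype_fun_eq_card, Fintype.card_fin]
  have hfV : 9 ≤ finrank F (ι → F) := by rw [finrank_fintype_fun_eq_card]; omega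
  have hexx : (∃ c : F, c ≠ 0 ∧ c ≠ 1) ∨ 3 ≤ finrank F (Fin n₁ → F) := by
    by_cases hc : Fintype.card F = 2
    · right
      rw [hfd]
      have : n₁ ≠ 2 := fun h => hex ⟨hc, h⟩
      omega
    · left
      obtain ⟨c, h1, h2⟩ := exists_ne01 hc
      exact ⟨c, h1, h2⟩
  have hU : ∃ u : Fin n₁ → F, u ≠ 0 := by
    obtain ⟨u, hu⟩ := (finrank_pos_iff_exists_ne_zero (R := F) (M := Fin n₁ → F)).mp (by omega)
    exact ⟨u, hu⟩
  have hW : ∃ u : Fin n₂ → F, u ≠ 0 := by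
    obtain ⟨u, hu⟩ := (finrank_pos_iff_exists_ne_zero (R := F) (M := Fin n₂ → F)).mp (by omega)
    exact ⟨u, hu⟩
  apply isMaximalIn_of
  · obtain ⟨g, hg, hg'⟩ := proper h hND hfV (by omega) (by omega)
    refine ⟨(toEq ι F).symm g, ?_, ?_⟩
    · rw [mem_omegaGL, MulEquiv.apply_symm_apply]; exact hg
    · rw [mem_tensor_iff e P h, MulEquiv.apply_symm_apply]; exact hg'
  · rintro M hM1 hM2 ⟨g, hg, hg'⟩
    have hX : HX h (M.map (toEq ι F).toMonoidHom) := by
      refine hx_of h hND hfV hU hW ?_ ?_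
      · rintro x ⟨hx1, hx2⟩
        rw [mem_map_toEq]
        apply hM1
        refine ⟨?_, ?_⟩
        · change _ ∈ tensorProductSubgroup n₁ n₂ e P
          rw [mem_tensor_iff e P h, MulEquiv.apply_symm_apply]; exact hx1
        · change _ ∈ omegaGL (⇑Q)
          rw [mem_omegaGL, MulEquiv.apply_symm_apply]; exact hx2
      · rintro _ ⟨x, hx, rfl⟩
        exact (mem_omegaGL Q x).mp (hM2 hx)
    rcases main hND hX (by omega) (by omega) (by omega) (by omega) hexx with h1 | h1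
    · intro x hx
      have h2 := h1 ((mem_omegaGL Q x).mp hx)
      rw [mem_map_toEq, MulEquiv.symm_apply_apply] at h2
      exact h2
    · exfalso
      apply hg'
      rw [mem_tensor_iff e P h]
      exact h1 ⟨g, hg, rfl⟩

end H96.StBr
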