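import Cfsg.Agent.Lib.H96.FrMain
import Cfsg.Agent.Lib.H99.FrC

set_option autoImplicit false

/-! Frame stabilisers in dimension at least nine, geometric form. -/

namespace H96.T12

open Module QuadraticMap Cfsg Cfsg.Geo
open scoped Matrix MatrixGroups

variable {F : Type*} [Field F] [Fintype F]

theorem frame {n : ℕ} (hn : 9 ≤ n) (Q : (Fin n → F) → F) (hQ : IsNondegenerateQuadraticForm Q)
    (hprime : (Fintype.card F).Prime) (hodd : Odd (Fintype.card F))
    {t : ℕ} (D : Fin t → Submodule F (Fin n → F)) (hD : IsOrthogonalMDecomposition Q 1 D) :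
    IsMaximalIn (omegaGL Q) (decompositionStabilizer D ⊓ omegaGL Q) := by
  have ht := H99.FrC.t_eq hD
  rw [Fintype.card_fin] at ht
  refine H99.FrC.gen hodd (by omega) Q hQ D hD (fun Q c hc hQ K hK hn => ?_)
  exact H96.Fr.main hprime (H95.OBridge.two_ne hodd) (Or.inr (by rw [Fintype.card_fin]; omega)) Q hc hQ hK hn

end H96.T12
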