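import Mathlib
import Cfsg.Agent.Lib.H96.StBr

set_option autoImplicit false
set_option linter.unusedSectionVars false
set_option linter.unusedVariables false

/-! The symplectic tensor product stabiliser, dimension at least twelve. -/

namespace H96.T12

open Module QuadraticMap H17.OrthAbs H95.OGeo H95.OSie H96.StAlg H96.StBase H96.StN H96.StOm H48.QuadSplit
  H96.StNorm H96.StFus H96.StMain H96.StFin H96.StBr
open Cfsg Cfsg.Geo Matrix H95.Bridge H95.OBridge H97.AschPosE H97.AschUnits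
open scoped Kronecker

variable {ι : Type} [Fintype ι] [DecidableEq ι] {F : Type*} [Field F] {n₁ n₂ : ℕ}

theorem tensor12 [Fintype F] (hn : 12 ≤ Fintype.card ι) (hn₂ : 6 ≤ n₂) (Q : (ι → F) → F) (hQ : IsNondegenerateQuadraticForm Q)
    (h12 : n₁ < n₂) (hex : ¬ (Fintype.card F = 2 ∧ n₁ = 2)) (e : ι ≃ Fin n₁ × Fin n₂) (P : GL ι F)
    (f₁ : (Fin n₁ → F) → (Fin n₁ → F) → F) (f₂ : (Fin n₂ → F) → (Fin n₂ → F) → F)
    (hf₁ : IsSymplecticForm f₁) (hf₂ : IsSymplecticForm f₂) (hT : IsTensorFormStructure id (QuadraticMap.polar Q) f₁ f₂ e P)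
    (hpure : (∀ (x₁ : Fin n₁ → F) (x₂ : Fin n₂ → F), Q ((P : Matrix ι ι F) *ᵥ ((fun a : Fin n₁ × Fin n₂ => x₁ a.1 * x₂ a.2) ∘ e)) = 0)) :
    IsMaximalIn (omegaGL Q) (tensorProductSubgroup n₁ n₂ e P ⊓ omegaGL Q) := by
  obtain ⟨Q, rfl, hND⟩ := exists_quad hQ
  obtain ⟨c, h⟩ := ts_of Q e P hf₁ hf₂ hT hpure
  have hcard := Fintype.card_congr e
  rw [Fintype.card_prod, Fintype.card_fin, Fintype.card_fin] at hcard
  have hev1 := H97.AschLinear.even_of_symplectic hf₁
  have hev2 := H97.AschLinear.even_of_symplectic hf₂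
  rw [Fintype.card_fin] at hev1 hev2
  have hn₁ : 2 ≤ n₁ := by
    obtain ⟨k, hk⟩ := hev1
    by_contra hlt
    have : n₁ = 0 := by omega
    rw [this, zero_mul] at hcard
    omega
  have hfd : finrank F (Fin n₁ → F) = n₁ := by rw [finrank_fintype_fun_eq_card, Fintype.card_fin]
  have hfm : finrank F (Fin n₂ → F) = n₂ := by rw [finrank_fintype_fun_eq_card, Fintype.card_fin]
  have hfV : 9 ≤ finrank F (ι → F) := by rw [finrank_fintype_fun_eq_card]; omega
  have hexx : (∃ c : F, c ≠ 0 ∧ c ≠ 1) ∨ 3 ≤ finrank F (Fin n₁ → F) := by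
    by_cases hc : Fintype.card F = 2
    · right
      rw [hfd]
      have : n₁ ≠ 2 := fun h => hex ⟨hc, h⟩
      omega
    · left
      obtain ⟨c, h1, h2⟩ := exists_ne01 hc
      exact ⟨c, h1, h2⟩
  have hU : ∃ u : Fin n₁ → F, u ≠ 0 := by
    obtain ⟨u, hu⟩ := (finrank_pos_iff_exists_ne_zero (R := F) (M := Fin n₁ → F)).mp (by omega)
    exact ⟨u, hu⟩
  have hW : ∃ u : Fin n₂ → F, u ≠ 0 := by
    obtain ⟨u, hu⟩ := (finrank_pos_iff_exists_ne_zero (R := F) (M := Fin n₂ → F)).mp (by omega)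
    exact ⟨u, hu⟩
  apply isMaximalIn_of
  · obtain ⟨g, hg, hg'⟩ := proper h hND hfV (by omega) (by omega)
    refine ⟨(toEq ι F).symm g, ?_, ?_⟩
    · rw [mem_omegaGL, MulEquiv.apply_symm_apply]; exact hg
    · rw [mem_tensor_iff e P h, MulEquiv.apply_symm_apply]; exact hg'
  · rintro M hM1 hM2 ⟨g, hg, hg'⟩
    have hX : HX h (M.map (toEq ι F).toMonoidHom) := by
      refine hx_of h hND hfV hU hW ?_ ?_
      · rintro x ⟨hx1, hx2⟩
        rw [mem_map_toEq]
        apply hM1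
        refine ⟨?_, ?_⟩
        · change _ ∈ tensorProductSubgroup n₁ n₂ e P
          rw [mem_tensor_iff e P h, MulEquiv.apply_symm_apply]; exact hx1
        · change _ ∈ omegaGL (⇑Q)
          rw [mem_omegaGL, MulEquiv.apply_symm_apply]; exact hx2
      · rintro _ ⟨x, hx, rfl⟩
        exact (mem_omegaGL Q x).mp (hM2 hx)
    rcases main hND hX (by omega) (by omega) (by omega) (by omega) hexx with h1 | h1
    · intro x hx
      have h2 := h1 ((mem_omegaGL Q x).mp hx)
      rw [mem_map_toEq, MulEquiv.symm_apply_apply] at h2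
      exact h2
    · exfalso
      apply hg'
      rw [mem_tensor_iff e P h]
      exact h1 ⟨g, hg, rfl⟩

end H96.T12
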