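import Mathlib
import Cfsg.Agent.Lib.H96.TeS

set_option autoImplicit false
set_option linter.unusedSectionVars false
set_option linter.unusedVariables false
set_option linter.unusedSimpArgs false

/-!
Overgroups of the tensor product of a symplectic and an orthogonal group without transvections:
the transvections of the symplectic group are good, vectors of small rank.
-/

namespace H96.TeP

open Module H95.SpBasic H96.TeBase H96.TeNorm H96.TeC H96.TeE H96.TeF H96.TeG H96.TeA H96.TeT H96.TeR H96.TeS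

variable {F U W V : Type*} [Field F] [AddCommGroup U] [Module F U] [AddCommGroup W] [Module F W] [AddCommGroup V]
  [Module F V] [FiniteDimensional F U] [FiniteDimensional F W]
variable {B₁ : LinearMap.BilinForm F U} {B₂ : LinearMap.BilinForm F W} {B : LinearMap.BilinForm F V}
  {τ : U →ₗ[F] W →ₗ[F] V} {X : Subgroup (V ≃ₗ[F] V)} {h : TE B₁ B₂ B τ (-1) 1}

/-- the rank of a square zero skew map -/
lemma rank_le (h : TE B₁ B₂ B τ (-1) 1) {g : V ≃ₗ[F] V} {u : U} {β : Module.End F W}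
    (him : ∀ x w, ∃ w', g (τ x (β w)) = τ u w') (hu : u ≠ 0) {w₁ w₂ w₃ : W} (h1 : β w₁ ≠ 0)
    (h2 : β w₂ ∉ Submodule.span F {β w₁}) (h3 : β w₃ ∉ Submodule.span F {β w₁, β w₂}) : 3 * finrank F U ≤ finrank F W := by
  obtain ⟨y, hy⟩ := h.f₁.one hu
  let L : U × U × U →ₗ[F] W := kap h.symm y ∘ₗ g.toLinearMap ∘ₗ
    (LinearMap.coprod (τ.flip (β w₁)) (LinearMap.coprod (τ.flip (β w₂)) (τ.flip (β w₃))))
  have hL : ∀ x : U × U × U, ∃ w', g (τ x.1 (β w₁) + (τ x.2.1 (β w₂) + τ x.2.2 (β w₃))) = τ u w' ∧ L x = w' := by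
    intro x
    obtain ⟨a, ha⟩ := him x.1 w₁
    obtain ⟨b, hb⟩ := him x.2.1 w₂
    obtain ⟨c, hc⟩ := him x.2.2 w₃
    refine ⟨a + (b + c), by rw [map_add, map_add, ha, hb, hc, map_add, map_add], ?_⟩
    simp only [L, LinearMap.comp_apply, LinearMap.coprod_apply, LinearMap.flip_apply, LinearEquiv.coe_coe, map_add]
    rw [ha, hb, hc, kap_pure' h, kap_pure' h, kap_pure' h, hy, one_smul, one_smul, one_smul]
  have hinj : Function.Injective L := by
    rw [injective_iff_map_eq_zero]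
    intro x hx
    obtain ⟨w', e1, e3⟩ := hL x
    rw [hx] at e3
    rw [← e3, map_zero] at e1
    have h4 := (map_eq_zero_iff g g.injective).mp e1
    obtain ⟨z, hz1, hz2⟩ := h.f₂.sep _ h3
    have hza := hz1 (β w₁) (Submodule.subset_span (by simp))
    have hzb := hz1 (β w₂) (Submodule.subset_span (by simp))
    have e5 : x.2.2 = 0 := by
      have h5 := congrArg (kap h z) h4
      rw [map_add, map_add, kap_pure, kap_pure, kap_pure, hza, hzb, hz2, zero_smul, zero_smul, one_smul, zero_add, zero_add, map_zero] at h5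
      exact h5
    rw [e5, map_zero, LinearMap.zero_apply, add_zero] at h4
    obtain ⟨z₂, hz3, hz4⟩ := h.f₂.sep1 h2
    have e6 : x.2.1 = 0 := by
      have h5 := congrArg (kap h z₂) h4
      rw [map_add, kap_pure, kap_pure, hz3, hz4, zero_smul, one_smul, zero_add, map_zero] at h5
      exact h5
    rw [e6, map_zero, LinearMap.zero_apply, add_zero] at h4
    have e7 : x.1 = 0 := pure_eq_zero h h1 h4
    exact Prod.ext e7 (Prod.ext e6 e5)
  have h7 := LinearMap.finrank_le_finrank_of_injective hinj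
  rw [Module.finrank_prod, Module.finrank_prod] at h7
  omega

/-- the transvections of the symplectic group are good -/
theorem tu_good [Finite F] [Finite V] (H : Hy h X) (hd : 4 ≤ finrank F U) (hdm : finrank F W ≤ 2 * finrank F U) {p : ℕ}
    (hp : p.Prime) [CharP F p] {T : V ≃ₗ[F] V} (hT : T ∈ X) {u : U} (hu : u ≠ 0)
    {c : F} (hc : c ≠ 0) (hTv : ∀ v, T v = v + c • τ u (kap h.symm u v)) : GE τ X p T := by
  refine tu_good_aux H hd hT hu hc hTv fun g hg b hk => ?_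
  have hW : ∃ w : W, w ≠ 0 := by
    have := H.m3
    obtain ⟨w, hw⟩ := (finrank_pos_iff_exists_ne_zero (R := F) (M := W)).mp (by omega)
    exact ⟨w, hw⟩
  obtain ⟨β, hbβ, hββ, hsk, him, hne⟩ := claimC h H.two H.hX H.hU hW hT hg hu hc hTv hk
  have hdim := claimC_dim h hsk H.two him hne hu
  have hdm2 : 2 * finrank F U = finrank F W := by omega
  obtain ⟨w₁, hw₁⟩ := hne
  obtain ⟨w₂, hw₂⟩ := h.f₂.one hw₁
  have h0 : B₂ (β w₁) w₁ = 0 := by
    have h1 := hsk w₁ w₁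
    rw [h.f₂.flip w₁ (β w₁), one_mul] at h1
    have h3 : 2 * B₂ (β w₁) w₁ = 0 := by linear_combination h1
    exact (mul_eq_zero.mp h3).resolve_left H.two
  have h21 : B₂ (β w₂) w₁ = -1 := by rw [hsk, h.f₂.flip w₂, hw₂, mul_one]
  have hs : β w₂ ∉ Submodule.span F {β w₁} := not_span_of (B := B₂) h0 (by rw [h21]; exact neg_ne_zero.mpr one_ne_zero)
  have hrange : LinearMap.range β ≤ Submodule.span F {β w₁, β w₂} := by
    rintro _ ⟨w₃, rfl⟩
    by_contra h3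
    have := rank_le h him hu hw₁ hs h3
    omega
  have hr2 : finrank F (LinearMap.range β) ≤ 2 := (Submodule.finrank_mono hrange).trans (H96.StN.finrank_span2 _ _)
  have hrk := β.finrank_range_add_finrank_ker
  obtain ⟨y, hy, hyy⟩ := exists_ns h.f₂ H.two (S := LinearMap.ker β) (by omega)
  have hy0 : β y = 0 := hy
  have hee : B₂ (β w₁) (β w₁) = 0 := by rw [hsk, hββ, map_zero, neg_zero]
  have hye : B₂ y (β w₁) = 0 := by
    have h1 := hsk y w₁
    rw [hy0, map_zero, LinearMap.zero_apply] at h1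
    exact neg_eq_zero.mp h1.symm
  obtain ⟨R, hR, hR1, hR2⟩ := exists_sieg h H.two H.hX hee hye
  have hRg := r_good H (p := p) hw₁ hee hye hyy hR hR1 hR2 (Or.inr ⟨hdm2, by omega⟩)
  have hTp : ∀ x w, T (τ x w) = τ (x + (c * B₁ x u) • u) w := by
    intro x w
    rw [hTv, kap_pure' h]
    simp only [map_add, map_smul, LinearMap.add_apply, LinearMap.smul_apply, smul_smul]
  have eqv : ∀ {f g : V ≃ₗ[F] V}, (∀ x w, f (τ x w) = g (τ x w)) → f = g := by
    intro f g hfg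
    have : f.toLinearMap = g.toLinearMap := h.ext hfg
    exact LinearEquiv.toLinearMap_injective this
  have hRT : R * T = T * R := by
    apply eqv
    intro x w
    rw [LinearEquiv.mul_apply, LinearEquiv.mul_apply, hTp, hR1, hR1, hTp]
  have hRk : R * (g⁻¹ * T * g) = (g⁻¹ * T * g) * R := by
    apply eqv
    intro x w
    rw [LinearEquiv.mul_apply R (g⁻¹ * T * g), LinearEquiv.mul_apply (g⁻¹ * T * g) R, hk, hR1, hR1, hk]
    congr 1
    have hey := h.f₂.zero_flip hye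
    have e1 : B₂ (β w) y = 0 := by rw [hsk, hy0, map_zero, neg_zero]
    have e2 : B₂ (β w) (β w₁) = 0 := by rw [hsk, hββ, map_zero, neg_zero]
    rw [hbβ, hbβ, sg_apply, sg_apply]
    simp only [map_add, map_sub, map_smul, LinearMap.add_apply, e1, e2, hy0, hββ, smul_zero, add_zero, sub_zero]
    abel
  obtain ⟨k, hkX, ⟨a₀, b₀, hab⟩, hks, -⟩ := transfer hp (s := T) (s' := g⁻¹ * T * g) (g := g) rfl hg hRg hRg hRT hRk
  -- the element is a tensor product in two ways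
  have hks' : k * T = (g⁻¹ * T * g) * k := by rw [← hks]; group
  have h1 : ∀ x w, τ (a₀ (x + (c * B₁ x u) • u)) (b₀ w) = τ (a₀ x) (b (b₀ w)) := by
    intro x w
    have e1 := congrArg (fun f : V ≃ₗ[F] V => f (τ x w)) hks'
    simp only [LinearEquiv.mul_apply k T, LinearEquiv.mul_apply (g⁻¹ * T * g) k] at e1
    rw [hTp, hab, hab, hk] at e1
    exact e1
  have halt := fun x => alt_of h.f₁ H.two x
  have h3 : ∀ w, b w = w := by
    intro w
    have e1 := h1 u (b₀⁻¹ w)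
    rw [halt, mul_zero, zero_smul, add_zero] at e1
    have e2 : b₀ (b₀⁻¹ w) = w := b₀.apply_symm_apply w
    rw [e2] at e1
    exact (pure_inj' h (fun h0 => hu ((map_eq_zero_iff a₀ a₀.injective).mp h0)) e1).symm
  apply hw₁
  have := hbβ w₁
  rw [h3] at this
  exact (add_eq_left.mp this.symm)

/-- the elements of the group generated by two transvections -/
def Yc (h : TE B₁ B₂ B τ (-1) 1) (x : V ≃ₗ[F] V) (u₁ u₂ : U) : Subgroup (V ≃ₗ[F] V) where
  carrier := {c | (∀ v, ∃ w w', c v = v + τ u₁ w + x (τ u₂ w')) ∧ (∀ v, kap h.symm u₁ v = 0 → kap h.symm u₂ (x⁻¹ v) = 0 → c v = v)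
    ∧ (∀ v, kap h.symm u₁ v = 0 → kap h.symm u₂ (x⁻¹ v) = 0 → c⁻¹ v = v) ∧ (∀ v, ∃ w w', c⁻¹ v = v + τ u₁ w + x (τ u₂ w'))}
  one_mem' := by
    refine ⟨fun v => ⟨0, 0, ?_⟩, fun v _ _ => rfl, fun v _ _ => ?_, fun v => ⟨0, 0, ?_⟩⟩ <;> simp
  mul_mem' := by
    rintro c c' ⟨h1, h2, h3, h4⟩ ⟨h1', h2', h3', h4'⟩
    refine ⟨fun v => ?_, fun v hv hv' => ?_, fun v hv hv' => ?_, fun v => ?_⟩
    · obtain ⟨w, w', e1⟩ := h1' v
      obtain ⟨w₁, w₁', e2⟩ := h1 (c' v)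
      refine ⟨w + w₁, w' + w₁', ?_⟩
      rw [LinearEquiv.mul_apply, e2, e1, map_add, map_add, map_add]
      abel
    · rw [LinearEquiv.mul_apply, h2' v hv hv', h2 v hv hv']
    · rw [mul_inv_rev, LinearEquiv.mul_apply, h3 v hv hv', h3' v hv hv']
    · obtain ⟨w, w', e1⟩ := h4 v
      obtain ⟨w₁, w₁', e2⟩ := h4' (c⁻¹ v)
      refine ⟨w + w₁, w' + w₁', ?_⟩
      rw [mul_inv_rev, LinearEquiv.mul_apply, e2, e1, map_add, map_add, map_add]
      abel
  inv_mem' := by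
    rintro c ⟨h1, h2, h3, h4⟩
    refine ⟨h4, h3, ?_, ?_⟩
    · rw [inv_inv]; exact h2
    · rw [inv_inv]; exact h1

/-- a conjugate of a transvection and a vector of small rank -/
lemma small_step [Finite F] [Finite V] (H : Hy h X) (hd : 4 ≤ finrank F U) (hdm : finrank F W ≤ 2 * finrank F U)
    {x : V ≃ₗ[F] V} (hx : x ∈ X) {u₁ u₂ : U} {w : W} (hu₁ : u₁ ≠ 0) (hu₂ : u₂ ≠ 0) (hw : w ≠ 0)
    (hv : kap h.symm u₁ (x (τ u₂ w)) = 0) : ∃ u₃ w₃, u₃ ≠ 0 ∧ w₃ ≠ 0 ∧ x (τ u₂ w) = τ u₃ w₃ ∧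
      ∀ w', ∃ w₁ w₂, τ u₃ w' = τ u₁ w₁ + x (τ u₂ w₂) := by
  obtain ⟨p, hpF⟩ := CharP.exists F
  have hpp : p.Prime := (CharP.char_is_prime_or_zero F p).resolve_right (by
    intro h0
    subst h0
    have := CharP.charP_to_charZero F
    exact not_finite F)
  have halt := fun x => alt_of h.f₁ H.two x
  have hxx : ∀ v, x (x⁻¹ v) = v := fun v => x.apply_symm_apply v
  have hxx' : ∀ v, x⁻¹ (x v) = v := fun v => x.symm_apply_apply v
  obtain ⟨T₁, hT₁, -, -, hT₁v⟩ := exists_tr h H.two H.hX u₁ 1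
  obtain ⟨T₂, hT₂, hT₂p, hT₂i, hT₂v⟩ := exists_tr h H.two H.hX u₂ 1
  have hg₁ := tu_good H hd hdm hpp hT₁ hu₁ one_ne_zero hT₁v
  have hg₂ := tu_good H hd hdm hpp hT₂ hu₂ one_ne_zero hT₂v
  have inv1 : ∀ {T : V ≃ₗ[F] V} {u : U}, (∀ v, T v = v + (1 : F) • τ u (kap h.symm u v)) → ∀ v, T⁻¹ v = v - τ u (kap h.symm u v) := by
    intro T u hT v
    have e1 : T (v - τ u (kap h.symm u v)) = v := by
      rw [hT, map_sub, kap_pure' h, halt]
      simp
    calc T⁻¹ v = T⁻¹ (T (v - τ u (kap h.symm u v))) := by rw [e1]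
      _ = _ := T.symm_apply_apply _
  have hC₁ : T₁ ∈ Yc h x u₁ u₂ := by
    refine ⟨fun v => ⟨kap h.symm u₁ v, 0, ?_⟩, fun v h1 _ => ?_, fun v h1 _ => ?_, fun v => ⟨- kap h.symm u₁ v, 0, ?_⟩⟩
    · rw [hT₁v, one_smul, map_zero, map_zero, add_zero]
    · rw [hT₁v, h1, map_zero, smul_zero, add_zero]
    · rw [inv1 hT₁v, h1, map_zero, sub_zero]
    · rw [inv1 hT₁v, map_zero, map_zero, add_zero, map_neg]; abel
  have hC₂ : x * T₂ * x⁻¹ ∈ Yc h x u₁ u₂ := by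
    have e0 : (x * T₂ * x⁻¹)⁻¹ = x * T₂⁻¹ * x⁻¹ := by group
    refine ⟨fun v => ⟨0, kap h.symm u₂ (x⁻¹ v), ?_⟩, fun v _ h1 => ?_, fun v _ h1 => ?_, fun v => ⟨0, - kap h.symm u₂ (x⁻¹ v), ?_⟩⟩
    · rw [LinearEquiv.mul_apply, LinearEquiv.mul_apply, hT₂v, one_smul, map_add, hxx, map_zero, add_zero]
    · rw [LinearEquiv.mul_apply, LinearEquiv.mul_apply, hT₂v, h1, map_zero, smul_zero, add_zero, hxx]
    · rw [e0, LinearEquiv.mul_apply, LinearEquiv.mul_apply, inv1 hT₂v, h1, map_zero, sub_zero, hxx]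
    · rw [e0, LinearEquiv.mul_apply, LinearEquiv.mul_apply, inv1 hT₂v, map_sub, hxx, map_zero, add_zero, map_neg, map_neg]; abel
  obtain ⟨c, hc, a, b, hab⟩ := fus hpp (C := X ⊓ Yc h x u₁ u₂) inf_le_left hg₁ hg₂ hx ⟨hT₁, hC₁⟩
    ⟨X.mul_mem (X.mul_mem hx hT₂) (X.inv_mem hx), hC₂⟩
  obtain ⟨hcX, hc1, hc2, -, -⟩ := hc
  refine ⟨a u₂, b w, fun h0 => hu₂ ((map_eq_zero_iff a a.injective).mp h0), fun h0 => hw ((map_eq_zero_iff b b.injective).mp h0), ?_, ?_⟩
  · rw [← hab, LinearEquiv.mul_apply]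
    exact (hc2 _ hv (by rw [hxx', kap_pure' h, halt, zero_smul])).symm
  · intro w'
    have e1 := hab u₂ (b⁻¹ w')
    have e2 : b (b⁻¹ w') = w' := b.apply_symm_apply w'
    rw [e2, LinearEquiv.mul_apply] at e1
    obtain ⟨w₁, w₂, e3⟩ := hc1 (x (τ u₂ (b⁻¹ w')))
    rw [e3] at e1
    refine ⟨w₁, b⁻¹ w' + w₂, ?_⟩
    rw [← e1, map_add, map_add]
    abel

/-- Lemma P -/
theorem small_rank [Finite F] [Finite V] (H : Hy h X) (hd : 4 ≤ finrank F U) (hdm : finrank F W ≤ 2 * finrank F U)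
    {x : V ≃ₗ[F] V} (hx : x ∈ X) {u₁ u₂ : U} {w : W} (hu₁ : u₁ ≠ 0) (hu₂ : u₂ ≠ 0) (hw : w ≠ 0)
    (hv : kap h.symm u₁ (x (τ u₂ w)) = 0) : Kr τ x := by
  have halt := fun x => alt_of h.f₁ H.two x
  obtain ⟨u₃, w₃, hu₃, hw₃, hvp, -⟩ := small_step H hd hdm hx hu₁ hu₂ hw hv
  -- other vectors
  have key : ∀ u, B₁ u₃ u = 0 → u ∉ Submodule.span F {u₃} → ∀ w'', ∃ w₁ w₂, x (τ u₂ w'') = τ u₃ w₁ + τ u w₂ := by
    intro u hu hus
    have hu0 : u ≠ 0 := by rintro rfl; exact hus (Submodule.zero_mem _)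
    obtain ⟨u₃', w₃', hu₃', hw₃', hvp', hE⟩ := small_step H hd hdm hx hu0 hu₂ hw (by rw [hvp, kap_pure' h, hu, zero_smul])
    -- the same vector up to scalars
    obtain ⟨c, hc⟩ : ∃ c : F, u₃ = c • u₃' := by
      obtain ⟨z, hz⟩ := h.f₂.one hw₃
      have h1 := congrArg (kap h z) (hvp.symm.trans hvp')
      rw [kap_pure, kap_pure, hz, one_smul] at h1
      exact ⟨_, h1⟩
    have hE' : ∀ w', ∃ w₁ w₂, τ u₃ w' = τ u w₁ + x (τ u₂ w₂) := by
      intro w'
      obtain ⟨w₁, w₂, h1⟩ := hE (c • w')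
      refine ⟨w₁, w₂, ?_⟩
      rw [← h1, hc, map_smul, map_smul, LinearMap.smul_apply]
    obtain ⟨z, hz1, hz2⟩ := h.f₁.sep1 (span_symm hu₃ hus)
    let ψ : W →ₗ[F] W := kap h.symm z ∘ₗ x.toLinearMap ∘ₗ τ u₂
    have hψ : ∀ w' w₁ w₂, τ u₃ w' = τ u w₁ + x (τ u₂ w₂) → ψ w₂ = w' := by
      intro w' w₁ w₂ h1
      have h3 := congrArg (kap h.symm z) h1
      rw [map_add, kap_pure' h, kap_pure' h, hz1, hz2, zero_smul, one_smul, zero_add] at h3
      exact h3.symm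
    have hsurj : Function.Surjective ψ := fun w' => by
      obtain ⟨w₁, w₂, h1⟩ := hE' w'
      exact ⟨w₂, hψ _ _ _ h1⟩
    have hinj : Function.Injective ψ := LinearMap.injective_iff_surjective.mpr hsurj
    intro w''
    obtain ⟨w₁, w₂, h1⟩ := hE' (ψ w'')
    have h3 : w₂ = w'' := hinj (hψ _ _ _ h1)
    refine ⟨ψ w'', -w₁, ?_⟩
    rw [h1, h3, map_neg]
    abel
  obtain ⟨f, hf⟩ := h.f₁.one hu₃
  obtain ⟨y₁, hy₁, hy₁'⟩ : ∃ y, (((LinearMap.flip B₁ u₃).prod (LinearMap.flip B₁ f)) : U →ₗ[F] F × F) y = 0 ∧ y ∉ Submodule.span F {u₃} :=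
    exists_off_span hd u₃
  have h1 : B₁ y₁ u₃ = 0 := congrArg Prod.fst hy₁
  have h1' : B₁ u₃ y₁ = 0 := h.f₁.zero_flip h1
  -- a vector outside of the span of u₃, y₁, orthogonal to u₃
  obtain ⟨y₂, hy₂, hy₂'⟩ : ∃ y₂, B₁ u₃ y₂ = 0 ∧ y₂ ∉ Submodule.span F {u₃, y₁} := by
    by_contra hcon
    push Not at hcon
    have e1 : LinearMap.ker (B₁ u₃) ≤ Submodule.span F {u₃, y₁} := fun y hy => hcon y hy
    have e2 := (Submodule.finrank_mono e1).trans (H96.StN.finrank_span2 _ _)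
    have e3 := (B₁ u₃).finrank_range_add_finrank_ker
    have e4 : finrank F (LinearMap.range (B₁ u₃)) ≤ 1 := (Submodule.finrank_le _).trans (by rw [finrank_self])
    omega
  have hy₂s : y₂ ∉ Submodule.span F {u₃} := by
    intro h0
    exact hy₂' (Submodule.span_mono (by simp) h0)
  obtain ⟨z, hz1, hz2⟩ := h.f₁.sep _ hy₂'
  have hz3 := hz1 u₃ (Submodule.subset_span (by simp))
  have hz4 := hz1 y₁ (Submodule.subset_span (by simp))
  have hfin : ∀ w'', ∃ w₁, x (τ u₂ w'') = τ u₃ w₁ := by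
    intro w''
    obtain ⟨w₁, w₂, e1⟩ := key y₁ h1' hy₁' w''
    obtain ⟨w₁', w₂', e2⟩ := key y₂ hy₂ hy₂s w''
    have e3 := congrArg (kap h.symm z) (e1.symm.trans e2)
    simp only [map_add, kap_pure' h, hz2, hz3, hz4, zero_smul, one_smul, zero_add] at e3
    rw [← e3, map_zero, add_zero] at e2
    exact ⟨_, e2⟩
  refine normE H hd hu₂ hu₃ hx (β := kap h.symm f ∘ₗ x.toLinearMap ∘ₗ τ u₂) fun w'' => ?_
  obtain ⟨w₁, e1⟩ := hfin w''
  have e2 : (kap h.symm f ∘ₗ x.toLinearMap ∘ₗ τ u₂) w'' = w₁ := by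
    rw [LinearMap.comp_apply, LinearMap.comp_apply, LinearEquiv.coe_coe, e1, kap_pure' h, hf, one_smul]
  rw [e2, e1]

end H96.TeP
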