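import Mathlib
import Cfsg.Agent.Lib.H96.TeP

set_option autoImplicit false
set_option linter.unusedSectionVars false
set_option linter.unusedVariables false
set_option linter.unusedSimpArgs false

/-!
Overgroups of the tensor product of a symplectic and an orthogonal group without transvections:
orthogonal groups of small dimension.
-/

namespace H96.TeQ

open Module H95.SpBasic H96.TeBase H96.TeNorm H96.TeC H96.TeE H96.TeF H96.TeG H96.TeA H96.TeT H96.TeR H96.TeS H96.TeP

section group

variable {G : Type*} [Group G]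

lemma dihedral {i y c : G} (hi : i * i = 1) (hy : y * y = 1) (hc : c ∈ Subgroup.closure {i, y})
    (hiy : i * (c * y * c⁻¹) = (c * y * c⁻¹) * i) : (i * (c * y * c⁻¹)) * y = y * (i * (c * y * c⁻¹)) := by
  have hi' : i⁻¹ = i := inv_eq_of_mul_eq_one_right hi
  have hy' : y⁻¹ = y := inv_eq_of_mul_eq_one_right hy
  have invi : ∀ z ∈ Subgroup.zpowers (i * y), i * z * i⁻¹ = z⁻¹ := by
    rintro z ⟨n, rfl⟩
    change i * (i * y) ^ n * i⁻¹ = ((i * y) ^ n)⁻¹
    rw [← conj_zpow, ← inv_zpow]
    congr 1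
    rw [mul_inv_rev, hi', hy', ← mul_assoc, hi, one_mul]
  have invy : ∀ z ∈ Subgroup.zpowers (i * y), y * z * y⁻¹ = z⁻¹ := by
    rintro z ⟨n, rfl⟩
    change y * (i * y) ^ n * y⁻¹ = ((i * y) ^ n)⁻¹
    rw [← conj_zpow, ← inv_zpow]
    congr 1
    rw [mul_inv_rev, hi', ← mul_assoc, mul_inv_cancel_right, hy']
  have key : (∀ z ∈ Subgroup.zpowers (i * y), c * z * c⁻¹ ∈ Subgroup.zpowers (i * y)) ∧
      (∀ z ∈ Subgroup.zpowers (i * y), c⁻¹ * z * c ∈ Subgroup.zpowers (i * y)) ∧ c * y * c⁻¹ * y⁻¹ ∈ Subgroup.zpowers (i * y) := by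
    refine Subgroup.closure_induction (p := fun c _ => (∀ z ∈ Subgroup.zpowers (i * y), c * z * c⁻¹ ∈ Subgroup.zpowers (i * y)) ∧
      (∀ z ∈ Subgroup.zpowers (i * y), c⁻¹ * z * c ∈ Subgroup.zpowers (i * y)) ∧ c * y * c⁻¹ * y⁻¹ ∈ Subgroup.zpowers (i * y))
      ?_ ?_ ?_ ?_ hc
    · intro c hc
      rcases hc with rfl | hc
      · refine ⟨fun z hz => ?_, fun z hz => ?_, ?_⟩
        · rw [invi z hz]; exact Subgroup.inv_mem _ hz
        · have := invi z hz
          rw [hi'] at this ⊢
          rw [this]; exact Subgroup.inv_mem _ hz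
        · rw [hi', hy']
          refine ⟨2, ?_⟩
          change (c * y) ^ (2 : ℤ) = _
          rw [zpow_two]
          group
      · have hc' : c = y := hc
        subst hc'
        refine ⟨fun z hz => ?_, fun z hz => ?_, ?_⟩
        · rw [invy z hz]; exact Subgroup.inv_mem _ hz
        · have := invy z hz
          rw [hy'] at this ⊢
          rw [this]; exact Subgroup.inv_mem _ hz
        · have : c * c * c⁻¹ * c⁻¹ = 1 := by group
          rw [this]; exact Subgroup.one_mem _
    · refine ⟨fun z hz => by simpa using hz, fun z hz => by simpa using hz, ?_⟩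
      have : 1 * y * 1⁻¹ * y⁻¹ = 1 := by group
      rw [this]; exact Subgroup.one_mem _
    · rintro c d - - ⟨h1, h2, h3⟩ ⟨h1', h2', h3'⟩
      refine ⟨fun z hz => ?_, fun z hz => ?_, ?_⟩
      · have : c * d * z * (c * d)⁻¹ = c * (d * z * d⁻¹) * c⁻¹ := by group
        rw [this]; exact h1 _ (h1' _ hz)
      · have : (c * d)⁻¹ * z * (c * d) = d⁻¹ * (c⁻¹ * z * c) * d := by group
        rw [this]; exact h2' _ (h2 _ hz)
      · have : c * d * y * (c * d)⁻¹ * y⁻¹ = c * (d * y * d⁻¹ * y⁻¹) * c⁻¹ * (c * y * c⁻¹ * y⁻¹) := by group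
        rw [this]; exact Subgroup.mul_mem _ (h1 _ h3') h3
    · rintro c - ⟨h1, h2, h3⟩
      refine ⟨fun z hz => by rw [inv_inv]; exact h2 z hz, fun z hz => by rw [inv_inv]; exact h1 z hz, ?_⟩
      have : c⁻¹ * y * c⁻¹⁻¹ * y⁻¹ = c⁻¹ * (c * y * c⁻¹ * y⁻¹)⁻¹ * c := by group
      rw [this]; exact h2 _ (Subgroup.inv_mem _ h3)
  obtain ⟨j, hj⟩ : ∃ j, j = i * (c * y * c⁻¹) := ⟨_, rfl⟩
  have hjZ : j ∈ Subgroup.zpowers (i * y) := by
    have : j = (i * (c * y * c⁻¹ * y⁻¹) * i⁻¹) * (i * y) := by rw [hj]; group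
    rw [this, invi _ key.2.2]
    exact Subgroup.mul_mem _ (Subgroup.inv_mem _ key.2.2) (Subgroup.mem_zpowers _)
  have hjj : j * j = 1 := by
    have e1 : j * j = i * ((c * y * c⁻¹) * i) * (c * y * c⁻¹) := by rw [hj]; group
    rw [e1, ← hiy]
    have e2 : i * (i * (c * y * c⁻¹)) * (c * y * c⁻¹) = (i * i) * (c * (y * y) * c⁻¹) := by group
    rw [e2, hi, hy]
    group
  have hj' : j⁻¹ = j := inv_eq_of_mul_eq_one_right hjj
  have h1 := invy j hjZ
  rw [hj', mul_inv_eq_iff_eq_mul] at h1
  rw [← hj, h1]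

end group

variable {F U W V : Type*} [Field F] [AddCommGroup U] [Module F U] [AddCommGroup W] [Module F W] [AddCommGroup V]
  [Module F V] [FiniteDimensional F U] [FiniteDimensional F W]
variable {B₁ : LinearMap.BilinForm F U} {B₂ : LinearMap.BilinForm F W} {B : LinearMap.BilinForm F V}
  {τ : U →ₗ[F] W →ₗ[F] V} {X : Subgroup (V ≃ₗ[F] V)} {h : TE B₁ B₂ B τ (-1) 1}

/-- unipotent elements with square zero difference -/
structure QE (B₁ : LinearMap.BilinForm F U) (τ : U →ₗ[F] W →ₗ[F] V) (N : V ≃ₗ[F] V) (α : Module.End F U) : Prop where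
  ap : ∀ x w, N (τ x w) = τ (x + α x) w
  sq : ∀ x, α (α x) = 0
  sk : ∀ x y, B₁ (α x) y = - B₁ x (α y)
  ne : ∃ x, α x ≠ 0

lemma teq (h : TE B₁ B₂ B τ (-1) 1) {f g : V ≃ₗ[F] V} (hfg : ∀ x w, f (τ x w) = g (τ x w)) : f = g := by
  have : f.toLinearMap = g.toLinearMap := h.ext hfg
  exact LinearEquiv.toLinearMap_injective this

/-- existence -/
lemma exists_QE (h : TE B₁ B₂ B τ (-1) 1) (hX : HX B τ X) {α : Module.End F U} (sq : ∀ x, α (α x) = 0)
    (sk : ∀ x y, B₁ (α x) y = - B₁ x (α y)) (ne : ∃ x, α x ≠ 0) : ∃ N ∈ X, QE B₁ τ N α := by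
  obtain ⟨N, hN, hNN⟩ := exists_mem h hX (LinearEquiv.ofLinearMap (1 + α) (1 - α)
    (by
      ext x
      simp only [LinearMap.comp_apply, LinearMap.add_apply, LinearMap.sub_apply, Module.End.one_apply, map_sub, sq, LinearMap.id_apply]
      abel)
    (by
      ext x
      simp only [LinearMap.comp_apply, LinearMap.add_apply, LinearMap.sub_apply, Module.End.one_apply, map_add, sq, LinearMap.id_apply]
      abel)) 1 (fun x w x' w' => by
    change B₁ (x + α x) (x' + α x') * B₂ w w' = _
    congr 1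
    rw [map_add, map_add, LinearMap.add_apply, LinearMap.add_apply, sk x x', sk x (α x'), sq, map_zero]
    ring)
  exact ⟨N, hN, fun x w => hNN x w, sq, sk, ne⟩

/-- elements commuting with a quadratic element -/
lemma comm_QE [Finite F] [Finite V] (H : Hy h X) (hd : 4 ≤ finrank F U) (hdm : finrank F W ≤ 2 * finrank F U)
    {N : V ≃ₗ[F] V} {α : Module.End F U} (hN : QE B₁ τ N α) {c : V ≃ₗ[F] V} (hc : c ∈ X) (hcN : c * N = N * c) : Kr τ c := by
  obtain ⟨x₀, hx₀⟩ := hN.ne
  have hW : ∃ w : W, w ≠ 0 := by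
    have := H.m3
    obtain ⟨w, hw⟩ := (finrank_pos_iff_exists_ne_zero (R := F) (M := W)).mp (by omega)
    exact ⟨w, hw⟩
  obtain ⟨w, hw⟩ := hW
  refine small_rank H hd hdm hc (u₁ := α x₀) (u₂ := α x₀) hx₀ hx₀ hw ?_
  have h1 : ∀ v, kap h.symm (α x₀) (N v - v) = 0 := by
    have : kap h.symm (α x₀) ∘ₗ (N.toLinearMap - LinearMap.id) = 0 := by
      apply h.ext
      intro x w
      rw [LinearMap.comp_apply, LinearMap.sub_apply, LinearEquiv.coe_coe, hN.ap, LinearMap.id_apply, map_add, LinearMap.add_apply,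
        add_sub_cancel_left, kap_pure' h, hN.sk, hN.sq, map_zero, neg_zero, zero_smul, LinearMap.zero_apply]
    intro v
    exact LinearMap.congr_fun this v
  have h2 : c (τ (α x₀) w) = N (c (τ x₀ w)) - c (τ x₀ w) := by
    have h3 : c (N (τ x₀ w)) = N (c (τ x₀ w)) := by
      rw [← LinearEquiv.mul_apply, hcN, LinearEquiv.mul_apply]
    rw [← h3, hN.ap, map_add, LinearMap.add_apply, map_add]
    abel
  rw [h2, h1]

/-- quadratic elements commute with a transvection -/
lemma QE.comm_tr {N : V ≃ₗ[F] V} {α : Module.End F U} (h : TE B₁ B₂ B τ (-1) 1) (hN : QE B₁ τ N α) {x₀ : U} {T : V ≃ₗ[F] V} {c : F}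
    (hT : ∀ x w, T (τ x w) = τ (x + (c * B₁ x (α x₀)) • α x₀) w) : T * N = N * T := by
  apply teq h
  intro x w
  rw [LinearEquiv.mul_apply, LinearEquiv.mul_apply, hN.ap, hT, hT, hN.ap]
  have e1 : B₁ (x + α x) (α x₀) = B₁ x (α x₀) := by
    rw [map_add, LinearMap.add_apply, hN.sk, hN.sq, map_zero, neg_zero, add_zero]
  have e2 : α (x + (c * B₁ x (α x₀)) • α x₀) = α x := by
    rw [map_add, map_smul, hN.sq, smul_zero, add_zero]
  rw [e1, e2]
  congr 2
  abel

/-- quadratic elements are good -/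
theorem QE.good [Finite F] [Finite V] (H : Hy h X) (hd : 4 ≤ finrank F U) (hdm : finrank F W ≤ 2 * finrank F U) {p : ℕ}
    (hp : p.Prime) [CharP F p] {N : V ≃ₗ[F] V} {α : Module.End F U} (hN : QE B₁ τ N α) (hNX : N ∈ X) : GE τ X p N := by
  have halt := fun x => alt_of h.f₁ H.two x
  have hsqN : ∀ v, N (N v) - (2 : F) • N v + v = 0 := by
    have : N.toLinearMap ∘ₗ N.toLinearMap - (2 : F) • N.toLinearMap + LinearMap.id = 0 := by
      apply h.ext
      intro x w
      simp only [LinearMap.add_apply, LinearMap.sub_apply, LinearMap.comp_apply, LinearMap.smul_apply, LinearEquiv.coe_coe, hN.ap,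
        LinearMap.id_apply, LinearMap.zero_apply, map_add, hN.sq, map_zero]
      module
    intro v
    exact LinearMap.congr_fun this v
  have hpow : ∀ (n : ℕ) x w, (N ^ n) (τ x w) = τ (x + (n : F) • α x) w := by
    intro n
    induction n with
    | zero => intro x w; simp
    | succ n ih =>
      intro x w
      rw [pow_succ', LinearEquiv.mul_apply, ih, hN.ap, map_add α, map_smul, hN.sq]
      push_cast
      congr 2
      module
  obtain ⟨x₀, hx₀⟩ := hN.ne
  have hau : α (α x₀) = 0 := hN.sq _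
  refine ⟨hNX, ?_, ⟨1, ?_⟩, fun g hg hk => ?_⟩
  · obtain ⟨N', hN', hNN'⟩ := exists_mem h H.hX (LinearEquiv.ofLinearMap (1 + α) (1 - α)
      (by
        ext x
        simp only [LinearMap.comp_apply, LinearMap.add_apply, LinearMap.sub_apply, Module.End.one_apply, map_sub, hN.sq, LinearMap.id_apply]
        abel)
      (by
        ext x
        simp only [LinearMap.comp_apply, LinearMap.add_apply, LinearMap.sub_apply, Module.End.one_apply, map_add, hN.sq, LinearMap.id_apply]
        abel)) 1 (fun x w x' w' => by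
      change B₁ (x + α x) (x' + α x') * B₂ w w' = _
      congr 1
      rw [map_add, map_add, LinearMap.add_apply, LinearMap.add_apply, hN.sk x x', hN.sk x (α x'), hN.sq, map_zero]
      ring)
    have : N = N' := teq h fun x w => by rw [hN.ap, hNN']; rfl
    rw [this]
    exact ⟨_, _, hNN'⟩
  · rw [pow_one]
    apply teq h
    intro x w
    rw [hpow, CharP.cast_eq_zero, zero_smul, add_zero]
    rfl
  · obtain ⟨a, b, hab⟩ := hk
    have hgg : ∀ v, g (g⁻¹ v) = v := fun v => g.apply_symm_apply v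
    have hgg' : ∀ v, g⁻¹ (g v) = v := fun v => g.symm_apply_apply v
    obtain ⟨s', hs'⟩ : ∃ s', s' = g⁻¹ * N * g := ⟨_, rfl⟩
    have hs'X : s' ∈ X := by rw [hs']; exact X.mul_mem (X.mul_mem (X.inv_mem hg) hNX) hg
    have hsq : ∀ v, s' (s' v) - (2 : F) • s' v + v = 0 := by
      intro v
      have h1 := congrArg (fun z => g⁻¹ z) (hsqN (g v))
      simp only [map_add, map_sub, map_smul, map_zero, hgg'] at h1
      rw [hs', LinearEquiv.mul_apply, LinearEquiv.mul_apply, LinearEquiv.mul_apply, LinearEquiv.mul_apply, hgg]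
      exact h1
    rw [← hs'] at hab
    obtain ⟨T, hT, hTp, -, hTv⟩ := exists_tr h H.two H.hX (α x₀) 1
    have hTg := tu_good H hd hdm hp hT hx₀ one_ne_zero hTv
    have hTN := hN.comm_tr h hTp
    rcases scalar_or h H.two hab hsq with ⟨c', hc'⟩ | ⟨c', hc'⟩
    · exfalso
      have hTs : T * s' = s' * T := by
        apply teq h
        intro x w
        rw [LinearEquiv.mul_apply, LinearEquiv.mul_apply, hab, hTp, hTp, hab, hc', hc']
        congr 2
        rw [map_smul, LinearMap.smul_apply, smul_eq_mul]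
        module
      obtain ⟨k, hkX, ⟨a₀, b₀, hab₀⟩, hks, -⟩ := transfer hp hs' hg hTg hTg hTN hTs
      have hks' : k * N = s' * k := by rw [← hks]; group
      have h1 : ∀ x w, τ (a₀ (x + α x)) (b₀ w) = τ (a₀ x) (c' • b (b₀ w)) := by
        intro x w
        have e1 := congrArg (fun f : V ≃ₗ[F] V => f (τ x w)) hks'
        simp only [LinearEquiv.mul_apply] at e1
        rw [hN.ap, hab₀, hab₀, hab, hc', map_smul, LinearMap.smul_apply, ← map_smul] at e1
        exact e1
      obtain ⟨w, hw⟩ : ∃ w : W, w ≠ 0 := by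
        have := H.m3
        obtain ⟨w, hw⟩ := (finrank_pos_iff_exists_ne_zero (R := F) (M := W)).mp (by omega)
        exact ⟨w, hw⟩
      have h3 : b₀ w = c' • b (b₀ w) := by
        have e1 := h1 (α x₀) w
        rw [hau, add_zero] at e1
        exact pure_inj' h (fun h0 => hx₀ ((map_eq_zero_iff a₀ a₀.injective).mp h0)) e1
      have h4 := h1 x₀ w
      rw [← h3] at h4
      have h5 := pure_inj h (fun h0 => hw ((map_eq_zero_iff b₀ b₀.injective).mp h0)) h4
      have h6 := a₀.injective h5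
      exact hx₀ (add_eq_left.mp h6)
    · -- the second factor is scalar
      obtain ⟨α', hα'⟩ : ∃ α' : Module.End F U, α' = c' • a.toLinearMap - 1 := ⟨_, rfl⟩
      have hap : ∀ x w, s' (τ x w) = τ (x + α' x) w := by
        intro x w
        rw [hab, hc', hα']
        simp only [LinearMap.sub_apply, LinearMap.smul_apply, LinearEquiv.coe_coe, Module.End.one_apply, map_add, map_sub, map_smul,
          LinearMap.add_apply]
        abel
      obtain ⟨w, hw⟩ : ∃ w : W, w ≠ 0 := by
        have := H.m3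
        obtain ⟨w, hw⟩ := (finrank_pos_iff_exists_ne_zero (R := F) (M := W)).mp (by omega)
        exact ⟨w, hw⟩
      obtain ⟨w', hww'⟩ := h.f₂.one hw
      have hsq' : ∀ x, α' (α' x) = 0 := by
        intro x
        have e1 := hsq (τ x w)
        rw [hap, hap] at e1
        apply pure_eq_zero h hw
        have e2 : τ (x + α' x + α' (x + α' x)) w - (2 : F) • τ (x + α' x) w + τ x w = τ (α' (α' x)) w := by
          simp only [map_add, LinearMap.add_apply]
          module
        rw [← e2, e1]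
      have hiso : ∀ x y, B₁ (x + α' x) (y + α' y) = B₁ x y := by
        intro x y
        have e1 := H.hX.le hs'X (τ x w) (τ y w')
        rw [hap, hap, h.bp, h.bp, hww', mul_one, mul_one] at e1
        exact e1
      have hsk : ∀ x y, B₁ (α' x) y = - B₁ x (α' y) := by
        intro x y
        have e1 := hiso x (y - α' y)
        have e2 : y - α' y + α' (y - α' y) = y := by rw [map_sub, hsq']; abel
        rw [e2, map_add, LinearMap.add_apply, map_sub] at e1
        linear_combination e1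
      have hne : ∃ x, α' x ≠ 0 := by
        by_contra hcon
        push Not at hcon
        have e1 : s' = 1 := teq h fun x w => by rw [hap, hcon, add_zero]; rfl
        rw [hs'] at e1
        have e2 : N = 1 := by
          have : N = g * (g⁻¹ * N * g) * g⁻¹ := by group
          rw [this, e1]; group
        have e3 := hN.ap x₀ w
        rw [e2] at e3
        have e4 : τ x₀ w = τ (x₀ + α x₀) w := e3
        exact hx₀ (add_eq_left.mp (pure_inj h hw e4).symm)
      have hQ : QE B₁ τ s' α' := ⟨hap, hsq', hsk, hne⟩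
      obtain ⟨x₁, hx₁⟩ := hne
      obtain ⟨T', hT', hTp', -, hTv'⟩ := exists_tr h H.two H.hX (α' x₁) 1
      have hTg' := tu_good H hd hdm hp hT' hx₁ one_ne_zero hTv'
      have hTN' := hQ.comm_tr h hTp'
      obtain ⟨k, hkX, hkr, hks, c, hcX, hcs, hkc⟩ := transfer hp hs' hg hTg hTg' hTN hTN'
      have h1 : Kr τ c := comm_QE H hd hdm hQ hcX hcs
      have h2 : g = k⁻¹ * c := by rw [hkc]; group
      rw [h2]
      exact (KrG τ).mul_mem ((KrG τ).inv_mem hkr) h1

end H96.TeQ
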