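import Mathlib
import Cfsg.Agent.Lib.H96.TeQ

set_option autoImplicit false
set_option linter.unusedSectionVars false
set_option linter.unusedVariables false
set_option linter.unusedSimpArgs false

/-!
Overgroups of the tensor product of a symplectic and an orthogonal group without transvections:
involutions, orthogonal groups of small dimension, conclusion.
-/

namespace H96.TeZ

open Module H95.SpBasic H96.TeBase H96.TeNorm H96.TeC H96.TeE H96.TeF H96.TeG H96.TeA H96.TeT H96.TeR H96.TeS H96.TeP H96.TeQ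

section

variable {F U : Type*} [Field F] [AddCommGroup U] [Module F U] [FiniteDimensional F U] {B₁ : LinearMap.BilinForm F U}

/-- a vector that is no eigenvector -/
lemma exists_iso_ne [Finite F] (hB : EF B₁ (-1)) (h2 : (2 : F) ≠ 0) (hd : 3 ≤ finrank F U) {a : U ≃ₗ[F] U} {l c : F} (hl : l ≠ 0)
    (hal : ∀ x y, B₁ (a x) (a y) = l * B₁ x y) (hac : ∀ x, a (a x) = c • x) (hlc : l = -c) :
    ∃ u, u ≠ 0 ∧ B₁ u (a u) = 0 ∧ a u ∉ Submodule.span F {u} := by
  have halt := fun x => alt_of hB h2 x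
  have hc0 : c ≠ 0 := by rintro rfl; exact hl (by rw [hlc, neg_zero])
  let S : LinearMap.BilinForm F U := B₁.compl₂ a.toLinearMap
  have hS : ∀ x y, S x y = B₁ x (a y) := fun x y => rfl
  have hSE : EF S 1 := by
    refine ⟨fun x y => ?_, one_mul 1, fun x hx => hB.nd x fun y => ?_⟩
    · rw [hS, hS, one_mul]
      have h1 := hal x (a y)
      rw [hac, map_smul, smul_eq_mul] at h1
      have h3 := hB.flip y (a x)
      have h4 : c * (B₁ (a x) y + B₁ x (a y)) = 0 := by rw [hlc] at h1; linear_combination h1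
      have h5 := (mul_eq_zero.mp h4).resolve_left hc0
      rw [h3]
      linear_combination h5
    · have h1 := hx (a.symm y)
      rw [hS, LinearEquiv.apply_symm_apply] at h1
      exact h1
  by_contra hcon
  push Not at hcon
  obtain ⟨e, -, he, hee⟩ := exists_iso hSE h2 (S := (⊤ : Submodule F U)) (by rw [finrank_top]; omega)
  obtain ⟨f, hef, hfe, hff⟩ := hSE.partner h2 he hee
  have hf : f ≠ 0 := by
    rintro rfl
    rw [map_zero] at hef
    exact zero_ne_one hef
  obtain ⟨μ, hμ⟩ := Submodule.mem_span_singleton.mp (hcon e he hee)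
  obtain ⟨ν, hν⟩ := Submodule.mem_span_singleton.mp (hcon f hf hff)
  have h1 : ν * B₁ e f = 1 := by rw [hS, ← hν, map_smul, smul_eq_mul] at hef; exact hef
  have h3 : μ * B₁ f e = 1 := by rw [hS, ← hμ, map_smul, smul_eq_mul] at hfe; exact hfe
  have hν0 : ν ≠ 0 := by rintro rfl; rw [zero_mul] at h1; exact zero_ne_one h1
  have hμ0 : μ ≠ 0 := by rintro rfl; rw [zero_mul] at h3; exact zero_ne_one h3
  have hB0 : B₁ e f ≠ 0 := by intro h0; rw [h0, mul_zero] at h1; exact zero_ne_one h1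
  have hνμ : ν = -μ := by
    rw [hB.flip] at h3
    have h4 : (ν + μ) * B₁ e f = 0 := by linear_combination h1 - h3
    have := (mul_eq_zero.mp h4).resolve_right hB0
    linear_combination this
  -- a vector orthogonal to e and f
  obtain ⟨y₀, hy₀, hy₀0⟩ : ∃ y₀ ∈ LinearMap.ker ((S.flip e).prod (S.flip f)), y₀ ≠ 0 := by
    apply Submodule.exists_mem_ne_zero_of_ne_bot
    intro h0
    have h5 := ((S.flip e).prod (S.flip f)).finrank_range_add_finrank_ker
    rw [h0, finrank_bot, add_zero] at h5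
    have h6 := Submodule.finrank_le (LinearMap.range ((S.flip e).prod (S.flip f)))
    rw [Module.finrank_prod, finrank_self] at h6
    omega
  have hy1 : S y₀ e = 0 := congrArg Prod.fst hy₀
  have hy2 : S y₀ f = 0 := congrArg Prod.snd hy₀
  obtain ⟨z, hz⟩ := hSE.one hy₀0
  obtain ⟨z', hz'⟩ : ∃ z', z' = z - S z f • e - S z e • f := ⟨_, rfl⟩
  have hz1 : S z' e = 0 := by
    rw [hz', map_sub, map_sub, map_smul, map_smul]
    simp only [LinearMap.sub_apply, LinearMap.smul_apply, hee, hfe, smul_eq_mul, mul_zero, mul_one, sub_zero]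
    ring
  have hz2 : S z' f = 0 := by
    rw [hz', map_sub, map_sub, map_smul, map_smul]
    simp only [LinearMap.sub_apply, LinearMap.smul_apply, hef, hff, smul_eq_mul, mul_zero, mul_one, sub_zero]
    ring
  have hz3 : S y₀ z' = 1 := by
    rw [hz', map_sub, map_sub, map_smul, map_smul, hz, hy1, hy2]; simp
  obtain ⟨y, hye, hyf, hyy⟩ : ∃ y, S y e = 0 ∧ S y f = 0 ∧ S y y ≠ 0 := by
    by_cases h5 : S y₀ y₀ ≠ 0
    · exact ⟨y₀, hy1, hy2, h5⟩
    by_cases h6 : S z' z' ≠ 0
    · exact ⟨z', hz1, hz2, h6⟩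
    push Not at h5 h6
    refine ⟨y₀ + z', ?_, ?_, ?_⟩
    · rw [map_add, LinearMap.add_apply, hy1, hz1, add_zero]
    · rw [map_add, LinearMap.add_apply, hy2, hz2, add_zero]
    · rw [map_add, map_add, LinearMap.add_apply, LinearMap.add_apply, h5, h6, hz3, hSE.flip z' y₀, hz3]
      intro h7
      apply h2
      linear_combination h7
  have hey := hSE.zero_flip hye
  have hfy := hSE.zero_flip hyf
  obtain ⟨u, hu⟩ : ∃ u, u = e + y - (1 / 2 * S y y) • f := ⟨_, rfl⟩
  have hee' : S e e = 0 := hee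
  have hff' : S f f = 0 := hff
  have huf : S u f = 1 := by
    rw [hu, map_sub, map_add, map_smul, LinearMap.sub_apply, LinearMap.add_apply, LinearMap.smul_apply, hef, hyf, hff']; simp
  have hue : S u e = - (1 / 2 * S y y) := by
    rw [hu, map_sub, map_add, map_smul, LinearMap.sub_apply, LinearMap.add_apply, LinearMap.smul_apply, hee', hye, hfe]; simp
  have huu : S u u = 0 := by
    rw [hu]
    simp only [map_add, map_sub, map_smul, LinearMap.add_apply, LinearMap.sub_apply, LinearMap.smul_apply, hee', hff', hef, hfe, hye, hyf,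
      hey, hfy, smul_eq_mul]
    field_simp
    ring
  have hu0 : u ≠ 0 := by
    intro h0
    rw [h0, map_zero, LinearMap.zero_apply] at huf
    exact zero_ne_one huf
  obtain ⟨ρ, hρ⟩ := Submodule.mem_span_singleton.mp (hcon u hu0 huu)
  have hau : a u = μ • e + a y - (1 / 2 * S y y) • (ν • f) := by
    rw [hu, map_sub, map_add, map_smul, hμ, hν]
  have hayf : S (a y) f = 0 := by
    rw [hS, ← hν, map_smul]
    have : B₁ (a y) f = 0 := hB.zero_flip (by rw [← hS]; exact hfy)
    rw [this, smul_zero]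
  have haye : S (a y) e = 0 := by
    rw [hS, ← hμ, map_smul]
    have : B₁ (a y) e = 0 := hB.zero_flip (by rw [← hS]; exact hey)
    rw [this, smul_zero]
  have e1 : S (a u) f = μ := by
    rw [hau, map_sub, map_add, map_smul, map_smul, map_smul, LinearMap.sub_apply, LinearMap.add_apply, LinearMap.smul_apply,
      LinearMap.smul_apply, LinearMap.smul_apply, hef, hayf, hff']
    simp
  have e2 : S (a u) e = - (1 / 2 * S y y) * ν := by
    rw [hau, map_sub, map_add, map_smul, map_smul, map_smul, LinearMap.sub_apply, LinearMap.add_apply, LinearMap.smul_apply,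
      LinearMap.smul_apply, LinearMap.smul_apply, hfe, haye, hee']
    simp
  rw [← hρ, map_smul, LinearMap.smul_apply, huf, smul_eq_mul, mul_one] at e1
  rw [← hρ, map_smul, LinearMap.smul_apply, hue, smul_eq_mul, e1, hνμ] at e2
  have e3 : μ * S y y = 0 := by
    have h9 : (2 : F) * (1 / 2 * S y y) = S y y := by field_simp
    linear_combination (-1 : F) * e2 - μ * h9
  exact (mul_ne_zero hμ0 hyy) e3

/-- a square zero skew map commuting with a similitude -/
lemma exists_alpha [Finite F] (hB : EF B₁ (-1)) (h2 : (2 : F) ≠ 0) (hd : 3 ≤ finrank F U) {a : U ≃ₗ[F] U} {l c : F} (hl : l ≠ 0)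
    (hal : ∀ x y, B₁ (a x) (a y) = l * B₁ x y) (hac : ∀ x, a (a x) = c • x) :
    ∃ α : Module.End F U, (∀ x, α (α x) = 0) ∧ (∀ x y, B₁ (α x) y = - B₁ x (α y)) ∧ (∃ x, α x ≠ 0) ∧ ∀ x, a (α x) = α (a x) := by
  have halt := fun x => alt_of hB h2 x
  obtain ⟨u, hu0, huau, hua⟩ : ∃ u, u ≠ 0 ∧ B₁ u (a u) = 0 ∧ (a u ∉ Submodule.span F {u} ∨ l = c) := by
    by_cases hlc : l = c
    · obtain ⟨u, hu⟩ := (finrank_pos_iff_exists_ne_zero (R := F) (M := U)).mp (by omega)
      refine ⟨u, hu, ?_, Or.inr hlc⟩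
      have h1 := hal u (a u)
      rw [hac, map_smul, smul_eq_mul, hB.flip (a u) u, ← hlc] at h1
      have h3 : 2 * (l * B₁ u (a u)) = 0 := by linear_combination (-1 : F) * h1
      exact (mul_eq_zero.mp ((mul_eq_zero.mp h3).resolve_left h2)).resolve_left hl
    · have hlc' : l = -c := by
        obtain ⟨u, hu⟩ := (finrank_pos_iff_exists_ne_zero (R := F) (M := U)).mp (by omega)
        obtain ⟨y, hy⟩ := hB.one hu
        have h1 := hal (a u) (a y)
        rw [hac, hac, map_smul, map_smul, LinearMap.smul_apply, hal, hy, smul_eq_mul, smul_eq_mul] at h1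
        have h3 : (l - c) * (l + c) = 0 := by linear_combination (-1 : F) * h1
        have := (mul_eq_zero.mp h3).resolve_left (sub_ne_zero.mpr hlc)
        linear_combination this
      obtain ⟨u, h1, h3, h4⟩ := exists_iso_ne hB h2 hd hl hal hac hlc'
      exact ⟨u, h1, h3, Or.inl h4⟩
  have hauu : B₁ (a u) u = 0 := hB.zero_flip huau
  let α : Module.End F U := (LinearMap.flip B₁ u).smulRight u + (l⁻¹ • LinearMap.flip B₁ (a u)).smulRight (a u)
  have hα : ∀ x, α x = B₁ x u • u + (l⁻¹ * B₁ x (a u)) • a u := fun x => rfl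
  refine ⟨α, fun x => ?_, fun x y => ?_, ?_, fun x => ?_⟩
  · rw [hα (α x)]
    have e1 : B₁ (α x) u = 0 := by
      rw [hα, map_add, map_smul, map_smul, LinearMap.add_apply, LinearMap.smul_apply, LinearMap.smul_apply, halt, hauu]; simp
    have e2 : B₁ (α x) (a u) = 0 := by
      rw [hα, map_add, map_smul, map_smul, LinearMap.add_apply, LinearMap.smul_apply, LinearMap.smul_apply, halt, huau]; simp
    rw [e1, e2]; simp
  · rw [hα, hα]
    simp only [map_add, map_smul, LinearMap.add_apply, LinearMap.smul_apply, smul_eq_mul]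
    rw [hB.flip u y, hB.flip (a u) y]
    ring
  · rcases hua with hua | hlc
    · obtain ⟨z, hz1, hz2⟩ := hB.sep1 (span_symm hu0 hua)
      refine ⟨z, ?_⟩
      rw [hα, hB.flip z u, hB.flip z (a u), hz1, hz2]
      simp [hu0]
    · by_cases hua : a u ∈ Submodule.span F {u}
      · obtain ⟨μ, hμ⟩ := Submodule.mem_span_singleton.mp hua
        have hμ2 : μ * μ = c := by
          have h1 := hac u
          rw [← hμ, map_smul, ← hμ, smul_smul] at h1
          have h3 : (μ * μ - c) • u = 0 := by rw [sub_smul, h1, sub_self]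
          exact sub_eq_zero.mp ((smul_eq_zero.mp h3).resolve_right hu0)
        obtain ⟨z, hz⟩ := hB.one hu0
        refine ⟨z, ?_⟩
        have h3 : B₁ z u = -1 := by rw [hB.flip, hz, mul_one]
        have h4 : α z = (-2 : F) • u := by
          rw [hα, ← hμ, map_smul, h3, smul_eq_mul, smul_smul, ← add_smul]
          congr 1
          rw [← hlc] at hμ2
          field_simp
          linear_combination (-1 : F) * hμ2
        rw [h4]
        exact smul_ne_zero (neg_ne_zero.mpr h2) hu0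
      · obtain ⟨z, hz1, hz2⟩ := hB.sep1 (span_symm hu0 hua)
        refine ⟨z, ?_⟩
        rw [hα, hB.flip z u, hB.flip z (a u), hz1, hz2]
        simp [hu0]
  · rw [hα, hα, map_add, map_smul, map_smul, hac, hal]
    have h1 := hal (a x) u
    rw [hac, map_smul, LinearMap.smul_apply, smul_eq_mul] at h1
    have h3 : B₁ (a x) u = l⁻¹ * (c * B₁ x (a u)) := by
      rw [h1, ← mul_assoc, inv_mul_cancel₀ hl, one_mul]
    rw [h3, ← mul_assoc l⁻¹ l, inv_mul_cancel₀ hl, one_mul]
    module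

end

variable {F U W V : Type*} [Field F] [AddCommGroup U] [Module F U] [AddCommGroup W] [Module F W] [AddCommGroup V]
  [Module F V] [FiniteDimensional F U] [FiniteDimensional F W]
variable {B₁ : LinearMap.BilinForm F U} {B₂ : LinearMap.BilinForm F W} {B : LinearMap.BilinForm F V}
  {τ : U →ₗ[F] W →ₗ[F] V} {X : Subgroup (V ≃ₗ[F] V)} {h : TE B₁ B₂ B τ (-1) 1}

/-- vectors in `U ⊗ M` with `M` small -/
lemma small_of [Finite F] [Finite V] (H : Hy h X) (hd : 4 ≤ finrank F U) (hdm : finrank F W ≤ 2 * finrank F U)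
    {x : V ≃ₗ[F] V} (hx : x ∈ X) {u₂ : U} {w : W} (hu₂ : u₂ ≠ 0) (hw : w ≠ 0) {M : Submodule F W} (hM : finrank F M < finrank F U)
    (hv : ∀ u, kap h.symm u (x (τ u₂ w)) ∈ M) : Kr τ x := by
  let L : U →ₗ[F] M := LinearMap.codRestrict M ((kap h.symm).flip (x (τ u₂ w))) hv
  have hker : LinearMap.ker L ≠ ⊥ := by
    intro h0
    have h3 := L.finrank_range_add_finrank_ker
    rw [h0, finrank_bot, add_zero] at h3
    have h4 := Submodule.finrank_le (LinearMap.range L)
    omega
  obtain ⟨u₁, hu, hu0⟩ := Submodule.exists_mem_ne_zero_of_ne_bot hker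
  have hu' : kap h.symm u₁ (x (τ u₂ w)) = 0 := congrArg Subtype.val hu
  exact small_rank H hd hdm hx hu0 hu₂ hw hu'

/-- elements commuting with an involution of the orthogonal group -/
lemma comm_z [Finite F] [Finite V] (H : Hy h X) (hd : 4 ≤ finrank F U) (hdm : finrank F W ≤ 2 * finrank F U)
    {z : V ≃ₗ[F] V} {s : Module.End F W} (hz : ∀ u w, z (τ u w) = τ u (s w)) {M : Submodule F W} (hM : finrank F M < finrank F U)
    (hsM : ∀ w, s w = -w → w ∈ M) {w₀ : W} (hw₀ : w₀ ≠ 0) (hsw₀ : s w₀ = - w₀) {c : V ≃ₗ[F] V} (hc : c ∈ X) (hcz : c * z = z * c) :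
    Kr τ c := by
  obtain ⟨u₂, hu₂⟩ := H.hU
  refine small_of H hd hdm hc hu₂ hw₀ hM fun u => hsM _ ?_
  have h1 : ∀ v, kap h.symm u (z v) = s (kap h.symm u v) := by
    have : kap h.symm u ∘ₗ z.toLinearMap = s ∘ₗ kap h.symm u := by
      apply h.ext
      intro x w
      rw [LinearMap.comp_apply, LinearMap.comp_apply, LinearEquiv.coe_coe, hz, kap_pure' h, kap_pure' h, map_smul]
    intro v
    exact LinearMap.congr_fun this v
  rw [← h1]
  have h3 : z (c (τ u₂ w₀)) = c (z (τ u₂ w₀)) := by rw [← LinearEquiv.mul_apply, ← hcz, LinearEquiv.mul_apply]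
  rw [h3, hz, hsw₀, map_neg, map_neg, map_neg]

/-- involutions of the orthogonal group are good -/
theorem z_good [Finite F] [Finite V] (H : Hy h X) (hd : 4 ≤ finrank F U) (hdm : finrank F W ≤ 2 * finrank F U)
    {z : V ≃ₗ[F] V} (hzX : z ∈ X) {s : Module.End F W} (hz : ∀ u w, z (τ u w) = τ u (s w)) (hss : ∀ w, s (s w) = w)
    {M : Submodule F W} (hM : finrank F M < finrank F U)
    (hsM : ∀ w, s w = -w → w ∈ M) {w₀ : W} (hw₀ : w₀ ≠ 0) (hsw₀ : s w₀ = - w₀) : GE τ X 2 z := by
  obtain ⟨p, hpF⟩ := CharP.exists F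
  have hpp : p.Prime := (CharP.char_is_prime_or_zero F p).resolve_right (by
    intro h0
    subst h0
    have := CharP.charP_to_charZero F
    exact not_finite F)
  have hzz : z * z = 1 := teq h fun u w => by rw [LinearEquiv.mul_apply, hz, hz, hss]; rfl
  let sE : W ≃ₗ[F] W := LinearEquiv.ofLinearMap s s (by ext w; exact hss w) (by ext w; exact hss w)
  refine ⟨hzX, ⟨1, sE, fun u w => hz u w⟩, ⟨1, by rw [pow_one, pow_two, hzz]⟩, fun g hg hk => ?_⟩
  obtain ⟨a, b, hab⟩ := hk
  obtain ⟨s', hs'⟩ : ∃ s', s' = g⁻¹ * z * g := ⟨_, rfl⟩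
  rw [← hs'] at hab
  have hs'X : s' ∈ X := by rw [hs']; exact X.mul_mem (X.mul_mem (X.inv_mem hg) hzX) hg
  have hs'2 : s' * s' = 1 := by
    rw [hs']
    have : g⁻¹ * z * g * (g⁻¹ * z * g) = g⁻¹ * (z * z) * g := by group
    rw [this, hzz]; group
  have hab2 : ∀ x w, τ (a (a x)) (b (b w)) = τ x w := by
    intro x w
    rw [← hab, ← hab, ← LinearEquiv.mul_apply, hs'2]; rfl
  -- the square of a is scalar
  obtain ⟨c, hac⟩ : ∃ c : F, ∀ x, a (a x) = c • x := by
    refine scalar_of_span (n := a.toLinearMap ∘ₗ a.toLinearMap) fun x => ?_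
    change a (a x) ∈ _
    obtain ⟨w', hw'⟩ := h.f₂.one (fun h0 => hw₀ ((map_eq_zero_iff b b.injective).mp ((map_eq_zero_iff b b.injective).mp h0)) : b (b w₀) ≠ 0)
    have h1 := congrArg (kap h w') (hab2 x w₀)
    rw [kap_pure, kap_pure, hw', one_smul] at h1
    rw [h1]
    exact Submodule.smul_mem _ _ (Submodule.mem_span_singleton_self _)
  -- a is a similitude
  obtain ⟨l, hl, hal⟩ : ∃ l : F, l ≠ 0 ∧ ∀ x y, B₁ (a x) (a y) = l * B₁ x y := by
    obtain ⟨w', hw'⟩ := h.f₂.one hw₀
    obtain ⟨u, hu⟩ := H.hU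
    obtain ⟨u', hu'⟩ := h.f₁.one hu
    have h1 : ∀ x y, B₁ (a x) (a y) * B₂ (b w₀) (b w') = B₁ x y := by
      intro x y
      have h3 := H.hX.le hs'X (τ x w₀) (τ y w')
      rw [hab, hab, h.bp, h.bp, hw', mul_one] at h3
      exact h3
    have h3 : B₂ (b w₀) (b w') ≠ 0 := by
      intro h0
      have := h1 u u'
      rw [h0, mul_zero, hu'] at this
      exact zero_ne_one this
    exact ⟨(B₂ (b w₀) (b w'))⁻¹, inv_ne_zero h3, fun x y => by rw [← h1 x y]; field_simp⟩
  obtain ⟨α, hsq, hsk, hne, hcomm⟩ := exists_alpha h.f₁ H.two (by omega) hl hal hac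
  obtain ⟨N, hN, hQ⟩ := exists_QE h H.hX hsq hsk hne
  have hNg := hQ.good H hd hdm hpp hN
  have hNz : N * z = z * N := teq h fun x w => by
    rw [LinearEquiv.mul_apply, LinearEquiv.mul_apply, hQ.ap, hz, hz, hQ.ap]
  have hNs : N * s' = s' * N := teq h fun x w => by
    rw [LinearEquiv.mul_apply, LinearEquiv.mul_apply, hQ.ap, hab, hab, hQ.ap, map_add a, hcomm]
  obtain ⟨k, hkX, hkr, hks, c', hcX, hcs, hkc⟩ := transfer hpp hs' hg hNg hNg hNz hNs
  have h1 : Kr τ (k⁻¹ * c' * k) := by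
    refine comm_z H hd hdm hz hM hsM hw₀ hsw₀ (X.mul_mem (X.mul_mem (X.inv_mem hkX) hcX) hkX) ?_
    have e1 : z = k⁻¹ * s' * k := by rw [← hks]; group
    rw [e1]
    calc k⁻¹ * c' * k * (k⁻¹ * s' * k) = k⁻¹ * (c' * s') * k := by group
      _ = k⁻¹ * (s' * c') * k := by rw [hcs]
      _ = k⁻¹ * s' * k * (k⁻¹ * c' * k) := by group
  have h3 : Kr τ c' := by
    have : c' = k * (k⁻¹ * c' * k) * k⁻¹ := by group
    rw [this]
    exact (KrG τ).mul_mem ((KrG τ).mul_mem hkr h1) ((KrG τ).inv_mem hkr)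
  have h2 : g = k⁻¹ * c' := by rw [hkc]; group
  rw [h2]
  exact (KrG τ).mul_mem ((KrG τ).inv_mem hkr) h3

/-- the reflection map -/
noncomputable def rf (B₂ : LinearMap.BilinForm F W) (y : W) : Module.End F W := 1 - ((2 / B₂ y y) • LinearMap.flip B₂ y).smulRight y

lemma rf_apply (y w : W) : rf B₂ y w = w - (2 / B₂ y y * B₂ w y) • y := rfl

lemma rf_self {y : W} (hyy : B₂ y y ≠ 0) : rf B₂ y y = -y := by
  rw [rf_apply, div_mul_cancel₀ _ hyy]
  module

lemma rf_perp {y w : W} (hw : B₂ w y = 0) : rf B₂ y w = w := by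
  rw [rf_apply, hw, mul_zero, zero_smul, sub_zero]

lemma rf_rf {y : W} (hyy : B₂ y y ≠ 0) (w : W) : rf B₂ y (rf B₂ y w) = w := by
  rw [rf_apply y w, map_sub, map_smul, rf_self hyy, rf_apply]
  module

end H96.TeZ
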