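import Mathlib
import Cfsg.Agent.Lib.H96.TeZ

set_option autoImplicit false
set_option linter.unusedSectionVars false
set_option linter.unusedVariables false
set_option linter.unusedSimpArgs false

/-!
Overgroups of the tensor product of a symplectic and an orthogonal group: conclusion.
-/

namespace H96.TeM

open Module H95.SpBasic H96.TeBase H96.TeNorm H96.TeC H96.TeE H96.TeF H96.TeG H96.TeA H96.TeT H96.TeR H96.TeS H96.TeP H96.TeQ
  H96.TeZ

variable {F U W V : Type*} [Field F] [AddCommGroup U] [Module F U] [AddCommGroup W] [Module F W] [AddCommGroup V]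
  [Module F V] [FiniteDimensional F U] [FiniteDimensional F W]
variable {B₁ : LinearMap.BilinForm F U} {B₂ : LinearMap.BilinForm F W} {B : LinearMap.BilinForm F V}
  {τ : U →ₗ[F] W →ₗ[F] V} {X : Subgroup (V ≃ₗ[F] V)} {h : TE B₁ B₂ B τ (-1) 1}

lemma mem_span_rf {y w : W} : ∃ c : F, rf B₂ y w = w + c • y := ⟨-(2 / B₂ y y * B₂ w y), by rw [rf_apply]; module⟩

/-- small orthogonal groups -/
theorem main_small [Finite F] [Finite V] (H : Hy h X) (hd : 4 ≤ finrank F U) (hdm : finrank F W ≤ 2 * finrank F U) : X ≤ KrG τ := by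
  intro x hx
  by_contra hxk
  have h2 := H.two
  have hxx : ∀ v, x (x⁻¹ v) = v := fun v => x.apply_symm_apply v
  have hxx' : ∀ v, x⁻¹ (x v) = v := fun v => x.symm_apply_apply v
  have hm := H.m3
  -- two orthogonal non-singular vectors
  obtain ⟨w₁, -, hw₁⟩ := exists_ns h.f₂ h2 (S := (⊤ : Submodule F W)) (by rw [finrank_top]; omega)
  obtain ⟨w₂, hw₂p, hw₂⟩ := exists_ns h.f₂ h2 (S := LinearMap.ker (B₂ w₁)) (by
    have e3 := (B₂ w₁).finrank_range_add_finrank_ker
    have e4 : finrank F (LinearMap.range (B₂ w₁)) ≤ 1 := (Submodule.finrank_le _).trans (by rw [finrank_self])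
    omega)
  have h12 : B₂ w₁ w₂ = 0 := hw₂p
  have h21 : B₂ w₂ w₁ = 0 := h.f₂.zero_flip h12
  have hw₁0 : w₁ ≠ 0 := by rintro rfl; rw [map_zero] at hw₁; exact hw₁ rfl
  have hw₂0 : w₂ ≠ 0 := by rintro rfl; rw [map_zero] at hw₂; exact hw₂ rfl
  obtain ⟨z₁, hz₁X, hz₁⟩ := exists_refl h h2 H.hX hw₁
  obtain ⟨z₂, hz₂X, hz₂⟩ := exists_refl h h2 H.hX hw₂
  replace hz₁ : ∀ u w, z₁ (τ u w) = τ u (rf B₂ w₁ w) := hz₁
  replace hz₂ : ∀ u w, z₂ (τ u w) = τ u (rf B₂ w₂ w) := hz₂
  have r12 : rf B₂ w₁ w₂ = w₂ := rf_perp h21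
  have r21 : rf B₂ w₂ w₁ = w₁ := rf_perp h12
  have r11 := rf_self hw₁
  have r22 := rf_self hw₂
  obtain ⟨M, hM⟩ : ∃ M, M = Submodule.span F {w₁, w₂} := ⟨_, rfl⟩
  have hM1 : w₁ ∈ M := by rw [hM]; exact Submodule.subset_span (by simp)
  have hM2 : w₂ ∈ M := by rw [hM]; exact Submodule.subset_span (by simp)
  have hMr : finrank F M ≤ 2 := by rw [hM]; exact H96.StN.finrank_span2 _ _
  have half : ∀ {w : W} {M : Submodule F W}, (2 : F) • w ∈ M → w ∈ M := by
    intro w M hw
    have := M.smul_mem (2 : F)⁻¹ hw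
    rwa [smul_smul, inv_mul_cancel₀ h2, one_smul] at this
  -- z₁ is good
  have hg₁ : GE τ X 2 z₁ := by
    refine z_good H hd hdm hz₁X (s := rf B₂ w₁) hz₁ (rf_rf hw₁) (M := Submodule.span F {w₁}) ?_ ?_ hw₁0 r11
    · have := finrank_span_le_card (R := F) ({w₁} : Set W)
      simp only [Set.toFinset_singleton, Finset.card_singleton] at this
      omega
    · intro w hw
      apply half
      obtain ⟨c, hc⟩ := mem_span_rf (B₂ := B₂) (y := w₁) (w := w)
      rw [hw] at hc
      have : (2 : F) • w = (-c) • w₁ := by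
        have e1 : (2 : F) • w = w - (-w) := by module
        rw [e1, hc]; module
      rw [this]
      exact Submodule.smul_mem _ _ (Submodule.mem_span_singleton_self _)
  -- i is good
  obtain ⟨i, hi⟩ : ∃ i, i = z₁ * z₂ := ⟨_, rfl⟩
  have hiX : i ∈ X := by rw [hi]; exact X.mul_mem hz₁X hz₂X
  obtain ⟨s, hs⟩ : ∃ s : Module.End F W, s = rf B₂ w₁ * rf B₂ w₂ := ⟨_, rfl⟩
  have hsw : ∀ w, s w = rf B₂ w₁ (rf B₂ w₂ w) := fun w => by rw [hs]; rfl
  have his : ∀ u w, i (τ u w) = τ u (s w) := fun u w => by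
    rw [hi, LinearEquiv.mul_apply, hz₂, hz₁, hsw]
  have hs1 : s w₁ = -w₁ := by rw [hsw, r21, r11]
  have hs2 : s w₂ = -w₂ := by rw [hsw, r22, map_neg, r12]
  have hsd : ∀ w, ∃ c₁ c₂ : F, s w = w + c₁ • w₁ + c₂ • w₂ := by
    intro w
    obtain ⟨c, hc⟩ := mem_span_rf (B₂ := B₂) (y := w₂) (w := w)
    obtain ⟨c', hc'⟩ := mem_span_rf (B₂ := B₂) (y := w₁) (w := w)
    refine ⟨c', c, ?_⟩
    rw [hsw, hc, map_add, map_smul, r12, hc']
  have hss : ∀ w, s (s w) = w := by
    intro w
    rw [hsw w, hsw]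
    obtain ⟨c', hc'⟩ := mem_span_rf (B₂ := B₂) (y := w₁) (w := rf B₂ w₂ w)
    have e1 : rf B₂ w₂ (rf B₂ w₁ (rf B₂ w₂ w)) = rf B₂ w₁ w := by
      rw [hc', map_add, map_smul, r21, rf_rf hw₂]
      have e2 : B₂ (rf B₂ w₂ w) w₁ = B₂ w w₁ := by
        rw [rf_apply, map_sub, map_smul, LinearMap.sub_apply, LinearMap.smul_apply, h21, smul_zero, sub_zero]
      rw [rf_apply, e2] at hc'
      rw [rf_apply]
      have e3 : c' • w₁ = - ((2 / B₂ w₁ w₁ * B₂ w w₁) • w₁) := by
        have := congrArg (fun z => z - rf B₂ w₂ w) hc'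
        simp only [add_sub_cancel_left] at this
        rw [← this]
        abel
      rw [e3]; abel
    rw [e1, rf_rf hw₁]
  have hii : i * i = 1 := teq h fun u w => by rw [LinearEquiv.mul_apply, his, his, hss]; rfl
  have hgi : GE τ X 2 i := by
    refine z_good H hd hdm hiX (s := s) his hss (M := M) (by omega) (fun w hw => ?_) hw₁0 hs1
    apply half
    obtain ⟨c₁, c₂, hc⟩ := hsd w
    rw [hw] at hc
    have : (2 : F) • w = (-c₁) • w₁ + (-c₂) • w₂ := by
      have e1 : (2 : F) • w = w - (-w) := by module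
      rw [e1, hc]; module
    rw [this]
    exact M.add_mem (M.smul_mem _ hM1) (M.smul_mem _ hM2)
  -- the conjugate
  obtain ⟨y, hy⟩ : ∃ y, y = x * z₁ * x⁻¹ := ⟨_, rfl⟩
  have hyX : y ∈ X := by rw [hy]; exact X.mul_mem (X.mul_mem hx hz₁X) (X.inv_mem hx)
  have hzz : z₁ * z₁ = 1 := teq h fun u w => by rw [LinearEquiv.mul_apply, hz₁, hz₁, rf_rf hw₁]; rfl
  have hyy : y * y = 1 := by
    rw [hy]
    have : x * z₁ * x⁻¹ * (x * z₁ * x⁻¹) = x * (z₁ * z₁) * x⁻¹ := by group
    rw [this, hzz]; group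
  have hynk : ¬ Kr τ y := by
    intro h0
    apply hxk
    have h1 := hg₁.good x⁻¹ (X.inv_mem hx) (by rw [inv_inv, ← hy]; exact h0)
    have h3 := (KrG τ).inv_mem h1
    rwa [inv_inv] at h3
  have hCX : Subgroup.closure {i, y} ≤ X := by
    rw [Subgroup.closure_le]
    rintro g (rfl | hg)
    · exact hiX
    · have : g = y := hg
      rw [this]; exact hyX
  obtain ⟨c, hc, a, b, hab⟩ := fus Nat.prime_two (C := Subgroup.closure {i, y}) hCX hgi hg₁ hx
    (Subgroup.subset_closure (by simp)) (by rw [← hy]; exact Subgroup.subset_closure (by simp))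
  have hcX := hCX hc
  -- the invariant subspace
  have hcv : ∀ v, ∃ p q r, c v = v + τ p w₁ + τ q w₂ + x (τ r w₁) := by
    have hi1 : ∀ v, ∃ p q r, i v = v + τ p w₁ + τ q w₂ + x (τ r w₁) := by
      intro v
      have : ∀ v, i v - v ∈ LinearMap.range (LinearMap.coprod (τ.flip w₁) (τ.flip w₂)) := by
        have e1 : LinearMap.range (i.toLinearMap - LinearMap.id) ≤ LinearMap.range (LinearMap.coprod (τ.flip w₁) (τ.flip w₂)) := by
          rw [LinearMap.range_eq_map, Submodule.map_le_iff_le_comap]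
          have e2 := h.span (Submodule.comap (i.toLinearMap - LinearMap.id) (LinearMap.range (LinearMap.coprod (τ.flip w₁) (τ.flip w₂))))
            (fun u w => by
              obtain ⟨c₁, c₂, hc⟩ := hsd w
              refine ⟨(c₁ • u, c₂ • u), ?_⟩
              simp only [LinearMap.coprod_apply, LinearMap.flip_apply, LinearMap.sub_apply, LinearEquiv.coe_coe, LinearMap.id_apply, his,
                hc, map_add, map_smul, LinearMap.smul_apply]
              abel)
          rw [e2]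
        exact fun v => e1 ⟨v, rfl⟩
      obtain ⟨⟨p, q⟩, hpq⟩ := this v
      refine ⟨p, q, 0, ?_⟩
      have e1 : i v = v + (i v - v) := by abel
      rw [e1, ← hpq]
      simp only [LinearMap.coprod_apply, LinearMap.flip_apply, map_zero, LinearMap.zero_apply, add_zero]
      abel
    have hy1 : ∀ v, ∃ p q r, y v = v + τ p w₁ + τ q w₂ + x (τ r w₁) := by
      intro v
      have : ∀ v, z₁ v - v ∈ LinearMap.range (τ.flip w₁) := by
        have e1 : LinearMap.range (z₁.toLinearMap - LinearMap.id) ≤ LinearMap.range (τ.flip w₁) := by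
          rw [LinearMap.range_eq_map, Submodule.map_le_iff_le_comap]
          have e2 := h.span (Submodule.comap (z₁.toLinearMap - LinearMap.id) (LinearMap.range (τ.flip w₁)))
            (fun u w => by
              obtain ⟨c₁, hc⟩ := mem_span_rf (B₂ := B₂) (y := w₁) (w := w)
              refine ⟨c₁ • u, ?_⟩
              simp only [LinearMap.flip_apply, LinearMap.sub_apply, LinearEquiv.coe_coe, LinearMap.id_apply, hz₁,
                hc, map_add, map_smul, LinearMap.smul_apply]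
              abel)
          rw [e2]
        exact fun v => e1 ⟨v, rfl⟩
      obtain ⟨r, hr⟩ := this (x⁻¹ v)
      refine ⟨0, 0, r, ?_⟩
      have e1 : y v = v + x (z₁ (x⁻¹ v) - x⁻¹ v) := by
        rw [map_sub, hxx, hy, LinearEquiv.mul_apply, LinearEquiv.mul_apply]; abel
      rw [e1, ← hr]
      simp
    refine Subgroup.closure_induction (p := fun c _ => ∀ v, ∃ p q r, c v = v + τ p w₁ + τ q w₂ + x (τ r w₁)) ?_ ?_ ?_ ?_ hc
    · rintro g (rfl | hg)
      · exact hi1
      · have : g = y := hg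
        rw [this]; exact hy1
    · intro v
      refine ⟨0, 0, 0, ?_⟩
      simp
    · intro c d _ _ h1 h3 v
      obtain ⟨p, q, r, e1⟩ := h3 v
      obtain ⟨p', q', r', e2⟩ := h1 (d v)
      refine ⟨p + p', q + q', r + r', ?_⟩
      rw [LinearEquiv.mul_apply, e2, e1]
      simp only [map_add, LinearMap.add_apply]
      abel
    · intro c _ h1 v
      obtain ⟨p, q, r, e1⟩ := h1 (c⁻¹ v)
      refine ⟨-p, -q, -r, ?_⟩
      have e2 : c (c⁻¹ v) = v := c.apply_symm_apply v
      rw [e2] at e1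
      simp only [map_neg, LinearMap.neg_apply]
      generalize c⁻¹ v = t at e1 ⊢
      rw [e1]
      abel
  by_cases hbM : b w₁ ∈ M
  · -- the commuting case
    obtain ⟨y', hy'⟩ : ∃ y', y' = c * y * c⁻¹ := ⟨_, rfl⟩
    have hy'2 : y' = c * x * z₁ * (c * x)⁻¹ := by rw [hy', hy]; group
    obtain ⟨μ, hμ0, hμ⟩ : ∃ l : F, l ≠ 0 ∧ ∀ x y, B₂ (b x) (b y) = l * B₂ x y := by
      obtain ⟨u, hu⟩ := H.hU
      obtain ⟨u', hu'⟩ := h.f₁.one hu
      have h1 : ∀ x y, B₁ (a u) (a u') * B₂ (b x) (b y) = B₂ x y := by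
        intro w w'
        have h3 := H.hX.le (X.mul_mem hcX hx) (τ u w) (τ u' w')
        rw [hab, hab, h.bp, h.bp, hu', one_mul] at h3
        exact h3
      have h3 : B₁ (a u) (a u') ≠ 0 := by
        intro h0
        have := h1 w₁ w₁
        rw [h0, zero_mul] at this
        exact hw₁ this.symm
      exact ⟨(B₁ (a u) (a u'))⁻¹, inv_ne_zero h3, fun x y => by rw [← h1 x y]; field_simp⟩
    obtain ⟨w', hw'⟩ : ∃ w', w' = b w₁ := ⟨_, rfl⟩
    have hw'ns : B₂ w' w' ≠ 0 := by rw [hw', hμ]; exact mul_ne_zero hμ0 hw₁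
    have hy'p : ∀ u w, y' (τ u w) = τ u (rf B₂ w' w) := by
      intro u w
      have e1 : (c * x)⁻¹ (τ u w) = τ (a⁻¹ u) (b⁻¹ w) := by
        have e2 : (c * x) (τ (a⁻¹ u) (b⁻¹ w)) = τ u w := by
          rw [hab]
          have e3 : a (a⁻¹ u) = u := a.apply_symm_apply u
          have e4 : b (b⁻¹ w) = w := b.apply_symm_apply w
          rw [e3, e4]
        rw [← e2]
        exact (c * x).symm_apply_apply _
      rw [hy'2, LinearEquiv.mul_apply, LinearEquiv.mul_apply (c * x) z₁, e1, hz₁, hab]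
      have e3 : a (a⁻¹ u) = u := a.apply_symm_apply u
      have e4 : b (b⁻¹ w) = w := b.apply_symm_apply w
      rw [e3, rf_apply, map_sub, map_smul, e4, rf_apply, ← hw']
      congr 3
      have e5 : B₂ w w' = μ * B₂ (b⁻¹ w) w₁ := by rw [← hμ, e4, hw']
      have e6 : B₂ w' w' = μ * B₂ w₁ w₁ := by rw [hw', hμ]
      rw [e5, e6]
      field_simp
    rw [← hw'] at hbM
    -- i and y' commute
    have hsM : ∀ w ∈ M, s w = - w := by
      intro w hw
      rw [hM, Submodule.mem_span_pair] at hw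
      obtain ⟨c₁, c₂, rfl⟩ := hw
      rw [map_add, map_smul, map_smul, hs1, hs2]; module
    have hs_adj : ∀ w, B₂ (s w) w' = - B₂ w w' := by
      have hsadj : ∀ w t, B₂ (s w) t = B₂ w (s t) := by
        have e1 : ∀ y w t, B₂ (rf B₂ y w) t = B₂ w (rf B₂ y t) := by
          intro y w t
          rw [rf_apply, rf_apply, map_sub, map_sub, map_smul, map_smul, LinearMap.sub_apply, LinearMap.smul_apply, h.f₂.flip t y,
            smul_eq_mul, smul_eq_mul]
          ring
        intro w t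
        rw [hsw, e1, e1]
        congr 1
        -- the two reflections commute
        obtain ⟨c₁, hc₁⟩ := mem_span_rf (B₂ := B₂) (y := w₁) (w := t)
        obtain ⟨c₂, hc₂⟩ := mem_span_rf (B₂ := B₂) (y := w₂) (w := t)
        rw [hsw, hc₁, hc₂, map_add, map_add, map_smul, map_smul, r21, r12, hc₁, hc₂]
        abel
      intro w
      rw [hsadj, hsM _ hbM, map_neg]
    have hcomm : ∀ w, s (rf B₂ w' w) = rf B₂ w' (s w) := by
      intro w
      rw [rf_apply, rf_apply, map_sub, map_smul, hsM _ hbM, hs_adj]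
      module
    have hiy' : i * y' = y' * i := teq h fun u w => by
      rw [LinearEquiv.mul_apply, LinearEquiv.mul_apply, hy'p, his, his, hy'p, hcomm]
    have hfin : (i * y') * y = y * (i * y') := by
      have := dihedral hii hyy hc (by rw [← hy']; exact hiy')
      rwa [← hy'] at this
    -- a vector in M orthogonal to w'
    obtain ⟨w₀, hw₀M, hw₀0, hw₀⟩ : ∃ w₀ ∈ M, w₀ ≠ 0 ∧ B₂ w₀ w' = 0 := by
      by_cases h3 : B₂ w₂ w' = 0
      · exact ⟨w₂, hM2, hw₂0, h3⟩
      · refine ⟨B₂ w₂ w' • w₁ - B₂ w₁ w' • w₂, M.sub_mem (M.smul_mem _ hM1) (M.smul_mem _ hM2), ?_, ?_⟩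
        · intro h4
          have h5 := congrArg (fun z => B₂ z w₁) h4
          simp only [map_sub, map_smul, LinearMap.sub_apply, LinearMap.smul_apply, h21, smul_zero, sub_zero, map_zero,
            LinearMap.zero_apply, smul_eq_mul, mul_zero] at h5
          exact (mul_ne_zero h3 hw₁) h5
        · simp only [map_sub, map_smul, LinearMap.sub_apply, LinearMap.smul_apply, smul_eq_mul]
          ring
    apply hynk
    refine comm_z H hd hdm (z := i * y') (s := s * rf B₂ w') (M := M) (fun u w => ?_) (by omega) (fun w hw => ?_) hw₀0 ?_ hyX hfin.symm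
    · rw [LinearEquiv.mul_apply, hy'p, his]; rfl
    · have hw2 : s (rf B₂ w' w) = -w := hw
      apply half
      obtain ⟨c₁, c₂, e1⟩ := hsd (rf B₂ w' w)
      rw [hw2, rf_apply] at e1
      have : (2 : F) • w = (2 / B₂ w' w' * B₂ w w') • w' + ((-c₁) • w₁ + (-c₂) • w₂) := by
        have e2 : (2 : F) • w = w - (-w) := by module
        rw [e2, e1]; module
      rw [this]
      exact M.add_mem (M.smul_mem _ hbM) (M.add_mem (M.smul_mem _ hM1) (M.smul_mem _ hM2))
    · change s (rf B₂ w' w₀) = -w₀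
      rw [rf_perp hw₀, hsM _ hw₀M]
  · -- the general case
    apply hxk
    obtain ⟨z, hz1, hz2⟩ := h.f₂.sep _ hbM
    have hz3 := hz1 w₁ hM1
    have hz4 := hz1 w₂ hM2
    let ψ : U →ₗ[F] U := kap h z ∘ₗ x.toLinearMap ∘ₗ τ.flip w₁
    have hψ : ∀ t p q r, τ t (b w₁) = τ p w₁ + τ q w₂ + x (τ r w₁) → ψ r = t := by
      intro t p q r h1
      have h3 := congrArg (kap h z) h1
      rw [map_add, map_add, kap_pure, kap_pure, kap_pure, hz2, hz3, hz4, zero_smul, zero_smul, one_smul, zero_add, zero_add] at h3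
      exact h3.symm
    have hex : ∀ t, ∃ p q r, τ t (b w₁) = τ p w₁ + τ q w₂ + x (τ r w₁) := by
      intro t
      have e1 := hab (a⁻¹ t) w₁
      have e3 : a (a⁻¹ t) = t := a.apply_symm_apply t
      obtain ⟨p, q, r, e4⟩ := hcv (x (τ (a⁻¹ t) w₁))
      rw [e3, LinearEquiv.mul_apply, e4] at e1
      refine ⟨p, q, a⁻¹ t + r, ?_⟩
      rw [← e1]
      simp only [map_add, LinearMap.add_apply]
      abel
    have hsurj : Function.Surjective ψ := fun t => by
      obtain ⟨p, q, r, h1⟩ := hex t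
      exact ⟨r, hψ _ _ _ _ h1⟩
    have hinj : Function.Injective ψ := LinearMap.injective_iff_surjective.mpr hsurj
    obtain ⟨u, hu⟩ := H.hU
    obtain ⟨p, q, r, h1⟩ := hex (ψ u)
    have h3 : r = u := hinj (hψ _ _ _ _ h1)
    have h4 : x (τ u w₁) = τ (ψ u) (b w₁) - τ p w₁ - τ q w₂ := by
      rw [h1, h3]; abel
    refine small_of H hd hdm hx hu hw₁0 (M := M ⊔ Submodule.span F {b w₁}) ?_ fun u' => ?_
    · have e1 := Submodule.finrank_add_le_finrank_add_finrank M (Submodule.span F {b w₁})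
      have e2 := finrank_span_le_card (R := F) ({b w₁} : Set W)
      simp only [Set.toFinset_singleton, Finset.card_singleton] at e2
      omega
    · rw [h4, map_sub, map_sub, kap_pure' h, kap_pure' h, kap_pure' h]
      refine Submodule.sub_mem _ (Submodule.sub_mem _ (Submodule.smul_mem _ _ ?_) (Submodule.smul_mem _ _ ?_)) (Submodule.smul_mem _ _ ?_)
      · exact Submodule.mem_sup_right (Submodule.mem_span_singleton_self _)
      · exact Submodule.mem_sup_left hM1
      · exact Submodule.mem_sup_left hM2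

/-- the dichotomy -/
theorem main [Finite F] [Finite V] [FiniteDimensional F V] (h : TE B₁ B₂ B τ (-1) 1) (h2 : (2 : F) ≠ 0) (hX : HX B τ X)
    (hm : 3 ≤ finrank F W) (hbig : 4 ≤ finrank F W ∨ ∃ t : F, t ≠ 0 ∧ t * t ≠ 1)
    (hdm : (4 ≤ finrank F U ∧ finrank F W ≤ 2 * finrank F U) ∨
      (2 * finrank F U < finrank F W ∧ 2 ≤ finrank F U)) : isom B ≤ X ∨ X ≤ KrG τ := by
  have hU : ∃ u : U, u ≠ 0 := by
    obtain ⟨u, hu⟩ := (finrank_pos_iff_exists_ne_zero (R := F) (M := U)).mp (by omega)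
    exact ⟨u, hu⟩
  by_cases hnt : NT B₂ B τ X
  · right
    have H : Hy h X := ⟨h2, hX, hnt, hm, hU, hbig⟩
    rcases hdm with ⟨h1, h3⟩ | ⟨h1, h3⟩
    · exact main_small H h1 h3
    · exact main_large H h1 (by omega) (by omega)
  · left
    unfold NT at hnt
    push Not at hnt
    obtain ⟨u, e, c, hu, he, hee, hc, hg⟩ := hnt
    exact all_of_tr h h2 hX hm hu he hee hc hg

end H96.TeM
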