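import Mathlib
import Cfsg.Agent.Lib.H96.TeM
import Cfsg.Agent.Lib.H96.StBr

set_option autoImplicit false
set_option linter.unusedSectionVars false
set_option linter.unusedVariables false
set_option linter.unusedSimpArgs false

/-!
The stabiliser of a tensor product of a symplectic and a symmetric form in the symplectic group: translation.
-/

namespace H96.TeBr

open Module H95.SpBasic H96.TeBase H96.TeNorm H96.TeC H96.TeE H96.TeM H96.TeQ H96.TeA
open Cfsg Cfsg.Geo Matrix H95.Bridge H97.AschPosE H97.AschUnits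
open H96.StBr (tm tm_apply tm_span bf bf_apply fog_gram cr_mulVec)
open scoped Kronecker

section abs

variable {F U W V : Type*} [Field F] [AddCommGroup U] [Module F U] [AddCommGroup W] [Module F W] [AddCommGroup V]
  [Module F V] [FiniteDimensional F U] [FiniteDimensional F W]
variable {B₁ : LinearMap.BilinForm F U} {B₂ : LinearMap.BilinForm F W} {B : LinearMap.BilinForm F V}
  {τ : U →ₗ[F] W →ₗ[F] V}

/-- a transvection outside the tensor product group -/
theorem proper (h : TE B₁ B₂ B τ (-1) 1) (h2 : (2 : F) ≠ 0) (hd : 1 ≤ finrank F U) (hm : 2 ≤ finrank F W) :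
    ∃ g ∈ isom B, ¬ Kr τ g := by
  have halt := fun x => alt_of h.f₁ h2 x
  have hB := isAlt_of h h2
  obtain ⟨u, hu⟩ := (finrank_pos_iff_exists_ne_zero (R := F) (M := U)).mp (by omega)
  obtain ⟨w, hw⟩ := (finrank_pos_iff_exists_ne_zero (R := F) (M := W)).mp (by omega)
  refine ⟨tr B hB (τ u w) 1, tr_mem_isom B hB _ _, ?_⟩
  rintro ⟨a, b, hab⟩
  have hs : ∀ y z, τ y z + (B₁ y u * B₂ z w) • τ u w = τ (a y) (b z) := by
    intro y z
    rw [← hab, tr_apply, h.bp, one_mul]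
  obtain ⟨z, hz, hz0⟩ : ∃ z ∈ LinearMap.ker (LinearMap.flip B₂ w), z ≠ 0 := by
    apply Submodule.exists_mem_ne_zero_of_ne_bot
    intro h0
    have h5 := (LinearMap.flip B₂ w).finrank_range_add_finrank_ker
    rw [h0, finrank_bot, add_zero] at h5
    have h6 := Submodule.finrank_le (LinearMap.range (LinearMap.flip B₂ w))
    rw [finrank_self] at h6
    omega
  have hzw : B₂ z w = 0 := hz
  obtain ⟨c, hc⟩ : ∃ c : F, ∀ y, a y = c • y := by
    refine scalar_of_span (n := a.toLinearMap) fun y => ?_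
    by_contra hy
    obtain ⟨x, hx1, hx2⟩ := h.f₁.sep1 hy
    have h3 := congrArg (kap h.symm x) (hs y z)
    rw [hzw, mul_zero, zero_smul, add_zero, kap_pure' h, kap_pure' h, hx1, zero_smul] at h3
    rw [LinearEquiv.coe_coe] at hx2
    rw [hx2, one_smul] at h3
    exact hz0 ((map_eq_zero_iff b b.injective).mp h3.symm)
  have hb : ∀ z, c • b z = z := by
    intro z
    have h3 := hs u z
    rw [halt, zero_mul, zero_smul, add_zero, hc, map_smul, LinearMap.smul_apply, ← map_smul] at h3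
    exact (pure_inj' h hu h3).symm
  obtain ⟨y, hy⟩ := h.f₁.one hu
  obtain ⟨z', hz'⟩ := h.f₂.one hw
  have h3 := hs y z'
  have h30 : τ (c • y) (b z') = τ y z' := by rw [map_smul, LinearMap.smul_apply, ← map_smul, hb]
  rw [hc, h30, h.f₁.flip y u, h.f₂.flip z' w, hy, hz'] at h3
  have h4 := add_eq_left.mp h3
  have h5 : τ u w = 0 := by
    have : (-1 * 1 * (1 * 1) : F) ≠ 0 := by simp
    exact (smul_eq_zero.mp h4).resolve_left this
  exact hw (pure_eq_zero' h hu h5)

end abs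

variable {F : Type*} [Field F] {n₁ n₂ m : ℕ}

/-- the tensor structure -/
theorem te_of (e : (Fin m ⊕ Fin m) ≃ Fin n₁ × Fin n₂) (P : GL (Fin m ⊕ Fin m) F)
    {f₁ : (Fin n₁ → F) → (Fin n₁ → F) → F} {f₂ : (Fin n₂ → F) → (Fin n₂ → F) → F} (hf₁ : IsSymplecticForm f₁)
    (hf₂ : IsSymmetricForm f₂) (hT : IsTensorFormStructure id (sympForm m F) f₁ f₂ e P) :
    ∃ c : F, TE (c • bf hf₁.bilinear) (bf hf₂.bilinear) (spB m F) (tm e P) (-1) 1 := by
  obtain ⟨c, hc, hT⟩ := hT
  refine ⟨c, ⟨⟨?_, by ring, ?_⟩, ⟨?_, by ring, ?_⟩, ⟨?_, by ring, ?_⟩, tm_span e P, ?_⟩⟩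
  · intro x y
    rw [LinearMap.smul_apply, LinearMap.smul_apply, LinearMap.smul_apply, LinearMap.smul_apply, bf_apply, bf_apply, hf₁.skew,
      smul_eq_mul, smul_eq_mul]
    ring
  · intro x hx
    by_contra hx0
    obtain ⟨y, hy⟩ := (hf₁.nondegenerate x hx0).2
    have h1 := hx y
    rw [LinearMap.smul_apply, LinearMap.smul_apply, bf_apply, smul_eq_mul] at h1
    exact (mul_ne_zero hc hy) h1
  · intro x y
    rw [bf_apply, bf_apply, hf₂.symm, one_mul]
  · intro x hx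
    by_contra hx0
    obtain ⟨y, hy⟩ := (hf₂.nondegenerate x hx0).2
    exact hy (hx y)
  · intro x y
    rw [mul_one]
    have h1 := spB_isAlt m F (x + y)
    rw [map_add, map_add, LinearMap.add_apply, LinearMap.add_apply, spB_isAlt m F x, spB_isAlt m F y] at h1
    linear_combination h1
  · exact fun x hx => spB_nondeg m F x hx
  · intro u w u' w'
    rw [tm_apply, tm_apply, spB_apply, hT, H96.StBr.fog_pv, fog_gram hf₁.bilinear, fog_gram hf₂.bilinear, LinearMap.smul_apply,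
      LinearMap.smul_apply, bf_apply, bf_apply, smul_eq_mul]
    ring

/-- membership in the stabiliser -/
theorem mem_tensor_iff {B₁ : LinearMap.BilinForm F (Fin n₁ → F)} {B₂ : LinearMap.BilinForm F (Fin n₂ → F)}
    {B : LinearMap.BilinForm F ((Fin m ⊕ Fin m) → F)} {s₁ s₂ : F}
    (e : (Fin m ⊕ Fin m) ≃ Fin n₁ × Fin n₂) (P : GL (Fin m ⊕ Fin m) F) (h : TE B₁ B₂ B (tm e P) s₁ s₂) (g : GL (Fin m ⊕ Fin m) F) :
    g ∈ tensorProductSubgroup n₁ n₂ e P ↔ Kr (tm e P) (toEq (Fin m ⊕ Fin m) F g) := by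
  rw [H97.AschTensor.mem_tensorProductSubgroup_iff]
  constructor
  · rintro ⟨a, b, hab⟩
    refine ⟨toEq _ F a, toEq _ F b, fun u f => ?_⟩
    rw [toEq_apply, tm_apply, hab, cr_mulVec, kron_pv, tm_apply, toEq_apply, toEq_apply]
  · rintro ⟨a, b, hab⟩
    refine ⟨(toEq _ F).symm a, (toEq _ F).symm b, ?_⟩
    apply Matrix.toLin'.injective
    apply h.ext
    intro u w
    have h1 := hab u w
    rw [toEq_apply] at h1
    rw [Matrix.toLin'_apply, Matrix.toLin'_apply, h1, tm_apply e P u w, cr_mulVec, kron_pv, tm_apply, toEq_symm_mulVec,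
      toEq_symm_mulVec]

theorem two_ne [Fintype F] (hodd : Odd (Fintype.card F)) : (2 : F) ≠ 0 := by
  intro h0
  obtain ⟨p, hp⟩ := CharP.exists F
  have hp2 : p ∣ 2 := (CharP.cast_eq_zero_iff F p 2).mp (by exact_mod_cast h0)
  have hpp : p.Prime := (CharP.char_is_prime_or_zero F p).resolve_right (by
    rintro rfl
    have := CharP.charP_to_charZero F
    exact not_finite F)
  obtain ⟨n, -, hn⟩ := FiniteField.card F p
  have hpe : p = 2 := (Nat.prime_dvd_prime_iff_eq hpp Nat.prime_two).mp hp2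
  rw [hn, hpe] at hodd
  have : Even ((2 : ℕ) ^ (n : ℕ)) := (Nat.even_pow.mpr ⟨even_two, n.ne_zero⟩)
  exact (Nat.not_even_iff_odd.mpr hodd) this

theorem exists_sq_ne [Fintype F] (hodd : Odd (Fintype.card F)) (h3 : Fintype.card F ≠ 3) : ∃ t : F, t ≠ 0 ∧ t * t ≠ 1 := by
  classical
  by_contra hcon
  push Not at hcon
  have h1 : (Finset.univ : Finset F) ⊆ {0, 1, -1} := by
    intro x _
    rw [Finset.mem_insert, Finset.mem_insert, Finset.mem_singleton]
    by_cases hx : x = 0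
    · exact Or.inl hx
    · right
      exact mul_self_eq_one_iff.mp (hcon x hx)
  have h2 := Finset.card_le_card h1
  have h4 : ({0, 1, -1} : Finset F).card ≤ 3 := Finset.card_le_three
  rw [Finset.card_univ] at h2
  obtain ⟨k, hk⟩ := hodd
  have h5 : 2 ≤ Fintype.card F := Fintype.one_lt_card
  omega

/-- the dichotomy in matrix form, given the dichotomy for linear groups -/
theorem maximal_of [Fintype F] (hodd : Odd (Fintype.card F)) (hn₂ : 2 ≤ n₂) (hn₁ : 1 ≤ n₁)
    (e : (Fin m ⊕ Fin m) ≃ Fin n₁ × Fin n₂) (P : GL (Fin m ⊕ Fin m) F)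
    (f₁ : (Fin n₁ → F) → (Fin n₁ → F) → F) (f₂ : (Fin n₂ → F) → (Fin n₂ → F) → F)
    (hf₁ : IsSymplecticForm f₁) (hf₂ : IsSymmetricForm f₂) (hT : IsTensorFormStructure id (sympForm m F) f₁ f₂ e P)
    (hmain : ∀ (B₁ : LinearMap.BilinForm F (Fin n₁ → F)) (B₂ : LinearMap.BilinForm F (Fin n₂ → F)),
      TE B₁ B₂ (spB m F) (tm e P) (-1) 1 → ∀ X : Subgroup ((Fin m ⊕ Fin m → F) ≃ₗ[F] (Fin m ⊕ Fin m → F)), HX (spB m F) (tm e P) X →
      isom (spB m F) ≤ X ∨ X ≤ KrG (tm e P)) :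
    IsMaximalIn (spGL m F) (tensorProductSubgroup n₁ n₂ e P ⊓ spGL m F) := by
  obtain ⟨c, h⟩ := te_of e P hf₁ hf₂ hT
  have h2 := two_ne hodd
  have hfd : finrank F (Fin n₁ → F) = n₁ := by rw [finrank_fintype_fun_eq_card, Fintype.card_fin]
  have hfm : finrank F (Fin n₂ → F) = n₂ := by rw [finrank_fintype_fun_eq_card, Fintype.card_fin]
  have hiso : ∀ g : GL (Fin m ⊕ Fin m) F, g ∈ spGL m F ↔ toEq _ F g ∈ isom (spB m F) := fun g => mem_spGL
  apply isMaximalIn_of
  · obtain ⟨g, hg, hg'⟩ := proper h h2 (by omega) (by omega)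
    refine ⟨(toEq _ F).symm g, ?_, ?_⟩
    · rw [hiso, MulEquiv.apply_symm_apply]; exact hg
    · rw [mem_tensor_iff e P h, MulEquiv.apply_symm_apply]; exact hg'
  · rintro M hM1 hM2 ⟨g, hg, hg'⟩
    have hX : HX (spB m F) (tm e P) (M.map (toEq (Fin m ⊕ Fin m) F).toMonoidHom) := by
      constructor
      · rintro _ ⟨x, hx, rfl⟩
        exact (hiso x).mp (hM2 hx)
      · intro x hx1 hx2
        rw [mem_map_toEq]
        apply hM1
        refine ⟨?_, ?_⟩
        · change _ ∈ tensorProductSubgroup n₁ n₂ e P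
          rw [mem_tensor_iff e P h, MulEquiv.apply_symm_apply]; exact hx1
        · change _ ∈ spGL m F
          rw [hiso, MulEquiv.apply_symm_apply]; exact hx2
    rcases hmain _ _ h _ hX with h1 | h1
    · intro x hx
      have h3 := h1 ((hiso x).mp hx)
      rw [mem_map_toEq, MulEquiv.symm_apply_apply] at h3
      exact h3
    · exfalso
      apply hg'
      rw [mem_tensor_iff e P h]
      exact h1 ⟨g, hg, rfl⟩

/-- maximality -/
theorem tensor_maximal [Fintype F] (hodd : Odd (Fintype.card F)) (hn₂ : 3 ≤ n₂) (hex : ¬ (Fintype.card F = 3 ∧ n₂ = 3))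
    (hcase : (4 ≤ n₁ ∧ n₂ ≤ 2 * n₁) ∨ (2 * n₁ < n₂ ∧ 2 ≤ n₁)) (e : (Fin m ⊕ Fin m) ≃ Fin n₁ × Fin n₂)
    (P : GL (Fin m ⊕ Fin m) F) (f₁ : (Fin n₁ → F) → (Fin n₁ → F) → F) (f₂ : (Fin n₂ → F) → (Fin n₂ → F) → F)
    (hf₁ : IsSymplecticForm f₁) (hf₂ : IsSymmetricForm f₂) (hT : IsTensorFormStructure id (sympForm m F) f₁ f₂ e P) :
    IsMaximalIn (spGL m F) (tensorProductSubgroup n₁ n₂ e P ⊓ spGL m F) := by
  have hfd : finrank F (Fin n₁ → F) = n₁ := by rw [finrank_fintype_fun_eq_card, Fintype.card_fin]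
  have hfm : finrank F (Fin n₂ → F) = n₂ := by rw [finrank_fintype_fun_eq_card, Fintype.card_fin]
  refine maximal_of hodd (by omega) (by omega) e P f₁ f₂ hf₁ hf₂ hT fun B₁ B₂ h X hX => ?_
  refine main h (two_ne hodd) hX (by omega) ?_ (by rw [hfd, hfm]; exact hcase)
  by_cases h3 : Fintype.card F = 3
  · left
    have : n₂ ≠ 3 := fun h => hex ⟨h3, h⟩
    omega
  · exact Or.inr (exists_sq_ne hodd h3)

end H96.TeBr
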