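import Mathlib
import Cfsg.Agent.Lib.H96.TeM

set_option autoImplicit false
set_option linter.unusedSectionVars false
set_option linter.unusedVariables false
set_option linter.unusedSimpArgs false

/-!
Overgroups of the tensor product of a two-dimensional symplectic and an orthogonal group.
-/

namespace H96.TeSm

open Module H95.SpBasic H96.TeBase H96.TeNorm H96.TeC H96.TeE H96.TeF H96.TeG H96.TeA H96.TeT H96.TeR H96.TeS H96.TeQ H96.TeZ
open H96.StBase (In)

variable {F U W V : Type*} [Field F] [AddCommGroup U] [Module F U] [AddCommGroup W] [Module F W] [AddCommGroup V]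
  [Module F V] [FiniteDimensional F U] [FiniteDimensional F W]
variable {B₁ : LinearMap.BilinForm F U} {B₂ : LinearMap.BilinForm F W} {B : LinearMap.BilinForm F V}
  {τ : U →ₗ[F] W →ₗ[F] V} {X : Subgroup (V ≃ₗ[F] V)} {h : TE B₁ B₂ B τ (-1) 1}

/-- transitivity on the vectors of `U` -/
lemma trans_U' (h : TE B₁ B₂ B τ (-1) 1) (h2 : (2 : F) ≠ 0) (hX : HX B τ X) {u u' : U} (hu : u ≠ 0) (hu' : u' ≠ 0) :
    ∃ g ∈ X, Kr τ g ∧ ∀ w, g (τ u w) = τ u' w := by
  have step : ∀ u u' : U, B₁ u u' ≠ 0 → ∃ g ∈ X, Kr τ g ∧ ∀ w, g (τ u w) = τ u' w := by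
    intro u u' huu
    obtain ⟨T, hT, hT1, -, -⟩ := exists_tr h h2 hX (u' - u) (B₁ u u')⁻¹
    have hA : B₁.IsAlt := fun x => alt_of h.f₁ h2 x
    refine ⟨T, hT, ⟨tr B₁ hA (u' - u) (B₁ u u')⁻¹, 1, fun x w => ?_⟩, fun w => ?_⟩
    · rw [hT1, tr_apply]; rfl
    rw [hT1, map_sub, alt_of h.f₁ h2 u, sub_zero, inv_mul_cancel₀ huu, one_smul, add_sub_cancel]
  obtain ⟨z₁, h1⟩ := h.f₁.one hu
  obtain ⟨z₂, h3⟩ := h.f₁.one hu'
  obtain ⟨z, hz1, hz2⟩ := exists_both_ne (f := (B₁ u)) (g := (B₁ u')) ⟨z₁, by rw [h1]; exact one_ne_zero⟩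
    ⟨z₂, by rw [h3]; exact one_ne_zero⟩
  obtain ⟨g, hg, hgk, hgg⟩ := step u z hz1
  obtain ⟨g', hg', hgk', hgg'⟩ := step z u' (by rw [h.f₁.flip]; exact mul_ne_zero (neg_ne_zero.mpr one_ne_zero) hz2)
  exact ⟨g' * g, X.mul_mem hg' hg, (KrG τ).mul_mem hgk' hgk, fun w => by rw [LinearEquiv.mul_apply, hgg, hgg']⟩

lemma perp_self (hB : EF B₁ (-1)) (h2 : (2 : F) ≠ 0) (hd : finrank F U = 2) {u z : U} (hu : u ≠ 0) (hz : B₁ u z = 0) :
    ∃ c : F, z = c • u := by
  by_contra hcon
  push Not at hcon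
  have hz' : z ∉ Submodule.span F {u} := fun h0 => by
    obtain ⟨c, hc⟩ := Submodule.mem_span_singleton.mp h0
    exact hcon c hc.symm
  have h1 : Submodule.span F {u, z} = ⊤ := by
    apply Submodule.eq_top_of_finrank_eq
    have hli : LinearIndependent F ![u, z] := by
      rw [LinearIndependent.pair_iff]
      intro s t hst
      have ht : t = 0 := by
        by_contra ht
        apply hz'
        rw [Submodule.mem_span_singleton]
        refine ⟨-(t⁻¹ * s), ?_⟩
        have : t • z = -(s • u) := by rw [← sub_eq_zero]; rw [← hst]; module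
        calc -(t⁻¹ * s) • u = t⁻¹ • (-(s • u)) := by module
          _ = z := by rw [← this, smul_smul, inv_mul_cancel₀ ht, one_smul]
      refine ⟨?_, ht⟩
      rw [ht, zero_smul, add_zero] at hst
      exact (smul_eq_zero.mp hst).resolve_right hu
    have h3 := finrank_span_eq_card hli
    rw [Matrix.range_cons_cons_empty, Fintype.card_fin] at h3
    rw [h3, hd]
  apply hu
  apply hB.nd
  intro y
  have hy : y ∈ Submodule.span F {u, z} := by rw [h1]; trivial
  obtain ⟨a, b, rfl⟩ := Submodule.mem_span_pair.mp hy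
  rw [map_add, map_smul, map_smul, hz, alt_of hB h2]
  simp

/-- norm E in dimension two -/
theorem normE2 [Finite F] (H : Hy h X) (hd : finrank F U = 2) {u u' : U} (hu : u ≠ 0) (hu' : u' ≠ 0) {x : V ≃ₗ[F] V}
    (hx : x ∈ X) {β : Module.End F W} (hβ : ∀ w, x (τ u w) = τ u' (β w)) : Kr τ x := by
  have halt := fun x => alt_of h.f₁ H.two x
  obtain ⟨g, hg, hgk, hgg⟩ := trans_U' h H.two H.hX hu' hu
  -- reduce to u' = u
  suffices hs : Kr τ (g * x) by
    have h1 := (KrG τ).mul_mem ((KrG τ).inv_mem hgk) hs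
    rwa [inv_mul_cancel_left] at h1
  obtain ⟨x', hx'⟩ : ∃ x', x' = g * x := ⟨_, rfl⟩
  have hxX : x' ∈ X := by rw [hx']; exact X.mul_mem hg hx
  have hβ' : ∀ w, x' (τ u w) = τ u (β w) := by
    intro w
    rw [hx', LinearEquiv.mul_apply, hβ, hgg]
  rw [← hx']
  clear hx' hβ hx
  obtain ⟨f, huf, hfu, -⟩ := h.f₁.partner H.two hu (halt u)
  have hxx : ∀ v, x' (x'⁻¹ v) = v := fun v => x'.apply_symm_apply v
  have hxx' : ∀ v, x'⁻¹ (x' v) = v := fun v => x'.symm_apply_apply v
  obtain ⟨T, hT, hT1, -, hTv⟩ := exists_tr h H.two H.hX u 1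
  have hadj : ∀ v, kap h.symm u (x'⁻¹ v) = h.f₂.adj β (kap h.symm u v) := by
    intro v
    refine h.f₂.ext fun w => ?_
    rw [kap_left, h.f₂.adj_left, LinearMap.flip_apply, inv_form (H.hX.le hxX), hβ', kap_left, LinearMap.flip_apply]
  have hIn : In X (K h.symm (β ∘ₗ h.f₂.adj β) u u) := by
    refine ⟨x' * T * x'⁻¹, X.mul_mem (X.mul_mem hxX hT) (X.inv_mem hxX), fun v => ?_⟩
    rw [LinearEquiv.mul_apply, LinearEquiv.mul_apply, hTv, one_smul, map_add, hxx, hadj, hβ', K_flip h]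
    rfl
  obtain ⟨l, hl⟩ := z_scalar H hu hIn
  have hl' : ∀ w, β (h.f₂.adj β w) = l • w := hl
  have hβinj : Function.Injective β := by
    rw [injective_iff_map_eq_zero]
    intro w hw
    have h1 := hβ' w
    rw [hw, map_zero] at h1
    exact pure_eq_zero' h hu ((map_eq_zero_iff x' x'.injective).mp h1)
  obtain ⟨γ, hγ1, hγ2⟩ := exists_inv hβinj
  have hl2 : ∀ w, h.f₂.adj β (β w) = l • w := by
    intro w
    apply hβinj
    rw [hl', map_smul]
  have hsim : ∀ w w', B₂ (β w) (β w') = l * B₂ w w' := by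
    intro w w'
    rw [← h.f₂.adj_left, h.f₂.adj_left, ← h.f₂.adj_right, hl2, map_smul, smul_eq_mul]
  obtain ⟨w₀, hw₀⟩ : ∃ w : W, w ≠ 0 := by
    have := H.m3
    obtain ⟨w, hw⟩ := (finrank_pos_iff_exists_ne_zero (R := F) (M := W)).mp (by omega)
    exact ⟨w, hw⟩
  have hl0 : l ≠ 0 := by
    rintro rfl
    obtain ⟨z, hz⟩ := h.f₂.one hw₀
    have h1 := hsim (γ w₀) (γ z)
    rw [hγ1, hγ1, hz, zero_mul] at h1
    exact one_ne_zero h1
  -- the element of the tensor product group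
  let a : Module.End F U := 1 + ((l⁻¹ - 1) • LinearMap.flip B₁ u).smulRight (-f)
  have ha : ∀ x, a x = x + ((l⁻¹ - 1) * B₁ x u) • (-f) := fun x => rfl
  let a' : Module.End F U := 1 + ((l - 1) • LinearMap.flip B₁ u).smulRight (-f)
  have ha' : ∀ x, a' x = x + ((l - 1) * B₁ x u) • (-f) := fun x => rfl
  have haa : ∀ x, a (a' x) = x := by
    intro x
    have e1 : B₁ (a' x) u = l * B₁ x u := by
      rw [ha', map_add, map_smul, map_neg, LinearMap.add_apply, LinearMap.smul_apply, LinearMap.neg_apply, hfu, smul_eq_mul]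
      ring
    have e2 : (l⁻¹ - 1) * (l * B₁ x u) = (1 - l) * B₁ x u := by
      field_simp
    rw [ha, e1, e2, ha']
    module
  have haa' : ∀ x, a' (a x) = x := by
    intro x
    have e1 : B₁ (a x) u = l⁻¹ * B₁ x u := by
      rw [ha, map_add, map_smul, map_neg, LinearMap.add_apply, LinearMap.smul_apply, LinearMap.neg_apply, hfu, smul_eq_mul]
      ring
    have e2 : (l - 1) * (l⁻¹ * B₁ x u) = (1 - l⁻¹) * B₁ x u := by
      field_simp
    rw [ha', e1, e2, ha]
    module
  -- the form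
  have hU2 : ∀ x y, B₁ x u * B₁ f y - B₁ y u * B₁ f x = - B₁ x y := by
    intro x y
    have e1 : ∀ x, ∃ c : F, x = c • u + (- B₁ x u) • f := by
      intro x
      obtain ⟨c, hc⟩ := perp_self h.f₁ H.two hd hu (z := x + B₁ x u • f) (by
        rw [map_add, map_smul, huf, h.f₁.flip u x]; simp)
      exact ⟨c, by rw [← hc]; module⟩
    obtain ⟨c, hc⟩ := e1 x
    obtain ⟨c', hc'⟩ := e1 y
    have e2 : B₁ f x = -c := by
      rw [hc, map_add, map_smul, map_smul, hfu, halt]; simp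
    have e3 : B₁ f y = -c' := by
      rw [hc', map_add, map_smul, map_smul, hfu, halt]; simp
    have e4 : B₁ x y = - (B₁ y u * c) + B₁ x u * c' := by
      conv_lhs => rw [hc, hc']
      simp only [map_add, map_smul, LinearMap.add_apply, LinearMap.smul_apply, smul_eq_mul, halt, huf, hfu]
      ring
    rw [e2, e3, e4]
    ring
  have hai : ∀ x y, B₁ (a x) (a y) = l⁻¹ * B₁ x y := by
    intro x y
    rw [ha, ha]
    simp only [map_add, map_smul, map_neg, LinearMap.add_apply, LinearMap.smul_apply, LinearMap.neg_apply, smul_eq_mul, halt]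
    rw [h.f₁.flip x f]
    linear_combination (-(l⁻¹ - 1)) * hU2 x y
  obtain ⟨k, hk, hkk⟩ := exists_mem h H.hX (LinearEquiv.ofLinearMap a a' (by ext x; exact haa x) (by ext x; exact haa' x))
    (LinearEquiv.ofLinearMap β γ (by ext x; exact hγ1 x) (by ext x; exact hγ2 x)) (fun x w x' w' => by
      change B₁ (a x) (a x') * B₂ (β w) (β w') = _
      rw [hai, hsim]
      field_simp)
  have hku : ∀ w, k (τ u w) = τ u (β w) := by
    intro w
    rw [hkk]
    change τ (a u) (β w) = _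
    rw [ha, halt, mul_zero, zero_smul, add_zero]
  obtain ⟨y, hy⟩ : ∃ y, y = k⁻¹ * x' := ⟨_, rfl⟩
  have hyX : y ∈ X := by rw [hy]; exact X.mul_mem (X.inv_mem hk) hxX
  have hyu : ∀ w, y (τ u w) = τ u w := by
    intro w
    rw [hy, LinearEquiv.mul_apply, hβ', ← hku]
    exact k.symm_apply_apply _
  have hykr : Kr τ.flip y := by
    refine rad_u H hu y hyX hyu fun v hv => ⟨0, ?_⟩
    rw [map_zero, LinearMap.zero_apply, add_zero]
    have h1 := mem_D h.symm (w := u) (z₀ := f) huf (v := v) (fun z hz => by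
      obtain ⟨c, rfl⟩ := perp_self h.f₁ H.two hd hu hz
      rw [map_smul, LinearMap.smul_apply, hv, smul_zero])
    rw [LinearMap.flip_apply] at h1
    rw [h1, hyu]
  have h1 : x' = k * y := by rw [hy]; group
  rw [h1]
  exact (KrG τ).mul_mem ⟨_, _, hkk⟩ hykr.symm'

/-- the normaliser of a space `u ⊗ W` -/
def NE (τ : U →ₗ[F] W →ₗ[F] V) (X : Subgroup (V ≃ₗ[F] V)) : Prop :=
  ∀ (u u' : U), u ≠ 0 → u' ≠ 0 → ∀ x ∈ X, ∀ β : Module.End F W, (∀ w, x (τ u w) = τ u' (β w)) → Kr τ x

/-- conjugates of transvections that are tensor products: the good case -/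
lemma claimB' (H : Hy h X) (hNE : NE τ X) {T g : V ≃ₗ[F] V} (hg : g ∈ X) {u : U} (hu : u ≠ 0) {c : F}
    (hc : c ≠ 0) (hTv : ∀ v, T v = v + c • τ u (kap h.symm u v)) {a : Module.End F U}
    (hk : ∀ x w, (g⁻¹ * T * g) (τ x w) = τ (a x) w) : Kr τ g := by
  have hgg : ∀ v, g (g⁻¹ v) = v := fun v => g.apply_symm_apply v
  have hgg' : ∀ v, g⁻¹ (g v) = v := fun v => g.symm_apply_apply v
  have hkv : ∀ v, (g⁻¹ * T * g) v = v + c • g⁻¹ (τ u (kap h.symm u (g v))) := by
    intro v
    rw [LinearEquiv.mul_apply, LinearEquiv.mul_apply, hTv, map_add, hgg', map_smul]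
  have h3 : ∀ x w, g (τ (a x - x) w) = τ u (c • kap h.symm u (g (τ x w))) := by
    intro x w
    have h4 := hk x w
    rw [hkv] at h4
    rw [map_sub, LinearMap.sub_apply, ← h4, add_sub_cancel_left, map_smul, hgg, map_smul]
  by_cases hne : ∃ x, a x - x ≠ 0
  · obtain ⟨x, hx⟩ := hne
    exact hNE _ _ hx hu g hg (c • (kap h.symm u ∘ₗ g.toLinearMap ∘ₗ τ x)) (fun w => h3 x w)
  · exfalso
    push Not at hne
    have hW : ∃ w : W, w ≠ 0 := by
      have := H.m3
      obtain ⟨w, hw⟩ := (finrank_pos_iff_exists_ne_zero (R := F) (M := W)).mp (by omega)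
      exact ⟨w, hw⟩
    have h8 : ∀ v, c • τ u (kap h.symm u (g v)) = 0 := by
      have : c • (τ u ∘ₗ kap h.symm u ∘ₗ g.toLinearMap) = 0 := by
        apply h.ext
        intro x w
        simp only [LinearMap.smul_apply, LinearMap.comp_apply, LinearEquiv.coe_coe, LinearMap.zero_apply]
        rw [← map_smul, ← h3, hne, map_zero, LinearMap.zero_apply, map_zero]
      intro v
      exact LinearMap.congr_fun this v
    obtain ⟨y, hy⟩ := h.f₁.one hu
    obtain ⟨w, hw⟩ := hW
    have h9 := h8 (g⁻¹ (τ y w))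
    rw [hgg, kap_pure' h] at h9
    have h12 := pure_eq_zero' h hu ((smul_eq_zero.mp h9).resolve_left hc)
    have hyu : B₁ y u = -1 := by rw [h.f₁.flip, hy, mul_one]
    rw [hyu, neg_one_smul, neg_eq_zero] at h12
    exact hw h12

/-- the transvections are good if the orthogonal space is small -/
lemma tu_good' (H : Hy h X) (hNE : NE τ X) (hdm : finrank F W < 2 * finrank F U) {p : ℕ} [CharP F p] {T : V ≃ₗ[F] V}
    (hT : T ∈ X) {u : U} (hu : u ≠ 0) {c : F} (hc : c ≠ 0) (hTv : ∀ v, T v = v + c • τ u (kap h.symm u v)) : GE τ X p T := by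
  have halt := fun x => alt_of h.f₁ H.two x
  have hsqT : ∀ v, T (T v) - (2 : F) • T v + v = 0 := by
    intro v
    rw [hTv (T v), hTv v, map_add, map_smul, kap_pure' h, halt]
    simp only [zero_smul, smul_zero, add_zero]
    module
  have hTk : Kr τ T := by
    have hA : B₁.IsAlt := halt
    refine ⟨tr B₁ hA u c, 1, fun x w => ?_⟩
    rw [hTv, kap_pure' h, tr_apply]
    simp only [map_add, map_smul, LinearMap.add_apply, LinearMap.smul_apply, smul_smul]
    rfl
  refine ⟨hT, hTk, ⟨1, ?_⟩, fun g hg hk => ?_⟩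
  · ext v
    rw [pow_one, tu_pow h H.two hTv, CharP.cast_eq_zero, zero_mul, zero_smul, add_zero]
    rfl
  · obtain ⟨a, b, hab⟩ := hk
    have hgg : ∀ v, g (g⁻¹ v) = v := fun v => g.apply_symm_apply v
    have hgg' : ∀ v, g⁻¹ (g v) = v := fun v => g.symm_apply_apply v
    have hsq : ∀ v, (g⁻¹ * T * g) ((g⁻¹ * T * g) v) - (2 : F) • (g⁻¹ * T * g) v + v = 0 := by
      intro v
      have h1 := congrArg (fun z => g⁻¹ z) (hsqT (g v))
      simp only [map_add, map_sub, map_smul, map_zero, hgg'] at h1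
      rw [LinearEquiv.mul_apply, LinearEquiv.mul_apply, LinearEquiv.mul_apply, LinearEquiv.mul_apply, hgg]
      exact h1
    rcases scalar_or h H.two hab hsq with ⟨c', hc'⟩ | ⟨c', hc'⟩
    · exfalso
      have hW : ∃ w : W, w ≠ 0 := by
        have := H.m3
        obtain ⟨w, hw⟩ := (finrank_pos_iff_exists_ne_zero (R := F) (M := W)).mp (by omega)
        exact ⟨w, hw⟩
      obtain ⟨β, -, -, hsk, him, hne⟩ := claimC h H.two H.hX H.hU hW hT hg hu hc hTv (b := c' • b.toLinearMap) fun x w => by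
        rw [hab, hc', map_smul, LinearMap.smul_apply, LinearMap.smul_apply, map_smul]
        rfl
      have := claimC_dim h hsk H.two him hne hu
      omega
    · refine claimB' H hNE hg hu hc hTv (a := c' • a.toLinearMap) fun x w => ?_
      rw [hab, hc', map_smul, LinearMap.smul_apply, map_smul, LinearMap.smul_apply]
      rfl

end H96.TeSm
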