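import Mathlib
import Cfsg.Agent.Lib.H96.TenMax4
import Cfsg.Agent.Lib.H97.AschSL

set_option autoImplicit false
set_option linter.unusedSectionVars false
set_option linter.unusedVariables false

/-!
Maximality of tensor product stabilisers in the special linear group.
-/

namespace H96.TenMax5

open Module Cfsg Cfsg.Geo Matrix H97.AschPosE H97.AschPosH H94.Transv H96.TenMax H96.TenMax2 H96.TenMax3 H96.TenMax4
open scoped Kronecker

variable {ι : Type} [Fintype ι] [DecidableEq ι] {F : Type*} [Field F]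

theorem iso_maximal {G G' : Type*} [Group G] [Group G'] (e : G ≃* G') {K H : Subgroup G} (h : IsMaximalIn K H) :
    IsMaximalIn (K.map e.toMonoidHom) (H.map e.toMonoidHom) := by
  have hinj : Function.Injective e.toMonoidHom := e.injective
  refine ⟨(Subgroup.map_lt_map_iff_of_injective hinj).2 h.1, fun M h1 h2 => ?_⟩
  have h3 : H ≤ M.comap e.toMonoidHom := Subgroup.map_le_iff_le_comap.1 h1
  have h4 : M.comap e.toMonoidHom ≤ K := by
    have h5 := Subgroup.comap_mono (f := e.toMonoidHom) h2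
    rwa [Subgroup.comap_map_eq_self_of_injective hinj] at h5
  have h5 : (M.comap e.toMonoidHom).map e.toMonoidHom = M := Subgroup.map_comap_eq_self_of_surjective e.surjective M
  rcases h.2 _ h3 h4 with h6 | h6
  · left; rw [← h6, h5]
  · right; rw [← h6, h5]

/-- the transport isomorphism -/
def tr {n₁ n₂ : ℕ} (e : ι ≃ Fin n₁ × Fin n₂) (P : GL ι F) : GL (Fin n₁ × Fin n₂) F ≃* GL ι F :=
  (glReindex e.symm).trans (MulAut.conj P)

lemma tr_val {n₁ n₂ : ℕ} (e : ι ≃ Fin n₁ × Fin n₂) (P : GL ι F) (g : GL (Fin n₁ × Fin n₂) F) :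
    (tr e P g : Matrix ι ι F) = H97.AschUnits.cr e P (g : Matrix (Fin n₁ × Fin n₂) (Fin n₁ × Fin n₂) F) := by
  rw [H97.AschUnits.cr_apply]
  rfl

lemma det_cr {n₁ n₂ : ℕ} (e : ι ≃ Fin n₁ × Fin n₂) (P : GL ι F) (X : Matrix (Fin n₁ × Fin n₂) (Fin n₁ × Fin n₂) F) :
    (H97.AschUnits.cr e P X).det = X.det := by
  rw [H97.AschUnits.cr_apply, Matrix.det_mul, Matrix.det_mul, Matrix.det_submatrix_equiv_self, mul_comm, ← mul_assoc,
    ← Matrix.det_mul, ← Units.val_mul, inv_mul_cancel, Units.val_one, Matrix.det_one, one_mul]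

lemma map_sl {n₁ n₂ : ℕ} (e : ι ≃ Fin n₁ × Fin n₂) (P : GL ι F) :
    (specialLinear (Fin n₁ × Fin n₂) F).map (tr e P).toMonoidHom = specialLinear ι F := by
  ext g
  constructor
  · rintro ⟨x, hx, rfl⟩
    have hx' := (mem_specialLinear_iff _).mp hx
    refine (mem_specialLinear_iff _).mpr ?_
    change (tr e P x : Matrix ι ι F).det = 1
    rw [tr_val, det_cr, hx']
  · intro hg
    have hg' := (mem_specialLinear_iff _).mp hg
    refine ⟨(tr e P).symm g, ?_, (tr e P).apply_symm_apply g⟩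
    refine (mem_specialLinear_iff _).mpr ?_
    rw [← det_cr e P, ← tr_val, MulEquiv.apply_symm_apply, hg']

lemma map_kron {n₁ n₂ : ℕ} (e : ι ≃ Fin n₁ × Fin n₂) (P : GL ι F) :
    (kroneckerSubgroup n₁ n₂ F).map (tr e P).toMonoidHom = tensorProductSubgroup n₁ n₂ e P := by
  rw [tensorProductSubgroup, Subgroup.map_map]
  rfl

theorem kron_maximal [Fintype F] {d m : ℕ} (hd : 2 ≤ d) (hdm : d < m) (hex : ¬ (d = 2 ∧ Fintype.card F = 2)) :
    IsMaximalIn (specialLinear (Fin d × Fin m) F) (kroneckerSubgroup d m F ⊓ specialLinear (Fin d × Fin m) F) := by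
  have hnle : ¬ specialLinear (Fin d × Fin m) F ≤ kroneckerSubgroup d m F := by
    intro h
    have h1 := H97.AschSL.not_le_tensor (ι := Fin d × Fin m) (F := F) (n₁ := d) (n₂ := m) (Equiv.refl _) 1 hd (by omega)
    apply h1
    intro g hg
    obtain ⟨a, b, hab⟩ := h hg
    refine (H97.AschTensor.mem_tensorProductSubgroup_iff _ _ g).mpr ⟨a, b, ?_⟩
    rw [hab, H97.AschUnits.cr_apply, inv_one, Units.val_one, mul_one, one_mul]
    rfl
  refine ⟨lt_of_le_of_ne inf_le_right (fun h => hnle ?_), fun M h1 h2 => ?_⟩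
  · rw [← h]; exact inf_le_left
  · rcases main hd hdm hex (X := M) h1 with h | h
    · right; exact le_antisymm h2 h
    · left; exact le_antisymm (le_inf h h2) h1

theorem tensor_maximal [Fintype F] {n₁ n₂ : ℕ} (h1 : 2 ≤ n₁) (h12 : n₁ < n₂) (hex : ¬ (n₁ = 2 ∧ Fintype.card F = 2))
    (e : ι ≃ Fin n₁ × Fin n₂) (P : GL ι F) :
    IsMaximalIn (specialLinear ι F) (tensorProductSubgroup n₁ n₂ e P ⊓ specialLinear ι F) := by
  have h := iso_maximal (tr e P) (kron_maximal (F := F) h1 h12 hex)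
  rw [map_sl, Subgroup.map_inf _ _ _ (tr e P).injective, map_kron, map_sl] at h
  exact h

end H96.TenMax5
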